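import Cfsg.Agent.Lib.H40.StemFinish
import Cfsg.Prelude.Def_SporCoxeter

/-!
# Stem extensions of presented groups
-/

set_option autoImplicit false

namespace H40.PGS

open Subgroup
open scoped commutatorElement

universe u v

section gen

variable {α : Type u} {rels : Set (FreeGroup α)} {Γ : Type v} [Group Γ] {σ : Γ →* PresentedGroup rels}

/-- if lifts of the generators satisfy the relators modulo a subgroup `B` of the kernel of a stem extension,
the kernel is contained in `B` -/
theorem ker_le (hσ : Cfsg.IsStemExtension σ) (B : Subgroup Γ) (hB : B ≤ σ.ker) (f : α → Γ)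
    (hf : ∀ x, σ (f x) = PresentedGroup.of x) (hr : ∀ r ∈ rels, FreeGroup.lift f r ∈ B) : σ.ker ≤ B := by
  have hBc : B ≤ center Γ := hB.trans hσ.2.1
  have hBn : B.Normal := by
    constructor
    intro b hb g
    have h1 : g * b = b * g := mem_center_iff.mp (hBc hb) g
    rw [h1, mul_assoc, mul_inv_cancel, mul_one]
    exact hb
  let q := QuotientGroup.mk' B
  have hlift : ∀ r : FreeGroup α, FreeGroup.lift (fun x => q (f x)) r = q (FreeGroup.lift f r) := by
    intro r
    have : FreeGroup.lift (fun x => q (f x)) = q.comp (FreeGroup.lift f) := by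
      ext x
      simp
    rw [this]; rfl
  have hrel : ∀ r ∈ rels, FreeGroup.lift (fun x => q (f x)) r = 1 := by
    intro r hr'
    rw [hlift]
    exact (QuotientGroup.eq_one_iff _).mpr (hr r hr')
  let τ : PresentedGroup rels →* Γ ⧸ B := PresentedGroup.toGroup hrel
  have hτ : ∀ x, τ (PresentedGroup.of x) = q (f x) := fun x => PresentedGroup.toGroup.of hrel
  let σ' : Γ ⧸ B →* PresentedGroup rels := QuotientGroup.lift B σ (fun b hb => hB hb)
  have hσ' : ∀ y, σ' (q y) = σ y := fun y => rfl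
  have hid : ∀ p, σ' (τ p) = p := by
    intro p
    have : σ'.comp τ = MonoidHom.id _ := by
      apply PresentedGroup.ext
      intro x
      rw [MonoidHom.comp_apply, hτ, hσ', hf]
      rfl
    exact DFunLike.congr_fun this p
  have hqc : ∀ y : Γ, ∃ z, σ z = 1 ∧ q y = τ (σ y) * q z := by
    intro y
    obtain ⟨w, hw⟩ := QuotientGroup.mk'_surjective B (τ (σ y))
    change q w = τ (σ y) at hw
    refine ⟨w⁻¹ * y, ?_, ?_⟩
    · have h1 : σ w = σ y := by rw [← hσ', hw, hid]
      rw [map_mul, map_inv, h1, inv_mul_cancel]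
    · rw [← hw, ← map_mul]; congr 1; group
  have hcomm : commutator Γ ≤ τ.range.comap q := by
    rw [_root_.commutator_def, commutator_le]
    intro x _ y _
    rw [mem_comap, map_commutatorElement]
    obtain ⟨a, ha, hxa⟩ := hqc x
    obtain ⟨b, hb, hyb⟩ := hqc y
    have hac : ∀ k, k * q a = q a * k := by
      intro k
      obtain ⟨k, rfl⟩ := QuotientGroup.mk'_surjective B k
      change q k * q a = q a * q k
      rw [← map_mul, ← map_mul, mem_center_iff.mp (hσ.2.1 ha) k]
    have hbc : ∀ k, k * q b = q b * k := by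
      intro k
      obtain ⟨k, rfl⟩ := QuotientGroup.mk'_surjective B k
      change q k * q b = q b * q k
      rw [← map_mul, ← map_mul, mem_center_iff.mp (hσ.2.1 hb) k]
    have : ⁅q x, q y⁆ = ⁅τ (σ x), τ (σ y)⁆ := by
      rw [hxa, hyb, commutatorElement_def, commutatorElement_def]
      have ha' := hac
      have hb' := hbc
      set A := q a
      set B' := q b
      set X := τ (σ x)
      set Y := τ (σ y)
      calc X * A * (Y * B') * (X * A)⁻¹ * (Y * B')⁻¹
          = X * (A * Y) * B' * A⁻¹ * X⁻¹ * B'⁻¹ * Y⁻¹ := by group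
        _ = X * (Y * A) * B' * A⁻¹ * X⁻¹ * B'⁻¹ * Y⁻¹ := by rw [← ha' Y]
        _ = X * Y * (A * B') * A⁻¹ * X⁻¹ * B'⁻¹ * Y⁻¹ := by group
        _ = X * Y * (B' * A) * A⁻¹ * X⁻¹ * B'⁻¹ * Y⁻¹ := by rw [← ha' B']
        _ = X * Y * (B' * X⁻¹) * B'⁻¹ * Y⁻¹ := by group
        _ = X * Y * (X⁻¹ * B') * B'⁻¹ * Y⁻¹ := by rw [← hb' X⁻¹]
        _ = _ := by group
    rw [this]
    exact ⟨⁅σ x, σ y⁆, map_commutatorElement τ _ _⟩
  intro z hz
  obtain ⟨p, hp⟩ := hcomm (hσ.2.2 hz)
  have h1 : σ z = 1 := hz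
  have h2 : p = 1 := by
    rw [← hid p, hp]
    change σ z = 1
    exact h1
  rw [h2, map_one] at hp
  exact (QuotientGroup.eq_one_iff z).mp hp.symm

end gen

section cox

open Cfsg.Spor

variable {α : Type} [DecidableEq α] {edges : List (α × ℕ × α)} {ex : List (FreeGroup α)} {Γ : Type v} [Group Γ]
  {σ : Γ →* CoxPresented α edges ex}

theorem cox_ker_le (hσ : Cfsg.IsStemExtension σ) (B : Subgroup Γ) (hB : B ≤ σ.ker) (f : α → Γ)
    (hf : ∀ x, σ (f x) = PresentedGroup.of x)
    (hpair : ∀ x ∈ coxNodes edges, ∀ y ∈ coxNodes edges, (f x * f y) ^ coxLabel edges x y ∈ B)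
    (hex : ∀ r ∈ ex, FreeGroup.lift f r ∈ B) : σ.ker ≤ B := by
  refine ker_le hσ B hB f hf ?_
  rintro r (⟨x, hx, y, hy, rfl⟩ | hr)
  · rw [map_pow, map_mul, FreeGroup.lift_apply_of, FreeGroup.lift_apply_of]
    exact hpair x hx y hy
  · exact hex r hr

end cox

end H40.PGS
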