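import Mathlib

/-!
Commutator calculus in central extensions.
-/

set_option autoImplicit false

namespace H40.Ext

open scoped commutatorElement

variable {G E : Type*} [Group G] [Group E]

/-- a central extension -/
structure CE (π : E →* G) : Prop where
  surj : Function.Surjective π
  cen : π.ker ≤ Subgroup.center E

/-- a chosen lift -/
noncomputable def lf {π : E →* G} (hπ : CE π) (g : G) : E := (hπ.surj g).choose

namespace CE

variable {π : E →* G} (hπ : CE π)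

theorem π_lf (g : G) : π (lf hπ g) = g := (hπ.surj g).choose_spec

include hπ in
theorem exists_central {a a' : E} (h : π a = π a') : ∃ z ∈ Subgroup.center E, a = a' * z := by
  refine ⟨a'⁻¹ * a, hπ.cen ?_, by simp⟩
  rw [MonoidHom.mem_ker, map_mul, map_inv, h, inv_mul_cancel]

omit hπ in
theorem comm_mul_central {a b z w : E} (hz : z ∈ Subgroup.center E) (hw : w ∈ Subgroup.center E) :
    ⁅a * z, b * w⁆ = ⁅a, b⁆ := by
  rw [Subgroup.mem_center_iff] at hz hw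
  rw [commutatorElement_def, commutatorElement_def]
  have h1 : a * z * (b * w) = a * b * (z * w) := by
    rw [mul_assoc, ← mul_assoc z b w, ← hz b]
    simp only [mul_assoc]
  have h2 : b * w * (a * z) = b * a * (z * w) := by
    rw [mul_assoc, ← mul_assoc w a z, ← hw a]
    simp only [mul_assoc]
    rw [← hz w]
  calc a * z * (b * w) * (a * z)⁻¹ * (b * w)⁻¹ = (a * z * (b * w)) * ((b * w) * (a * z))⁻¹ := by
        rw [mul_inv_rev (b * w) (a * z)]; simp only [mul_assoc]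
    _ = a * b * (b * a)⁻¹ := by rw [h1, h2, mul_inv_rev (b * a)]; simp [mul_assoc]
    _ = _ := by rw [mul_inv_rev]; simp only [mul_assoc]

include hπ in
theorem comm_congr {a a' b b' : E} (h : π a = π a') (h' : π b = π b') : ⁅a, b⁆ = ⁅a', b'⁆ := by
  obtain ⟨z, hz, rfl⟩ := hπ.exists_central h
  obtain ⟨w, hw, rfl⟩ := hπ.exists_central h'
  exact comm_mul_central hz hw

/-- the commutator pairing -/
noncomputable def z (a b : G) : E := ⁅lf hπ a, lf hπ b⁆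

theorem z_eq (e f : E) : ⁅e, f⁆ = hπ.z (π e) (π f) :=
  hπ.comm_congr (hπ.π_lf _).symm (hπ.π_lf _).symm

theorem z_of {e f : E} {a b : G} (h : π e = a) (h' : π f = b) : ⁅e, f⁆ = hπ.z a b := by
  subst h h'; exact hπ.z_eq e f

theorem π_z (a b : G) : π (hπ.z a b) = ⁅a, b⁆ := by
  unfold z; rw [map_commutatorElement, π_lf, π_lf]

theorem z_inv (a b : G) : (hπ.z a b)⁻¹ = hπ.z b a := commutatorElement_inv _ _

theorem z_conj (e : E) (a b : G) :
    e * hπ.z a b * e⁻¹ = hπ.z (π e * a * (π e)⁻¹) (π e * b * (π e)⁻¹) := by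
  unfold z
  have h1 : e * ⁅lf hπ a, lf hπ b⁆ * e⁻¹ = ⁅e * lf hπ a * e⁻¹, e * lf hπ b * e⁻¹⁆ := by
    rw [commutatorElement_def, commutatorElement_def]; simp [mul_assoc]
  rw [h1]
  exact hπ.z_of (by simp [π_lf]) (by simp [π_lf])

theorem z_mem_center {a b : G} (h : ⁅a, b⁆ = 1) : hπ.z a b ∈ Subgroup.center E :=
  hπ.cen (by rw [MonoidHom.mem_ker, π_z, h])

theorem z_mul_left {a a' b : G} (h : ⁅a', b⁆ = 1) : hπ.z (a * a') b = hπ.z a b * hπ.z a' b := by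
  have h1 := hπ.z_mem_center h
  rw [Subgroup.mem_center_iff] at h1
  have h2 : hπ.z (a * a') b = ⁅lf hπ a * lf hπ a', lf hπ b⁆ :=
    (hπ.z_of (by simp [π_lf]) (hπ.π_lf b)).symm
  have h3 : ⁅lf hπ a * lf hπ a', lf hπ b⁆ =
      lf hπ a * hπ.z a' b * (lf hπ a)⁻¹ * hπ.z a b := by
    unfold z
    rw [commutatorElement_def, commutatorElement_def, commutatorElement_def]; simp [mul_assoc]
  rw [h2, h3, h1, mul_assoc (hπ.z a' b), mul_inv_cancel, mul_one, ← h1]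

theorem z_mul_right {a b b' : G} (h : ⁅a, b'⁆ = 1) : hπ.z a (b * b') = hπ.z a b * hπ.z a b' := by
  have h1 : hπ.z (b * b') a = hπ.z b a * hπ.z b' a :=
    hπ.z_mul_left (by rw [← commutatorElement_inv, h, inv_one])
  have h2 := hπ.z_mem_center h
  rw [← hπ.z_inv (b * b') a, h1, mul_inv_rev, hπ.z_inv, hπ.z_inv]
  rw [Subgroup.mem_center_iff] at h2
  exact (h2 _).symm

/-- additivity in the left variable -/
theorem z_mul_left' {a a' b : G} (h : hπ.z a ⁅a', b⁆ = 1) :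
    hπ.z (a * a') b = hπ.z a' b * hπ.z a b := by
  have h2 : hπ.z (a * a') b = ⁅lf hπ a * lf hπ a', lf hπ b⁆ :=
    (hπ.z_of (by simp [π_lf]) (hπ.π_lf b)).symm
  have h3 : ⁅lf hπ a * lf hπ a', lf hπ b⁆ =
      lf hπ a * hπ.z a' b * (lf hπ a)⁻¹ * hπ.z a b := by
    unfold z
    rw [commutatorElement_def, commutatorElement_def, commutatorElement_def]; simp [mul_assoc]
  have h4 : ⁅lf hπ a, hπ.z a' b⁆ = 1 := by
    rw [hπ.z_of (hπ.π_lf a) (hπ.π_z a' b)]; exact h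
  rw [commutatorElement_eq_one_iff_mul_comm] at h4
  rw [h2, h3, h4]; simp [mul_assoc]

theorem z_one_left (b : G) : hπ.z 1 b = 1 := by
  rw [← hπ.z_of (e := (1 : E)) (f := lf hπ b) (map_one _) (hπ.π_lf b)]; simp

theorem z_one_right (a : G) : hπ.z a 1 = 1 := by
  rw [← hπ.z_of (e := lf hπ a) (f := (1 : E)) (hπ.π_lf a) (map_one _)]; simp

theorem z_self (a : G) : hπ.z a a = 1 := by
  unfold z; exact commutatorElement_self _

theorem commute_of_z {e f : E} (h : hπ.z (π e) (π f) = 1) : Commute e f := by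
  rw [← hπ.z_eq, commutatorElement_eq_one_iff_mul_comm] at h
  exact h

/-- commutators commute with elements commuting with both factors -/
theorem z_comm_right {a b c : G} (h : ⁅a, b⁆ = 1) (h' : ⁅a, c⁆ = 1) : hπ.z a ⁅b, c⁆ = 1 := by
  have h1 := hπ.z_mem_center h
  have h2 := hπ.z_mem_center h'
  have e1 : lf hπ a * lf hπ b * (lf hπ a)⁻¹ = lf hπ b * hπ.z a b := by
    rw [Subgroup.mem_center_iff] at h1
    rw [h1]; unfold z; rw [commutatorElement_def]; simp [mul_assoc]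
  have e2 : lf hπ a * lf hπ c * (lf hπ a)⁻¹ = lf hπ c * hπ.z a c := by
    rw [Subgroup.mem_center_iff] at h2
    rw [h2]; unfold z; rw [commutatorElement_def]; simp [mul_assoc]
  have e3 : hπ.z a ⁅b, c⁆ = ⁅lf hπ a, ⁅lf hπ b, lf hπ c⁆⁆ :=
    (hπ.z_of (hπ.π_lf a) (by rw [map_commutatorElement, π_lf, π_lf])).symm
  rw [e3]
  have e4 : ⁅lf hπ a, ⁅lf hπ b, lf hπ c⁆⁆ = ⁅lf hπ a * lf hπ b * (lf hπ a)⁻¹,
      lf hπ a * lf hπ c * (lf hπ a)⁻¹⁆ * (⁅lf hπ b, lf hπ c⁆)⁻¹ := by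
    rw [commutatorElement_def, commutatorElement_def, commutatorElement_def]; simp [mul_assoc]
  rw [e4, e1, e2, comm_mul_central h1 h2, mul_inv_cancel]

theorem z_comm_left {a b c : G} (h : ⁅a, b⁆ = 1) (h' : ⁅a, c⁆ = 1) : hπ.z ⁅b, c⁆ a = 1 := by
  rw [← z_inv, hπ.z_comm_right h h', inv_one]

/-- adjacency of decompositions -/
theorem z_adj {a b c : G} (h1 : hπ.z a c = 1) (h2 : hπ.z ⁅a, b⁆ ⁅b, c⁆ = 1)
    (h3 : hπ.z ⁅⁅a, b⁆, c⁆ ⁅b, c⁆ = 1) : hπ.z a ⁅b, c⁆ = hπ.z ⁅a, b⁆ c := by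
  set x := lf hπ a with hx
  set y := lf hπ b with hy
  set w := lf hπ c with hw
  have px : π x = a := hπ.π_lf a
  have py : π y = b := hπ.π_lf b
  have pw : π w = c := hπ.π_lf c
  have e1 : hπ.z a ⁅b, c⁆ = ⁅x, ⁅y, w⁆⁆ :=
    (hπ.z_of px (by rw [map_commutatorElement, py, pw])).symm
  have e2 : hπ.z ⁅a, b⁆ c = ⁅⁅x, y⁆, w⁆ :=
    (hπ.z_of (by rw [map_commutatorElement, px, py]) pw).symm
  have c1 : Commute x w := hπ.commute_of_z (by rw [px, pw]; exact h1)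
  have c2 : Commute ⁅x, y⁆ ⁅y, w⁆ := hπ.commute_of_z (by
    rw [map_commutatorElement, map_commutatorElement, px, py, pw]; exact h2)
  have c3 : Commute ⁅⁅x, y⁆, w⁆ ⁅y, w⁆ := hπ.commute_of_z (by
    rw [map_commutatorElement, map_commutatorElement, map_commutatorElement, px, py, pw]
    exact h3)
  have k1 : x * w * x⁻¹ = w := by rw [c1.eq]; simp
  have k1' : x * w⁻¹ * x⁻¹ = w⁻¹ := by
    have : x * w⁻¹ * x⁻¹ = (x * w * x⁻¹)⁻¹ := by simp [mul_assoc]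
    rw [this, k1]
  rw [e1, e2]
  calc ⁅x, ⁅y, w⁆⁆ = x * ⁅y, w⁆ * x⁻¹ * ⁅y, w⁆⁻¹ := commutatorElement_def _ _
    _ = (x * y * x⁻¹) * (x * w * x⁻¹) * (x * y⁻¹ * x⁻¹) * (x * w⁻¹ * x⁻¹) * ⁅y, w⁆⁻¹ := by
        rw [commutatorElement_def]; simp [mul_assoc]
    _ = (x * y * x⁻¹) * w * (x * y⁻¹ * x⁻¹) * w⁻¹ * ⁅y, w⁆⁻¹ := by rw [k1, k1']
    _ = ⁅x, y⁆ * ⁅y, w⁆ * ⁅x, y⁆⁻¹ * ⁅⁅x, y⁆, w⁆ * ⁅y, w⁆⁻¹ := by
        simp only [commutatorElement_def]; simp [mul_assoc]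
    _ = ⁅y, w⁆ * ⁅⁅x, y⁆, w⁆ * ⁅y, w⁆⁻¹ := by rw [c2.eq, mul_inv_cancel_right]
    _ = ⁅⁅x, y⁆, w⁆ := by rw [← c3.eq, mul_inv_cancel_right]

end CE

end H40.Ext
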