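import Mathlib
import Cfsg.Agent.Lib.H50.OrthPoint
import Cfsg.Agent.Lib.H40.Ext1

/-!
Siegel elements `sg u y` of an orthogonal group `Ω`, their commutator calculus.
-/
set_option autoImplicit false

namespace H40.Sieg

open H7.Hyp QuadraticMap H17.OrthSiegel H50.OrthE
open scoped commutatorElement

variable {F : Type*} [Field F] {V : Type*} [AddCommGroup V] [Module F V] {Q : QuadraticForm F V}
  {Ω : Subgroup (V ≃ₗ[F] V)} (S : Su Q Ω)

/-- the Siegel element -/
noncomputable def sg (z w : V) : Ω :=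
  open Classical in
  if h : Q z = 0 ∧ polar Q z w = 0 then ⟨sie Q z w h.1 h.2, S.mem z w h.1 h.2⟩ else 1

theorem sg_eq {z w : V} (hz : Q z = 0) (hw : polar Q z w = 0) :
    sg S z w = ⟨sie Q z w hz hw, S.mem z w hz hw⟩ := by
  rw [sg, dif_pos ⟨hz, hw⟩]

theorem sg_apply {z w : V} (hz : Q z = 0) (hw : polar Q z w = 0) (x : V) :
    (sg S z w : V ≃ₗ[F] V) x = sieLin Q z w x := by
  rw [sg_eq S hz hw]; rfl

theorem om_ext {g h : Ω} (H : ∀ x, (g : V ≃ₗ[F] V) x = (h : V ≃ₗ[F] V) x) : g = h :=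
  Subtype.ext (LinearEquiv.ext H)

theorem om_mul_apply (g h : Ω) (x : V) : ((g * h : Ω) : V ≃ₗ[F] V) x = (g : V ≃ₗ[F] V) ((h : V ≃ₗ[F] V) x) := rfl

theorem om_one_apply (x : V) : ((1 : Ω) : V ≃ₗ[F] V) x = x := rfl

theorem om_inv_apply (g : Ω) (x : V) : ((g⁻¹ : Ω) : V ≃ₗ[F] V) ((g : V ≃ₗ[F] V) x) = x := by
  rw [← om_mul_apply, inv_mul_cancel]; rfl

theorem om_apply_inv (g : Ω) (x : V) : (g : V ≃ₗ[F] V) (((g⁻¹ : Ω) : V ≃ₗ[F] V) x) = x := by
  rw [← om_mul_apply, mul_inv_cancel]; rfl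

include S in
theorem om_Q (g : Ω) (x : V) : Q ((g : V ≃ₗ[F] V) x) = Q x := S.le g.2 x

include S in
theorem om_polar (g : Ω) (x y : V) : polar Q ((g : V ≃ₗ[F] V) x) ((g : V ≃ₗ[F] V) y) = polar Q x y :=
  map_O_polar (S.le g.2) x y

theorem sg_mul {z w w' : V} (hz : Q z = 0) (hw : polar Q z w = 0) (hw' : polar Q z w' = 0) :
    sg S z w * sg S z w' = sg S z (w + w') := by
  have hww : polar Q z (w + w') = 0 := by rw [QuadraticMap.polar_add_right, hw, hw', add_zero]
  apply om_ext
  intro x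
  rw [om_mul_apply, sg_apply S hz hw, sg_apply S hz hw', sg_apply S hz hww, sieLin_comp Q z w w' hz hw hw' x]

theorem sg_zero_right {z : V} (hz : Q z = 0) : sg S z 0 = 1 := by
  apply om_ext
  intro x
  rw [sg_apply S hz (QuadraticMap.polar_zero_right _ _), sieLin_zero]; rfl

theorem sg_zero_left (w : V) : sg S 0 w = 1 := by
  apply om_ext
  intro x
  rw [sg_apply S (by simp) (QuadraticMap.polar_zero_left _ _), sl_apply]
  simp

theorem sg_self {z : V} (hz : Q z = 0) (a : F) : sg S z (a • z) = 1 := by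
  apply om_ext
  intro x
  rw [sg_apply S hz (by rw [QuadraticMap.polar_smul_right, polar_self_zero hz, smul_zero]), sl_self_right z x hz a]; rfl

theorem sg_inv {z w : V} (hz : Q z = 0) (hw : polar Q z w = 0) : (sg S z w)⁻¹ = sg S z (-w) := by
  rw [inv_eq_iff_mul_eq_one, sg_mul S hz hw (by rw [QuadraticMap.polar_neg_right, hw, neg_zero]), add_neg_cancel,
    sg_zero_right S hz]

theorem sg_smul_left {z w : V} (hz : Q z = 0) (hw : polar Q z w = 0) (a : F) :
    sg S (a • z) w = sg S z (a • w) := by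
  apply om_ext
  intro x
  rw [sg_apply S (by rw [Q_smul, hz, mul_zero]) (by rw [QuadraticMap.polar_smul_left, hw, smul_zero]),
    sg_apply S hz (by rw [QuadraticMap.polar_smul_right, hw, smul_zero])]
  exact sl_smul_left z w x a

theorem sg_swap {z w : V} (hz : Q z = 0) (hw : Q w = 0) (h : polar Q z w = 0) : sg S w z = sg S z (-w) := by
  apply om_ext
  intro x
  rw [sg_apply S hw (by rw [polar_symm, h]), sg_apply S hz (by rw [QuadraticMap.polar_neg_right, h, neg_zero])]
  exact sl_swap hz hw x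

/-- third Siegel relation -/
theorem sg_add_left {z z' w : V} (hz : Q z = 0) (hz' : Q z' = 0) (h1 : polar Q z w = 0)
    (h2 : polar Q z' w = 0) (h3 : polar Q z z' = 0) :
    sg S (z + z') w = sg S z w * sg S z' w * sg S z (-(Q w) • z') := by
  have h3' : polar Q z (-(Q w) • z') = 0 := by rw [QuadraticMap.polar_smul_right, h3, smul_zero]
  apply om_ext
  intro x
  rw [sg_apply S (by rw [Q_add, hz, hz', h3]; simp) (by rw [QuadraticMap.polar_add_left, h1, h2, add_zero]),
    om_mul_apply, om_mul_apply, sg_apply S hz h3', sg_apply S hz' h2, sg_apply S hz h1]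
  have hww : polar Q w w = 2 * Q w := by rw [QuadraticMap.polar_self]; simp
  simp only [sl_apply, QuadraticMap.polar_add_left, QuadraticMap.polar_add_right, QuadraticMap.polar_sub_right,
    QuadraticMap.polar_smul_right, QuadraticMap.polar_smul_left, h1, h2, h3, polar_symm w z', polar_symm w z,
    polar_symm z' z, polar_self_zero hz, polar_self_zero hz', smul_eq_mul, QuadraticMap.map_smul, hz', hww]
  module

theorem conj_sg (g : Ω) {z w : V} (hz : Q z = 0) (hw : polar Q z w = 0) :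
    g * sg S z w * g⁻¹ = sg S ((g : V ≃ₗ[F] V) z) ((g : V ≃ₗ[F] V) w) := by
  have hz' : Q ((g : V ≃ₗ[F] V) z) = 0 := by rw [om_Q S, hz]
  have hw' : polar Q ((g : V ≃ₗ[F] V) z) ((g : V ≃ₗ[F] V) w) = 0 := by rw [om_polar S, hw]
  apply om_ext
  intro x
  rw [om_mul_apply, om_mul_apply, sg_apply S hz hw, sg_apply S hz' hw', sl_apply, sl_apply]
  have e1 : polar Q ((g : V ≃ₗ[F] V) z) x = polar Q z (((g⁻¹ : Ω) : V ≃ₗ[F] V) x) := by
    rw [← om_polar S g z, om_apply_inv]
  have e2 : polar Q ((g : V ≃ₗ[F] V) w) x = polar Q w (((g⁻¹ : Ω) : V ≃ₗ[F] V) x) := by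
    rw [← om_polar S g w, om_apply_inv]
  rw [e1, e2, om_Q S]
  simp only [map_sub, map_add, map_smul, om_apply_inv]

/-- the basic commutator formula -/
theorem comm_sg {u v a b : V} (hu : Q u = 0) (hv : Q v = 0) (huv : polar Q u v = 0) (ha : polar Q u a = 0)
    (hb : polar Q v b = 0) (hva : polar Q v a = 0) (hub : polar Q u b = 0) :
    ⁅sg S u a, sg S v b⁆ = sg S u (polar Q a b • v) := by
  have h0 : polar Q u (polar Q a b • v) = 0 := by rw [QuadraticMap.polar_smul_right, huv, smul_zero]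
  rw [commutatorElement_def, mul_assoc, mul_assoc, ← mul_assoc (sg S v b), ← mul_assoc (sg S u a)]
  rw [show sg S u a * (sg S v b * (sg S u a)⁻¹) * (sg S v b)⁻¹ = (sg S u a * sg S v b * (sg S u a)⁻¹) * (sg S v b)⁻¹ by group]
  rw [conj_sg S _ hv hb, sg_apply S hu ha, sg_apply S hu ha]
  have e1 : sieLin Q u a v = v := by
    rw [sl_apply, huv, polar_symm a v, hva]; module
  have e2 : sieLin Q u a b = b - polar Q a b • u := by
    rw [sl_apply, hub]; module
  have h1 : polar Q v (-b) = 0 := by rw [QuadraticMap.polar_neg_right, hb, neg_zero]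
  have h2 : polar Q v (b - polar Q a b • u) = 0 := by
    rw [QuadraticMap.polar_sub_right, QuadraticMap.polar_smul_right, hb, polar_symm v u, huv]; simp
  rw [e1, e2, sg_inv S hv hb, sg_mul S hv h2 h1]
  rw [show b - polar Q a b • u + -b = (-(polar Q a b)) • u by module]
  rw [← sg_smul_left S hv (by rw [polar_symm, huv])]
  rw [sg_swap S (z := u) (w := -(polar Q a b) • v) hu (by rw [Q_smul, hv, mul_zero])
    (by rw [QuadraticMap.polar_smul_right, huv, smul_zero])]
  congr 1
  module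

/-- fully orthogonal Siegel elements commute -/
theorem comm_sg_one {u v a b : V} (hu : Q u = 0) (hv : Q v = 0) (huv : polar Q u v = 0) (ha : polar Q u a = 0)
    (hb : polar Q v b = 0) (hva : polar Q v a = 0) (hub : polar Q u b = 0) (hab : polar Q a b = 0) :
    ⁅sg S u a, sg S v b⁆ = 1 := by
  rw [comm_sg S hu hv huv ha hb hva hub, hab, zero_smul, sg_zero_right S hu]

end H40.Sieg
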