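import Mathlib
import Cfsg.Agent.Lib.H40.Sieg1

/-!
Commuting lifts of fully orthogonal Siegel elements.
-/
set_option autoImplicit false
set_option linter.unusedSimpArgs false

namespace H40.Sieg

open H7.Hyp QuadraticMap H17.OrthSiegel H50.OrthE H40.Ext
open scoped commutatorElement

variable {F : Type*} [Field F] {V : Type*} [AddCommGroup V] [Module F V] {Q : QuadraticForm F V}

/-! ### existence of vectors -/

theorem exists_perp_space [FiniteDimensional F V] (Q : QuadraticForm F V) (D : Submodule F V) :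
    ∃ K : Submodule F V, (∀ a ∈ K, ∀ d ∈ D, polar Q d a = 0) ∧
      Module.finrank F V ≤ Module.finrank F D + Module.finrank F K := by
  classical
  let b := Module.finBasis F D
  let f : V →ₗ[F] (Fin (Module.finrank F D) → F) := LinearMap.pi fun i => polarBilin Q (b i)
  refine ⟨LinearMap.ker f, ?_, ?_⟩
  · intro a ha d hd
    have h1 : ∀ i, polar Q (b i) a = 0 := fun i => congrFun (LinearMap.mem_ker.mp ha) i
    have h2 : (⟨d, hd⟩ : D) = ∑ i, b.repr ⟨d, hd⟩ i • b i := (b.sum_repr _).symm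
    have h3 : d = ∑ i, b.repr ⟨d, hd⟩ i • (b i : V) := by
      have h4 := congrArg D.subtype h2
      rw [map_sum] at h4
      exact h4
    rw [h3]
    change polarBilin Q _ a = 0
    rw [map_sum, LinearMap.sum_apply]
    apply Finset.sum_eq_zero
    intro i _
    rw [map_smul, LinearMap.smul_apply]
    change _ • polar Q (b i) a = 0
    rw [h1, smul_zero]
  · have h1 := LinearMap.finrank_range_add_finrank_ker f
    have h2 : Module.finrank F (LinearMap.range f) ≤ Module.finrank F D := by
      calc Module.finrank F (LinearMap.range f) ≤ Module.finrank F (Fin (Module.finrank F D) → F) :=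
            Submodule.finrank_le _
        _ = Module.finrank F D := by simp
    omega

theorem exists_perp_not_mem [FiniteDimensional F V] (Q : QuadraticForm F V) (D : Submodule F V)
    (h : 2 * Module.finrank F D < Module.finrank F V) :
    ∃ a, (∀ d ∈ D, polar Q d a = 0) ∧ a ∉ D := by
  obtain ⟨K, hK, hK'⟩ := exists_perp_space Q D
  by_contra hc
  push Not at hc
  have : K ≤ D := fun a ha => hc a (hK a ha)
  have := Submodule.finrank_mono this
  omega

theorem exists_partner [FiniteDimensional F V] (hQ : ND Q) {k : ℕ} (s : Fin k → V) {x : V} (hx : Q x = 0)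
    (hsx : ∀ i, polar Q (s i) x = 0) (hn : x ∉ Submodule.span F (Set.range s)) :
    ∃ w, Q w = 0 ∧ (∀ i, polar Q (s i) w = 0) ∧ polar Q x w = 1 := by
  obtain ⟨w, h1, h2⟩ := exists_orth hQ _ hn
  refine ⟨w - Q w • x, ?_, ?_, ?_⟩
  · rw [sub_eq_add_neg, Q_add, QuadraticMap.map_neg, Q_smul, hx, QuadraticMap.polar_neg_right,
      QuadraticMap.polar_smul_right, polar_symm w x, h2]
    simp
  · intro i
    rw [QuadraticMap.polar_sub_right, QuadraticMap.polar_smul_right, hsx, h1 _ (Submodule.subset_span ⟨i, rfl⟩)]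
    simp
  · rw [QuadraticMap.polar_sub_right, QuadraticMap.polar_smul_right, polar_self_zero hx, h2]; simp

theorem exists_sq_ne [Finite F] (h : 4 ≤ Nat.card F) : ∃ l : F, l ≠ 0 ∧ l * l ≠ 1 := by
  classical
  have := Fintype.ofFinite F
  rw [Nat.card_eq_fintype_card] at h
  have h1 : ({0, 1, -1} : Finset F).card < (Finset.univ : Finset F).card := by
    rw [Finset.card_univ]
    exact lt_of_le_of_lt Finset.card_le_three (by omega)
  obtain ⟨l, -, hl⟩ := Finset.exists_mem_notMem_of_card_lt_card h1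
  simp only [Finset.mem_insert, Finset.mem_singleton, not_or] at hl
  refine ⟨l, hl.1, fun hc => ?_⟩
  rcases mul_self_eq_one_iff.mp hc with h | h
  · exact hl.2.1 h
  · exact hl.2.2 h

/-! ### the reflection-like elements and the `SL₂` elements -/

/-- a hyperbolic pair -/
structure HP (Q : QuadraticForm F V) (u w : V) : Prop where
  qu : Q u = 0
  qw : Q w = 0
  uw : polar Q u w = 1

theorem HP.symm {u w : V} (h : HP Q u w) : HP Q w u := ⟨h.qw, h.qu, by rw [polar_symm]; exact h.uw⟩

/-- two orthogonal hyperbolic pairs -/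
structure HP4 (Q : QuadraticForm F V) (u w e f : V) : Prop where
  h1 : HP Q u w
  h2 : HP Q e f
  ue : polar Q u e = 0
  uf : polar Q u f = 0
  we : polar Q w e = 0
  wf : polar Q w f = 0

theorem HP4.swap {u w e f : V} (h : HP4 Q u w e f) : HP4 Q u w f e :=
  ⟨h.h1, h.h2.symm, h.uf, h.ue, h.wf, h.we⟩

theorem HP4.symm {u w e f : V} (h : HP4 Q u w e f) : HP4 Q e f u w :=
  ⟨h.h2, h.h1, by rw [polar_symm]; exact h.ue, by rw [polar_symm]; exact h.we,
    by rw [polar_symm]; exact h.uf, by rw [polar_symm]; exact h.wf⟩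

theorem HP.uu {u w : V} (h : HP Q u w) : polar Q u u = 0 := polar_self_zero h.qu
theorem HP.ww {u w : V} (h : HP Q u w) : polar Q w w = 0 := polar_self_zero h.qw
theorem HP.wu {u w : V} (h : HP Q u w) : polar Q w u = 1 := h.symm.uw

theorem sl_n_u {u w s : V} (h : HP Q u w) (us : polar Q u s = 0) (ws : polar Q w s = 0) (hs : Q s ≠ 0) :
    sieLin Q u s (sieLin Q w ((Q s)⁻¹ • s) (sieLin Q u s u)) = -(Q s)⁻¹ • w := by
  have hss : polar Q s s = 2 * Q s := by rw [QuadraticMap.polar_self]; simp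
  simp only [sl_apply, QuadraticMap.polar_add_left, QuadraticMap.polar_add_right, QuadraticMap.polar_sub_right,
    QuadraticMap.polar_smul_right, QuadraticMap.polar_smul_left, h.uu, h.ww, h.wu, h.uw, us, ws, polar_symm s u,
    polar_symm s w, hss, smul_eq_mul, QuadraticMap.map_smul]
  match_scalars <;> field_simp <;> ring

theorem sl_n_w {u w s : V} (h : HP Q u w) (us : polar Q u s = 0) (ws : polar Q w s = 0) (hs : Q s ≠ 0) :
    sieLin Q u s (sieLin Q w ((Q s)⁻¹ • s) (sieLin Q u s w)) = -(Q s) • u := by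
  have hss : polar Q s s = 2 * Q s := by rw [QuadraticMap.polar_self]; simp
  simp only [sl_apply, QuadraticMap.polar_add_left, QuadraticMap.polar_add_right, QuadraticMap.polar_sub_right,
    QuadraticMap.polar_smul_right, QuadraticMap.polar_smul_left, h.uu, h.ww, h.wu, h.uw, us, ws, polar_symm s u,
    polar_symm s w, hss, smul_eq_mul, QuadraticMap.map_smul]
  match_scalars <;> field_simp <;> ring

theorem sl_n_perp {u w s x : V} (h : HP Q u w) (us : polar Q u s = 0) (ws : polar Q w s = 0) (hs : Q s ≠ 0)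
    (ux : polar Q u x = 0) (wx : polar Q w x = 0) :
    sieLin Q u s (sieLin Q w ((Q s)⁻¹ • s) (sieLin Q u s x)) = x - ((Q s)⁻¹ * polar Q s x) • s := by
  have hss : polar Q s s = 2 * Q s := by rw [QuadraticMap.polar_self]; simp
  simp only [sl_apply, QuadraticMap.polar_add_left, QuadraticMap.polar_add_right, QuadraticMap.polar_sub_right,
    QuadraticMap.polar_smul_right, QuadraticMap.polar_smul_left, h.uu, h.ww, h.wu, h.uw, us, ws, ux, wx, polar_symm s u,
    polar_symm s w, hss, smul_eq_mul, QuadraticMap.map_smul]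
  match_scalars <;> field_simp <;> ring

variable {Ω : Subgroup (V ≃ₗ[F] V)} (S : Su Q Ω)

/-- the element inducing the reflection in `s` on `⟨u, w⟩^⊥` -/
noncomputable def nn (u w s : V) : Ω := sg S u s * sg S w ((Q s)⁻¹ • s) * sg S u s

theorem nn_u {u w s : V} (h : HP Q u w) (us : polar Q u s = 0) (ws : polar Q w s = 0) (hs : Q s ≠ 0) :
    (nn S u w s : V ≃ₗ[F] V) u = -(Q s)⁻¹ • w := by
  have h1 : polar Q w ((Q s)⁻¹ • s) = 0 := by rw [QuadraticMap.polar_smul_right, ws, smul_zero]
  rw [nn, om_mul_apply, om_mul_apply, sg_apply S h.qu us, sg_apply S h.qw h1, sg_apply S h.qu us]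
  exact sl_n_u h us ws hs

theorem nn_w {u w s : V} (h : HP Q u w) (us : polar Q u s = 0) (ws : polar Q w s = 0) (hs : Q s ≠ 0) :
    (nn S u w s : V ≃ₗ[F] V) w = -(Q s) • u := by
  have h1 : polar Q w ((Q s)⁻¹ • s) = 0 := by rw [QuadraticMap.polar_smul_right, ws, smul_zero]
  rw [nn, om_mul_apply, om_mul_apply, sg_apply S h.qu us, sg_apply S h.qw h1, sg_apply S h.qu us]
  exact sl_n_w h us ws hs

theorem nn_perp {u w s x : V} (h : HP Q u w) (us : polar Q u s = 0) (ws : polar Q w s = 0) (hs : Q s ≠ 0)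
    (ux : polar Q u x = 0) (wx : polar Q w x = 0) :
    (nn S u w s : V ≃ₗ[F] V) x = x - ((Q s)⁻¹ * polar Q s x) • s := by
  have h1 : polar Q w ((Q s)⁻¹ • s) = 0 := by rw [QuadraticMap.polar_smul_right, ws, smul_zero]
  rw [nn, om_mul_apply, om_mul_apply, sg_apply S h.qu us, sg_apply S h.qw h1, sg_apply S h.qu us]
  exact sl_n_perp h us ws hs ux wx

/-- the Weyl element of the `SL₂` of two hyperbolic pairs -/
noncomputable def nL (u w e f : V) (t : F) : Ω := sg S u (-t • f) * sg S w (-t⁻¹ • e) * sg S u (-t • f)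

section nL
variable {u w e f : V} (h : HP4 Q u w e f)
include h

theorem nL_aux (t : F) (x : V) : (nL S u w e f t : V ≃ₗ[F] V) x =
    sieLin Q u (-t • f) (sieLin Q w (-t⁻¹ • e) (sieLin Q u (-t • f) x)) := by
  have h1 : polar Q u (-t • f) = 0 := by rw [QuadraticMap.polar_smul_right, h.uf, smul_zero]
  have h2 : polar Q w (-t⁻¹ • e) = 0 := by rw [QuadraticMap.polar_smul_right, h.we, smul_zero]
  rw [nL, om_mul_apply, om_mul_apply, sg_apply S h.h1.qu h1, sg_apply S h.h1.qw h2, sg_apply S h.h1.qu h1]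

theorem nL_u {t : F} (ht : t ≠ 0) : (nL S u w e f t : V ≃ₗ[F] V) u = -t⁻¹ • e := by
  rw [nL_aux S h]
  simp only [sl_apply, QuadraticMap.polar_add_left, QuadraticMap.polar_add_right, QuadraticMap.polar_sub_right,
    QuadraticMap.polar_smul_right, QuadraticMap.polar_smul_left, h.h1.uu, h.h1.ww, h.h1.wu, h.h1.uw, h.h2.uu, h.h2.ww,
    h.h2.uw, h.h2.wu, h.ue, h.uf, h.we, h.wf, polar_symm e u, polar_symm f u, polar_symm e w, polar_symm f w,
    smul_eq_mul, QuadraticMap.map_smul, h.h2.qu, h.h2.qw]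
  match_scalars <;> field_simp <;> ring

theorem nL_w {t : F} (ht : t ≠ 0) : (nL S u w e f t : V ≃ₗ[F] V) w = -t • f := by
  rw [nL_aux S h]
  simp only [sl_apply, QuadraticMap.polar_add_left, QuadraticMap.polar_add_right, QuadraticMap.polar_sub_right,
    QuadraticMap.polar_smul_right, QuadraticMap.polar_smul_left, h.h1.uu, h.h1.ww, h.h1.wu, h.h1.uw, h.h2.uu, h.h2.ww,
    h.h2.uw, h.h2.wu, h.ue, h.uf, h.we, h.wf, polar_symm e u, polar_symm f u, polar_symm e w, polar_symm f w,
    smul_eq_mul, QuadraticMap.map_smul, h.h2.qu, h.h2.qw]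
  match_scalars <;> field_simp <;> ring

theorem nL_e {t : F} (ht : t ≠ 0) : (nL S u w e f t : V ≃ₗ[F] V) e = t • u := by
  rw [nL_aux S h]
  simp only [sl_apply, QuadraticMap.polar_add_left, QuadraticMap.polar_add_right, QuadraticMap.polar_sub_right,
    QuadraticMap.polar_smul_right, QuadraticMap.polar_smul_left, h.h1.uu, h.h1.ww, h.h1.wu, h.h1.uw, h.h2.uu, h.h2.ww,
    h.h2.uw, h.h2.wu, h.ue, h.uf, h.we, h.wf, polar_symm e u, polar_symm f u, polar_symm e w, polar_symm f w,
    smul_eq_mul, QuadraticMap.map_smul, h.h2.qu, h.h2.qw]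
  match_scalars <;> field_simp <;> ring

theorem nL_f {t : F} (ht : t ≠ 0) : (nL S u w e f t : V ≃ₗ[F] V) f = t⁻¹ • w := by
  rw [nL_aux S h]
  simp only [sl_apply, QuadraticMap.polar_add_left, QuadraticMap.polar_add_right, QuadraticMap.polar_sub_right,
    QuadraticMap.polar_smul_right, QuadraticMap.polar_smul_left, h.h1.uu, h.h1.ww, h.h1.wu, h.h1.uw, h.h2.uu, h.h2.ww,
    h.h2.uw, h.h2.wu, h.ue, h.uf, h.we, h.wf, polar_symm e u, polar_symm f u, polar_symm e w, polar_symm f w,
    smul_eq_mul, QuadraticMap.map_smul, h.h2.qu, h.h2.qw]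
  match_scalars <;> field_simp <;> ring

theorem nL_perp (t : F) {x : V} (ux : polar Q u x = 0) (wx : polar Q w x = 0) (ex : polar Q e x = 0)
    (fx : polar Q f x = 0) : (nL S u w e f t : V ≃ₗ[F] V) x = x := by
  rw [nL_aux S h]
  have a1 : polar Q (-t • f) x = 0 := by rw [QuadraticMap.polar_smul_left, fx, smul_zero]
  have a2 : polar Q (-t⁻¹ • e) x = 0 := by rw [QuadraticMap.polar_smul_left, ex, smul_zero]
  rw [sl_perp ux a1, sl_perp wx a2, sl_perp ux a1]

end nL

end H40.Sieg
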