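import Mathlib
import Cfsg.Agent.Lib.H40.Sieg2

/-!
Commuting lifts of fully orthogonal Siegel elements.
-/
set_option autoImplicit false
set_option linter.unusedSimpArgs false

namespace H40.Sieg

open H7.Hyp QuadraticMap H17.OrthSiegel H50.OrthE H40.Ext
open scoped commutatorElement

variable {F : Type*} [Field F] {V : Type*} [AddCommGroup V] [Module F V] {Q : QuadraticForm F V}
  {Ω : Subgroup (V ≃ₗ[F] V)} (S : Su Q Ω) {E : Type*} [Group E] {π : E →* Ω} (hπ : CE π)

/-- two fully orthogonal Siegel elements `sg u y`, `sg v x`, the second one long -/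
structure Cf (Q : QuadraticForm F V) (u y v x : V) : Prop where
  qu : Q u = 0
  qv : Q v = 0
  qx : Q x = 0
  uy : polar Q u y = 0
  uv : polar Q u v = 0
  ux : polar Q u x = 0
  yv : polar Q y v = 0
  yx : polar Q y x = 0
  vx : polar Q v x = 0

theorem Cf.comm {u y v x : V} (h : Cf Q u y v x) : ⁅sg S u y, sg S v x⁆ = 1 :=
  comm_sg_one S h.qu h.qv h.uv h.uy h.vx (by rw [polar_symm]; exact h.yv) h.ux h.yx

theorem z_equiv {a b : Ω} (g : Ω) (h : ⁅a, b⁆ = 1) :
    hπ.z (g * a * g⁻¹) (g * b * g⁻¹) = hπ.z a b := by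
  obtain ⟨e, rfl⟩ := hπ.surj g
  rw [← hπ.z_conj]
  have := hπ.z_mem_center h
  rw [Subgroup.mem_center_iff] at this
  rw [this e, mul_inv_cancel_right]

theorem z_move {u y v x : V} (h : Cf Q u y v x) (g : Ω) {u' y' v' x' : V}
    (hu : (g : V ≃ₗ[F] V) u = u') (hy : (g : V ≃ₗ[F] V) y = y') (hv : (g : V ≃ₗ[F] V) v = v')
    (hx : (g : V ≃ₗ[F] V) x = x') : hπ.z (sg S u' y') (sg S v' x') = hπ.z (sg S u y) (sg S v x) := by
  rw [← z_equiv hπ g (h.comm S), conj_sg S g h.qu h.uy, conj_sg S g h.qv h.vx, hu, hy, hv, hx]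

theorem c1_direct [FiniteDimensional F V] {u y v x : V} (h : Cf Q u y v x) {a : V} (hu : polar Q u a = 0)
    (hy : polar Q y a = 0) (hv : polar Q v a = 0) (hx : polar Q x a = 0)
    (ha : a ∉ Submodule.span F (Set.range ![u, y, v, x])) : hπ.z (sg S u y) (sg S v x) = 1 := by
  obtain ⟨b, hb, hab⟩ := exists_orth S.nd _ ha
  have b0 : polar Q u b = 0 := hb _ (Submodule.subset_span ⟨0, rfl⟩)
  have b1 : polar Q y b = 0 := hb _ (Submodule.subset_span ⟨1, rfl⟩)
  have b2 : polar Q v b = 0 := hb _ (Submodule.subset_span ⟨2, rfl⟩)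
  have b3 : polar Q x b = 0 := hb _ (Submodule.subset_span ⟨3, rfl⟩)
  have h1 : sg S v x = ⁅sg S v a, sg S x b⁆ := by
    rw [comm_sg S h.qv h.qx h.vx hv b3 hx b2, hab, one_smul]
  rw [h1]
  apply hπ.z_comm_right
  · exact comm_sg_one S h.qu h.qv h.uv h.uy hv (by rw [polar_symm]; exact h.yv) hu hy
  · exact comm_sg_one S h.qu h.qx h.ux h.uy b3 (by rw [polar_symm]; exact h.yx) b0 b1

theorem finrank_span3 (a b c : V) : Module.finrank F (Submodule.span F (Set.range ![a, b, c])) ≤ 3 := by
  have := finrank_range_le_card (R := F) ![a, b, c]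
  simpa [Set.finrank] using this

theorem finrank_span4 (a b c d : V) : Module.finrank F (Submodule.span F (Set.range ![a, b, c, d])) ≤ 4 := by
  have := finrank_range_le_card (R := F) ![a, b, c, d]
  simpa [Set.finrank] using this

theorem c1_of_dim [FiniteDimensional F V] {u y v x : V} (h : Cf Q u y v x)
    (hd : 2 * Module.finrank F (Submodule.span F (Set.range ![u, y, v, x])) < Module.finrank F V) :
    hπ.z (sg S u y) (sg S v x) = 1 := by
  obtain ⟨a, h1, h2⟩ := exists_perp_not_mem Q _ hd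
  exact c1_direct S hπ h (h1 _ (Submodule.subset_span ⟨0, rfl⟩)) (h1 _ (Submodule.subset_span ⟨1, rfl⟩))
    (h1 _ (Submodule.subset_span ⟨2, rfl⟩)) (h1 _ (Submodule.subset_span ⟨3, rfl⟩)) h2

theorem Cf.smul {u y v x : V} (h : Cf Q u y v x) (t c : F) : Cf Q u (t • y) v (c • x) where
  qu := h.qu
  qv := h.qv
  qx := by rw [Q_smul, h.qx, mul_zero]
  uy := by rw [QuadraticMap.polar_smul_right, h.uy, smul_zero]
  uv := h.uv
  ux := by rw [QuadraticMap.polar_smul_right, h.ux, smul_zero]
  yv := by rw [QuadraticMap.polar_smul_left, h.yv, smul_zero]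
  yx := by rw [QuadraticMap.polar_smul_left, QuadraticMap.polar_smul_right, h.yx, smul_zero, smul_zero]
  vx := by rw [QuadraticMap.polar_smul_right, h.vx, smul_zero]

theorem Cf.add {u y y' v x : V} (h : Cf Q u y v x) (h' : Cf Q u y' v x) : Cf Q u (y + y') v x where
  qu := h.qu
  qv := h.qv
  qx := h.qx
  uy := by rw [QuadraticMap.polar_add_right, h.uy, h'.uy, add_zero]
  uv := h.uv
  ux := h.ux
  yv := by rw [QuadraticMap.polar_add_left, h.yv, h'.yv, add_zero]
  yx := by rw [QuadraticMap.polar_add_left, h.yx, h'.yx, add_zero]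
  vx := h.vx

theorem z_add {u y y' v x : V} (h : Cf Q u y v x) (h' : Cf Q u y' v x) :
    hπ.z (sg S u (y + y')) (sg S v x) = hπ.z (sg S u y) (sg S v x) * hπ.z (sg S u y') (sg S v x) := by
  rw [← sg_mul S h.qu h.uy h'.uy]
  exact hπ.z_mul_left (h'.comm S)

/-- additivity kills: if `z (y) = z (c y)` for all multiples and `c ≠ 1`, then `z = 1` -/
theorem z_kill {u y v x : V} (h : Cf Q u y v x) {c : F} (hc : c ≠ 1)
    (H : ∀ t : F, hπ.z (sg S u (t • y)) (sg S v x) = hπ.z (sg S u ((c * t) • y)) (sg S v x)) :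
    hπ.z (sg S u y) (sg S v x) = 1 := by
  have hc' : (1 - c) ≠ 0 := sub_ne_zero.mpr (Ne.symm hc)
  have hsm : ∀ t : F, Cf Q u (t • y) v x := fun t => by
    have := h.smul t 1
    rwa [one_smul] at this
  have e1 : ((1 - c)⁻¹ : F) • y = y + (c * (1 - c)⁻¹) • y := by
    match_scalars
    field_simp
    ring
  have h1 := H ((1 - c)⁻¹)
  rw [e1, z_add S hπ h (hsm _)] at h1
  exact mul_eq_right.mp h1

theorem notMem_of_finrank {a b c d : V}
    (hd : 3 < Module.finrank F (Submodule.span F (Set.range ![a, b, c, d]))) :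
    a ∉ Submodule.span F (Set.range ![b, c, d]) := by
  intro hc
  have : Submodule.span F (Set.range ![a, b, c, d]) ≤ Submodule.span F (Set.range ![b, c, d]) := by
    rw [Submodule.span_le]
    rintro _ ⟨i, rfl⟩
    fin_cases i
    · exact hc
    · exact Submodule.subset_span ⟨0, rfl⟩
    · exact Submodule.subset_span ⟨1, rfl⟩
    · exact Submodule.subset_span ⟨2, rfl⟩
  have h1 := finrank_span3 (F := F) b c d
  have h2 : FiniteDimensional F (Submodule.span F (Set.range ![b, c, d])) :=
    FiniteDimensional.span_of_finite F (Set.finite_range _)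
  have h3 := Submodule.finrank_mono this
  omega

theorem nn_line {u w s : V} (h : HP Q u w) (us : polar Q u s = 0) (ws : polar Q w s = 0) (hs : Q s ≠ 0) (c : F) :
    (nn S u w s : V ≃ₗ[F] V) (c • s) = (-c) • s := by
  rw [nn_perp S h us ws hs (by rw [QuadraticMap.polar_smul_right, us, smul_zero])
    (by rw [QuadraticMap.polar_smul_right, ws, smul_zero]), QuadraticMap.polar_smul_right, QuadraticMap.polar_self]
  match_scalars
  simp only [smul_eq_mul]
  field_simp
  simp only [nsmul_eq_mul]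
  push_cast
  ring

theorem torus_one [FiniteDimensional F V] {u y v x : V} (h : Cf Q u y v x) (hy : Q y ≠ 0) {l : F} (hl : l ≠ 0)
    (hl1 : l * l ≠ 1) (hd : 3 < Module.finrank F (Submodule.span F (Set.range ![u, y, v, x]))) :
    hπ.z (sg S u y) (sg S v x) = 1 := by
  obtain ⟨w, hw, hw1, huw⟩ := exists_partner S.nd ![y, v, x] h.qu (fun i => by
    fin_cases i
    · exact (by rw [polar_symm]; exact h.uy : polar Q y u = 0)
    · exact (by rw [polar_symm]; exact h.uv : polar Q v u = 0)
    · exact (by rw [polar_symm]; exact h.ux : polar Q x u = 0)) (notMem_of_finrank hd)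
  have yw : polar Q y w = 0 := hw1 0
  have vw : polar Q v w = 0 := hw1 1
  have xw : polar Q x w = 0 := hw1 2
  have hp : HP Q u w := ⟨h.qu, hw, huw⟩
  have hly : Q (l • y) ≠ 0 := by rw [Q_smul]; exact mul_ne_zero (mul_ne_zero hl hl) hy
  have uly : polar Q u (l • y) = 0 := by rw [QuadraticMap.polar_smul_right, h.uy, smul_zero]
  have wy : polar Q w y = 0 := by rw [polar_symm]; exact yw
  have wly : polar Q w (l • y) = 0 := by rw [QuadraticMap.polar_smul_right, wy, smul_zero]
  have wv : polar Q w v = 0 := by rw [polar_symm]; exact vw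
  have wx : polar Q w x = 0 := by rw [polar_symm]; exact xw
  have hyy : polar Q y y = 2 * Q y := by rw [QuadraticMap.polar_self]; simp
  apply z_kill S hπ h (c := (l * l)⁻¹) (by rw [ne_eq, inv_eq_one]; exact hl1)
  intro t
  have ht : Cf Q u (t • y) v x := by simpa using h.smul t 1
  have hg : ∀ z, ((nn S u w y * nn S u w (l • y) : Ω) : V ≃ₗ[F] V) z =
      (nn S u w y : V ≃ₗ[F] V) ((nn S u w (l • y) : V ≃ₗ[F] V) z) := fun z => rfl
  have e1 := z_move S hπ ht (nn S u w y * nn S u w (l • y)) (u' := (l * l)⁻¹ • u) (y' := t • y) (v' := v) (x' := x)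
    (by
      rw [hg, nn_u S hp uly wly hly, map_smul, nn_w S hp h.uy wy hy, Q_smul]
      match_scalars
      field_simp)
    (by
      rw [hg, show t • y = (t * l⁻¹) • (l • y) by rw [smul_smul, mul_assoc, inv_mul_cancel₀ hl, mul_one],
        nn_line S hp uly wly hly, smul_smul, nn_line S hp h.uy wy hy, smul_smul]
      match_scalars
      ring)
    (by
      rw [hg, nn_perp S hp uly wly hly h.uv wv, QuadraticMap.polar_smul_left, h.yv, smul_zero, mul_zero, zero_smul, sub_zero,
        nn_perp S hp h.uy wy hy h.uv wv, h.yv, mul_zero, zero_smul, sub_zero])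
    (by
      rw [hg, nn_perp S hp uly wly hly h.ux wx, QuadraticMap.polar_smul_left, h.yx, smul_zero, mul_zero, zero_smul, sub_zero,
        nn_perp S hp h.uy wy hy h.ux wx, h.yx, mul_zero, zero_smul, sub_zero])
  rw [← e1, sg_smul_left S h.qu ht.uy, smul_smul]

end H40.Sieg
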