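import Mathlib
import Cfsg.Agent.Lib.H40.Sieg3

/-!
Commuting lifts of fully orthogonal Siegel elements, exceptional configurations.
-/
set_option autoImplicit false
set_option linter.unusedSimpArgs false

namespace H40.Sieg

open H7.Hyp QuadraticMap H17.OrthSiegel H50.OrthE H40.Ext
open scoped commutatorElement

variable {F : Type*} [Field F] {V : Type*} [AddCommGroup V] [Module F V] {Q : QuadraticForm F V}

theorem li_notMem {n : ℕ} {s : Fin n → V} (h : LinearIndependent F s) {k : ℕ} (t : Fin k → V) (i : Fin n)
    (ht : ∀ j, ∃ i', i' ≠ i ∧ t j = s i') : s i ∉ Submodule.span F (Set.range t) := by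
  intro hc
  have h1 : s i ∉ Submodule.span F (s '' {i' | i' ≠ i}) := h.notMem_span_image (by simp)
  apply h1
  refine Submodule.span_mono ?_ hc
  rintro _ ⟨j, rfl⟩
  obtain ⟨i', h2, h3⟩ := ht j
  exact ⟨i', h2, h3.symm⟩

theorem polar_span {k : ℕ} (s : Fin k → V) {y : V} (hp : ∀ i, polar Q (s i) y = 0) :
    ∀ x ∈ Submodule.span F (Set.range s), polar Q x y = 0 := by
  intro x hx
  induction hx using Submodule.span_induction with
  | mem x h => obtain ⟨i, rfl⟩ := h; exact hp i
  | zero => exact QuadraticMap.polar_zero_left _ _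
  | add a b _ _ ha hb => rw [QuadraticMap.polar_add_left, ha, hb, add_zero]
  | smul c a _ ha => rw [QuadraticMap.polar_smul_left, ha, smul_zero]

theorem ts_span {k : ℕ} (s : Fin k → V) (hq : ∀ i, Q (s i) = 0) (hp : ∀ i j, polar Q (s i) (s j) = 0) :
    ∀ x ∈ Submodule.span F (Set.range s), Q x = 0 := by
  have h1 : ∀ x ∈ Submodule.span F (Set.range s), ∀ y ∈ Submodule.span F (Set.range s), polar Q x y = 0 := by
    intro x hx y hy
    refine polar_span s (fun i => ?_) x hx
    rw [polar_symm]
    exact polar_span s (fun j => hp j i) y hy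
  intro x hx
  induction hx using Submodule.span_induction with
  | mem x h => obtain ⟨i, rfl⟩ := h; exact hq i
  | zero => simp
  | add a b ha' hb' ha hb => rw [Q_add, ha, hb, h1 a ha' b hb']; simp
  | smul c a _ ha => rw [Q_smul, ha, mul_zero]

/-- a vector which is not in the span of `c, d, e` is not in the span of `b, b', c, d` if `b` is orthogonal to it -/
theorem notMem_partner {b b' c d x : V} (hb : Q b = 0) (hbb : polar Q b b' = 1) (hc : polar Q b c = 0) (hd : polar Q b d = 0)
    (hx : polar Q b x = 0) (hn : x ∉ Submodule.span F (Set.range ![b, c, d])) :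
    x ∉ Submodule.span F (Set.range ![b, b', c, d]) := by
  intro h
  rw [Submodule.mem_span_range_iff_exists_fun] at h
  obtain ⟨r, hr⟩ := h
  rw [Fin.sum_univ_four] at hr
  simp only [Matrix.cons_val_zero, Matrix.cons_val_one, Matrix.cons_val] at hr
  apply hn
  rw [Submodule.mem_span_range_iff_exists_fun]
  refine ⟨![r 0, r 2, r 3], ?_⟩
  rw [Fin.sum_univ_three]
  simp only [Matrix.cons_val_zero, Matrix.cons_val_one, Matrix.cons_val]
  have h2 : polar Q b (r 0 • b + r 1 • b' + r 2 • c + r 3 • d) = 0 := by rw [hr, hx]
  simp only [QuadraticMap.polar_add_right, QuadraticMap.polar_smul_right, polar_self_zero hb, hbb, hc, hd, smul_zero,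
    smul_eq_mul, mul_zero, mul_one, zero_add, add_zero] at h2
  rw [← hr, h2]
  module

variable {Ω : Subgroup (V ≃ₗ[F] V)} (S : Su Q Ω) {E : Type*} [Group E] {π : E →* Ω} (hπ : CE π)

theorem torus_two [FiniteDimensional F V] {u y v x : V} (h : Cf Q u y v x) (hy : Q y = 0) {l : F} (hl : l ≠ 0)
    (hl1 : l * l ≠ 1) (hli : LinearIndependent F ![u, y, v, x]) :
    hπ.z (sg S u y) (sg S v x) = 1 := by
  obtain ⟨u', hu', hu1, huu⟩ := exists_partner S.nd ![y, v, x] h.qu (fun i => by
    fin_cases i
    · exact (by rw [polar_symm]; exact h.uy : polar Q y u = 0)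
    · exact (by rw [polar_symm]; exact h.uv : polar Q v u = 0)
    · exact (by rw [polar_symm]; exact h.ux : polar Q x u = 0)) (by
    exact li_notMem hli ![y, v, x] 0 (fun j => by
      fin_cases j
      · exact ⟨1, by decide, rfl⟩
      · exact ⟨2, by decide, rfl⟩
      · exact ⟨3, by decide, rfl⟩))
  have yu' : polar Q y u' = 0 := hu1 0
  have vu' : polar Q v u' = 0 := hu1 1
  have xu' : polar Q x u' = 0 := hu1 2
  obtain ⟨y', hy', hy1, hyy⟩ := exists_partner S.nd ![u, u', v, x] hy (fun i => by
    fin_cases i
    · exact h.uy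
    · exact (by rw [polar_symm]; exact yu' : polar Q u' y = 0)
    · exact (by rw [polar_symm]; exact h.yv : polar Q v y = 0)
    · exact (by rw [polar_symm]; exact h.yx : polar Q x y = 0)) (by
    refine notMem_partner h.qu huu h.uv h.ux h.uy ?_
    exact li_notMem hli ![u, v, x] 1 (fun j => by
      fin_cases j
      · exact ⟨0, by decide, rfl⟩
      · exact ⟨2, by decide, rfl⟩
      · exact ⟨3, by decide, rfl⟩))
  have uy' : polar Q u y' = 0 := hy1 0
  have u'y' : polar Q u' y' = 0 := hy1 1
  have vy' : polar Q v y' = 0 := hy1 2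
  have xy' : polar Q x y' = 0 := hy1 3
  have H : HP4 Q u u' y' y := ⟨⟨h.qu, hu', huu⟩, ⟨hy', hy, by rw [polar_symm]; exact hyy⟩, uy', h.uy, u'y',
    by rw [polar_symm]; exact yu'⟩
  apply z_kill S hπ h (c := l * l) hl1
  intro t
  have ht : Cf Q u (t • y) v x := by simpa using h.smul t 1
  have hm1 : (-1 : F) ≠ 0 := neg_ne_zero.mpr one_ne_zero
  have e1 := z_move S hπ ht (nL S u u' y' y l * nL S u u' y' y (-1)) (u' := l • u) (y' := (t * l) • y) (v' := v) (x' := x)
    (by
      rw [om_mul_apply, nL_u S H hm1, map_smul, nL_e S H hl]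
      match_scalars
      ring)
    (by
      rw [om_mul_apply, map_smul, nL_f S H hm1, map_smul, map_smul, nL_w S H hl]
      match_scalars
      field_simp)
    (by
      rw [om_mul_apply, nL_perp S H (-1) h.uv (by rw [polar_symm]; exact vu') (by rw [polar_symm]; exact vy') h.yv,
        nL_perp S H l h.uv (by rw [polar_symm]; exact vu') (by rw [polar_symm]; exact vy') h.yv])
    (by
      rw [om_mul_apply, nL_perp S H (-1) h.ux (by rw [polar_symm]; exact xu') (by rw [polar_symm]; exact xy') h.yx,
        nL_perp S H l h.ux (by rw [polar_symm]; exact xu') (by rw [polar_symm]; exact xy') h.yx])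
  rw [← e1, sg_smul_left S h.qu (by rw [QuadraticMap.polar_smul_right, h.uy, smul_zero]), smul_smul]
  congr 3
  ring

/-- swapping two commuting long root elements: characteristic 3 -/
theorem antisymm [FiniteDimensional F V] {u y v x : V} (h : Cf Q u y v x) (hy : Q y = 0) (h3 : (3 : F) = 0)
    (hli : LinearIndependent F ![u, y, v, x]) :
    hπ.z (sg S u y) (sg S v x) = 1 := by
  have vu := (by rw [polar_symm]; exact h.uv : polar Q v u = 0)
  have xu := (by rw [polar_symm]; exact h.ux : polar Q x u = 0)
  have yu := (by rw [polar_symm]; exact h.uy : polar Q y u = 0)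
  have vy := (by rw [polar_symm]; exact h.yv : polar Q v y = 0)
  have xy := (by rw [polar_symm]; exact h.yx : polar Q x y = 0)
  have xv := (by rw [polar_symm]; exact h.vx : polar Q x v = 0)
  obtain ⟨u', hu', hu1, huu⟩ := exists_partner S.nd ![v, y, x] h.qu (fun i => by
    fin_cases i
    · exact vu
    · exact yu
    · exact xu) (by
    exact li_notMem hli ![v, y, x] 0 (fun j => by
      fin_cases j
      · exact ⟨2, by decide, rfl⟩
      · exact ⟨1, by decide, rfl⟩
      · exact ⟨3, by decide, rfl⟩))
  have vu' : polar Q v u' = 0 := hu1 0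
  have yu' : polar Q y u' = 0 := hu1 1
  have xu' : polar Q x u' = 0 := hu1 2
  obtain ⟨v', hv', hv1, hvv⟩ := exists_partner S.nd ![u, u', y, x] h.qv (fun i => by
    fin_cases i
    · exact h.uv
    · exact (by rw [polar_symm]; exact vu' : polar Q u' v = 0)
    · exact h.yv
    · exact xv) (by
    refine notMem_partner h.qu huu h.uy h.ux h.uv ?_
    exact li_notMem hli ![u, y, x] 2 (fun j => by
      fin_cases j
      · exact ⟨0, by decide, rfl⟩
      · exact ⟨1, by decide, rfl⟩
      · exact ⟨3, by decide, rfl⟩))
  have uv' : polar Q u v' = 0 := hv1 0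
  have u'v' : polar Q u' v' = 0 := hv1 1
  have yv' : polar Q y v' = 0 := hv1 2
  have xv' : polar Q x v' = 0 := hv1 3
  have H : HP4 Q u u' v v' := ⟨⟨h.qu, hu', huu⟩, ⟨h.qv, hv', hvv⟩, h.uv, uv', by rw [polar_symm]; exact vu', u'v'⟩
  obtain ⟨y', hy', hy1, hyy⟩ := exists_partner S.nd ![x, u, v] hy (fun i => by
    fin_cases i
    · exact xy
    · exact h.uy
    · exact vy) (by
    exact li_notMem hli ![x, u, v] 1 (fun j => by
      fin_cases j
      · exact ⟨3, by decide, rfl⟩
      · exact ⟨0, by decide, rfl⟩
      · exact ⟨2, by decide, rfl⟩))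
  have xy' : polar Q x y' = 0 := hy1 0
  have uy' : polar Q u y' = 0 := hy1 1
  have vy' : polar Q v y' = 0 := hy1 2
  obtain ⟨x', hx', hx1, hxx⟩ := exists_partner S.nd ![y, y', u, v] h.qx (fun i => by
    fin_cases i
    · exact h.yx
    · exact (by rw [polar_symm]; exact xy' : polar Q y' x = 0)
    · exact h.ux
    · exact h.vx) (by
    refine notMem_partner hy hyy yu h.yv h.yx ?_
    exact li_notMem hli ![y, u, v] 3 (fun j => by
      fin_cases j
      · exact ⟨1, by decide, rfl⟩
      · exact ⟨0, by decide, rfl⟩
      · exact ⟨2, by decide, rfl⟩))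
  have yx' : polar Q y x' = 0 := hx1 0
  have y'x' : polar Q y' x' = 0 := hx1 1
  have ux' : polar Q u x' = 0 := hx1 2
  have vx' : polar Q v x' = 0 := hx1 3
  have K : HP4 Q y y' x x' := ⟨⟨hy, hy', hyy⟩, ⟨h.qx, hx', hxx⟩, h.yx, yx', by rw [polar_symm]; exact xy', y'x'⟩
  have e1 := z_move S hπ h (nL S u u' v v' 1 * nL S y y' x x' 1) (u' := (-1 : F) • v) (y' := (-1 : F) • x) (v' := u) (x' := y)
    (by
      rw [om_mul_apply, nL_perp S K 1 (by rw [polar_symm]; exact h.uy) (by rw [polar_symm]; exact uy') xu
        (by rw [polar_symm]; exact ux'), nL_u S H one_ne_zero]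
      match_scalars; simp)
    (by
      rw [om_mul_apply, nL_u S K one_ne_zero, map_smul, nL_perp S H 1 h.ux (by rw [polar_symm]; exact xu') h.vx
        (by rw [polar_symm]; exact xv')]
      match_scalars; simp)
    (by
      rw [om_mul_apply, nL_perp S K 1 h.yv (by rw [polar_symm]; exact vy') xv
        (by rw [polar_symm]; exact vx'), nL_e S H one_ne_zero, one_smul])
    (by
      rw [om_mul_apply, nL_e S K one_ne_zero, one_smul, nL_perp S H 1 h.uy (by rw [polar_symm]; exact yu') vy
        (by rw [polar_symm]; exact yv')])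
  have e2 : sg S ((-1 : F) • v) ((-1 : F) • x) = sg S v x := by
    rw [sg_smul_left S h.qv (by rw [QuadraticMap.polar_smul_right, h.vx, smul_zero]), smul_smul]
    simp
  rw [e2, ← hπ.z_inv] at e1
  have e3 : hπ.z (sg S u y) (sg S v x) * hπ.z (sg S u y) (sg S v x) = 1 := by
    rw [← inv_mul_cancel (hπ.z (sg S u y) (sg S v x)), e1]
  have e4 : hπ.z (sg S u y) (sg S v x) * hπ.z (sg S u y) (sg S v x) * hπ.z (sg S u y) (sg S v x) = 1 := by
    rw [← z_add S hπ h h, ← z_add S hπ (h.add h) h]
    have : y + y + y = 0 := by
      have : y + y + y = (3 : F) • y := by module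
      rw [this, h3, zero_smul]
    rw [this, sg_zero_right S h.qu, hπ.z_one_left]
  rwa [e3, one_mul] at e4

/-- the field of two elements, no totally singular 4-space -/
theorem two_case [FiniteDimensional F V] (hF : ∀ a : F, a = 0 ∨ a = 1)
    (h4 : ∀ M : Submodule F V, (∀ x ∈ M, Q x = 0) → Module.finrank F M ≠ 4) {u y v x : V} (h : Cf Q u y v x) (hy : Q y ≠ 0)
    (hli : LinearIndependent F ![u, y, v, x]) :
    hπ.z (sg S u y) (sg S v x) = 1 := by
  have hm1 : (-1 : F) = 1 := by
    rcases hF (-1) with h | h
    · exact absurd h (neg_ne_zero.mpr one_ne_zero)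
    · exact h
  have vu := (by rw [polar_symm]; exact h.uv : polar Q v u = 0)
  have xu := (by rw [polar_symm]; exact h.ux : polar Q x u = 0)
  have yu := (by rw [polar_symm]; exact h.uy : polar Q y u = 0)
  have vy := (by rw [polar_symm]; exact h.yv : polar Q v y = 0)
  have xy := (by rw [polar_symm]; exact h.yx : polar Q x y = 0)
  have xv := (by rw [polar_symm]; exact h.vx : polar Q x v = 0)
  obtain ⟨w, hw, hw1, huw⟩ := exists_partner S.nd ![y, v, x] h.qu (fun i => by
    fin_cases i
    · exact yu
    · exact vu
    · exact xu) (by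
    exact li_notMem hli ![y, v, x] 0 (fun j => by
      fin_cases j
      · exact ⟨1, by decide, rfl⟩
      · exact ⟨2, by decide, rfl⟩
      · exact ⟨3, by decide, rfl⟩))
  have yw : polar Q y w = 0 := hw1 0
  have vw : polar Q v w = 0 := hw1 1
  have xw : polar Q x w = 0 := hw1 2
  have hp : HP Q u w := ⟨h.qu, hw, huw⟩
  obtain ⟨s, hs, hys⟩ := exists_orth S.nd (Submodule.span F (Set.range ![u, w, v, x])) (x := y)
    (notMem_partner h.qu huw h.uv h.ux h.uy (li_notMem hli ![u, v, x] 1 (fun j => by
      fin_cases j
      · exact ⟨0, by decide, rfl⟩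
      · exact ⟨2, by decide, rfl⟩
      · exact ⟨3, by decide, rfl⟩)))
  have us : polar Q u s = 0 := hs _ (Submodule.subset_span ⟨0, rfl⟩)
  have ws : polar Q w s = 0 := hs _ (Submodule.subset_span ⟨1, rfl⟩)
  have vs : polar Q v s = 0 := hs _ (Submodule.subset_span ⟨2, rfl⟩)
  have xs : polar Q x s = 0 := hs _ (Submodule.subset_span ⟨3, rfl⟩)
  have hsq : Q s ≠ 0 := by
    intro hs0
    have h1 : LinearIndependent F ![u, v, x] := by
      have := hli.comp ![0, 2, 3] (by decide)
      convert this using 1
      ext i; fin_cases i <;> rfl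
    have h2 : LinearIndependent F ![s, u, v, x] := by
      have h3 : s ∉ Submodule.span F (Set.range ![u, v, x]) := by
        intro hc
        have := polar_span (Q := Q) ![u, v, x] (y := y) (fun i => by
          fin_cases i
          · exact h.uy
          · exact vy
          · exact xy) s hc
        rw [polar_symm, hys] at this
        exact one_ne_zero this
      exact linearIndependent_finCons.mpr ⟨h1, h3⟩
    apply h4 (Submodule.span F (Set.range ![s, u, v, x]))
    · apply ts_span
      · intro i; fin_cases i
        · exact hs0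
        · exact h.qu
        · exact h.qv
        · exact h.qx
      · have su := (by rw [polar_symm]; exact us : polar Q s u = 0)
        have sv := (by rw [polar_symm]; exact vs : polar Q s v = 0)
        have sx := (by rw [polar_symm]; exact xs : polar Q s x = 0)
        intro i j
        fin_cases i <;> fin_cases j
        · exact polar_self_zero hs0
        · exact su
        · exact sv
        · exact sx
        · exact us
        · exact polar_self_zero h.qu
        · exact h.uv
        · exact h.ux
        · exact vs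
        · exact vu
        · exact polar_self_zero h.qv
        · exact h.vx
        · exact xs
        · exact xu
        · exact xv
        · exact polar_self_zero h.qx
    · rw [finrank_span_eq_card h2]; simp
  have hy1 : Q y = 1 := (hF _).resolve_left hy
  have hs1 : Q s = 1 := (hF _).resolve_left hsq
  have wy : polar Q w y = 0 := by rw [polar_symm]; exact yw
  have wv : polar Q w v = 0 := by rw [polar_symm]; exact vw
  have wx : polar Q w x = 0 := by rw [polar_symm]; exact xw
  have hcs : Cf Q u s v x := ⟨h.qu, h.qv, h.qx, us, h.uv, h.ux, by rw [polar_symm]; exact vs,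
    by rw [polar_symm]; exact xs, h.vx⟩
  have e1 := z_move S hπ hcs (nn S u w y * nn S u w s) (u' := u) (y' := y + s) (v' := v) (x' := x)
    (by
      rw [om_mul_apply, nn_u S hp us ws hsq, map_smul, nn_w S hp h.uy wy hy, hs1, hy1]
      match_scalars; simp)
    (by
      have hl := nn_line S hp us ws hsq 1
      rw [one_smul] at hl
      rw [om_mul_apply, hl, map_smul, nn_perp S hp h.uy wy hy us ws, hy1, hys, hm1]
      match_scalars <;> simp [hm1])
    (by
      rw [om_mul_apply, nn_perp S hp us ws hsq h.uv wv, hcs.yv, mul_zero, zero_smul, sub_zero,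
        nn_perp S hp h.uy wy hy h.uv wv, h.yv, mul_zero, zero_smul, sub_zero])
    (by
      rw [om_mul_apply, nn_perp S hp us ws hsq h.ux wx, hcs.yx, mul_zero, zero_smul, sub_zero,
        nn_perp S hp h.uy wy hy h.ux wx, h.yx, mul_zero, zero_smul, sub_zero])
  rw [z_add S hπ h hcs] at e1
  exact mul_eq_right.mp e1

/-- the hypothesis on the field and the dimension -/
def Cond (Q : QuadraticForm F V) : Prop :=
  9 ≤ Module.finrank F V ∨ 4 ≤ Nat.card F ∨ (8 ≤ Module.finrank F V ∧ (Nat.card F = 3 ∨
    ∀ M : Submodule F V, (∀ x ∈ M, Q x = 0) → Module.finrank F M ≠ 4))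

/-- lifts of fully orthogonal Siegel elements commute, if one of them is long -/
theorem c1 [Finite F] (hC : Cond Q) {u y v x : V} (h : Cf Q u y v x) : hπ.z (sg S u y) (sg S v x) = 1 := by
  have := S.fd
  have hdim := S.dim
  by_cases hd : 2 * Module.finrank F (Submodule.span F (Set.range ![u, y, v, x])) < Module.finrank F V
  · exact c1_of_dim S hπ h hd
  have h4 := finrank_span4 (F := F) u y v x
  have h9 : ¬ 9 ≤ Module.finrank F V := by omega
  have h3 : 3 < Module.finrank F (Submodule.span F (Set.range ![u, y, v, x])) := by omega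
  have hli : LinearIndependent F ![u, y, v, x] := by
    rw [linearIndependent_iff_card_eq_finrank_span, Set.finrank]
    simp only [Fintype.card_fin]
    omega
  by_cases hF4 : 4 ≤ Nat.card F
  · obtain ⟨l, hl, hl1⟩ := exists_sq_ne hF4
    by_cases hy : Q y = 0
    · exact torus_two S hπ h hy hl hl1 hli
    · exact torus_one S hπ h hy hl hl1 h3
  have h8 : 8 ≤ Module.finrank F V ∧ (Nat.card F = 3 ∨
    ∀ M : Submodule F V, (∀ x ∈ M, Q x = 0) → Module.finrank F M ≠ 4) := by
    rcases hC with hC | hC | hC
    · exact absurd hC h9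
    · exact absurd hC hF4
    · exact hC
  obtain ⟨K, hK, hK'⟩ := exists_perp_space Q (Submodule.span F (Set.range ![u, y, v, x]))
  by_cases hKD : K ≤ Submodule.span F (Set.range ![u, y, v, x])
  swap
  · obtain ⟨a, ha, ha'⟩ := Set.not_subset.mp hKD
    have h1 := hK a ha
    exact c1_direct S hπ h (h1 _ (Submodule.subset_span ⟨0, rfl⟩)) (h1 _ (Submodule.subset_span ⟨1, rfl⟩))
      (h1 _ (Submodule.subset_span ⟨2, rfl⟩)) (h1 _ (Submodule.subset_span ⟨3, rfl⟩)) ha'
  have hKeq : K = Submodule.span F (Set.range ![u, y, v, x]) :=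
    Submodule.eq_of_le_of_finrank_le hKD (by omega)
  have hyy : polar Q y y = 0 := by
    apply hK y
    · rw [hKeq]; exact Submodule.subset_span ⟨1, rfl⟩
    · exact Submodule.subset_span ⟨1, rfl⟩
  have h2y : (2 : F) * Q y = 0 := by
    rw [QuadraticMap.polar_self] at hyy
    simpa using hyy
  have := Fintype.ofFinite F
  have hFc : Nat.card F = Fintype.card F := Nat.card_eq_fintype_card
  have h1F : 1 < Nat.card F := Finite.one_lt_card
  by_cases hF3 : Nat.card F = 3
  · have h30 : (3 : F) = 0 := by
      have := FiniteField.cast_card_eq_zero F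
      rw [← hFc, hF3] at this
      exact_mod_cast this
    have h20 : (2 : F) ≠ 0 := by
      intro h2
      have : (1 : F) = 3 - 2 := by norm_num
      rw [h30, h2, sub_zero] at this
      exact one_ne_zero this
    exact antisymm S hπ h ((mul_eq_zero.mp h2y).resolve_left h20) h30 hli
  · have hF2 : Nat.card F = 2 := by omega
    have hF : ∀ a : F, a = 0 ∨ a = 1 := by
      intro a
      by_contra hc
      push Not at hc
      classical
      have h5 : ({0, 1, a} : Finset F).card = 3 := Finset.card_eq_three.mpr
        ⟨0, 1, a, zero_ne_one, (Ne.symm hc.1), (Ne.symm hc.2), rfl⟩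
      have h6 : ({0, 1, a} : Finset F).card ≤ Fintype.card F := Finset.card_le_univ _
      omega
    have hno := h8.2.resolve_left hF3
    by_cases hy : Q y = 0
    · exfalso
      have hfin : Module.finrank F (Submodule.span F (Set.range ![u, y, v, x])) = 4 := by
        rw [finrank_span_eq_card hli]; simp
      apply hno _ _ hfin
      have vu := (by rw [polar_symm]; exact h.uv : polar Q v u = 0)
      have xu := (by rw [polar_symm]; exact h.ux : polar Q x u = 0)
      have yu := (by rw [polar_symm]; exact h.uy : polar Q y u = 0)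
      have vy := (by rw [polar_symm]; exact h.yv : polar Q v y = 0)
      have xy := (by rw [polar_symm]; exact h.yx : polar Q x y = 0)
      have xv := (by rw [polar_symm]; exact h.vx : polar Q x v = 0)
      apply ts_span
      · intro i; fin_cases i
        · exact h.qu
        · exact hy
        · exact h.qv
        · exact h.qx
      · intro i j
        fin_cases i <;> fin_cases j
        · exact polar_self_zero h.qu
        · exact h.uy
        · exact h.uv
        · exact h.ux
        · exact yu
        · exact polar_self_zero hy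
        · exact h.yv
        · exact h.yx
        · exact vu
        · exact vy
        · exact polar_self_zero h.qv
        · exact h.vx
        · exact xu
        · exact xy
        · exact xv
        · exact polar_self_zero h.qx
    · exact two_case S hπ hF hno h hy hli

end H40.Sieg
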