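import Mathlib
import Cfsg.Agent.Lib.H40.Sieg4

/-!
The canonical lifts `R u v` of the long root elements.
-/
set_option autoImplicit false
set_option linter.unusedSimpArgs false

namespace H40.Sieg

open H7.Hyp QuadraticMap H17.OrthSiegel H50.OrthE H40.Ext
open scoped commutatorElement

variable {F : Type*} [Field F] {V : Type*} [AddCommGroup V] [Module F V] {Q : QuadraticForm F V}

/-! ### existence -/

def HT (Q : QuadraticForm F V) : Prop := ∃ T : Submodule F V, (∀ x ∈ T, Q x = 0) ∧ 3 ≤ Module.finrank F T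

theorem exists_ts2 [FiniteDimensional F V] (hT : HT Q) {u v : V} (hu : Q u = 0) (hv : Q v = 0) (huv : polar Q u v = 0) :
    ∃ T : Submodule F V, (∀ x ∈ T, Q x = 0) ∧ u ∈ T ∧ v ∈ T ∧ 3 ≤ Module.finrank F T := by
  obtain ⟨T, hT, h3⟩ := hT
  obtain ⟨T1, h1, h2, h4, h5⟩ := H50.OrthPoint.ts_step hT hu
  obtain ⟨T2, k1, k2, k4, k5⟩ := H50.OrthPoint.ts_step h1 hv
  exact ⟨T2, k1, k5 u h2 (by rw [polar_symm]; exact huv), k2, by omega⟩

theorem finrank_span2 (a b : V) : Module.finrank F (Submodule.span F (Set.range ![a, b])) ≤ 2 := by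
  have := finrank_range_le_card (R := F) ![a, b]
  simpa [Set.finrank] using this

theorem fd_span {k : ℕ} (s : Fin k → V) : FiniteDimensional F (Submodule.span F (Set.range s)) :=
  FiniteDimensional.span_of_finite F (Set.finite_range _)

/-- a totally singular vector outside the span of two given ones -/
theorem exists_third [FiniteDimensional F V] (hT : HT Q) {u v : V} (hu : Q u = 0) (hv : Q v = 0) (huv : polar Q u v = 0) :
    ∃ e, Q e = 0 ∧ polar Q u e = 0 ∧ polar Q v e = 0 ∧ e ∉ Submodule.span F (Set.range ![u, v]) := by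
  obtain ⟨T, hT, h1, h2, h3⟩ := exists_ts2 hT hu hv huv
  have h4 := finrank_span2 (F := F) u v
  have h5 : ¬ T ≤ Submodule.span F (Set.range ![u, v]) := by
    intro hc
    have := Submodule.finrank_mono hc
    omega
  obtain ⟨e, he, he'⟩ := Set.not_subset.mp h5
  exact ⟨e, hT e he, H50.OrthPoint.polar_ts hT h1 he, H50.OrthPoint.polar_ts hT h2 he, he'⟩

theorem exists_hp2 [FiniteDimensional F V] (hQ : ND Q) (hT : HT Q) {u v : V} (hu : Q u = 0) (hv : Q v = 0) (huv : polar Q u v = 0) :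
    ∃ e f, HP Q e f ∧ polar Q u e = 0 ∧ polar Q u f = 0 ∧ polar Q v e = 0 ∧ polar Q v f = 0 := by
  obtain ⟨e, he, ue, ve, hn⟩ := exists_third hT hu hv huv
  obtain ⟨f, hf, h1, h2⟩ := exists_partner hQ ![u, v] he (fun i => by
    fin_cases i
    · exact ue
    · exact ve) hn
  exact ⟨e, f, ⟨he, hf, h2⟩, ue, h1 0, ve, h1 1⟩

theorem exists_conf [FiniteDimensional F V] (hQ : ND Q) (hd : 7 ≤ Module.finrank F V) (hT : HT Q) {u v : V} (hu : Q u = 0) (hv : Q v = 0) (huv : polar Q u v = 0) :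
    ∃ e f s s', HP Q e f ∧ (polar Q u e = 0 ∧ polar Q u f = 0 ∧ polar Q v e = 0 ∧ polar Q v f = 0) ∧
      polar Q s s' = 1 ∧ (polar Q u s = 0 ∧ polar Q v s = 0 ∧ polar Q e s = 0 ∧ polar Q f s = 0) ∧
      (polar Q u s' = 0 ∧ polar Q v s' = 0 ∧ polar Q e s' = 0 ∧ polar Q f s' = 0) := by
  obtain ⟨e, f, hp, ue, uf, ve, vf⟩ := exists_hp2 hQ hT hu hv huv
  obtain ⟨K, hK, hK'⟩ := exists_perp_space Q (Submodule.span F (Set.range ![u, v, e, f]))
  have h4 := finrank_span4 (F := F) u v e f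
  have h2 := finrank_span2 (F := F) u v
  have h5 : ¬ K ≤ Submodule.span F (Set.range ![u, v]) := by
    intro hc
    have := Submodule.finrank_mono hc
    omega
  obtain ⟨s, hs, hs'⟩ := Set.not_subset.mp h5
  have h1 := hK s hs
  have us : polar Q u s = 0 := h1 _ (Submodule.subset_span ⟨0, rfl⟩)
  have vs : polar Q v s = 0 := h1 _ (Submodule.subset_span ⟨1, rfl⟩)
  have es : polar Q e s = 0 := h1 _ (Submodule.subset_span ⟨2, rfl⟩)
  have fs : polar Q f s = 0 := h1 _ (Submodule.subset_span ⟨3, rfl⟩)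
  have hn : s ∉ Submodule.span F (Set.range ![u, v, e, f]) := by
    intro h
    rw [Submodule.mem_span_range_iff_exists_fun] at h
    obtain ⟨r, hr⟩ := h
    rw [Fin.sum_univ_four] at hr
    simp only [Matrix.cons_val_zero, Matrix.cons_val_one, Matrix.cons_val] at hr
    apply hs'
    change s ∈ Submodule.span F (Set.range ![u, v])
    rw [Submodule.mem_span_range_iff_exists_fun]
    refine ⟨![r 0, r 1], ?_⟩
    rw [Fin.sum_univ_two]
    simp only [Matrix.cons_val_zero, Matrix.cons_val_one, Matrix.cons_val]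
    have e1 : polar Q f (r 0 • u + r 1 • v + r 2 • e + r 3 • f) = 0 := by rw [hr, fs]
    have e2 : polar Q e (r 0 • u + r 1 • v + r 2 • e + r 3 • f) = 0 := by rw [hr, es]
    simp only [QuadraticMap.polar_add_right, QuadraticMap.polar_smul_right, polar_symm f u, polar_symm f v, uf, vf, hp.wu,
      hp.ww, smul_eq_mul, mul_zero, mul_one, zero_add, add_zero] at e1
    simp only [QuadraticMap.polar_add_right, QuadraticMap.polar_smul_right, polar_symm e u, polar_symm e v, ue, ve, hp.uw,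
      hp.uu, smul_eq_mul, mul_zero, mul_one, zero_add, add_zero] at e2
    rw [← hr, e1, e2]
    module
  obtain ⟨s', hss, hs1⟩ := exists_orth hQ _ hn
  exact ⟨e, f, s, s', hp, ⟨ue, uf, ve, vf⟩, hs1, ⟨us, vs, es, fs⟩, hss _ (Submodule.subset_span ⟨0, rfl⟩),
    hss _ (Submodule.subset_span ⟨1, rfl⟩), hss _ (Submodule.subset_span ⟨2, rfl⟩), hss _ (Submodule.subset_span ⟨3, rfl⟩)⟩

/-! ### biadditive maps which vanish on orthogonal pairs -/

structure Bil (Q : QuadraticForm F V) {E : Type*} [Group E] (P : Submodule F V) (β : V → V → E) : Prop where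
  addl : ∀ y₁ ∈ P, ∀ y₂ ∈ P, ∀ y' ∈ P, β (y₁ + y₂) y' = β y₁ y' * β y₂ y'
  addr : ∀ y ∈ P, ∀ y₁ ∈ P, ∀ y₂ ∈ P, β y (y₁ + y₂) = β y y₁ * β y y₂
  van : ∀ y ∈ P, ∀ y' ∈ P, polar Q y y' = 0 → (Q y = 0 ∨ Q y' = 0) → β y y' = 1

namespace Bil

variable {E : Type*} [Group E] {P : Submodule F V} {β : V → V → E} (hB : Bil Q P β)
include hB

theorem neg_left {y y' : V} (hy : y ∈ P) (hy' : y' ∈ P) : β (-y) y' = (β y y')⁻¹ := by
  have h1 := hB.addl (-y) (P.neg_mem hy) y hy y' hy'
  rw [neg_add_cancel] at h1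
  rw [eq_inv_iff_mul_eq_one, ← h1]
  exact hB.van 0 P.zero_mem y' hy' (QuadraticMap.polar_zero_left _ _) (Or.inl (by simp))

theorem neg_right {y y' : V} (hy : y ∈ P) (hy' : y' ∈ P) : β y (-y') = (β y y')⁻¹ := by
  have h1 := hB.addr y hy (-y') (P.neg_mem hy') y' hy'
  rw [neg_add_cancel] at h1
  rw [eq_inv_iff_mul_eq_one, ← h1]
  exact hB.van y hy 0 P.zero_mem (QuadraticMap.polar_zero_right _ _) (Or.inr (by simp))

theorem l1 {e f s s' : V} (hp : HP Q e f) (he : e ∈ P) (hf : f ∈ P) (hs : s ∈ P) (hs' : s' ∈ P) (es : polar Q e s = 0)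
    (fs : polar Q f s = 0) (es' : polar Q e s' = 0) (fs' : polar Q f s' = 0) :
    β s s' = β f (polar Q s s' • e) ∧ β s' s = β (polar Q s s' • e) f := by
  have m1 : -(Q s • e) ∈ P := P.neg_mem (P.smul_mem _ he)
  have m2 : polar Q s s' • e ∈ P := P.smul_mem _ he
  have m2' := P.neg_mem m2
  have se : polar Q s e = 0 := by rw [polar_symm]; exact es
  have s'e : polar Q s' e = 0 := by rw [polar_symm]; exact es'
  have s'f : polar Q s' f = 0 := by rw [polar_symm]; exact fs'
  have q1 : Q (f + s + -(Q s • e)) = 0 := by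
    rw [Q_add, Q_add, hp.qw, QuadraticMap.map_neg, Q_smul, hp.qu, fs, QuadraticMap.polar_add_left,
      QuadraticMap.polar_neg_right, QuadraticMap.polar_neg_right, QuadraticMap.polar_smul_right,
      QuadraticMap.polar_smul_right, hp.wu, se]
    simp
  have q2 : polar Q (f + s + -(Q s • e)) (s' + -(polar Q s s' • e)) = 0 := by
    simp only [QuadraticMap.polar_add_left, QuadraticMap.polar_add_right, QuadraticMap.polar_neg_left,
      QuadraticMap.polar_neg_right, QuadraticMap.polar_smul_left, QuadraticMap.polar_smul_right, hp.wu, hp.uu, fs', se, es',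
      smul_eq_mul]
    ring
  have mm : f + s ∈ P := P.add_mem hf hs
  constructor
  · have h1 := hB.van _ (P.add_mem mm m1) _ (P.add_mem hs' m2') q2 (Or.inl q1)
    rw [hB.addl _ mm _ m1 _ (P.add_mem hs' m2'), hB.addl _ hf _ hs _ (P.add_mem hs' m2'), hB.addr _ hf _ hs' _ m2',
      hB.addr _ hs _ hs' _ m2', hB.addr _ m1 _ hs' _ m2'] at h1
    rw [hB.van f hf s' hs' fs' (Or.inl hp.qw), one_mul,
      hB.van s hs (-(polar Q s s' • e)) m2' (by
        rw [QuadraticMap.polar_neg_right, QuadraticMap.polar_smul_right, se, smul_zero, neg_zero]) (Or.inr (by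
        rw [QuadraticMap.map_neg, Q_smul, hp.qu, mul_zero])), mul_one,
      hB.van _ m1 s' hs' (by
        rw [QuadraticMap.polar_neg_left, QuadraticMap.polar_smul_left, es', smul_zero, neg_zero]) (Or.inl (by
        rw [QuadraticMap.map_neg, Q_smul, hp.qu, mul_zero])), one_mul,
      hB.van _ m1 _ m2' (by
        rw [QuadraticMap.polar_neg_left, QuadraticMap.polar_neg_right, QuadraticMap.polar_smul_left,
          QuadraticMap.polar_smul_right, hp.uu]; simp) (Or.inl (by
        rw [QuadraticMap.map_neg, Q_smul, hp.qu, mul_zero])), mul_one, hB.neg_right hf m2, inv_mul_eq_one] at h1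
    exact h1.symm
  · have h1 := hB.van _ (P.add_mem hs' m2') _ (P.add_mem mm m1) (by rw [polar_symm]; exact q2) (Or.inr q1)
    rw [hB.addl _ hs' _ m2' _ (P.add_mem mm m1), hB.addr _ hs' _ mm _ m1, hB.addr _ hs' _ hf _ hs,
      hB.addr _ m2' _ mm _ m1, hB.addr _ m2' _ hf _ hs] at h1
    rw [hB.van s' hs' f hf s'f (Or.inr hp.qw), one_mul,
      hB.van s' hs' _ m1 (by
        rw [QuadraticMap.polar_neg_right, QuadraticMap.polar_smul_right, s'e, smul_zero, neg_zero]) (Or.inr (by
        rw [QuadraticMap.map_neg, Q_smul, hp.qu, mul_zero])), mul_one,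
      hB.van _ m2' s hs (by
        rw [QuadraticMap.polar_neg_left, QuadraticMap.polar_smul_left, es, smul_zero, neg_zero]) (Or.inl (by
        rw [QuadraticMap.map_neg, Q_smul, hp.qu, mul_zero])), mul_one,
      hB.van _ m2' _ m1 (by
        rw [QuadraticMap.polar_neg_left, QuadraticMap.polar_neg_right, QuadraticMap.polar_smul_left,
          QuadraticMap.polar_smul_right, hp.uu]; simp) (Or.inl (by
        rw [QuadraticMap.map_neg, Q_smul, hp.qu, mul_zero])), mul_one, hB.neg_left m2 hf, mul_inv_eq_one] at h1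
    exact h1

theorem eq {e f s s' : V} (hp : HP Q e f) (he : e ∈ P) (hf : f ∈ P) (hs : s ∈ P) (hs' : s' ∈ P) (es : polar Q e s = 0)
    (fs : polar Q f s = 0) (es' : polar Q e s' = 0) (fs' : polar Q f s' = 0) (hss : polar Q s s' = 1) :
    ∀ y ∈ P, ∀ y' ∈ P, β y y' = β (polar Q y y' • e) f := by
  -- values on multiples
  have k0 : ∀ t : F, β s (t • s') = β f (t • e) ∧ β (t • s') s = β (t • e) f := by
    intro t
    have h := hB.l1 hp he hf hs (P.smul_mem t hs') es fs (by rw [QuadraticMap.polar_smul_right, es', smul_zero])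
      (by rw [QuadraticMap.polar_smul_right, fs', smul_zero])
    rwa [QuadraticMap.polar_smul_right, hss, smul_eq_mul, mul_one] at h
  have k0' : ∀ t : F, β (t • s') s = β f (t • e) ∧ β s (t • s') = β (t • e) f := by
    intro t
    have h := hB.l1 hp he hf (P.smul_mem t hs') hs (by rw [QuadraticMap.polar_smul_right, es', smul_zero])
      (by rw [QuadraticMap.polar_smul_right, fs', smul_zero]) es fs
    rwa [QuadraticMap.polar_smul_left, polar_symm s' s, hss, smul_eq_mul, mul_one] at h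
  have k1 : ∀ t : F, β f (t • e) = β (t • e) f := fun t => by rw [← (k0 t).1, (k0' t).2]
  have k2 : ∀ a b : F, β (a • e) (b • f) = β ((a * b) • e) f ∧ β (b • f) (a • e) = β ((a * b) • e) f := by
    intro a b
    by_cases hb : b = 0
    · subst hb
      rw [mul_zero, zero_smul, zero_smul]
      have z1 := hB.van (a • e) (P.smul_mem a he) 0 P.zero_mem (QuadraticMap.polar_zero_right _ _) (Or.inr (by simp))
      have z2 := hB.van 0 P.zero_mem (a • e) (P.smul_mem a he) (QuadraticMap.polar_zero_left _ _) (Or.inl (by simp))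
      have z3 := hB.van 0 P.zero_mem f hf (QuadraticMap.polar_zero_left _ _) (Or.inl (by simp))
      rw [z1, z2, z3]; exact ⟨rfl, rfl⟩
    · have hp' : HP Q (b⁻¹ • e) (b • f) := ⟨by rw [Q_smul, hp.qu, mul_zero], by rw [Q_smul, hp.qw, mul_zero], by
        rw [QuadraticMap.polar_smul_left, QuadraticMap.polar_smul_right, hp.uw]
        simp [hb]⟩
      have h := hB.l1 hp' (P.smul_mem _ he) (P.smul_mem _ hf) hs (P.smul_mem (a * b) hs')
        (by rw [QuadraticMap.polar_smul_left, es, smul_zero])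
        (by rw [QuadraticMap.polar_smul_left, fs, smul_zero])
        (by rw [QuadraticMap.polar_smul_left, QuadraticMap.polar_smul_right, es', smul_zero, smul_zero])
        (by rw [QuadraticMap.polar_smul_left, QuadraticMap.polar_smul_right, fs', smul_zero, smul_zero])
      rw [QuadraticMap.polar_smul_right, hss, smul_eq_mul, mul_one, smul_smul, mul_assoc, mul_inv_cancel₀ hb, mul_one] at h
      exact ⟨by rw [← h.2, (k0 _).2], by rw [← h.1, (k0' _).2]⟩
  have k3 : ∀ σ ∈ P, ∀ σ' ∈ P, polar Q e σ = 0 → polar Q f σ = 0 → polar Q e σ' = 0 → polar Q f σ' = 0 →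
      β σ σ' = β (polar Q σ σ' • e) f := by
    intro σ hσ σ' hσ' h1 h2 h3 h4
    rw [(hB.l1 hp he hf hσ hσ' h1 h2 h3 h4).1, k1]
  have kadd : ∀ a b : F, β ((a + b) • e) f = β (a • e) f * β (b • e) f := by
    intro a b
    rw [add_smul, hB.addl _ (P.smul_mem _ he) _ (P.smul_mem _ he) _ hf]
  intro y hy y' hy'
  obtain ⟨a, ha⟩ : ∃ a, a = polar Q y f := ⟨_, rfl⟩
  obtain ⟨b, hb⟩ : ∃ b, b = polar Q y e := ⟨_, rfl⟩
  obtain ⟨a', ha'⟩ : ∃ a', a' = polar Q y' f := ⟨_, rfl⟩
  obtain ⟨b', hb'⟩ : ∃ b', b' = polar Q y' e := ⟨_, rfl⟩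
  obtain ⟨σ, hσ⟩ : ∃ σ, σ = y - a • e - b • f := ⟨_, rfl⟩
  obtain ⟨σ', hσ'⟩ : ∃ σ', σ' = y' - a' • e - b' • f := ⟨_, rfl⟩
  have mσ : σ ∈ P := by rw [hσ]; exact P.sub_mem (P.sub_mem hy (P.smul_mem _ he)) (P.smul_mem _ hf)
  have mσ' : σ' ∈ P := by rw [hσ']; exact P.sub_mem (P.sub_mem hy' (P.smul_mem _ he)) (P.smul_mem _ hf)
  have eσ : polar Q e σ = 0 := by
    rw [hσ]
    simp only [QuadraticMap.polar_sub_right, QuadraticMap.polar_smul_right, hp.uu, hp.uw, smul_eq_mul, hb, polar_symm e y]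
    ring
  have fσ : polar Q f σ = 0 := by
    rw [hσ]
    simp only [QuadraticMap.polar_sub_right, QuadraticMap.polar_smul_right, hp.wu, hp.ww, smul_eq_mul, ha, polar_symm f y]
    ring
  have eσ' : polar Q e σ' = 0 := by
    rw [hσ']
    simp only [QuadraticMap.polar_sub_right, QuadraticMap.polar_smul_right, hp.uu, hp.uw, smul_eq_mul, hb', polar_symm e y']
    ring
  have fσ' : polar Q f σ' = 0 := by
    rw [hσ']
    simp only [QuadraticMap.polar_sub_right, QuadraticMap.polar_smul_right, hp.wu, hp.ww, smul_eq_mul, ha', polar_symm f y']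
    ring
  have y1 : y = a • e + b • f + σ := by rw [hσ]; module
  have y2 : y' = a' • e + b' • f + σ' := by rw [hσ']; module
  have mae := P.smul_mem a he
  have mbf := P.smul_mem b hf
  have mae' := P.smul_mem a' he
  have mbf' := P.smul_mem b' hf
  have my' : a' • e + b' • f + σ' ∈ P := y2 ▸ hy'
  have σe : polar Q σ e = 0 := by rw [polar_symm]; exact eσ
  have σf : polar Q σ f = 0 := by rw [polar_symm]; exact fσ
  have ex : ∀ z ∈ P, β z (a' • e + b' • f + σ') = β z (a' • e) * β z (b' • f) * β z σ' := fun z hz => by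
    rw [hB.addr z hz _ (P.add_mem mae' mbf') _ mσ', hB.addr z hz _ mae' _ mbf']
  have hpol : polar Q y y' = a * b' + a' * b + polar Q σ σ' := by
    rw [y1, y2]
    simp only [QuadraticMap.polar_add_left, QuadraticMap.polar_add_right, QuadraticMap.polar_smul_left,
      QuadraticMap.polar_smul_right, hp.uu, hp.uw, hp.wu, hp.ww, eσ', fσ', σe, σf, smul_eq_mul]
    ring
  rw [hpol, kadd, kadd, y1, y2, hB.addl _ (P.add_mem mae mbf) _ mσ _ my', hB.addl _ mae _ mbf _ my', ex _ mae, ex _ mbf, ex _ mσ]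
  rw [(k2 a b').1, (k2 a' b).2, k3 σ mσ σ' mσ' eσ fσ eσ' fσ']
  rw [hB.van _ mae _ mae' (by
      rw [QuadraticMap.polar_smul_left, QuadraticMap.polar_smul_right, hp.uu]; simp) (Or.inl (by rw [Q_smul, hp.qu, mul_zero])),
    hB.van _ mae _ mσ' (by rw [QuadraticMap.polar_smul_left, eσ', smul_zero]) (Or.inl (by rw [Q_smul, hp.qu, mul_zero])),
    hB.van _ mbf _ mbf' (by
      rw [QuadraticMap.polar_smul_left, QuadraticMap.polar_smul_right, hp.ww]; simp) (Or.inl (by rw [Q_smul, hp.qw, mul_zero])),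
    hB.van _ mbf _ mσ' (by rw [QuadraticMap.polar_smul_left, fσ', smul_zero]) (Or.inl (by rw [Q_smul, hp.qw, mul_zero])),
    hB.van _ mσ _ mae' (by rw [QuadraticMap.polar_smul_right, σe, smul_zero]) (Or.inr (by rw [Q_smul, hp.qu, mul_zero])),
    hB.van _ mσ _ mbf' (by rw [QuadraticMap.polar_smul_right, σf, smul_zero]) (Or.inr (by rw [Q_smul, hp.qw, mul_zero]))]
  simp only [one_mul, mul_one]

end Bil

end H40.Sieg
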