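import Mathlib
import Cfsg.Agent.Lib.H40.Sieg5

/-!
The canonical lifts `R u v` of the long root elements.
-/
set_option autoImplicit false
set_option linter.unusedSimpArgs false
set_option linter.unusedSectionVars false

namespace H40.Sieg

open H7.Hyp QuadraticMap H17.OrthSiegel H50.OrthE H40.Ext
open scoped commutatorElement

theorem z_mulr {G E : Type*} [Group G] [Group E] {π : E →* G} (hπ : CE π) {a b b' : G} (h : hπ.z b ⁅a, b'⁆ = 1) :
    hπ.z a (b * b') = hπ.z a b * hπ.z a b' := by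
  have h2 : hπ.z a (b * b') = ⁅lf hπ a, lf hπ b * lf hπ b'⁆ :=
    (hπ.z_of (hπ.π_lf a) (by simp [CE.π_lf])).symm
  have h3 : ⁅lf hπ a, lf hπ b * lf hπ b'⁆ =
      hπ.z a b * (lf hπ b * hπ.z a b' * (lf hπ b)⁻¹) := by
    unfold CE.z
    rw [commutatorElement_def, commutatorElement_def, commutatorElement_def]; simp [mul_assoc]
  have h4 : ⁅lf hπ b, hπ.z a b'⁆ = 1 := by
    rw [hπ.z_of (hπ.π_lf b) (hπ.π_z a b')]; exact h
  rw [commutatorElement_eq_one_iff_mul_comm] at h4
  rw [h2, h3, h4, mul_inv_cancel_right]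

variable {F : Type*} [Field F] {V : Type*} [AddCommGroup V] [Module F V] {Q : QuadraticForm F V}
  {Ω : Subgroup (V ≃ₗ[F] V)} (S : Su Q Ω) {E : Type*} [Group E] {π : E →* Ω} (hπ : CE π)

/-- `u^⊥ ∩ v^⊥` -/
def perp2 (Q : QuadraticForm F V) (u v : V) : Submodule F V where
  carrier := {x | polar Q u x = 0 ∧ polar Q v x = 0}
  add_mem' := by
    rintro a b ⟨h1, h2⟩ ⟨h3, h4⟩
    exact ⟨by rw [QuadraticMap.polar_add_right, h1, h3, add_zero], by rw [QuadraticMap.polar_add_right, h2, h4, add_zero]⟩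
  zero_mem' := ⟨QuadraticMap.polar_zero_right _ _, QuadraticMap.polar_zero_right _ _⟩
  smul_mem' := by
    rintro c a ⟨h1, h2⟩
    exact ⟨by rw [QuadraticMap.polar_smul_right, h1, smul_zero], by rw [QuadraticMap.polar_smul_right, h2, smul_zero]⟩

theorem mem_perp2 {u v x : V} : x ∈ perp2 Q u v ↔ polar Q u x = 0 ∧ polar Q v x = 0 := Iff.rfl

/-- all hypotheses -/
structure Hy (S : Su Q Ω) (hπ : CE π) : Prop where
  T : HT Q
  c1 : ∀ {u y v x : V}, Cf Q u y v x → hπ.z (sg S u y) (sg S v x) = 1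

variable {S hπ} (H : Hy S hπ)
include H

theorem Hy.c1s {u y v x : V} (h : Cf Q v x u y) : hπ.z (sg S u y) (sg S v x) = 1 := by
  rw [← hπ.z_inv, H.c1 h, inv_one]

theorem Hy.addl {u v : V} (hu : Q u = 0) (hv : Q v = 0) (huv : polar Q u v = 0) {y₁ y₂ y' : V} (h1 : y₁ ∈ perp2 Q u v)
    (h2 : y₂ ∈ perp2 Q u v) (h' : y' ∈ perp2 Q u v) :
    hπ.z (sg S u (y₁ + y₂)) (sg S v y') = hπ.z (sg S u y₁) (sg S v y') * hπ.z (sg S u y₂) (sg S v y') := by
  rw [add_comm y₁ y₂, ← sg_mul S hu h2.1 h1.1]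
  apply hπ.z_mul_left'
  rw [comm_sg S hu hv huv h1.1 h'.2 h1.2 h'.1]
  apply H.c1
  exact ⟨hu, hu, by rw [Q_smul, hv, mul_zero], h2.1, polar_self_zero hu,
    by rw [QuadraticMap.polar_smul_right, huv, smul_zero], by rw [polar_symm]; exact h2.1,
    by rw [QuadraticMap.polar_smul_right, polar_symm y₂ v, h2.2, smul_zero],
    by rw [QuadraticMap.polar_smul_right, huv, smul_zero]⟩

theorem Hy.bil {u v : V} (hu : Q u = 0) (hv : Q v = 0) (huv : polar Q u v = 0) :
    Bil Q (perp2 Q u v) (fun y y' => hπ.z (sg S u y) (sg S v y')) where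
  addl y₁ h1 y₂ h2 y' h' := H.addl hu hv huv h1 h2 h'
  addr y hy y₁ h1 y₂ h2 := by
    have := H.addl (u := v) (v := u) hv hu (by rw [polar_symm]; exact huv) (y₁ := y₂) (y₂ := y₁) (y' := y)
      ⟨h2.2, h2.1⟩ ⟨h1.2, h1.1⟩ ⟨hy.2, hy.1⟩
    change hπ.z _ _ = hπ.z _ _ * hπ.z _ _
    rw [← hπ.z_inv, add_comm y₁ y₂, this, mul_inv_rev, hπ.z_inv, hπ.z_inv]
  van y hy y' hy' hyy h := by
    rcases h with h | h
    · exact H.c1s ⟨hv, hu, h, hy'.2, by rw [polar_symm]; exact huv, hy.2, by rw [polar_symm]; exact hy'.1,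
        by rw [polar_symm]; exact hyy, hy.1⟩
    · exact H.c1 ⟨hu, hv, h, hy.1, huv, hy'.1, by rw [polar_symm]; exact hy.2, hyy, hy'.2⟩

/-- the values depend only on the inner product -/
theorem Hy.dep {u v : V} (hu : Q u = 0) (hv : Q v = 0) (huv : polar Q u v = 0) {y y' x x' : V}
    (hy : y ∈ perp2 Q u v) (hy' : y' ∈ perp2 Q u v) (hx : x ∈ perp2 Q u v) (hx' : x' ∈ perp2 Q u v)
    (h : polar Q y y' = polar Q x x') : hπ.z (sg S u y) (sg S v y') = hπ.z (sg S u x) (sg S v x') := by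
  have := S.fd
  obtain ⟨e, f, s, s', hp, ⟨h1, h2, h3, h4⟩, hss, ⟨k1, k2, k3, k4⟩, ⟨l1, l2, l3, l4⟩⟩ :=
    exists_conf S.nd S.dim H.T hu hv huv
  have hB := (H.bil hu hv huv).eq hp ⟨h1, h3⟩ ⟨h2, h4⟩ ⟨k1, k2⟩ ⟨l1, l2⟩ k3 k4 l3 l4 hss
  have e1 := hB y hy y' hy'
  have e2 := hB x hx x' hx'
  rw [h] at e1
  exact e1.trans e2.symm

/-- `λ_u(t)` -/
theorem Hy.lam_eq {u v e f : V} (hu : Q u = 0) (hv : Q v = 0) (huv : polar Q u v = 0) (hp : HP Q e f)
    (ue : polar Q u e = 0) (uf : polar Q u f = 0) (ve : polar Q v e = 0) (vf : polar Q v f = 0)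
    (hn : u ∉ Submodule.span F (Set.range ![v, e, f])) (t : F) :
    hπ.z (sg S (u + v) (t • e)) (sg S (u + v) f) = hπ.z (sg S u (t • e)) (sg S u f) := by
  have := S.fd
  obtain ⟨x, hx, hx1⟩ := exists_orth S.nd _ hn
  have vx : polar Q v x = 0 := hx _ (Submodule.subset_span ⟨0, rfl⟩)
  have ex : polar Q e x = 0 := hx _ (Submodule.subset_span ⟨1, rfl⟩)
  have fx : polar Q f x = 0 := hx _ (Submodule.subset_span ⟨2, rfl⟩)
  have vx' : polar Q v (-x) = 0 := by rw [QuadraticMap.polar_neg_right, vx, neg_zero]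
  have ute : polar Q u (t • e) = 0 := by rw [QuadraticMap.polar_smul_right, ue, smul_zero]
  have a1 : sieLin Q v (-x) u = u + v := by
    rw [sl_apply, polar_symm v u, huv, QuadraticMap.polar_neg_left, polar_symm x u, hx1]
    module
  have a2 : ∀ c : F, sieLin Q v (-x) (c • e) = c • e := fun c => sl_perp
    (by rw [QuadraticMap.polar_smul_right, ve, smul_zero])
    (by rw [QuadraticMap.polar_smul_right, QuadraticMap.polar_neg_left, polar_symm x e, ex]; simp)
  have a3 : sieLin Q v (-x) f = f := sl_perp vf (by rw [QuadraticMap.polar_neg_left, polar_symm x f, fx, neg_zero])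
  have h0 : ⁅sg S u (t • e), sg S u f⁆ = 1 := by
    rw [comm_sg S hu hu (polar_self_zero hu) ute uf ute uf, sg_self S hu]
  rw [← z_equiv hπ (sg S v (-x)) h0, conj_sg S _ hu ute, conj_sg S _ hu uf, sg_apply S hv vx', sg_apply S hv vx',
    sg_apply S hv vx', a1, a2, a3]

theorem Hy.lam_one {u v e f : V} (hu : Q u = 0) (hv : Q v = 0) (huv : polar Q u v = 0) (hp : HP Q e f)
    (ue : polar Q u e = 0) (uf : polar Q u f = 0) (ve : polar Q v e = 0) (vf : polar Q v f = 0)
    (hn : u ∉ Submodule.span F (Set.range ![v, e, f])) (hn' : v ∉ Submodule.span F (Set.range ![u, e, f])) (t : F) :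
    hπ.z (sg S u (t • e)) (sg S u f) = 1 := by
  have e2 := H.lam_eq hv hu (by rw [polar_symm]; exact huv) hp ve vf ue uf hn' t
  rw [add_comm v u] at e2
  have ute : polar Q u (t • e) = 0 := by rw [QuadraticMap.polar_smul_right, ue, smul_zero]
  have vte : polar Q v (t • e) = 0 := by rw [QuadraticMap.polar_smul_right, ve, smul_zero]
  have vu : polar Q v u = 0 := by rw [polar_symm]; exact huv
  have s1 : sg S (u + v) (t • e) = sg S u (t • e) * sg S v (t • e) := by
    rw [sg_add_left S hu hv ute vte huv, Q_smul, hp.qu, mul_zero, neg_zero, zero_smul, sg_zero_right S hu, mul_one]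
  have s2 : sg S (u + v) f = sg S u f * sg S v f := by
    rw [sg_add_left S hu hv uf vf huv, hp.qw, neg_zero, zero_smul, sg_zero_right S hu, mul_one]
  have tef : polar Q (t • e) f = t := by rw [QuadraticMap.polar_smul_left, hp.uw, smul_eq_mul, mul_one]
  -- commutators
  have c1 : ⁅sg S v (t • e), sg S v f⁆ = 1 := by
    rw [comm_sg S hv hv (polar_self_zero hv) vte vf vte vf, sg_self S hv]
  have c2 : ⁅sg S u (t • e), sg S v f⁆ = sg S u (t • v) := by
    rw [comm_sg S hu hv huv ute vf vte uf, tef]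
  have c3 : ⁅sg S v (t • e), sg S u f⁆ = sg S v (t • u) := by
    rw [comm_sg S hv hu vu vte uf ute vf, tef]
  have d1 : hπ.z (sg S v (t • e)) (sg S u f * sg S v f) = hπ.z (sg S v (t • e)) (sg S u f) * hπ.z (sg S v (t • e)) (sg S v f) := by
    apply z_mulr
    rw [c1, hπ.z_one_right]
  have d2 : hπ.z (sg S u (t • e)) (sg S u f * sg S v f) = hπ.z (sg S u (t • e)) (sg S u f) * hπ.z (sg S u (t • e)) (sg S v f) := by
    apply z_mulr
    rw [c2]
    exact H.c1 ⟨hu, hu, by rw [Q_smul, hv, mul_zero], uf, polar_self_zero hu,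
      by rw [QuadraticMap.polar_smul_right, huv, smul_zero], by rw [polar_symm]; exact uf,
      by rw [QuadraticMap.polar_smul_right, polar_symm f v, vf, smul_zero],
      by rw [QuadraticMap.polar_smul_right, huv, smul_zero]⟩
  have d3 : hπ.z (sg S u (t • e) * sg S v (t • e)) (sg S u f * sg S v f) =
      hπ.z (sg S v (t • e)) (sg S u f * sg S v f) * hπ.z (sg S u (t • e)) (sg S u f * sg S v f) := by
    apply hπ.z_mul_left'
    have : ⁅sg S v (t • e), sg S u f * sg S v f⁆ = sg S v (t • u) := by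
      have h0 : ⁅sg S v (t • e), sg S u f * sg S v f⁆ =
          ⁅sg S v (t • e), sg S u f⁆ * (sg S u f * ⁅sg S v (t • e), sg S v f⁆ * (sg S u f)⁻¹) := by
        rw [commutatorElement_def, commutatorElement_def, commutatorElement_def]; simp [mul_assoc]
      rw [h0, c1, c3, mul_one, mul_inv_cancel, mul_one]
    rw [this]
    exact H.c1 ⟨hu, hv, by rw [Q_smul, hu, mul_zero], ute, huv,
      by rw [QuadraticMap.polar_smul_right, polar_self_zero hu, smul_zero], by rw [polar_symm]; exact vte,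
      by rw [QuadraticMap.polar_smul_right, polar_symm (t • e) u, ute, smul_zero],
      by rw [QuadraticMap.polar_smul_right, vu, smul_zero]⟩
  have d4 : hπ.z (sg S v (t • e)) (sg S u f) = (hπ.z (sg S u (t • e)) (sg S v f))⁻¹ := by
    rw [← hπ.z_inv]
    congr 1
    apply H.dep hu hv huv
    · exact ⟨uf, vf⟩
    · exact ⟨ute, vte⟩
    · exact ⟨ute, vte⟩
    · exact ⟨uf, vf⟩
    · rw [polar_symm]
  -- everything together
  have z1 := hπ.z_mem_center (a := sg S u (t • e)) (b := sg S u f) (by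
    rw [comm_sg S hu hu (polar_self_zero hu) ute uf ute uf, sg_self S hu])
  rw [Subgroup.mem_center_iff] at z1
  rw [s1, s2, d3, d1, d2, d4] at e2
  have e3 : (hπ.z (sg S u (t • e)) (sg S v f))⁻¹ * hπ.z (sg S v (t • e)) (sg S v f) *
      (hπ.z (sg S u (t • e)) (sg S u f) * hπ.z (sg S u (t • e)) (sg S v f)) =
      hπ.z (sg S v (t • e)) (sg S v f) * hπ.z (sg S u (t • e)) (sg S u f) := by
    have z2 := hπ.z_mem_center (a := sg S v (t • e)) (b := sg S v f) c1
    rw [Subgroup.mem_center_iff] at z2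
    rw [z2, ← z1]
    group
  rw [e3] at e2
  exact mul_eq_left.mp e2

/-- the lifts of the Siegel elements with the same first argument commute -/
theorem Hy.c2 {u : V} (hu : Q u = 0) {y y' : V} (hy : polar Q u y = 0) (hy' : polar Q u y' = 0) :
    hπ.z (sg S u y) (sg S u y') = 1 := by
  have := S.fd
  by_cases hu0 : u = 0
  · rw [hu0, sg_zero_left, hπ.z_one_left]
  obtain ⟨v, hv, huv, -, hvn⟩ := exists_third H.T hu hu (polar_self_zero hu)
  obtain ⟨e, he, ue, ve, hn⟩ := exists_third H.T hu hv huv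
  obtain ⟨f, hf, h1, h2⟩ := exists_partner S.nd ![u, v] he (fun i => by
    fin_cases i
    · exact ue
    · exact ve) hn
  have uf : polar Q u f = 0 := h1 0
  have vf : polar Q v f = 0 := h1 1
  have hp : HP Q e f := ⟨he, hf, h2⟩
  have key : ∀ u v : V, polar Q u e = 0 → polar Q v e = 0 → polar Q u f = 0 → polar Q v f = 0 → u ∉ Submodule.span F {v} →
      u ∉ Submodule.span F (Set.range ![v, e, f]) := by
    intro u v ue ve uf vf hn h
    rw [Submodule.mem_span_range_iff_exists_fun] at h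
    obtain ⟨r, hr⟩ := h
    rw [Fin.sum_univ_three] at hr
    simp only [Matrix.cons_val_zero, Matrix.cons_val_one, Matrix.cons_val] at hr
    have e1 : polar Q f (r 0 • v + r 1 • e + r 2 • f) = 0 := by rw [hr, polar_symm, uf]
    have e2 : polar Q e (r 0 • v + r 1 • e + r 2 • f) = 0 := by rw [hr, polar_symm, ue]
    simp only [QuadraticMap.polar_add_right, QuadraticMap.polar_smul_right, polar_symm f v, vf, hp.wu,
      hp.ww, smul_eq_mul, mul_zero, mul_one, zero_add, add_zero] at e1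
    simp only [QuadraticMap.polar_add_right, QuadraticMap.polar_smul_right, polar_symm e v, ve, hp.uw,
      hp.uu, smul_eq_mul, mul_zero, mul_one, zero_add, add_zero] at e2
    rw [e1, e2] at hr
    apply hn
    rw [Submodule.mem_span_singleton]
    exact ⟨r 0, by rw [← hr]; module⟩
  have hvn' : v ∉ Submodule.span F {u} := by
    intro h
    apply hvn
    obtain ⟨c, rfl⟩ := Submodule.mem_span_singleton.mp h
    exact Submodule.smul_mem _ _ (Submodule.subset_span ⟨0, rfl⟩)
  have hun' : u ∉ Submodule.span F {v} := by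
    intro h
    obtain ⟨c, rfl⟩ := Submodule.mem_span_singleton.mp h
    have hc : c ≠ 0 := by rintro rfl; simp at hu0
    apply hvn'
    rw [Submodule.mem_span_singleton]
    exact ⟨c⁻¹, by rw [smul_smul, inv_mul_cancel₀ hc, one_smul]⟩
  have h3 := H.lam_one hu hv huv hp ue uf ve vf (key u v ue ve uf vf hun') (key v u ve ue vf uf hvn') (polar Q y y')
  rw [← h3]
  apply H.dep hu hu (polar_self_zero hu)
  · exact ⟨hy, hy⟩
  · exact ⟨hy', hy'⟩
  · have : polar Q u (polar Q y y' • e) = 0 := by rw [QuadraticMap.polar_smul_right, ue, smul_zero]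
    exact ⟨this, this⟩
  · exact ⟨uf, uf⟩
  · rw [QuadraticMap.polar_smul_left, hp.uw, smul_eq_mul, mul_one]

end H40.Sieg
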