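import Mathlib
import Cfsg.Agent.Lib.H40.Sieg6

/-!
The canonical lifts `R u v` of the long root elements and their extension to all Siegel elements.
-/
set_option autoImplicit false
set_option linter.unusedSimpArgs false
set_option linter.unusedSectionVars false
set_option linter.unusedVariables false

namespace H40.Sieg

open H7.Hyp QuadraticMap H17.OrthSiegel H50.OrthE H40.Ext
open scoped commutatorElement

variable {F : Type*} [Field F] {V : Type*} [AddCommGroup V] [Module F V] {Q : QuadraticForm F V}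
  {Ω : Subgroup (V ≃ₗ[F] V)} (S : Su Q Ω) {E : Type*} [Group E] {π : E →* Ω} (hπ : CE π)

variable {S hπ} (H : Hy S hπ)
include H

theorem Hy.exists_yy {u v : V} (hu : Q u = 0) (hv : Q v = 0) (huv : polar Q u v = 0) :
    ∃ p : V × V, (p.1 ∈ perp2 Q u v ∧ p.2 ∈ perp2 Q u v) ∧ polar Q p.1 p.2 = 1 := by
  have := S.fd
  obtain ⟨e, f, hp, h1, h2, h3, h4⟩ := exists_hp2 S.nd H.T hu hv huv
  exact ⟨(e, f), ⟨⟨h1, h3⟩, ⟨h2, h4⟩⟩, hp.uw⟩

/-- the canonical lift of the long root element `sg u v` -/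
noncomputable def Hy.R (u v : V) : E :=
  open Classical in
  if h : Q u = 0 ∧ Q v = 0 ∧ polar Q u v = 0 then
    hπ.z (sg S u (H.exists_yy h.1 h.2.1 h.2.2).choose.1) (sg S v (H.exists_yy h.1 h.2.1 h.2.2).choose.2) else 1

theorem Hy.R_one {u v : V} (hu : Q u = 0) (hv : Q v = 0) (huv : polar Q u v = 0) {y y' : V}
    (hy : y ∈ perp2 Q u v) (hy' : y' ∈ perp2 Q u v) (h : polar Q y y' = 1) :
    H.R u v = hπ.z (sg S u y) (sg S v y') := by
  rw [Hy.R, dif_pos ⟨hu, hv, huv⟩]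
  have hs := (H.exists_yy hu hv huv).choose_spec
  exact H.dep hu hv huv hs.1.1 hs.1.2 hy hy' (by rw [hs.2, h])

theorem Hy.R_zero_right {u : V} (hu : Q u = 0) : H.R u 0 = 1 := by
  obtain ⟨⟨y, y'⟩, ⟨h1, h2⟩, h3⟩ := H.exists_yy hu (v := 0) (by simp) (QuadraticMap.polar_zero_right _ _)
  rw [H.R_one hu (by simp) (QuadraticMap.polar_zero_right _ _) h1 h2 h3, sg_zero_left, hπ.z_one_right]

theorem Hy.R_spec {u v : V} (hu : Q u = 0) (hv : Q v = 0) (huv : polar Q u v = 0) {y y' : V}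
    (hy : y ∈ perp2 Q u v) (hy' : y' ∈ perp2 Q u v) :
    hπ.z (sg S u y) (sg S v y') = H.R u (polar Q y y' • v) := by
  obtain ⟨t, ht⟩ : ∃ t, t = polar Q y y' := ⟨_, rfl⟩
  rw [← ht]
  by_cases h0 : t = 0
  · rw [h0, zero_smul, H.R_zero_right hu]
    have h1 : (0 : V) ∈ perp2 Q u v := Submodule.zero_mem _
    rw [H.dep hu hv huv hy hy' h1 h1 (by rw [← ht, h0, QuadraticMap.polar_zero_right]), sg_zero_right S hu, hπ.z_one_left]
  · have hy2 : t⁻¹ • y' ∈ perp2 Q u v := Submodule.smul_mem _ _ hy'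
    have htv : Q (t • v) = 0 := by rw [Q_smul, hv, mul_zero]
    have hutv : polar Q u (t • v) = 0 := by rw [QuadraticMap.polar_smul_right, huv, smul_zero]
    rw [H.R_one hu htv hutv (y := y) (y' := t⁻¹ • y')
      ⟨hy.1, by rw [QuadraticMap.polar_smul_left, hy.2, smul_zero]⟩
      ⟨hy2.1, by rw [QuadraticMap.polar_smul_left, hy2.2, smul_zero]⟩
      (by rw [QuadraticMap.polar_smul_right, ← ht, smul_eq_mul, inv_mul_cancel₀ h0]),
      sg_smul_left S hv hy2.2, smul_smul, mul_inv_cancel₀ h0, one_smul]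

theorem Hy.π_R {u v : V} (hu : Q u = 0) (hv : Q v = 0) (huv : polar Q u v = 0) : π (H.R u v) = sg S u v := by
  obtain ⟨⟨y, y'⟩, ⟨h1, h2⟩, h3⟩ := H.exists_yy hu hv huv
  rw [H.R_one hu hv huv h1 h2 h3, hπ.π_z, comm_sg S hu hv huv h1.1 h2.2 h1.2 h2.1]
  rw [show polar Q y y' = 1 from h3, one_smul]

theorem Hy.R_conj {u v : V} (hu : Q u = 0) (hv : Q v = 0) (huv : polar Q u v = 0) (e : E) :
    e * H.R u v * e⁻¹ = H.R ((π e : V ≃ₗ[F] V) u) ((π e : V ≃ₗ[F] V) v) := by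
  obtain ⟨⟨y, y'⟩, ⟨h1, h2⟩, h3⟩ := H.exists_yy hu hv huv
  rw [H.R_one hu hv huv h1 h2 h3, hπ.z_conj, conj_sg S _ hu h1.1, conj_sg S _ hv h2.2,
    H.R_one (by rw [om_Q S, hu]) (by rw [om_Q S, hv]) (by rw [om_polar S, huv])
      (y := (π e : V ≃ₗ[F] V) y) (y' := (π e : V ≃ₗ[F] V) y')
      ⟨by rw [om_polar S, h1.1], by rw [om_polar S, h1.2]⟩ ⟨by rw [om_polar S, h2.1], by rw [om_polar S, h2.2]⟩
      (by rw [om_polar S]; exact h3)]

theorem Hy.R_self {u : V} (hu : Q u = 0) (c : F) : H.R u (c • u) = 1 := by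
  have hcu : Q (c • u) = 0 := by rw [Q_smul, hu, mul_zero]
  have hucu : polar Q u (c • u) = 0 := by rw [QuadraticMap.polar_smul_right, polar_self_zero hu, smul_zero]
  obtain ⟨⟨y, y'⟩, ⟨h1, h2⟩, h3⟩ := H.exists_yy hu hcu hucu
  rw [H.R_one hu hcu hucu h1 h2 h3, sg_smul_left S hu h2.1]
  exact H.c2 hu h1.1 (by rw [QuadraticMap.polar_smul_right, h2.1, smul_zero])

theorem Hy.R_smul {u v : V} (hu : Q u = 0) (hv : Q v = 0) (huv : polar Q u v = 0) (c : F) :
    H.R (c • u) v = H.R u (c • v) := by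
  have hcu : Q (c • u) = 0 := by rw [Q_smul, hu, mul_zero]
  have hcuv : polar Q (c • u) v = 0 := by rw [QuadraticMap.polar_smul_left, huv, smul_zero]
  obtain ⟨⟨y, y'⟩, ⟨h1, h2⟩, h3⟩ := H.exists_yy hu hv huv
  have h3' : polar Q y y' = 1 := h3
  rw [H.R_one hcu hv hcuv (y := y) (y' := y') ⟨by rw [QuadraticMap.polar_smul_left, h1.1, smul_zero], h1.2⟩
    ⟨by rw [QuadraticMap.polar_smul_left, h2.1, smul_zero], h2.2⟩ h3, sg_smul_left S hu h1.1,
    H.R_spec hu hv huv (Submodule.smul_mem _ c h1) h2, QuadraticMap.polar_smul_left, h3', smul_eq_mul, mul_one]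

theorem Hy.R_inv {u v : V} (hu : Q u = 0) (hv : Q v = 0) (huv : polar Q u v = 0) :
    (H.R u v)⁻¹ = H.R v u := by
  have hvu : polar Q v u = 0 := by rw [polar_symm]; exact huv
  obtain ⟨⟨y, y'⟩, ⟨h1, h2⟩, h3⟩ := H.exists_yy hu hv huv
  have h3' : polar Q y y' = 1 := h3
  rw [H.R_one hu hv huv h1 h2 h3, hπ.z_inv, H.R_one hv hu hvu (y := y') (y' := y) ⟨h2.2, h2.1⟩ ⟨h1.2, h1.1⟩
    (by rw [polar_symm]; exact h3')]

theorem Hy.R_add {u v v' : V} (hu : Q u = 0) (hv : Q v = 0) (hv' : Q v' = 0) (huv : polar Q u v = 0)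
    (huv' : polar Q u v' = 0) (hvv : polar Q v v' = 0) : H.R u (v + v') = H.R u v * H.R u v' := by
  have := S.fd
  have hdim := S.dim
  have h3 := finrank_span3 (F := F) u v v'
  obtain ⟨y, hy, hyn⟩ := exists_perp_not_mem Q (Submodule.span F (Set.range ![u, v, v'])) (by omega)
  obtain ⟨y', hy', hyy⟩ := exists_orth S.nd _ hyn
  have a0 : polar Q u y = 0 := hy _ (Submodule.subset_span ⟨0, rfl⟩)
  have a1 : polar Q v y = 0 := hy _ (Submodule.subset_span ⟨1, rfl⟩)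
  have a2 : polar Q v' y = 0 := hy _ (Submodule.subset_span ⟨2, rfl⟩)
  have b0 : polar Q u y' = 0 := hy' _ (Submodule.subset_span ⟨0, rfl⟩)
  have b1 : polar Q v y' = 0 := hy' _ (Submodule.subset_span ⟨1, rfl⟩)
  have b2 : polar Q v' y' = 0 := hy' _ (Submodule.subset_span ⟨2, rfl⟩)
  have hvu : polar Q v u = 0 := by rw [polar_symm]; exact huv
  rw [H.R_one hu (by rw [Q_add, hv, hv', hvv]; simp) (by rw [QuadraticMap.polar_add_right, huv, huv', add_zero])
    (y := y) (y' := y') ⟨a0, by rw [QuadraticMap.polar_add_left, a1, a2, add_zero]⟩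
    ⟨b0, by rw [QuadraticMap.polar_add_left, b1, b2, add_zero]⟩ hyy,
    H.R_one hu hv huv (y := y) (y' := y') ⟨a0, a1⟩ ⟨b0, b1⟩ hyy,
    H.R_one hu hv' huv' (y := y) (y' := y') ⟨a0, a2⟩ ⟨b0, b2⟩ hyy]
  rw [sg_add_left S hv hv' b1 b2 hvv]
  have d1 : Cf Q u y v (-(Q y') • v') := ⟨hu, hv, by rw [Q_smul, hv', mul_zero], a0, huv,
    by rw [QuadraticMap.polar_smul_right, huv', smul_zero], by rw [polar_symm]; exact a1,
    by rw [QuadraticMap.polar_smul_right, polar_symm y v', a2, smul_zero],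
    by rw [QuadraticMap.polar_smul_right, hvv, smul_zero]⟩
  rw [hπ.z_mul_right (d1.comm S), H.c1 d1, mul_one]
  apply z_mulr
  rw [comm_sg S hu hv' huv' a0 b2 a2 b0, hyy, one_smul]
  exact H.c1 ⟨hv, hu, hv', b1, hvu, hvv, by rw [polar_symm]; exact b0, by rw [polar_symm]; exact b2, huv'⟩

theorem Hy.R_neg {u v : V} (hu : Q u = 0) (hv : Q v = 0) (huv : polar Q u v = 0) : H.R u (-v) = (H.R u v)⁻¹ := by
  rw [eq_inv_iff_mul_eq_one, ← H.R_add hu (by rw [QuadraticMap.map_neg, hv]) hv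
    (by rw [QuadraticMap.polar_neg_right, huv, neg_zero]) huv (by rw [QuadraticMap.polar_neg_left, polar_self_zero hv, neg_zero]),
    neg_add_cancel, H.R_zero_right hu]

theorem Hy.R_swap {u v : V} (hu : Q u = 0) (hv : Q v = 0) (huv : polar Q u v = 0) : H.R u v = H.R v (-u) := by
  rw [H.R_neg hv hu (by rw [polar_symm]; exact huv), H.R_inv hv hu (by rw [polar_symm]; exact huv)]

/-- lifts of Siegel elements with the same first argument commute -/
theorem Hy.comm {u y y' : V} (hu : Q u = 0) (hy : polar Q u y = 0) (hy' : polar Q u y' = 0) {a b : E}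
    (ha : π a = sg S u y) (hb : π b = sg S u y') : a * b = b * a := by
  have := hπ.commute_of_z (e := a) (f := b) (by rw [ha, hb]; exact H.c2 hu hy hy')
  exact this

end H40.Sieg
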