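import Mathlib
import Cfsg.Agent.Lib.H40.Sieg7

/-!
Extension of the canonical lifts to all Siegel elements.
-/
set_option autoImplicit false
set_option linter.unusedSimpArgs false
set_option linter.unusedSectionVars false
set_option linter.unusedVariables false

namespace H40.Sieg

open H7.Hyp QuadraticMap H17.OrthSiegel H50.OrthE H40.Ext
open scoped commutatorElement

variable {F : Type*} [Field F] {V : Type*} [AddCommGroup V] [Module F V] {Q : QuadraticForm F V}

theorem exists_conf2 [FiniteDimensional F V] (hQ : ND Q) (hT : HT Q) {u : V} (hu : Q u = 0) :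
    ∃ e f c d, HP4 Q e f c d ∧ polar Q u e = 0 ∧ polar Q u f = 0 ∧ polar Q u c = 0 ∧ polar Q u d = 0 := by
  obtain ⟨e, he, ue, -, hen⟩ := exists_third hT hu hu (polar_self_zero hu)
  obtain ⟨c, hc, uc, ec, hcn⟩ := exists_third hT hu he ue
  have hen' : e ∉ Submodule.span F (Set.range ![u, c]) := by
    intro h
    rw [Submodule.mem_span_range_iff_exists_fun] at h
    obtain ⟨r, hr⟩ := h
    rw [Fin.sum_univ_two] at hr
    simp only [Matrix.cons_val_zero, Matrix.cons_val_one, Matrix.cons_val] at hr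
    by_cases h0 : r 1 = 0
    · apply hen
      rw [Submodule.mem_span_range_iff_exists_fun]
      refine ⟨![r 0, 0], ?_⟩
      rw [Fin.sum_univ_two]
      simp only [Matrix.cons_val_zero, Matrix.cons_val_one, Matrix.cons_val]
      rw [← hr, h0]; module
    · apply hcn
      rw [Submodule.mem_span_range_iff_exists_fun]
      refine ⟨![-(r 1)⁻¹ * r 0, (r 1)⁻¹], ?_⟩
      rw [Fin.sum_univ_two]
      simp only [Matrix.cons_val_zero, Matrix.cons_val_one, Matrix.cons_val]
      rw [← hr]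
      match_scalars <;> field_simp <;> ring
  obtain ⟨f, hf, h1, h2⟩ := exists_partner hQ ![u, c] he (fun i => by
    fin_cases i
    · exact ue
    · exact (by rw [polar_symm]; exact ec : polar Q c e = 0)) hen'
  have uf : polar Q u f = 0 := h1 0
  have cf : polar Q c f = 0 := h1 1
  obtain ⟨d, hd, k1, k2⟩ := exists_partner hQ ![e, f, u] hc (fun i => by
    fin_cases i
    · exact ec
    · exact (by rw [polar_symm]; exact cf : polar Q f c = 0)
    · exact uc) (by
    intro h
    rw [Submodule.mem_span_range_iff_exists_fun] at h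
    obtain ⟨r, hr⟩ := h
    rw [Fin.sum_univ_three] at hr
    simp only [Matrix.cons_val_zero, Matrix.cons_val_one, Matrix.cons_val] at hr
    have e1 : polar Q e (r 0 • e + r 1 • f + r 2 • u) = 0 := by rw [hr, ec]
    simp only [QuadraticMap.polar_add_right, QuadraticMap.polar_smul_right, polar_self_zero he, polar_symm e u, ue, h2,
      smul_eq_mul, mul_zero, mul_one, zero_add, add_zero] at e1
    apply hcn
    rw [Submodule.mem_span_range_iff_exists_fun]
    refine ⟨![r 2, r 0], ?_⟩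
    rw [Fin.sum_univ_two]
    simp only [Matrix.cons_val_zero, Matrix.cons_val_one, Matrix.cons_val]
    rw [← hr, e1]; module)
  exact ⟨e, f, c, d, ⟨⟨he, hf, h2⟩, ⟨hc, hd, k2⟩, ec, k1 0, by rw [polar_symm]; exact cf, k1 1⟩, ue, uf, uc, k1 2⟩

/-- additive maps on `u^⊥` are determined by their values on singular vectors -/
theorem ext_of_sing {G : Type*} [Group G] {u e f : V} (hp : HP Q e f) (ue : polar Q u e = 0) (uf : polar Q u f = 0)
    {φ ψ : V → G} (h1 : ∀ y y', polar Q u y = 0 → polar Q u y' = 0 → φ (y + y') = φ y * φ y')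
    (h2 : ∀ y y', polar Q u y = 0 → polar Q u y' = 0 → ψ (y + y') = ψ y * ψ y')
    (h : ∀ y, Q y = 0 → polar Q u y = 0 → φ y = ψ y) : ∀ y, polar Q u y = 0 → φ y = ψ y := by
  intro y hy
  obtain ⟨w1, a, b, hy1, hw1, hw2⟩ := H50.OrthPoint.decomp3 hp.qu hp.qw hp.uw y
  have uw1 := hw2 u ue uf hy
  have a1 : polar Q u (a • e) = 0 := by rw [QuadraticMap.polar_smul_right, ue, smul_zero]
  have a2 : polar Q u (b • f) = 0 := by rw [QuadraticMap.polar_smul_right, uf, smul_zero]
  have a3 : polar Q u (w1 + a • e) = 0 := by rw [QuadraticMap.polar_add_right, uw1, a1, add_zero]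
  rw [hy1, h1 _ _ a3 a2, h2 _ _ a3 a2, h1 _ _ uw1 a1, h2 _ _ uw1 a1, h _ hw1 uw1,
    h _ (by rw [Q_smul, hp.qu, mul_zero]) a1, h _ (by rw [Q_smul, hp.qw, mul_zero]) a2]

variable {Ω : Subgroup (V ≃ₗ[F] V)} {S : Su Q Ω} {E : Type*} [Group E] {π : E →* Ω} {hπ : CE π} (H : Hy S hπ)

/-- the preimage of the root group -/
def Hy.Au (H : Hy S hπ) {u : V} (hu : Q u = 0) : Subgroup E where
  carrier := {x | ∃ y, polar Q u y = 0 ∧ π x = sg S u y}
  mul_mem' := by
    rintro a b ⟨y, hy, h1⟩ ⟨y', hy', h2⟩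
    exact ⟨y + y', by rw [QuadraticMap.polar_add_right, hy, hy', add_zero], by rw [map_mul, h1, h2, sg_mul S hu hy hy']⟩
  one_mem' := ⟨0, QuadraticMap.polar_zero_right _ _, by rw [map_one, sg_zero_right S hu]⟩
  inv_mem' := by
    rintro a ⟨y, hy, h1⟩
    exact ⟨-y, by rw [QuadraticMap.polar_neg_right, hy, neg_zero], by rw [map_inv, h1, sg_inv S hu hy]⟩

noncomputable instance Hy.instCG (H : Hy S hπ) {u : V} (hu : Q u = 0) : CommGroup (H.Au hu) :=
  { (inferInstance : Group (H.Au hu)) with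
    mul_comm := by
      rintro ⟨a, y, hy, h1⟩ ⟨b, y', hy', h2⟩
      exact Subtype.ext (H.comm hu hy hy' h1 h2) }

/-- `R u v` as an element of the abelian group `Au` -/
noncomputable def Hy.RA (H : Hy S hπ) {u : V} (hu : Q u = 0) (v : V) : Additive (H.Au hu) :=
  open Classical in
  if h : Q v = 0 ∧ polar Q u v = 0 then Additive.ofMul ⟨H.R u v, v, h.2, H.π_R hu h.1 h.2⟩ else 0

theorem Hy.RA_val {u : V} (hu : Q u = 0) {v : V} (hv : Q v = 0) (huv : polar Q u v = 0) :
    ((H.RA hu v).toMul : E) = H.R u v := by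
  rw [Hy.RA, dif_pos ⟨hv, huv⟩]; rfl

theorem Hy.A_ext {u : V} {hu : Q u = 0} {x y : Additive (H.Au hu)} (h : (x.toMul : E) = (y.toMul : E)) : x = y := by
  apply Additive.toMul.injective
  exact Subtype.ext h

theorem Hy.RA_add {u : V} (hu : Q u = 0) {v v' : V} (hv : Q v = 0) (hv' : Q v' = 0) (huv : polar Q u v = 0)
    (huv' : polar Q u v' = 0) (hvv : polar Q v v' = 0) : H.RA hu (v + v') = H.RA hu v + H.RA hu v' := by
  apply H.A_ext
  rw [H.RA_val hu (by rw [Q_add, hv, hv', hvv]; simp) (by rw [QuadraticMap.polar_add_right, huv, huv', add_zero]),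
    H.R_add hu hv hv' huv huv' hvv, toMul_add, Subgroup.coe_mul, H.RA_val hu hv huv, H.RA_val hu hv' huv']

theorem Hy.RA_zero {u : V} (hu : Q u = 0) : H.RA hu 0 = 0 := by
  apply H.A_ext
  rw [H.RA_val hu (by simp) (QuadraticMap.polar_zero_right _ _), H.R_zero_right hu]; rfl

theorem Hy.RA_smul_add {u : V} (hu : Q u = 0) {v : V} (hv : Q v = 0) (huv : polar Q u v = 0) (a b : F) :
    H.RA hu ((a + b) • v) = H.RA hu (a • v) + H.RA hu (b • v) := by
  rw [add_smul, H.RA_add hu (by rw [Q_smul, hv, mul_zero]) (by rw [Q_smul, hv, mul_zero])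
    (by rw [QuadraticMap.polar_smul_right, huv, smul_zero]) (by rw [QuadraticMap.polar_smul_right, huv, smul_zero])
    (by rw [QuadraticMap.polar_smul_left, QuadraticMap.polar_smul_right, polar_self_zero hv, smul_zero, smul_zero])]

theorem Hy.RA_smul_neg {u : V} (hu : Q u = 0) {v : V} (hv : Q v = 0) (huv : polar Q u v = 0) (a : F) :
    H.RA hu ((-a) • v) = -H.RA hu (a • v) := by
  rw [eq_neg_iff_add_eq_zero, ← H.RA_smul_add hu hv huv, neg_add_cancel, zero_smul, H.RA_zero hu]

/-- commutation with an element `g` fixing `u` -/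
noncomputable def Hy.D (H : Hy S hπ) {u : V} (hu : Q u = 0) (g : E) (hg : (π g : V ≃ₗ[F] V) u = u) :
    H.Au hu →* H.Au hu where
  toFun x := ⟨g * x * g⁻¹ * (x : E)⁻¹, by
    refine (H.Au hu).mul_mem ?_ ((H.Au hu).inv_mem x.2)
    obtain ⟨x, y, hy, hx⟩ := x
    refine ⟨(π g : V ≃ₗ[F] V) y, ?_, ?_⟩
    · have := om_polar S (π g) u y
      rw [hg, hy] at this
      exact this
    · rw [map_mul, map_mul, map_inv, hx, conj_sg S _ hu hy, hg]⟩
  map_one' := by
    apply Subtype.ext
    simp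
  map_mul' := by
    intro x y
    apply Subtype.ext
    have hc : ∀ a b : H.Au hu, (a : E) * b = b * a := fun a b => by
      obtain ⟨_, z, hz, h1⟩ := a
      obtain ⟨_, z', hz', h2⟩ := b
      exact H.comm hu hz hz' h1 h2
    have hm : g * (y : E) * g⁻¹ ∈ H.Au hu := by
      obtain ⟨x, y, hy, hx⟩ := y
      refine ⟨(π g : V ≃ₗ[F] V) y, ?_, ?_⟩
      · have := om_polar S (π g) u y
        rw [hg, hy] at this
        exact this
      · rw [map_mul, map_mul, map_inv, hx, conj_sg S _ hu hy, hg]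
    have h1 := hc (⟨g * (y : E) * g⁻¹, hm⟩ * y⁻¹) x⁻¹
    simp only [Subgroup.coe_mul, Subgroup.coe_inv] at h1 ⊢
    calc g * (x * y) * g⁻¹ * (x * y : E)⁻¹ = g * x * g⁻¹ * (g * y * g⁻¹ * (y : E)⁻¹ * (x : E)⁻¹) := by group
      _ = g * x * g⁻¹ * ((x : E)⁻¹ * (g * y * g⁻¹ * (y : E)⁻¹)) := by rw [h1]
      _ = g * x * g⁻¹ * (x : E)⁻¹ * (g * y * g⁻¹ * (y : E)⁻¹) := by group

theorem Hy.D_val {u : V} (hu : Q u = 0) (g : E) (hg : (π g : V ≃ₗ[F] V) u = u) (x : H.Au hu) :
    ((H.D hu g hg x : H.Au hu) : E) = g * x * g⁻¹ * (x : E)⁻¹ := rfl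

theorem Hy.D_ker {u : V} (hu : Q u = 0) (g : E) (hg : (π g : V ≃ₗ[F] V) u = u) (x : H.Au hu) (hx : π x = 1) :
    H.D hu g hg x = 1 := by
  apply Subtype.ext
  rw [H.D_val]
  have := hπ.cen (MonoidHom.mem_ker.mpr hx)
  rw [Subgroup.mem_center_iff] at this
  rw [this g]
  simp

theorem Hy.D_RA {u : V} (hu : Q u = 0) (g : E) (hg : (π g : V ≃ₗ[F] V) u = u) {v : V} (hv : Q v = 0) (huv : polar Q u v = 0) :
    (H.D hu g hg).toAdditive (H.RA hu v) = H.RA hu ((π g : V ≃ₗ[F] V) v) - H.RA hu v := by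
  have h1 : polar Q u ((π g : V ≃ₗ[F] V) v) = 0 := by
    have := om_polar S (π g) u v
    rw [hg, huv] at this
    exact this
  apply H.A_ext
  rw [toMul_sub, Subgroup.coe_div, H.RA_val hu hv huv, H.RA_val hu (by rw [om_Q S, hv]) h1]
  change ((H.D hu g hg (H.RA hu v).toMul : H.Au hu) : E) = _
  rw [H.D_val, H.RA_val hu hv huv, H.R_conj hu hv huv, hg, div_eq_mul_inv]

section T
variable {u e f : V} (hu : Q u = 0) (hp : HP Q e f) (ue : polar Q u e = 0) (uf : polar Q u f = 0)

/-- the singular vector `f + a - Q(a) e` -/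
def io (Q : QuadraticForm F V) (e f a : V) : V := f + a - Q a • e

theorem io_sing (hp : HP Q e f) {a : V} (ea : polar Q e a = 0) (fa : polar Q f a = 0) : Q (io Q e f a) = 0 := by
  rw [io, sub_eq_add_neg, Q_add, Q_add, hp.qw, QuadraticMap.map_neg, Q_smul, hp.qu, fa, QuadraticMap.polar_add_left,
    QuadraticMap.polar_neg_right, QuadraticMap.polar_neg_right, QuadraticMap.polar_smul_right,
    QuadraticMap.polar_smul_right, hp.wu, polar_symm a e, ea]
  simp

/-- the key identity -/
theorem Hy.key (H : Hy S hπ) (hu : Q u = 0) (hp : HP Q e f) (ue : polar Q u e = 0) (uf : polar Q u f = 0) (b : F) {s a : V}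
    (us : polar Q u s = 0) (es : polar Q e s = 0) (fs : polar Q f s = 0)
    (ua : polar Q u a = 0) (ea : polar Q e a = 0) (fa : polar Q f a = 0) :
    H.RA hu (b • io Q e f (s + a)) = H.RA hu (b • io Q e f s) + H.RA hu (b • io Q e f a) - H.RA hu (b • f) -
      H.RA hu ((b * polar Q s a) • e) := by
  obtain ⟨g, hg⟩ := hπ.surj (sg S e a)
  have gx : ∀ x, (π g : V ≃ₗ[F] V) x = sieLin Q e a x := fun x => by rw [hg, sg_apply S hp.qu ea]
  have gu : (π g : V ≃ₗ[F] V) u = u := by
    rw [gx]; exact sl_perp (by rw [polar_symm]; exact ue) (by rw [polar_symm]; exact ua)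
  have usc : ∀ (c : F) {x : V}, polar Q u x = 0 → polar Q u (c • x) = 0 := fun c x hx => by
    rw [QuadraticMap.polar_smul_right, hx, smul_zero]
  have uio : ∀ {x : V}, polar Q u x = 0 → polar Q u (io Q e f x) = 0 := fun {x} hx => by
    rw [io, QuadraticMap.polar_sub_right, QuadraticMap.polar_add_right, QuadraticMap.polar_smul_right, uf, hx, ue]; simp
  have qsc : ∀ (c : F) {x : V}, Q x = 0 → Q (c • x) = 0 := fun c x hx => by rw [Q_smul, hx, mul_zero]
  have qs := io_sing hp es fs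
  have qa := io_sing hp ea fa
  -- the images
  have g1 : (π g : V ≃ₗ[F] V) (b • io Q e f s) = b • io Q e f (s + a) := by
    rw [gx, map_smul, sl_apply, io, io]
    simp only [QuadraticMap.polar_add_right, QuadraticMap.polar_sub_right, QuadraticMap.polar_smul_right, hp.uw, hp.uu, es,
      polar_symm a f, fa, polar_symm a e, ea, Q_add, smul_eq_mul, polar_symm a s]
    module
  have g2 : (π g : V ≃ₗ[F] V) (b • f) = b • io Q e f a := by
    rw [gx, map_smul, sl_apply, io]
    simp only [hp.uw, polar_symm a f, fa]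
    module
  have g3 : ∀ c : F, (π g : V ≃ₗ[F] V) (c • e) = c • e := fun c => by
    rw [gx, map_smul, sl_perp hp.uu (by rw [polar_symm]; exact ea)]
  have d1 := H.D_RA hu g gu (qsc b qs) (usc b (uio us))
  have d2 := H.D_RA hu g gu (qsc b hp.qw) (usc b uf)
  have d3 := H.D_RA hu g gu (qsc (b * Q s) hp.qu) (usc (b * Q s) ue)
  rw [g1] at d1
  rw [g2] at d2
  rw [g3, sub_self] at d3
  -- a lift of `sg u (b s)`
  obtain ⟨x, hx⟩ := hπ.surj (sg S u (b • s))
  let X : H.Au hu := ⟨x, b • s, usc b us, hx⟩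
  have d4 : (H.D hu g gu).toAdditive (Additive.ofMul X) = -H.RA hu ((b * polar Q s a) • e) := by
    rw [← H.RA_smul_neg hu hp.qu ue]
    apply H.A_ext
    rw [H.RA_val hu (qsc _ hp.qu) (usc _ ue)]
    change ((H.D hu g gu X : H.Au hu) : E) = _
    rw [H.D_val]
    have h1 : g * x * g⁻¹ * x⁻¹ = hπ.z (sg S e a) (sg S u (b • s)) := by
      rw [← hg, ← hx, ← hπ.z_eq, commutatorElement_def]
    change g * x * g⁻¹ * x⁻¹ = _
    have eu : polar Q e u = 0 := by rw [polar_symm]; exact ue
    rw [h1, H.R_spec hp.qu hu eu ⟨ea, ua⟩ ⟨by rw [QuadraticMap.polar_smul_right, es, smul_zero], usc b us⟩,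
      QuadraticMap.polar_smul_right, H.R_swap hp.qu (qsc _ hu) (by rw [QuadraticMap.polar_smul_right, eu, smul_zero]),
      H.R_smul hu (by rw [QuadraticMap.map_neg, hp.qu]) (by rw [QuadraticMap.polar_neg_right, ue, neg_zero]), polar_symm a s]
    congr 1
    rw [smul_eq_mul]
    module
  -- the difference is in the kernel
  have d5 : (H.D hu g gu).toAdditive (H.RA hu (b • io Q e f s) - H.RA hu (b • f) - Additive.ofMul X +
      H.RA hu ((b * Q s) • e)) = 0 := by
    change H.D hu g gu _ = 1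
    apply H.D_ker
    change π (H.RA hu (b • io Q e f s) - H.RA hu (b • f) - Additive.ofMul X + H.RA hu ((b * Q s) • e)).toMul = 1
    rw [toMul_add, toMul_sub, toMul_sub, Subgroup.coe_mul, Subgroup.coe_div, Subgroup.coe_div, H.RA_val hu (qsc b qs) (usc b (uio us)),
      H.RA_val hu (qsc b hp.qw) (usc b uf), H.RA_val hu (qsc _ hp.qu) (usc _ ue), map_mul, map_div, map_div,
      H.π_R hu (qsc b qs) (usc b (uio us)), H.π_R hu (qsc b hp.qw) (usc b uf), H.π_R hu (qsc _ hp.qu) (usc _ ue)]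
    change sg S u (b • io Q e f s) / sg S u (b • f) / π x * sg S u ((b * Q s) • e) = 1
    rw [hx, div_eq_mul_inv, div_eq_mul_inv, sg_inv S hu (usc b uf), sg_inv S hu (usc b us)]
    have n1 : polar Q u (-(b • f)) = 0 := by rw [QuadraticMap.polar_neg_right, usc b uf, neg_zero]
    have n2 : polar Q u (-(b • s)) = 0 := by rw [QuadraticMap.polar_neg_right, usc b us, neg_zero]
    have n3 : polar Q u (b • io Q e f s + -(b • f)) = 0 := by rw [QuadraticMap.polar_add_right, usc b (uio us), n1, add_zero]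
    have n4 : polar Q u (b • io Q e f s + -(b • f) + -(b • s)) = 0 := by rw [QuadraticMap.polar_add_right, n3, n2, add_zero]
    rw [sg_mul S hu (usc b (uio us)) n1, sg_mul S hu n3 n2, sg_mul S hu n4 (usc _ ue)]
    have : b • io Q e f s + -(b • f) + -(b • s) + (b * Q s) • e = 0 := by rw [io]; module
    rw [this, sg_zero_right S hu]
  rw [map_add, map_sub, map_sub, d1, d2, d3, d4, add_zero, sub_neg_eq_add] at d5
  have : H.RA hu (b • io Q e f (s + a)) - (H.RA hu (b • io Q e f s) + H.RA hu (b • io Q e f a) - H.RA hu (b • f) -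
      H.RA hu ((b * polar Q s a) • e)) = 0 := by rw [← d5]; abel
  exact sub_eq_zero.mp this

end T

end H40.Sieg
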