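import Mathlib
import Cfsg.Agent.Lib.H40.Sieg8

/-!
The canonical family of lifts of Siegel elements.
-/
set_option autoImplicit false
set_option linter.unusedSimpArgs false
set_option linter.unusedSectionVars false
set_option linter.unusedVariables false

namespace H40.Sieg

open H7.Hyp QuadraticMap H17.OrthSiegel H50.OrthE H40.Ext
open scoped commutatorElement

variable {F : Type*} [Field F] {V : Type*} [AddCommGroup V] [Module F V] {Q : QuadraticForm F V}
variable {Ω : Subgroup (V ≃ₗ[F] V)} {S : Su Q Ω} {E : Type*} [Group E] {π : E →* Ω} {hπ : CE π} (H : Hy S hπ)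

section
variable {u e f c d : V} (hu : Q u = 0) (hp : HP4 Q e f c d) (ue : polar Q u e = 0) (uf : polar Q u f = 0)
  (uc : polar Q u c = 0) (ud : polar Q u d = 0)

/-- the function `T_b` -/
noncomputable def Hy.Tb (H : Hy S hπ) (hu : Q u = 0) (e f : V) (b : F) (s : V) : Additive (H.Au hu) :=
  H.RA hu (b • io Q e f s) - H.RA hu (b • f) + H.RA hu ((b * Q s) • e)

include hp ue uf in
theorem Hy.T_add (b : F) {s a : V} (us : polar Q u s = 0) (es : polar Q e s = 0) (fs : polar Q f s = 0)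
    (ua : polar Q u a = 0) (ea : polar Q e a = 0) (fa : polar Q f a = 0) :
    H.Tb hu e f b (s + a) = H.Tb hu e f b s + H.Tb hu e f b a := by
  have h1 : b * Q (s + a) = b * Q s + (b * Q a + b * polar Q s a) := by rw [Q_add]; ring
  rw [Hy.Tb, Hy.Tb, Hy.Tb, H.key hu hp.h1 ue uf b us es fs ua ea fa, h1, H.RA_smul_add hu hp.h1.qu ue, H.RA_smul_add hu hp.h1.qu ue]
  abel

include hp ue uf in
theorem Hy.T_sing (b : F) {s : V} (hs : Q s = 0) (us : polar Q u s = 0) (es : polar Q e s = 0) (fs : polar Q f s = 0) :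
    H.Tb hu e f b s = H.RA hu (b • s) := by
  have h1 : b • io Q e f s = b • f + b • s := by rw [io, hs]; module
  rw [Hy.Tb, hs, mul_zero, zero_smul, H.RA_zero hu, add_zero, h1, H.RA_add hu (by rw [Q_smul, hp.h1.qw, mul_zero])
    (by rw [Q_smul, hs, mul_zero]) (by rw [QuadraticMap.polar_smul_right, uf, smul_zero])
    (by rw [QuadraticMap.polar_smul_right, us, smul_zero])
    (by rw [QuadraticMap.polar_smul_left, QuadraticMap.polar_smul_right, fs, smul_zero, smul_zero])]
  abel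

include hp ue uf uc ud in
theorem Hy.T_eq (b : F) {s : V} (us : polar Q u s = 0) (es : polar Q e s = 0) (fs : polar Q f s = 0) :
    H.Tb hu e f b s = H.Tb hu e f 1 (b • s) := by
  obtain ⟨w1, x, y, hs, hw1, hw2⟩ := H50.OrthPoint.decomp3 hp.h2.qu hp.h2.qw hp.h2.uw s
  have uw := hw2 u uc ud us
  have ew := hw2 e hp.ue hp.uf es
  have fw := hw2 f hp.we hp.wf fs
  have q1 : Q (x • c) = 0 := by rw [Q_smul, hp.h2.qu, mul_zero]
  have q2 : Q (y • d) = 0 := by rw [Q_smul, hp.h2.qw, mul_zero]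
  have sc : ∀ (a : F) {v z : V}, polar Q v z = 0 → polar Q v (a • z) = 0 := fun a v z h => by
    rw [QuadraticMap.polar_smul_right, h, smul_zero]
  have ad : ∀ {v z z' : V}, polar Q v z = 0 → polar Q v z' = 0 → polar Q v (z + z') = 0 := fun {v z z'} h h' => by
    rw [QuadraticMap.polar_add_right, h, h', add_zero]
  have qs : ∀ {v : V}, Q v = 0 → Q (b • v) = 0 := fun {v} h => by rw [Q_smul, h, mul_zero]
  have one : ∀ {v : V}, Q v = 0 → polar Q u v = 0 → polar Q e v = 0 → polar Q f v = 0 →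
      H.Tb hu e f b v = H.Tb hu e f 1 (b • v) := fun {v} h0 h1 h2 h3 => by
    rw [H.T_sing hu hp ue uf b h0 h1 h2 h3, H.T_sing hu hp ue uf 1 (qs h0) (sc b h1) (sc b h2) (sc b h3), one_smul]
  rw [hs, H.T_add hu hp ue uf b (ad uw (sc x uc)) (ad ew (sc x hp.ue)) (ad fw (sc x hp.we)) (sc y ud) (sc y hp.uf) (sc y hp.wf),
    H.T_add hu hp ue uf b uw ew fw (sc x uc) (sc x hp.ue) (sc x hp.we), smul_add, smul_add,
    H.T_add hu hp ue uf 1 (ad (sc b uw) (sc b (sc x uc))) (ad (sc b ew) (sc b (sc x hp.ue))) (ad (sc b fw) (sc b (sc x hp.we)))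
      (sc b (sc y ud)) (sc b (sc y hp.uf)) (sc b (sc y hp.wf)),
    H.T_add hu hp ue uf 1 (sc b uw) (sc b ew) (sc b fw) (sc b (sc x uc)) (sc b (sc x hp.ue)) (sc b (sc x hp.we)),
    one hw1 uw ew fw, one q1 (sc x uc) (sc x hp.ue) (sc x hp.we), one q2 (sc y ud) (sc y hp.uf) (sc y hp.wf)]

/-- the extension -/
noncomputable def Hy.rA (H : Hy S hπ) (hu : Q u = 0) (e f y : V) : Additive (H.Au hu) :=
  H.RA hu (polar Q y f • e) + H.RA hu (polar Q y e • f) + H.Tb hu e f 1 (y - polar Q y f • e - polar Q y e • f)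

include hp ue uf in
theorem Hy.rA_add {y y' : V} (hy : polar Q u y = 0) (hy' : polar Q u y' = 0) :
    H.rA hu e f (y + y') = H.rA hu e f y + H.rA hu e f y' := by
  have k1 : ∀ y, polar Q u y = 0 → polar Q u (y - polar Q y f • e - polar Q y e • f) = 0 := fun y hy => by
    simp only [QuadraticMap.polar_sub_right, QuadraticMap.polar_smul_right, hy, ue, uf]; simp
  have k2 : ∀ y, polar Q e (y - polar Q y f • e - polar Q y e • f) = 0 := fun y => by
    simp only [QuadraticMap.polar_sub_right, QuadraticMap.polar_smul_right, hp.h1.uu, hp.h1.uw, polar_symm e y, smul_eq_mul]; ring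
  have k3 : ∀ y, polar Q f (y - polar Q y f • e - polar Q y e • f) = 0 := fun y => by
    simp only [QuadraticMap.polar_sub_right, QuadraticMap.polar_smul_right, hp.h1.ww, hp.h1.wu, polar_symm f y, smul_eq_mul]; ring
  rw [Hy.rA, Hy.rA, Hy.rA, QuadraticMap.polar_add_left, QuadraticMap.polar_add_left, H.RA_smul_add hu hp.h1.qu ue,
    H.RA_smul_add hu hp.h1.qw uf]
  rw [show y + y' - (polar Q y f + polar Q y' f) • e - (polar Q y e + polar Q y' e) • f =
    (y - polar Q y f • e - polar Q y e • f) + (y' - polar Q y' f • e - polar Q y' e • f) by module,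
    H.T_add hu hp ue uf 1 (k1 y hy) (k2 y) (k3 y) (k1 y' hy') (k2 y') (k3 y')]
  abel

include hp ue uf uc ud in
theorem Hy.rA_sing {y : V} (hq : Q y = 0) (hy : polar Q u y = 0) : H.rA hu e f y = H.RA hu y := by
  obtain ⟨a, ha⟩ : ∃ a, a = polar Q y f := ⟨_, rfl⟩
  obtain ⟨b, hb⟩ : ∃ b, b = polar Q y e := ⟨_, rfl⟩
  obtain ⟨s, hs⟩ : ∃ s, s = y - a • e - b • f := ⟨_, rfl⟩
  have us : polar Q u s = 0 := by
    rw [hs]; simp only [QuadraticMap.polar_sub_right, QuadraticMap.polar_smul_right, hy, ue, uf]; simp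
  have es : polar Q e s = 0 := by
    rw [hs]
    simp only [QuadraticMap.polar_sub_right, QuadraticMap.polar_smul_right, hp.h1.uu, hp.h1.uw, polar_symm e y, smul_eq_mul, hb]; ring
  have fs : polar Q f s = 0 := by
    rw [hs]
    simp only [QuadraticMap.polar_sub_right, QuadraticMap.polar_smul_right, hp.h1.ww, hp.h1.wu, polar_symm f y, smul_eq_mul, ha]; ring
  have hy1 : y = a • e + b • f + s := by rw [hs]; module
  have hQ : a * b + Q s = 0 := by
    have h1 : Q (a • e + b • f + s) = 0 := by rw [← hy1, hq]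
    rw [Q_add, Q_add, Q_smul, Q_smul, hp.h1.qu, hp.h1.qw, QuadraticMap.polar_add_left, QuadraticMap.polar_smul_left,
      QuadraticMap.polar_smul_left, QuadraticMap.polar_smul_left, QuadraticMap.polar_smul_right, hp.h1.uw, es, fs] at h1
    simp only [smul_eq_mul] at h1
    linear_combination h1
  have ub : ∀ c : F, polar Q u (c • e) = 0 := fun c => by rw [QuadraticMap.polar_smul_right, ue, smul_zero]
  rw [Hy.rA, ← ha, ← hb, ← hs]
  by_cases h0 : b = 0
  · have hs0 : Q s = 0 := by rw [h0, mul_zero, zero_add] at hQ; exact hQ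
    rw [H.T_sing hu hp ue uf 1 hs0 us es fs, one_smul, h0, zero_smul, H.RA_zero hu, add_zero,
      ← H.RA_add hu (by rw [Q_smul, hp.h1.qu, mul_zero]) hs0 (ub a) us (by rw [QuadraticMap.polar_smul_left, es, smul_zero])]
    congr 1
    rw [hy1, h0]; module
  · have hs1 : s = b • (b⁻¹ • s) := by rw [smul_smul, mul_inv_cancel₀ h0, one_smul]
    have e1 : H.Tb hu e f 1 s = H.Tb hu e f b (b⁻¹ • s) := by
      rw [H.T_eq hu hp ue uf uc ud b (by rw [QuadraticMap.polar_smul_right, us, smul_zero])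
        (by rw [QuadraticMap.polar_smul_right, es, smul_zero]) (by rw [QuadraticMap.polar_smul_right, fs, smul_zero]), ← hs1]
    have e2 : b • io Q e f (b⁻¹ • s) = y := by
      rw [io, hy1, Q_smul]
      have : Q s = -(a * b) := by linear_combination hQ
      rw [this]
      match_scalars <;> field_simp
    have e3 : b * Q (b⁻¹ • s) = -a := by
      rw [Q_smul]
      have : Q s = -(a * b) := by linear_combination hQ
      rw [this]
      field_simp
    rw [e1, Hy.Tb, e2, e3, H.RA_smul_neg hu hp.h1.qu ue]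
    abel

end

theorem Hy.exists_r {u : V} (hu : Q u = 0) : ∃ ρ : V → E,
    (∀ y y', polar Q u y = 0 → polar Q u y' = 0 → ρ (y + y') = ρ y * ρ y') ∧
    ∀ y, Q y = 0 → polar Q u y = 0 → ρ y = H.R u y := by
  have := S.fd
  obtain ⟨e, f, c, d, hp, ue, uf, uc, ud⟩ := exists_conf2 S.nd H.T hu
  refine ⟨fun y => ((H.rA hu e f y).toMul : E), ?_, ?_⟩
  · intro y y' hy hy'
    simp only
    rw [H.rA_add hu hp ue uf hy hy', toMul_add, Subgroup.coe_mul]
  · intro y hq hy
    simp only
    rw [H.rA_sing hu hp ue uf uc ud hq hy, H.RA_val hu hq hy]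

/-- the canonical lift of `sg u y` -/
noncomputable def Hy.r (u y : V) : E :=
  open Classical in
  if h : Q u = 0 ∧ polar Q u y = 0 then (H.exists_r h.1).choose y else 1

theorem Hy.r_add {u y y' : V} (hu : Q u = 0) (hy : polar Q u y = 0) (hy' : polar Q u y' = 0) :
    H.r u (y + y') = H.r u y * H.r u y' := by
  have h3 : polar Q u (y + y') = 0 := by rw [QuadraticMap.polar_add_right, hy, hy', add_zero]
  rw [Hy.r, Hy.r, Hy.r, dif_pos ⟨hu, h3⟩, dif_pos ⟨hu, hy⟩, dif_pos ⟨hu, hy'⟩]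
  exact (H.exists_r hu).choose_spec.1 y y' hy hy'

theorem Hy.r_sing {u y : V} (hu : Q u = 0) (hq : Q y = 0) (hy : polar Q u y = 0) : H.r u y = H.R u y := by
  rw [Hy.r, dif_pos ⟨hu, hy⟩]
  exact (H.exists_r hu).choose_spec.2 y hq hy

theorem Hy.π_r {u y : V} (hu : Q u = 0) (hy : polar Q u y = 0) : π (H.r u y) = sg S u y := by
  have := S.fd
  obtain ⟨e, f, c, d, hp, ue, uf, uc, ud⟩ := exists_conf2 S.nd H.T hu
  refine ext_of_sing (φ := fun y => π (H.r u y)) (ψ := fun y => sg S u y) hp.h1 ue uf ?_ ?_ ?_ y hy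
  · intro y y' hy hy'
    rw [H.r_add hu hy hy', map_mul]
  · intro y y' hy hy'
    exact (sg_mul S hu hy hy').symm
  · intro y hq hy
    rw [H.r_sing hu hq hy, H.π_R hu hq hy]

theorem Hy.r_conj {u y : V} (hu : Q u = 0) (hy : polar Q u y = 0) (g : E) :
    g * H.r u y * g⁻¹ = H.r ((π g : V ≃ₗ[F] V) u) ((π g : V ≃ₗ[F] V) y) := by
  have := S.fd
  obtain ⟨e, f, c, d, hp, ue, uf, uc, ud⟩ := exists_conf2 S.nd H.T hu
  have hgu : Q ((π g : V ≃ₗ[F] V) u) = 0 := by rw [om_Q S, hu]
  have hgy : ∀ y, polar Q u y = 0 → polar Q ((π g : V ≃ₗ[F] V) u) ((π g : V ≃ₗ[F] V) y) = 0 := fun y hy => by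
    rw [om_polar S, hy]
  refine ext_of_sing (φ := fun y => g * H.r u y * g⁻¹) (ψ := fun y => H.r ((π g : V ≃ₗ[F] V) u) ((π g : V ≃ₗ[F] V) y))
    hp.h1 ue uf ?_ ?_ ?_ y hy
  · intro y y' hy hy'
    rw [H.r_add hu hy hy']; group
  · intro y y' hy hy'
    rw [map_add, H.r_add hgu (hgy y hy) (hgy y' hy')]
  · intro y hq hy
    rw [H.r_sing hu hq hy, H.r_sing hgu (by rw [om_Q S, hq]) (hgy y hy), H.R_conj hu hq hy]

theorem Hy.r_smul {u y : V} (hu : Q u = 0) (hy : polar Q u y = 0) (c : F) : H.r (c • u) y = H.r u (c • y) := by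
  have := S.fd
  obtain ⟨e, f, c', d, hp, ue, uf, uc, ud⟩ := exists_conf2 S.nd H.T hu
  have hcu : Q (c • u) = 0 := by rw [Q_smul, hu, mul_zero]
  have hcy : ∀ y, polar Q u y = 0 → polar Q (c • u) y = 0 := fun y hy => by
    rw [QuadraticMap.polar_smul_left, hy, smul_zero]
  have hcy' : ∀ y, polar Q u y = 0 → polar Q u (c • y) = 0 := fun y hy => by
    rw [QuadraticMap.polar_smul_right, hy, smul_zero]
  refine ext_of_sing (φ := fun y => H.r (c • u) y) (ψ := fun y => H.r u (c • y)) hp.h1 ue uf ?_ ?_ ?_ y hy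
  · intro y y' hy hy'
    exact H.r_add hcu (hcy y hy) (hcy y' hy')
  · intro y y' hy hy'
    rw [smul_add, H.r_add hu (hcy' y hy) (hcy' y' hy')]
  · intro y hq hy
    rw [H.r_sing hcu hq (hcy y hy), H.r_sing hu (by rw [Q_smul, hq, mul_zero]) (hcy' y hy), H.R_smul hu hq hy]

/-- a family of elements which behaves like the Siegel elements -/
structure Fam (Q : QuadraticForm F V) {E : Type*} [Group E] (p : E →* (V ≃ₗ[F] V)) where
  r : V → V → E
  iso : ∀ e x, Q (p e x) = Q x
  act : ∀ u y, Q u = 0 → polar Q u y = 0 → ∀ x, p (r u y) x = sieLin Q u y x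
  add : ∀ u y y', Q u = 0 → polar Q u y = 0 → polar Q u y' = 0 → r u (y + y') = r u y * r u y'
  conj : ∀ e u y, Q u = 0 → polar Q u y = 0 → e * r u y * e⁻¹ = r (p e u) (p e y)
  self : ∀ u (c : F), Q u = 0 → r u (c • u) = 1
  smul : ∀ (c : F) u y, Q u = 0 → polar Q u y = 0 → r (c • u) y = r u (c • y)
  swap : ∀ u v, Q u = 0 → Q v = 0 → polar Q u v = 0 → r u v = r v (-u)

/-- the canonical family of a central extension -/
noncomputable def Hy.fam : Fam Q ((Subgroup.subtype Ω).comp π) where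
  r := H.r
  iso := fun e x => om_Q S (π e) x
  act := fun u y hu hy x => by
    change (π (H.r u y) : V ≃ₗ[F] V) x = _
    rw [H.π_r hu hy, sg_apply S hu hy]
  add := fun u y y' hu hy hy' => H.r_add hu hy hy'
  conj := fun e u y hu hy => H.r_conj hu hy e
  self := fun u c hu => by
    rw [H.r_sing hu (by rw [Q_smul, hu, mul_zero]) (by rw [QuadraticMap.polar_smul_right, polar_self_zero hu, smul_zero]),
      H.R_self hu]
  smul := fun c u y hu hy => H.r_smul hu hy c
  swap := fun u v hu hv huv => by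
    have hvu : polar Q v u = 0 := by rw [polar_symm]; exact huv
    rw [H.r_sing hu hv huv, H.r_sing hv (by rw [QuadraticMap.map_neg, hu]) (by rw [QuadraticMap.polar_neg_right, hvu, neg_zero]),
      H.R_swap hu hv huv]

end H40.Sieg
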