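import Mathlib
import Cfsg.Agent.Lib.H40.Sieg9
import Cfsg.Agent.Lib.H45.RankOneNF

/-!
Rank one subgroups in a family of Siegel elements.
-/
set_option autoImplicit false
set_option linter.unusedSimpArgs false
set_option linter.unusedSectionVars false
set_option linter.unusedVariables false

namespace H40.Sieg

open H7.Hyp QuadraticMap H17.OrthSiegel H50.OrthE

variable {F : Type*} [Field F] {V : Type*} [AddCommGroup V] [Module F V] {Q : QuadraticForm F V}

section sl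
variable {u w e f : V} (h : HP4 Q u w e f)
include h

theorem sl_L_u {t : F} (ht : t ≠ 0) :
    sieLin Q u (-t • f) (sieLin Q w (-t⁻¹ • e) (sieLin Q u (-t • f) u)) = -t⁻¹ • e := by
  simp only [sl_apply, QuadraticMap.polar_add_left, QuadraticMap.polar_add_right, QuadraticMap.polar_sub_right,
    QuadraticMap.polar_smul_right, QuadraticMap.polar_smul_left, h.h1.uu, h.h1.ww, h.h1.wu, h.h1.uw, h.h2.uu, h.h2.ww,
    h.h2.uw, h.h2.wu, h.ue, h.uf, h.we, h.wf, polar_symm e u, polar_symm f u, polar_symm e w, polar_symm f w,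
    smul_eq_mul, QuadraticMap.map_smul, h.h2.qu, h.h2.qw]
  match_scalars <;> field_simp <;> ring

theorem sl_L_w {t : F} (ht : t ≠ 0) :
    sieLin Q u (-t • f) (sieLin Q w (-t⁻¹ • e) (sieLin Q u (-t • f) w)) = -t • f := by
  simp only [sl_apply, QuadraticMap.polar_add_left, QuadraticMap.polar_add_right, QuadraticMap.polar_sub_right,
    QuadraticMap.polar_smul_right, QuadraticMap.polar_smul_left, h.h1.uu, h.h1.ww, h.h1.wu, h.h1.uw, h.h2.uu, h.h2.ww,
    h.h2.uw, h.h2.wu, h.ue, h.uf, h.we, h.wf, polar_symm e u, polar_symm f u, polar_symm e w, polar_symm f w,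
    smul_eq_mul, QuadraticMap.map_smul, h.h2.qu, h.h2.qw]
  match_scalars <;> field_simp <;> ring

theorem sl_L_e {t : F} (ht : t ≠ 0) :
    sieLin Q u (-t • f) (sieLin Q w (-t⁻¹ • e) (sieLin Q u (-t • f) e)) = t • u := by
  simp only [sl_apply, QuadraticMap.polar_add_left, QuadraticMap.polar_add_right, QuadraticMap.polar_sub_right,
    QuadraticMap.polar_smul_right, QuadraticMap.polar_smul_left, h.h1.uu, h.h1.ww, h.h1.wu, h.h1.uw, h.h2.uu, h.h2.ww,
    h.h2.uw, h.h2.wu, h.ue, h.uf, h.we, h.wf, polar_symm e u, polar_symm f u, polar_symm e w, polar_symm f w,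
    smul_eq_mul, QuadraticMap.map_smul, h.h2.qu, h.h2.qw]
  match_scalars <;> field_simp <;> ring

theorem sl_L_f {t : F} (ht : t ≠ 0) :
    sieLin Q u (-t • f) (sieLin Q w (-t⁻¹ • e) (sieLin Q u (-t • f) f)) = t⁻¹ • w := by
  simp only [sl_apply, QuadraticMap.polar_add_left, QuadraticMap.polar_add_right, QuadraticMap.polar_sub_right,
    QuadraticMap.polar_smul_right, QuadraticMap.polar_smul_left, h.h1.uu, h.h1.ww, h.h1.wu, h.h1.uw, h.h2.uu, h.h2.ww,
    h.h2.uw, h.h2.wu, h.ue, h.uf, h.we, h.wf, polar_symm e u, polar_symm f u, polar_symm e w, polar_symm f w,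
    smul_eq_mul, QuadraticMap.map_smul, h.h2.qu, h.h2.qw]
  match_scalars <;> field_simp <;> ring

theorem sl_L_perp (t s : F) {x : V} (ux : polar Q u x = 0) (wx : polar Q w x = 0) (ex : polar Q e x = 0)
    (fx : polar Q f x = 0) : sieLin Q u (t • f) (sieLin Q w (s • e) (sieLin Q u (t • f) x)) = x := by
  have a1 : polar Q (t • f) x = 0 := by rw [QuadraticMap.polar_smul_left, fx, smul_zero]
  have a2 : polar Q (s • e) x = 0 := by rw [QuadraticMap.polar_smul_left, ex, smul_zero]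
  rw [sl_perp ux a1, sl_perp wx a2, sl_perp ux a1]

end sl

theorem HP4.flip {u w e f : V} (h : HP4 Q u w e f) : HP4 Q w u f e :=
  ⟨h.h1.symm, h.h2.symm, h.wf, h.we, h.uf, h.ue⟩

theorem polar_smul0 {u v : V} (h : polar Q u v = 0) (c : F) : polar Q u (c • v) = 0 := by
  rw [QuadraticMap.polar_smul_right, h, smul_zero]

theorem polar_add0 {u v v' : V} (h : polar Q u v = 0) (h' : polar Q u v' = 0) : polar Q u (v + v') = 0 := by
  rw [QuadraticMap.polar_add_right, h, h', add_zero]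

theorem Q_smul0 {v : V} (h : Q v = 0) (c : F) : Q (c • v) = 0 := by rw [Q_smul, h, mul_zero]

variable {E : Type*} [Group E] {p : E →* (V ≃ₗ[F] V)} (Fm : Fam Q p)

namespace Fam

theorem mul_apply (g h : E) (x : V) : p (g * h) x = p g (p h x) := by rw [map_mul]; rfl
theorem one_apply (x : V) : p (1 : E) x = x := by rw [map_one]; rfl
theorem inv_apply {g : E} {x y : V} (h : p g x = y) : p g⁻¹ y = x := by
  rw [← h, ← mul_apply, inv_mul_cancel, one_apply]

include Fm in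
theorem polar_apply (g : E) (x y : V) : polar Q (p g x) (p g y) = polar Q x y := by
  simp only [QuadraticMap.polar, ← map_add, Fm.iso]

theorem r_zero {u : V} (hu : Q u = 0) : Fm.r u 0 = 1 := by
  have := Fm.self u 0 hu
  rwa [zero_smul] at this

theorem r_neg {u y : V} (hu : Q u = 0) (hy : polar Q u y = 0) : Fm.r u (-y) = (Fm.r u y)⁻¹ := by
  rw [eq_inv_iff_mul_eq_one, ← Fm.add u _ _ hu (by rw [QuadraticMap.polar_neg_right, hy, neg_zero]) hy, neg_add_cancel,
    Fm.r_zero hu]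

theorem r_comm {u y y' : V} (hu : Q u = 0) (hy : polar Q u y = 0) (hy' : polar Q u y' = 0) :
    Fm.r u y * Fm.r u y' = Fm.r u y' * Fm.r u y := by
  rw [← Fm.add u _ _ hu hy hy', ← Fm.add u _ _ hu hy' hy, add_comm]

/-- the element of the family fixes everything orthogonal -/
theorem r_perp {u y x : V} (hu : Q u = 0) (hy : polar Q u y = 0) (ux : polar Q u x = 0) (yx : polar Q y x = 0) :
    p (Fm.r u y) x = x := by
  rw [Fm.act u y hu hy, sl_perp ux yx]

/-- conjugation, in the form used below -/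
theorem conj' {g : E} {u y u' y' : V} (hu : Q u = 0) (hy : polar Q u y = 0) (h1 : p g u = u') (h2 : p g y = y') :
    g * Fm.r u y * g⁻¹ = Fm.r u' y' := by
  rw [Fm.conj g u y hu hy, h1, h2]

theorem cross {u w f : V} (h : HP Q u w) (qf : Q f = 0) (uf : polar Q u f = 0) (wf : polar Q w f = 0) (a b : F) :
    Fm.r u (a • f) * Fm.r w (b • f) = Fm.r w (b • f) * Fm.r u (a • f) := by
  have q1 := Q_smul0 qf b
  have e1 : p (Fm.r u (a • f)) w = w + a • f := by
    rw [Fm.act u _ h.qu (polar_smul0 uf a), sl_apply, h.uw, QuadraticMap.polar_smul_left, polar_symm f w, wf, Q_smul, qf]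
    module
  have e2 : p (Fm.r u (a • f)) (b • f) = b • f := by
    apply Fm.r_perp h.qu (polar_smul0 uf a) (polar_smul0 uf b)
    rw [QuadraticMap.polar_smul_left, QuadraticMap.polar_smul_right, polar_self_zero qf]; simp
  have e3 := Fm.conj' h.qw (polar_smul0 wf b) e1 e2
  have qwf : Q (w + a • f) = 0 := by rw [Q_add, h.qw, Q_smul, qf, polar_smul0 wf]; simp
  have n1 : polar Q (b • f) (-w) = 0 := by
    rw [QuadraticMap.polar_neg_right, QuadraticMap.polar_smul_left, polar_symm f w, wf, smul_zero, neg_zero]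
  have n2 : polar Q (b • f) (-(a • f)) = 0 := by
    rw [QuadraticMap.polar_neg_right, QuadraticMap.polar_smul_left, QuadraticMap.polar_smul_right, polar_self_zero qf]; simp
  have e5 : Fm.r (b • f) (-(a • f)) = 1 := by
    rw [Fm.smul b f _ qf (by
      rw [QuadraticMap.polar_neg_right, QuadraticMap.polar_smul_right, polar_self_zero qf]; simp),
      show b • -(a • f) = (-(b * a)) • f by module, Fm.self _ _ qf]
  have e4 : Fm.r (w + a • f) (b • f) = Fm.r w (b • f) := by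
    rw [Fm.swap _ _ qwf q1 (by
      rw [QuadraticMap.polar_add_left, polar_smul0 wf, QuadraticMap.polar_smul_left, QuadraticMap.polar_smul_right,
        polar_self_zero qf]; simp),
      Fm.swap _ _ h.qw q1 (polar_smul0 wf b), neg_add, Fm.add _ _ _ q1 n1 n2, e5, mul_one]
  rw [e4] at e3
  exact mul_inv_eq_iff_eq_mul.mp e3

section ro
variable {u w e f : V} (h : HP4 Q u w e f)

/-- the Weyl element -/
def nE (u w e f : V) (t : F) : E := Fm.r u (-t • f) * Fm.r w (-t⁻¹ • e) * Fm.r u (-t • f)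

include h in
theorem nE_apply (t : F) (x : V) : p (Fm.nE u w e f t) x =
    sieLin Q u (-t • f) (sieLin Q w (-t⁻¹ • e) (sieLin Q u (-t • f) x)) := by
  rw [nE, mul_apply, mul_apply, Fm.act u _ h.h1.qu (polar_smul0 h.uf _), Fm.act w _ h.h1.qw (polar_smul0 h.we _),
    Fm.act u _ h.h1.qu (polar_smul0 h.uf _)]

/-- the rank one group of two orthogonal hyperbolic pairs -/
def ro : H45.RankOne F E where
  x t := Fm.r u (-t • f)
  y t := Fm.r w (t • e)
  x_add a b := by
    rw [← Fm.add u _ _ h.h1.qu (polar_smul0 h.uf _) (polar_smul0 h.uf _)]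
    congr 1; module
  y_add a b := by
    rw [← Fm.add w _ _ h.h1.qw (polar_smul0 h.we _) (polar_smul0 h.we _)]
    congr 1; module
  relx t a := by
    have ht : (t : F) ≠ 0 := t.ne_zero
    have e0 : Fm.r u (-(t : F) • f) * Fm.r w ((-((t⁻¹ : Fˣ) : F)) • e) * Fm.r u (-(t : F) • f) = Fm.nE u w e f (t : F) := by
      rw [nE, Units.val_inv_eq_inv_val]
    rw [e0]
    have e1 : p (Fm.nE u w e f (t : F)) u = -(t : F)⁻¹ • e := by rw [Fm.nE_apply h, sl_L_u h ht]
    have e2 : p (Fm.nE u w e f (t : F)) (-a • f) = (-a * (t : F)⁻¹) • w := by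
      rw [map_smul, Fm.nE_apply h, sl_L_f h ht, smul_smul]
    have ew : polar Q e w = 0 := by rw [polar_symm]; exact h.we
    rw [Fm.conj' h.h1.qu (polar_smul0 h.uf _) e1 e2, Fm.smul _ _ _ h.h2.qu (polar_smul0 ew _), smul_smul,
      Fm.swap _ _ h.h2.qu (Q_smul0 h.h1.qw _) (polar_smul0 ew _), Fm.smul _ _ _ h.h1.qw (by
        rw [QuadraticMap.polar_neg_right, h.we, neg_zero])]
    congr 1
    rw [Units.val_inv_eq_inv_val]
    match_scalars
    field_simp
  rely t a := by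
    have ht : (t : F) ≠ 0 := t.ne_zero
    have hmt : -(t : F) ≠ 0 := neg_ne_zero.mpr ht
    have e0 : Fm.r w ((t : F) • e) * Fm.r u (-(-((t⁻¹ : Fˣ) : F)) • f) * Fm.r w ((t : F) • e) = Fm.nE w u f e (-(t : F)) := by
      rw [nE, Units.val_inv_eq_inv_val, neg_neg, neg_neg, inv_neg, neg_neg]
    rw [e0]
    have e1 : p (Fm.nE w u f e (-(t : F))) w = -(-(t : F))⁻¹ • f := by rw [Fm.nE_apply h.flip, sl_L_u h.flip hmt]
    have e2 : p (Fm.nE w u f e (-(t : F))) (a • e) = (a * (-(t : F))⁻¹) • u := by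
      rw [map_smul, Fm.nE_apply h.flip, sl_L_f h.flip hmt, smul_smul]
    have fu : polar Q f u = 0 := by rw [polar_symm]; exact h.uf
    rw [Fm.conj' h.h1.qw (polar_smul0 h.we _) e1 e2, Fm.smul _ _ _ h.h2.qw (polar_smul0 fu _), smul_smul,
      Fm.swap _ _ h.h2.qw (Q_smul0 h.h1.qu _) (polar_smul0 fu _), Fm.smul _ _ _ h.h1.qu (by
        rw [QuadraticMap.polar_neg_right, h.uf, neg_zero])]
    congr 1
    rw [Units.val_inv_eq_inv_val]
    match_scalars
    field_simp

theorem ro_x (t : F) : (Fm.ro h).x t = Fm.r u (-t • f) := rfl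
theorem ro_y (t : F) : (Fm.ro h).y t = Fm.r w (t • e) := rfl

theorem ro_w (t : Fˣ) : (Fm.ro h).w t = Fm.nE u w e f (t : F) := by
  rw [H45.RankOne.w, ro_x, ro_y, nE, Units.val_inv_eq_inv_val]

theorem w_u (t : Fˣ) : p ((Fm.ro h).w t) u = -(t : F)⁻¹ • e := by rw [ro_w, Fm.nE_apply h, sl_L_u h t.ne_zero]
theorem w_w (t : Fˣ) : p ((Fm.ro h).w t) w = -(t : F) • f := by rw [ro_w, Fm.nE_apply h, sl_L_w h t.ne_zero]
theorem w_e (t : Fˣ) : p ((Fm.ro h).w t) e = (t : F) • u := by rw [ro_w, Fm.nE_apply h, sl_L_e h t.ne_zero]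
theorem w_f (t : Fˣ) : p ((Fm.ro h).w t) f = (t : F)⁻¹ • w := by rw [ro_w, Fm.nE_apply h, sl_L_f h t.ne_zero]
theorem w_perp (t : Fˣ) {x : V} (ux : polar Q u x = 0) (wx : polar Q w x = 0) (ex : polar Q e x = 0)
    (fx : polar Q f x = 0) : p ((Fm.ro h).w t) x = x := by rw [ro_w, Fm.nE_apply h, sl_L_perp h _ _ ux wx ex fx]

theorem h_u (t : Fˣ) : p ((Fm.ro h).h t) u = (t : F) • u := by
  rw [H45.RankOne.h, mul_apply, w_u, map_smul, w_e]
  match_scalars; simp
theorem h_w (t : Fˣ) : p ((Fm.ro h).h t) w = (t : F)⁻¹ • w := by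
  rw [H45.RankOne.h, mul_apply, w_w, map_smul, w_f]
  match_scalars; simp
theorem h_e (t : Fˣ) : p ((Fm.ro h).h t) e = (t : F)⁻¹ • e := by
  rw [H45.RankOne.h, mul_apply, w_e, map_smul, w_u]
  match_scalars; simp
theorem h_f (t : Fˣ) : p ((Fm.ro h).h t) f = (t : F) • f := by
  rw [H45.RankOne.h, mul_apply, w_f, map_smul, w_w]
  match_scalars; simp [inv_neg]
theorem h_perp (t : Fˣ) {x : V} (ux : polar Q u x = 0) (wx : polar Q w x = 0) (ex : polar Q e x = 0)
    (fx : polar Q f x = 0) : p ((Fm.ro h).h t) x = x := by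
  rw [H45.RankOne.h, mul_apply, Fm.w_perp h _ ux wx ex fx, Fm.w_perp h _ ux wx ex fx]

/-- the two commuting `SL₂` -/
theorem comm_xx (s t : F) : (Fm.ro h).x s * (Fm.ro h.swap).x t = (Fm.ro h.swap).x t * (Fm.ro h).x s :=
  Fm.r_comm h.h1.qu (polar_smul0 h.uf _) (polar_smul0 h.ue _)
theorem comm_yy (s t : F) : (Fm.ro h).y s * (Fm.ro h.swap).y t = (Fm.ro h.swap).y t * (Fm.ro h).y s :=
  Fm.r_comm h.h1.qw (polar_smul0 h.we _) (polar_smul0 h.wf _)
theorem comm_xy (s t : F) : (Fm.ro h).x s * (Fm.ro h.swap).y t = (Fm.ro h.swap).y t * (Fm.ro h).x s :=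
  Fm.cross h.h1 h.h2.qw h.uf h.wf _ _
theorem comm_yx (s t : F) : (Fm.ro h).y s * (Fm.ro h.swap).x t = (Fm.ro h.swap).x t * (Fm.ro h).y s :=
  Fm.cross h.h1.symm h.h2.qu h.we h.ue _ _

theorem comm_xw (s : F) (t : Fˣ) : (Fm.ro h).x s * (Fm.ro h.swap).w t = (Fm.ro h.swap).w t * (Fm.ro h).x s := by
  have h1 : Commute ((Fm.ro h).x s) ((Fm.ro h.swap).w t) :=
    ((show Commute _ _ from Fm.comm_xx h s t).mul_right (Fm.comm_xy h s _)).mul_right (Fm.comm_xx h s t)
  exact h1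
theorem comm_yw (s : F) (t : Fˣ) : (Fm.ro h).y s * (Fm.ro h.swap).w t = (Fm.ro h.swap).w t * (Fm.ro h).y s := by
  have h1 : Commute ((Fm.ro h).y s) ((Fm.ro h.swap).w t) :=
    ((show Commute _ _ from Fm.comm_yx h s t).mul_right (Fm.comm_yy h s _)).mul_right (Fm.comm_yx h s t)
  exact h1
theorem comm_ww (s t : Fˣ) : (Fm.ro h).w s * (Fm.ro h.swap).w t = (Fm.ro h.swap).w t * (Fm.ro h).w s := by
  have h1 : Commute ((Fm.ro h).w s) ((Fm.ro h.swap).w t) :=
    ((show Commute _ _ from Fm.comm_xw h s t).mul_left (Fm.comm_yw h _ t)).mul_left (Fm.comm_xw h s t)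
  exact h1
theorem comm_wh (s t : Fˣ) : (Fm.ro h).w s * (Fm.ro h.swap).h t = (Fm.ro h.swap).h t * (Fm.ro h).w s := by
  have h1 : Commute ((Fm.ro h).w s) ((Fm.ro h.swap).h t) :=
    (show Commute _ _ from Fm.comm_ww h s t).mul_right (Fm.comm_ww h s (-1))
  exact h1
theorem comm_hh (s t : Fˣ) : (Fm.ro h).h s * (Fm.ro h.swap).h t = (Fm.ro h.swap).h t * (Fm.ro h).h s := by
  have h1 : Commute ((Fm.ro h).h s) ((Fm.ro h.swap).h t) :=
    (show Commute _ _ from Fm.comm_wh h s t).mul_left (Fm.comm_wh h (-1) t)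
  exact h1
theorem comm_xh (s : F) (t : Fˣ) : (Fm.ro h).x s * (Fm.ro h.swap).h t = (Fm.ro h.swap).h t * (Fm.ro h).x s := by
  have h1 : Commute ((Fm.ro h).x s) ((Fm.ro h.swap).h t) :=
    (show Commute _ _ from Fm.comm_xw h s t).mul_right (Fm.comm_xw h s (-1))
  exact h1
theorem comm_yh (s : F) (t : Fˣ) : (Fm.ro h).y s * (Fm.ro h.swap).h t = (Fm.ro h.swap).h t * (Fm.ro h).y s := by
  have h1 : Commute ((Fm.ro h).y s) ((Fm.ro h.swap).h t) :=
    (show Commute _ _ from Fm.comm_yw h s t).mul_right (Fm.comm_yw h s (-1))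
  exact h1

/-- `y (c) = x (c⁻¹) w (-c⁻¹) x (c⁻¹)` -/
theorem y_eq {c : F} (hc : c ≠ 0) : (Fm.ro h).y c = (Fm.ro h).x c⁻¹ * (Fm.ro h).w (-(Units.mk0 c hc)⁻¹) * (Fm.ro h).x c⁻¹ := by
  rw [H45.RankOne.w]
  have e1 : (((-(Units.mk0 c hc)⁻¹ : Fˣ)) : F) = -c⁻¹ := by simp
  have e2 : -((((-(Units.mk0 c hc)⁻¹)⁻¹ : Fˣ)) : F) = c := by simp [inv_neg]
  rw [e1, e2, H45.RankOne.x_neg]
  group

end ro

end Fam

end H40.Sieg
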