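import Mathlib
import Cfsg.Agent.Lib.H40.Sieg10

/-!
Descent: the kernel of a family of Siegel elements lies in the subgroup of a smaller space.
-/
set_option autoImplicit false
set_option linter.unusedSimpArgs false
set_option linter.unusedSectionVars false
set_option linter.unusedVariables false

namespace H40.Sieg

open H7.Hyp QuadraticMap H17.OrthSiegel H50.OrthE

variable {F : Type*} [Field F] {V : Type*} [AddCommGroup V] [Module F V] {Q : QuadraticForm F V}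

/-- `⟨e, f⟩ + W` -/
def exS (e f : V) (W : Submodule F V) : Submodule F V := Submodule.span F {e} ⊔ Submodule.span F {f} ⊔ W

theorem mem_exS {e f x : V} {W : Submodule F V} : x ∈ exS e f W ↔ ∃ (a b : F) (t : V), t ∈ W ∧ x = a • e + b • f + t := by
  rw [exS, Submodule.mem_sup]
  constructor
  · rintro ⟨y, hy, t, ht, rfl⟩
    obtain ⟨y1, h1, y2, h2, rfl⟩ := Submodule.mem_sup.mp hy
    obtain ⟨a, rfl⟩ := Submodule.mem_span_singleton.mp h1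
    obtain ⟨b, rfl⟩ := Submodule.mem_span_singleton.mp h2
    exact ⟨a, b, t, ht, rfl⟩
  · rintro ⟨a, b, t, ht, rfl⟩
    exact ⟨a • e + b • f, Submodule.mem_sup.mpr ⟨a • e, Submodule.mem_span_singleton.mpr ⟨a, rfl⟩, b • f,
      Submodule.mem_span_singleton.mpr ⟨b, rfl⟩, rfl⟩, t, ht, rfl⟩

theorem e_mem_exS (e f : V) (W : Submodule F V) : e ∈ exS e f W :=
  mem_exS.mpr ⟨1, 0, 0, W.zero_mem, by module⟩
theorem f_mem_exS (e f : V) (W : Submodule F V) : f ∈ exS e f W :=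
  mem_exS.mpr ⟨0, 1, 0, W.zero_mem, by module⟩
theorem le_exS (e f : V) (W : Submodule F V) : W ≤ exS e f W := le_sup_right

/-- the configuration of the descent -/
structure DD (Q : QuadraticForm F V) (u w e f : V) (W : Submodule F V) : Prop where
  h : HP4 Q u w e f
  pu : ∀ t ∈ W, polar Q u t = 0
  pw : ∀ t ∈ W, polar Q w t = 0
  pe : ∀ t ∈ W, polar Q e t = 0
  pf : ∀ t ∈ W, polar Q f t = 0
  ns : ∃ s ∈ W, Q s ≠ 0
  nd : ∀ t ∈ W, t ≠ 0 → ∃ t' ∈ W, polar Q t' t ≠ 0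

theorem DD.u_ex {u w e f : V} {W : Submodule F V} (D : DD Q u w e f W) {y : V} (hy : y ∈ exS e f W) : polar Q u y = 0 := by
  obtain ⟨a, b, t, ht, rfl⟩ := mem_exS.mp hy
  exact polar_add0 (polar_add0 (polar_smul0 D.h.ue _) (polar_smul0 D.h.uf _)) (D.pu t ht)

theorem DD.w_ex {u w e f : V} {W : Submodule F V} (D : DD Q u w e f W) {y : V} (hy : y ∈ exS e f W) : polar Q w y = 0 := by
  obtain ⟨a, b, t, ht, rfl⟩ := mem_exS.mp hy
  exact polar_add0 (polar_add0 (polar_smul0 D.h.we _) (polar_smul0 D.h.wf _)) (D.pw t ht)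

theorem DD.swap {u w e f : V} {W : Submodule F V} (D : DD Q u w e f W) : DD Q u w f e W :=
  ⟨D.h.swap, D.pu, D.pw, D.pf, D.pe, D.ns, D.nd⟩

/-- rank one identity -/
theorem w_mul_w {K : Type*} [Field K] [Finite K] {G : Type*} [Group G] (R : H45.RankOne K G) (t c : Kˣ) :
    R.w (t * c) * R.w (-c) = R.h t := by
  rw [R.w_eq_h (t * c), R.w_eq_h (-c)]
  calc R.h (t * c) * R.w 1 * (R.h (-c) * R.w 1) = R.h (t * c) * (R.w 1 * R.h (-c)) * R.w 1 := by group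
    _ = R.h (t * c) * R.h (-c)⁻¹ * (R.w 1 * R.w 1) := by rw [R.w_one_h]; group
    _ = R.h t := by
      rw [R.w_one_sq, R.h_mul, R.h_mul]
      congr 1
      apply Units.ext
      simp only [Units.val_mul, Units.val_neg, Units.val_inv_eq_inv_val, inv_neg, Units.val_one]
      have := c.ne_zero
      field_simp

variable {E : Type*} [Group E] {p : E →* (V ≃ₗ[F] V)} (Fm : Fam Q p)

namespace Fam

/-- group generated by the root groups of the hyperbolic pair `u, w` with entries in `W` -/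
def GG (u w : V) (W : Submodule F V) : Subgroup E :=
  Subgroup.closure ({g | ∃ y ∈ W, g = Fm.r u y} ∪ {g | ∃ y ∈ W, g = Fm.r w y})

theorem r_mem_GG {u w : V} {W : Submodule F V} {y : V} (hy : y ∈ W) : Fm.r u y ∈ Fm.GG u w W :=
  Subgroup.subset_closure (Or.inl ⟨y, hy, rfl⟩)

theorem r_mem_GG' {u w : V} {W : Submodule F V} {y : V} (hy : y ∈ W) : Fm.r w y ∈ Fm.GG u w W :=
  Subgroup.subset_closure (Or.inr ⟨y, hy, rfl⟩)

/-- elements fixing `x` -/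
def fxS (p : E →* (V ≃ₗ[F] V)) (x : V) : Subgroup E where
  carrier := {g | p g x = x}
  mul_mem' := by
    rintro a b (ha : p a x = x) (hb : p b x = x)
    change p (a * b) x = x
    rw [mul_apply, hb, ha]
  one_mem' := one_apply x
  inv_mem' := by
    rintro a (ha : p a x = x)
    exact inv_apply ha

/-- elements preserving `U` -/
def prS (p : E →* (V ≃ₗ[F] V)) (U : Submodule F V) : Subgroup E where
  carrier := {g | ∀ y ∈ U, p g y ∈ U ∧ p g⁻¹ y ∈ U}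
  mul_mem' := by
    rintro a b ha hb y hy
    refine ⟨?_, ?_⟩
    · rw [mul_apply]; exact (ha _ (hb y hy).1).1
    · rw [mul_inv_rev, mul_apply]; exact (hb _ (ha y hy).2).2
  one_mem' := by
    intro y hy
    rw [inv_one, one_apply]; exact ⟨hy, hy⟩
  inv_mem' := by
    rintro a ha y hy
    rw [inv_inv]
    exact ⟨(ha y hy).2, (ha y hy).1⟩

variable {u w e f : V} {W : Submodule F V} (D : DD Q u w e f W)
include D

theorem K_fix_u : Fm.GG e f W ≤ fxS p u := by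
  rw [GG, Subgroup.closure_le]
  rintro _ (⟨y, hy, rfl⟩ | ⟨y, hy, rfl⟩)
  · exact Fm.r_perp D.h.h2.qu (D.pe y hy) (by rw [polar_symm]; exact D.h.ue) (by rw [polar_symm]; exact D.pu y hy)
  · exact Fm.r_perp D.h.h2.qw (D.pf y hy) (by rw [polar_symm]; exact D.h.uf) (by rw [polar_symm]; exact D.pu y hy)

theorem K_fix_w : Fm.GG e f W ≤ fxS p w := by
  rw [GG, Subgroup.closure_le]
  rintro _ (⟨y, hy, rfl⟩ | ⟨y, hy, rfl⟩)
  · exact Fm.r_perp D.h.h2.qu (D.pe y hy) (by rw [polar_symm]; exact D.h.we) (by rw [polar_symm]; exact D.pw y hy)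
  · exact Fm.r_perp D.h.h2.qw (D.pf y hy) (by rw [polar_symm]; exact D.h.wf) (by rw [polar_symm]; exact D.pw y hy)

theorem re_pr {y : V} (hy : y ∈ W) : Fm.r e y ∈ prS p (exS e f W) := by
  have key : ∀ y ∈ W, ∀ x ∈ exS e f W, p (Fm.r e y) x ∈ exS e f W := by
    intro y hy x hx
    rw [Fm.act e y D.h.h2.qu (D.pe y hy), sl_apply]
    have m1 := e_mem_exS e f W
    have m2 := le_exS e f W hy
    exact Submodule.sub_mem _ (Submodule.sub_mem _ (Submodule.add_mem _ hx (Submodule.smul_mem _ _ m2)) (Submodule.smul_mem _ _ m1))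
      (Submodule.smul_mem _ _ m1)
  intro x hx
  refine ⟨key y hy x hx, ?_⟩
  rw [← Fm.r_neg D.h.h2.qu (D.pe y hy)]
  exact key (-y) (W.neg_mem hy) x hx

theorem exS_swap : exS e f W = exS f e W := by
  rw [exS, exS, sup_comm (Submodule.span F {e})]

theorem K_pr : Fm.GG e f W ≤ prS p (exS e f W) := by
  rw [GG, Subgroup.closure_le]
  rintro _ (⟨y, hy, rfl⟩ | ⟨y, hy, rfl⟩)
  · exact Fm.re_pr D hy
  · rw [exS_swap D]
    exact Fm.re_pr D.swap hy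

/-- elements normalising `K` -/
theorem conjK {g : E} (h1 : (∃ a : F, p g e = a • e) ∨ ∃ a : F, p g e = a • f)
    (h2 : (∃ a : F, p g f = a • f) ∨ ∃ a : F, p g f = a • e) (h3 : ∀ t ∈ W, p g t = t) {k : E}
    (hk : k ∈ Fm.GG e f W) : g * k * g⁻¹ ∈ Fm.GG e f W := by
  have : Fm.GG e f W ≤ (Fm.GG e f W).comap (MulAut.conj g).toMonoidHom := by
    conv_lhs => rw [GG]
    rw [Subgroup.closure_le]
    rintro _ (⟨y, hy, rfl⟩ | ⟨y, hy, rfl⟩)
    · change g * Fm.r e y * g⁻¹ ∈ Fm.GG e f W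
      rcases h1 with ⟨a, ha⟩ | ⟨a, ha⟩
      · rw [Fm.conj' D.h.h2.qu (D.pe y hy) ha (h3 y hy), Fm.smul a e y D.h.h2.qu (D.pe y hy)]
        exact Fm.r_mem_GG (W.smul_mem _ hy)
      · rw [Fm.conj' D.h.h2.qu (D.pe y hy) ha (h3 y hy), Fm.smul a f y D.h.h2.qw (D.pf y hy)]
        exact Fm.r_mem_GG' (W.smul_mem _ hy)
    · change g * Fm.r f y * g⁻¹ ∈ Fm.GG e f W
      rcases h2 with ⟨a, ha⟩ | ⟨a, ha⟩
      · rw [Fm.conj' D.h.h2.qw (D.pf y hy) ha (h3 y hy), Fm.smul a f y D.h.h2.qw (D.pf y hy)]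
        exact Fm.r_mem_GG' (W.smul_mem _ hy)
      · rw [Fm.conj' D.h.h2.qw (D.pf y hy) ha (h3 y hy), Fm.smul a e y D.h.h2.qu (D.pe y hy)]
        exact Fm.r_mem_GG (W.smul_mem _ hy)
  exact this hk

/-- the normal form of the parabolic -/
def inP (D : DD Q u w e f W) (g : E) : Prop :=
  ∃ (t : Fˣ) (y : V) (k : E), y ∈ exS e f W ∧ k ∈ Fm.GG e f W ∧ g = (Fm.ro D.h).h t * Fm.r u y * k

theorem h_pr (t : Fˣ) : (Fm.ro D.h).h t ∈ prS p (exS e f W) := by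
  have key : ∀ t : Fˣ, ∀ x ∈ exS e f W, p ((Fm.ro D.h).h t) x ∈ exS e f W := by
    intro t x hx
    obtain ⟨a, b, s, hs, rfl⟩ := mem_exS.mp hx
    rw [map_add, map_add, map_smul, map_smul, Fm.h_e, Fm.h_f, Fm.h_perp D.h t (D.pu s hs) (D.pw s hs) (D.pe s hs) (D.pf s hs)]
    exact Submodule.add_mem _ (Submodule.add_mem _ (Submodule.smul_mem _ _ (Submodule.smul_mem _ _ (e_mem_exS e f W)))
      (Submodule.smul_mem _ _ (Submodule.smul_mem _ _ (f_mem_exS e f W)))) (le_exS e f W hs)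
  intro x hx
  refine ⟨key t x hx, ?_⟩
  have h1 : (Fm.ro D.h).h t * (Fm.ro D.h).w (-1) * ((Fm.ro D.h).w (-1))⁻¹ = (Fm.ro D.h).h t := by group
  obtain ⟨a, b, s, hs, rfl⟩ := mem_exS.mp hx
  have e1 : p ((Fm.ro D.h).h t)⁻¹ e = (t : F) • e := by
    apply inv_apply
    rw [map_smul, Fm.h_e, smul_smul, mul_inv_cancel₀ t.ne_zero, one_smul]
  have e2 : p ((Fm.ro D.h).h t)⁻¹ f = (t : F)⁻¹ • f := by
    apply inv_apply
    rw [map_smul, Fm.h_f, smul_smul, inv_mul_cancel₀ t.ne_zero, one_smul]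
  have e3 : p ((Fm.ro D.h).h t)⁻¹ s = s := inv_apply (Fm.h_perp D.h t (D.pu s hs) (D.pw s hs) (D.pe s hs) (D.pf s hs))
  rw [map_add, map_add, map_smul, map_smul, e1, e2, e3]
  exact Submodule.add_mem _ (Submodule.add_mem _ (Submodule.smul_mem _ _ (Submodule.smul_mem _ _ (e_mem_exS e f W)))
    (Submodule.smul_mem _ _ (Submodule.smul_mem _ _ (f_mem_exS e f W)))) (le_exS e f W hs)

theorem h_conjK (t : Fˣ) {k : E} (hk : k ∈ Fm.GG e f W) : (Fm.ro D.h).h t * k * ((Fm.ro D.h).h t)⁻¹ ∈ Fm.GG e f W :=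
  Fm.conjK D (Or.inl ⟨_, Fm.h_e D.h t⟩) (Or.inl ⟨_, Fm.h_f D.h t⟩)
    (fun s hs => Fm.h_perp D.h t (D.pu s hs) (D.pw s hs) (D.pe s hs) (D.pf s hs)) hk

variable [Finite F]

theorem h_conjK' (t : Fˣ) {k : E} (hk : k ∈ Fm.GG e f W) : ((Fm.ro D.h).h t)⁻¹ * k * (Fm.ro D.h).h t ∈ Fm.GG e f W := by
  have := Fm.h_conjK D t⁻¹ hk
  rwa [← (Fm.ro D.h).h_inv, inv_inv] at this

theorem inP_one : Fm.inP D 1 :=
  ⟨1, 0, 1, Submodule.zero_mem _, Subgroup.one_mem _, by rw [(Fm.ro D.h).h_one, Fm.r_zero D.h.h1.qu]; simp⟩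

theorem inP_h (t : Fˣ) : Fm.inP D ((Fm.ro D.h).h t) :=
  ⟨t, 0, 1, Submodule.zero_mem _, Subgroup.one_mem _, by rw [Fm.r_zero D.h.h1.qu]; simp⟩

theorem inP_r {y : V} (hy : y ∈ exS e f W) : Fm.inP D (Fm.r u y) :=
  ⟨1, y, 1, hy, Subgroup.one_mem _, by rw [(Fm.ro D.h).h_one]; simp⟩

theorem inP_k {k : E} (hk : k ∈ Fm.GG e f W) : Fm.inP D k :=
  ⟨1, 0, k, Submodule.zero_mem _, hk, by rw [(Fm.ro D.h).h_one, Fm.r_zero D.h.h1.qu]; simp⟩

theorem inP_mul {a b : E} (ha : Fm.inP D a) (hb : Fm.inP D b) : Fm.inP D (a * b) := by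
  obtain ⟨t, y, k, hy, hk, rfl⟩ := ha
  obtain ⟨t', y', k', hy', hk', rfl⟩ := hb
  have hk1 := Fm.h_conjK' D t' hk
  obtain ⟨k1, hk1e⟩ : ∃ k1, k1 = ((Fm.ro D.h).h t')⁻¹ * k * (Fm.ro D.h).h t' := ⟨_, rfl⟩
  rw [← hk1e] at hk1
  -- moving `r u y` across `h t'`
  have hy1 : p ((Fm.ro D.h).h t')⁻¹ y ∈ exS e f W := (Fm.h_pr D t' y hy).2
  have hu' : p ((Fm.ro D.h).h t')⁻¹ u = (t' : F)⁻¹ • u := by
    apply inv_apply
    rw [map_smul, Fm.h_u, smul_smul, inv_mul_cancel₀ t'.ne_zero, one_smul]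
  have e1 : ((Fm.ro D.h).h t')⁻¹ * Fm.r u y * (Fm.ro D.h).h t' = Fm.r u ((t' : F)⁻¹ • p ((Fm.ro D.h).h t')⁻¹ y) := by
    have h1 := Fm.conj' (g := ((Fm.ro D.h).h t')⁻¹) D.h.h1.qu (D.u_ex hy) hu' rfl
    rw [inv_inv] at h1
    rw [h1, Fm.smul _ _ _ D.h.h1.qu (D.u_ex hy1)]
  have hy2 : p k1 y' ∈ exS e f W := (Fm.K_pr D hk1 y' hy').1
  have e2 : k1 * Fm.r u y' * k1⁻¹ = Fm.r u (p k1 y') := Fm.conj' D.h.h1.qu (D.u_ex hy') (Fm.K_fix_u D hk1) rfl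
  refine ⟨t * t', (t' : F)⁻¹ • p ((Fm.ro D.h).h t')⁻¹ y + p k1 y', k1 * k',
    Submodule.add_mem _ (Submodule.smul_mem _ _ hy1) hy2, Subgroup.mul_mem _ hk1 hk', ?_⟩
  rw [← (Fm.ro D.h).h_mul, Fm.add u _ _ D.h.h1.qu (D.u_ex (Submodule.smul_mem _ _ hy1)) (D.u_ex hy2), ← e1, ← e2, hk1e]
  group

theorem inP_inv {a : E} (ha : Fm.inP D a) : Fm.inP D a⁻¹ := by
  obtain ⟨t, y, k, hy, hk, rfl⟩ := ha
  rw [mul_inv_rev, mul_inv_rev, ← Fm.r_neg D.h.h1.qu (D.u_ex hy), (Fm.ro D.h).h_inv]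
  exact Fm.inP_mul D (Fm.inP_k D (Subgroup.inv_mem _ hk)) (Fm.inP_mul D (Fm.inP_r D (Submodule.neg_mem _ hy)) (Fm.inP_h D _))

theorem inP_u {g : E} (hg : Fm.inP D g) : ∃ t : Fˣ, p g u = (t : F) • u := by
  obtain ⟨t, y, k, hy, hk, rfl⟩ := hg
  refine ⟨t, ?_⟩
  have h1 : p k u = u := Fm.K_fix_u D hk
  have h2 : p (Fm.r u y) u = u := Fm.r_perp D.h.h1.qu (D.u_ex hy) D.h.h1.uu (by rw [polar_symm]; exact D.u_ex hy)
  rw [mul_apply, mul_apply, h1, h2, Fm.h_u]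

/-- an element of `K` interchanging `⟨e⟩` and `⟨f⟩` -/
theorem exists_k0 : ∃ (k : E) (c : Fˣ), k ∈ Fm.GG e f W ∧ p k e = (c : F) • f ∧ p k f = (c : F)⁻¹ • e := by
  obtain ⟨s, hs, hs0⟩ := D.ns
  have h1 : Q s ≠ 0 := hs0
  refine ⟨Fm.r e s * Fm.r f ((Q s)⁻¹ • s) * Fm.r e s, Units.mk0 (-(Q s)⁻¹) (neg_ne_zero.mpr (inv_ne_zero h1)), ?_, ?_, ?_⟩
  · exact Subgroup.mul_mem _ (Subgroup.mul_mem _ (Fm.r_mem_GG hs) (Fm.r_mem_GG' (W.smul_mem _ hs))) (Fm.r_mem_GG hs)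
  · rw [mul_apply, mul_apply, Fm.act e s D.h.h2.qu (D.pe s hs), Fm.act f _ D.h.h2.qw (polar_smul0 (D.pf s hs) _),
      Fm.act e s D.h.h2.qu (D.pe s hs), sl_n_u D.h.h2 (D.pe s hs) (D.pf s hs) h1, Units.val_mk0]
  · rw [mul_apply, mul_apply, Fm.act e s D.h.h2.qu (D.pe s hs), Fm.act f _ D.h.h2.qw (polar_smul0 (D.pf s hs) _),
      Fm.act e s D.h.h2.qu (D.pe s hs), sl_n_w D.h.h2 (D.pe s hs) (D.pf s hs) h1, Units.val_mk0, inv_neg, inv_inv]

end Fam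

end H40.Sieg
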