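import Mathlib
import Cfsg.Agent.Lib.H40.Sieg11

/-!
Descent: the kernel of a family of Siegel elements lies in the subgroup of a smaller space.
-/
set_option autoImplicit false
set_option linter.unusedSimpArgs false
set_option linter.unusedSectionVars false
set_option linter.unusedVariables false

namespace H40.Sieg

open H7.Hyp QuadraticMap H17.OrthSiegel H50.OrthE

variable {F : Type*} [Field F] {V : Type*} [AddCommGroup V] [Module F V] {Q : QuadraticForm F V}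
variable {E : Type*} [Group E] {p : E →* (V ≃ₗ[F] V)} (Fm : Fam Q p)

namespace Fam

variable {u w e f : V} {W : Submodule F V} (D : DD Q u w e f W) [Finite F]
include D

/-- conjugation of the rank one elements by `k0` -/
theorem conj_w {k : E} {c : Fˣ} (hk : k ∈ Fm.GG e f W) (h1 : p k e = (c : F) • f) (h2 : p k f = (c : F)⁻¹ • e) (t : Fˣ) :
    k * (Fm.ro D.h).w t * k⁻¹ = (Fm.ro D.h.swap).w (t * c⁻¹) := by
  have e1 : ∀ s : F, k * Fm.r u (-s • f) * k⁻¹ = Fm.r u ((-s * (c : F)⁻¹) • e) := fun s => by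
    apply Fm.conj' D.h.h1.qu (polar_smul0 D.h.uf _) (Fm.K_fix_u D hk)
    rw [map_smul, h2, smul_smul]
  have e2 : ∀ s : F, k * Fm.r w (s • e) * k⁻¹ = Fm.r w ((s * (c : F)) • f) := fun s => by
    apply Fm.conj' D.h.h1.qw (polar_smul0 D.h.we _) (Fm.K_fix_w D hk)
    rw [map_smul, h1, smul_smul]
  rw [H45.RankOne.w, H45.RankOne.w, ro_x, ro_y, ro_x, ro_y]
  have e3 : ((t * c⁻¹ : Fˣ) : F) = (t : F) * (c : F)⁻¹ := by simp
  have e4 : (((t * c⁻¹)⁻¹ : Fˣ) : F) = (t⁻¹ : Fˣ) * (c : F) := by simp [mul_comm]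
  rw [e3, e4, ← neg_mul, ← neg_mul, ← e1, ← e2]
  group

theorem conj_h {k : E} {c : Fˣ} (hk : k ∈ Fm.GG e f W) (h1 : p k e = (c : F) • f) (h2 : p k f = (c : F)⁻¹ • e) (t : Fˣ) :
    k * (Fm.ro D.h).h t * k⁻¹ = (Fm.ro D.h.swap).h t := by
  rw [H45.RankOne.h, show k * ((Fm.ro D.h).w t * (Fm.ro D.h).w (-1)) * k⁻¹ =
    (k * (Fm.ro D.h).w t * k⁻¹) * (k * (Fm.ro D.h).w (-1) * k⁻¹) by group, Fm.conj_w D hk h1 h2, Fm.conj_w D hk h1 h2,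
    neg_one_mul, w_mul_w]

/-- the second torus is in the parabolic -/
theorem inP_h' (t : Fˣ) : Fm.inP D ((Fm.ro D.h.swap).h t) := by
  obtain ⟨k, c, hk, h1, h2⟩ := Fm.exists_k0 D
  rw [← Fm.conj_h D hk h1 h2]
  exact Fm.inP_mul D (Fm.inP_mul D (Fm.inP_k D hk) (Fm.inP_h D t)) (Fm.inP_inv D (Fm.inP_k D hk))

/-- the union of the three double cosets -/
def inM (D : DD Q u w e f W) (g : E) : Prop :=
  Fm.inP D g ∨ (∃ a b, Fm.inP D a ∧ Fm.inP D b ∧ g = a * (Fm.ro D.h).w 1 * b) ∨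
    ∃ a b, Fm.inP D a ∧ Fm.inP D b ∧ g = a * ((Fm.ro D.h).w 1 * (Fm.ro D.h.swap).w 1) * b

theorem inM_left {q g : E} (hq : Fm.inP D q) (hg : Fm.inM D g) : Fm.inM D (q * g) := by
  rcases hg with hg | ⟨a, b, ha, hb, rfl⟩ | ⟨a, b, ha, hb, rfl⟩
  · exact Or.inl (Fm.inP_mul D hq hg)
  · exact Or.inr (Or.inl ⟨q * a, b, Fm.inP_mul D hq ha, hb, by group⟩)
  · exact Or.inr (Or.inr ⟨q * a, b, Fm.inP_mul D hq ha, hb, by group⟩)

theorem inM_n {a b : E} (ha : Fm.inP D a) (hb : Fm.inP D b) : Fm.inM D (a * (Fm.ro D.h).w 1 * b) :=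
  Or.inr (Or.inl ⟨a, b, ha, hb, rfl⟩)

theorem inM_N {a b : E} (ha : Fm.inP D a) (hb : Fm.inP D b) :
    Fm.inM D (a * ((Fm.ro D.h).w 1 * (Fm.ro D.h.swap).w 1) * b) :=
  Or.inr (Or.inr ⟨a, b, ha, hb, rfl⟩)

theorem x'_inP (s : F) : Fm.inP D ((Fm.ro D.h.swap).x s) := by
  rw [ro_x]
  exact Fm.inP_r D (Submodule.smul_mem _ _ (e_mem_exS e f W))

theorem x_inP (s : F) : Fm.inP D ((Fm.ro D.h).x s) := by
  rw [ro_x]
  exact Fm.inP_r D (Submodule.smul_mem _ _ (f_mem_exS e f W))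

/-- claim Z -/
theorem claimZ {y : V} (hy : y ∈ exS e f W) {q : E} (hq : Fm.inP D q) :
    Fm.inM D (Fm.r w y * (Fm.ro D.h).w 1 * q) := by
  obtain ⟨a, b, t, ht, rfl⟩ := mem_exS.mp hy
  have n1 : p ((Fm.ro D.h).w 1)⁻¹ w = f := by
    apply inv_apply; rw [Fm.w_f]; simp
  have n2 : p ((Fm.ro D.h).w 1)⁻¹ e = -u := by
    apply inv_apply; rw [map_neg, Fm.w_u]; simp
  have n3 : p ((Fm.ro D.h).w 1)⁻¹ t = t := inv_apply (Fm.w_perp D.h _ (D.pu t ht) (D.pw t ht) (D.pe t ht) (D.pf t ht))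
  have wbf := polar_smul0 D.h.wf b
  have wae := polar_smul0 D.h.we a
  have wt := D.pw t ht
  have fu : polar Q f u = 0 := by rw [polar_symm]; exact D.h.uf
  have r1 : Fm.r w (a • e + b • f + t) = Fm.r w (b • f) * Fm.r w (a • e + t) := by
    rw [← Fm.add w _ _ D.h.h1.qw wbf (polar_add0 wae wt)]
    congr 1; module
  have r2 : ((Fm.ro D.h).w 1)⁻¹ * Fm.r w (a • e + t) * (Fm.ro D.h).w 1 = Fm.r u (a • f) * Fm.r f t := by
    have h1 := Fm.conj' (g := ((Fm.ro D.h).w 1)⁻¹) D.h.h1.qw (polar_add0 wae wt) n1 rfl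
    rw [inv_inv] at h1
    rw [h1, map_add, map_smul, n2, n3, show a • -u = (-a) • u by module,
      Fm.add f _ _ D.h.h2.qw (polar_smul0 fu _) (D.pf t ht), Fm.swap f _ D.h.h2.qw (Q_smul0 D.h.h1.qu _) (polar_smul0 fu _),
      Fm.smul _ _ _ D.h.h1.qu (by rw [QuadraticMap.polar_neg_right, D.h.uf, neg_zero])]
    congr 2; module
  have hq' : Fm.inP D (Fm.r u (a • f) * Fm.r f t * q) :=
    Fm.inP_mul D (Fm.inP_mul D (Fm.inP_r D (Submodule.smul_mem _ _ (f_mem_exS e f W))) (Fm.inP_k D (Fm.r_mem_GG' ht))) hq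
  have r3 : Fm.r w (a • e + b • f + t) * (Fm.ro D.h).w 1 * q =
      Fm.r w (b • f) * (Fm.ro D.h).w 1 * (Fm.r u (a • f) * Fm.r f t * q) := by
    rw [r1, ← r2]; group
  rw [r3]
  by_cases hb : b = 0
  · rw [hb, zero_smul, Fm.r_zero D.h.h1.qw]
    exact Fm.inM_n D (Fm.inP_one D) hq'
  · have r4 := Fm.y_eq D.h.swap hb
    rw [ro_y] at r4
    rw [r4, (Fm.ro D.h.swap).w_eq_h]
    have c1 : (Fm.ro D.h.swap).x b⁻¹ * (Fm.ro D.h).w 1 = (Fm.ro D.h).w 1 * (Fm.ro D.h.swap).x b⁻¹ := Fm.comm_xw D.h.swap _ _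
    have c2 := Fm.comm_ww D.h 1 1
    have r5 : (Fm.ro D.h.swap).x b⁻¹ * ((Fm.ro D.h.swap).h (-(Units.mk0 b hb)⁻¹) * (Fm.ro D.h.swap).w 1) * (Fm.ro D.h.swap).x b⁻¹ *
        (Fm.ro D.h).w 1 * (Fm.r u (a • f) * Fm.r f t * q) =
        ((Fm.ro D.h.swap).x b⁻¹ * (Fm.ro D.h.swap).h (-(Units.mk0 b hb)⁻¹)) *
          ((Fm.ro D.h).w 1 * (Fm.ro D.h.swap).w 1) * ((Fm.ro D.h.swap).x b⁻¹ * (Fm.r u (a • f) * Fm.r f t * q)) := by
      rw [c2]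
      calc _ = (Fm.ro D.h.swap).x b⁻¹ * (Fm.ro D.h.swap).h (-(Units.mk0 b hb)⁻¹) * (Fm.ro D.h.swap).w 1 *
            ((Fm.ro D.h.swap).x b⁻¹ * (Fm.ro D.h).w 1) * (Fm.r u (a • f) * Fm.r f t * q) := by group
        _ = _ := by rw [c1]; group
    rw [r5]
    exact Fm.inM_N D (Fm.inP_mul D (Fm.x'_inP D _) (Fm.inP_h' D _)) (Fm.inP_mul D (Fm.x'_inP D _) hq')

/-- every vector of `⟨e, f⟩ + W` is `K`-conjugate into `⟨e, f⟩` -/
theorem claimW {y : V} (hy : y ∈ exS e f W) : ∃ (k : E) (a b : F), k ∈ Fm.GG e f W ∧ y = p k (a • e + b • f) := by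
  -- the case with non-zero second coordinate
  have key : ∀ {e f : V} (D : DD Q u w e f W) (a b : F) (t : V), t ∈ W → b ≠ 0 →
      ∃ (k : E) (a' : F), k ∈ Fm.GG e f W ∧ a • e + b • f + t = p k (a' • e + b • f) := by
    intro e f D a b t ht hb
    have hz : polar Q e (-b⁻¹ • t) = 0 := polar_smul0 (D.pe t ht) _
    have te : polar Q t e = 0 := by rw [polar_symm]; exact D.pe t ht
    have tf : polar Q t f = 0 := by rw [polar_symm]; exact D.pf t ht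
    have htt : polar Q t t = 2 * Q t := by rw [QuadraticMap.polar_self]; simp
    obtain ⟨a', ha'⟩ : ∃ a', p (Fm.r e (-b⁻¹ • t)) (a • e + b • f + t) = a' • e + b • f := by
      refine ⟨a + b⁻¹ * (2 * Q t) - b⁻¹ * Q t, ?_⟩
      rw [Fm.act e _ D.h.h2.qu hz, sl_apply]
      simp only [QuadraticMap.polar_add_right, QuadraticMap.polar_smul_right, QuadraticMap.polar_smul_left, D.h.h2.uu, D.h.h2.uw,
        D.pe t ht, te, tf, htt, QuadraticMap.map_smul, smul_eq_mul]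
      match_scalars <;> field_simp <;> ring
    refine ⟨(Fm.r e (-b⁻¹ • t))⁻¹, a', Subgroup.inv_mem _ (Fm.r_mem_GG (W.smul_mem _ ht)), (inv_apply ha').symm⟩
  have key2 : ∀ (a b : F) (t : V), t ∈ W → (a ≠ 0 ∨ b ≠ 0) →
      ∃ (k : E) (a' b' : F), k ∈ Fm.GG e f W ∧ a • e + b • f + t = p k (a' • e + b' • f) := by
    intro a b t ht hab
    by_cases hb : b = 0
    · have ha : a ≠ 0 := by
        rcases hab with h | h
        · exact h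
        · exact absurd hb h
      obtain ⟨k, a', hk, h⟩ := key D.swap b a t ht ha
      refine ⟨k, a, a', ?_, ?_⟩
      · have : Fm.GG e f W = Fm.GG f e W := by rw [GG, GG, Set.union_comm]
        rw [this]; exact hk
      · rw [add_comm (a • e), h, add_comm]
    · obtain ⟨k, a', hk, h⟩ := key D a b t ht hb
      exact ⟨k, a', b, hk, h⟩
  obtain ⟨a, b, t, ht, rfl⟩ := mem_exS.mp hy
  by_cases hab : a ≠ 0 ∨ b ≠ 0
  · exact key2 a b t ht hab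
  · push Not at hab
    obtain ⟨ha, hb⟩ := hab
    by_cases ht0 : t = 0
    · refine ⟨1, 0, 0, Subgroup.one_mem _, ?_⟩
      rw [ha, hb, ht0, one_apply]; module
    · obtain ⟨t', ht', htt⟩ := D.nd t ht ht0
      have e1 : p (Fm.r e t') (a • e + b • f + t) = (-polar Q t' t) • e + (0 : F) • f + t := by
        rw [ha, hb, Fm.act e _ D.h.h2.qu (D.pe t' ht'), sl_apply]
        simp only [QuadraticMap.polar_add_right, QuadraticMap.polar_smul_right, D.h.h2.uu, D.h.h2.uw, D.pe t ht, smul_eq_mul,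
          zero_smul, zero_add, zero_mul, mul_zero]
        module
      obtain ⟨k, a', b', hk, h⟩ := key2 (-polar Q t' t) 0 t ht (Or.inl (neg_ne_zero.mpr htt))
      refine ⟨(Fm.r e t')⁻¹ * k, a', b', Subgroup.mul_mem _ (Subgroup.inv_mem _ (Fm.r_mem_GG ht')) hk, ?_⟩
      rw [mul_apply, ← h, ← e1, ← mul_apply, inv_mul_cancel, one_apply]

/-- claim Y -/
theorem claimY {y : V} (hy : y ∈ exS e f W) {q : E} (hq : Fm.inP D q) : Fm.inM D (Fm.r w y * q) := by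
  obtain ⟨k, a, b, hk, rfl⟩ := Fm.claimW D hy
  have wae := polar_smul0 D.h.we a
  have wbf := polar_smul0 D.h.wf b
  have r1 : k * Fm.r w (a • e + b • f) * k⁻¹ = Fm.r w (p k (a • e + b • f)) :=
    Fm.conj' D.h.h1.qw (polar_add0 wae wbf) (Fm.K_fix_w D hk) rfl
  have hq' : Fm.inP D (k⁻¹ * q) := Fm.inP_mul D (Fm.inP_k D (Subgroup.inv_mem _ hk)) hq
  have r2 : Fm.r w (a • e + b • f) = Fm.r w (b • f) * Fm.r w (a • e) := by
    rw [← Fm.add w _ _ D.h.h1.qw wbf wae, add_comm]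
  rw [← r1, r2, show k * (Fm.r w (b • f) * Fm.r w (a • e)) * k⁻¹ * q = k * (Fm.r w (b • f) * Fm.r w (a • e) * (k⁻¹ * q)) by group]
  apply Fm.inM_left D (Fm.inP_k D hk)
  by_cases ha : a = 0
  · rw [ha, zero_smul, Fm.r_zero D.h.h1.qw, mul_one]
    by_cases hb : b = 0
    · rw [hb, zero_smul, Fm.r_zero D.h.h1.qw, one_mul]
      exact Or.inl hq'
    · obtain ⟨k0, c, hk0, h1, h2⟩ := Fm.exists_k0 D
      have r4 := Fm.y_eq D.h.swap hb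
      rw [ro_y] at r4
      obtain ⟨s, hs⟩ : ∃ s : Fˣ, s = -(Units.mk0 b hb)⁻¹ := ⟨_, rfl⟩
      rw [r4, ← hs]
      have r5 : (Fm.ro D.h.swap).w s = (Fm.ro D.h.swap).h (s * c) * (k0 * (Fm.ro D.h).w 1 * k0⁻¹) := by
        rw [Fm.conj_w D hk0 h1 h2, one_mul, (Fm.ro D.h.swap).w_eq_h, (Fm.ro D.h.swap).w_eq_h c⁻¹, ← mul_assoc,
          (Fm.ro D.h.swap).h_mul, mul_inv_cancel_right]
      rw [r5, show (Fm.ro D.h.swap).x b⁻¹ * ((Fm.ro D.h.swap).h (s * c) * (k0 * (Fm.ro D.h).w 1 * k0⁻¹)) * (Fm.ro D.h.swap).x b⁻¹ *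
        (k⁻¹ * q) = ((Fm.ro D.h.swap).x b⁻¹ * (Fm.ro D.h.swap).h (s * c) * k0) * (Fm.ro D.h).w 1 *
          (k0⁻¹ * (Fm.ro D.h.swap).x b⁻¹ * (k⁻¹ * q)) by group]
      exact Fm.inM_n D (Fm.inP_mul D (Fm.inP_mul D (Fm.x'_inP D _) (Fm.inP_h' D _)) (Fm.inP_k D hk0))
        (Fm.inP_mul D (Fm.inP_mul D (Fm.inP_inv D (Fm.inP_k D hk0)) (Fm.x'_inP D _)) hq')
  · have r4 := Fm.y_eq D.h ha
    rw [ro_y] at r4
    obtain ⟨s, hs⟩ : ∃ s : Fˣ, s = -(Units.mk0 a ha)⁻¹ := ⟨_, rfl⟩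
    rw [r4, ← hs, (Fm.ro D.h).w_eq_h]
    have c1 : (Fm.ro D.h.swap).y b * (Fm.ro D.h).x a⁻¹ = (Fm.ro D.h).x a⁻¹ * (Fm.ro D.h.swap).y b := (Fm.comm_xy D.h _ _).symm
    have c2 : (Fm.ro D.h.swap).y b * (Fm.ro D.h).h s = (Fm.ro D.h).h s * (Fm.ro D.h.swap).y b := Fm.comm_yh D.h.swap _ _
    have hyb : Fm.r w (b • f) = (Fm.ro D.h.swap).y b := rfl
    have r5 : Fm.r w (b • f) * ((Fm.ro D.h).x a⁻¹ * ((Fm.ro D.h).h s * (Fm.ro D.h).w 1) * (Fm.ro D.h).x a⁻¹) * (k⁻¹ * q) =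
        ((Fm.ro D.h).x a⁻¹ * (Fm.ro D.h).h s) * (Fm.r w (b • f) * (Fm.ro D.h).w 1 * ((Fm.ro D.h).x a⁻¹ * (k⁻¹ * q))) := by
      rw [hyb]
      calc _ = ((Fm.ro D.h.swap).y b * (Fm.ro D.h).x a⁻¹) * (Fm.ro D.h).h s * (Fm.ro D.h).w 1 * (Fm.ro D.h).x a⁻¹ * (k⁻¹ * q) := by
            group
        _ = (Fm.ro D.h).x a⁻¹ * ((Fm.ro D.h.swap).y b * (Fm.ro D.h).h s) * (Fm.ro D.h).w 1 * (Fm.ro D.h).x a⁻¹ * (k⁻¹ * q) := by
            rw [c1]; group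
        _ = _ := by rw [c2]; group
    rw [r5]
    exact Fm.inM_left D (Fm.inP_mul D (Fm.x_inP D _) (Fm.inP_h D _))
      (Fm.claimZ D (Submodule.smul_mem _ _ (f_mem_exS e f W)) (Fm.inP_mul D (Fm.x_inP D _) hq'))

/-- elements of the Levi factor can be moved across `r w y` -/
def Lv (D : DD Q u w e f W) (g : E) : Prop :=
  Fm.inP D g ∧ (∃ s : F, p g⁻¹ w = s • w) ∧ ∀ y ∈ exS e f W, p g⁻¹ y ∈ exS e f W

theorem Lv.mul {a b : E} (ha : Fm.Lv D a) (hb : Fm.Lv D b) : Fm.Lv D (a * b) := by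
  obtain ⟨a1, ⟨s, hs⟩, a3⟩ := ha
  obtain ⟨b1, ⟨s', hs'⟩, b3⟩ := hb
  refine ⟨Fm.inP_mul D a1 b1, ⟨s * s', ?_⟩, fun y hy => ?_⟩
  · rw [mul_inv_rev, mul_apply, hs, map_smul, hs', smul_smul]
  · rw [mul_inv_rev, mul_apply]; exact b3 _ (a3 y hy)

theorem Lv_k {k : E} (hk : k ∈ Fm.GG e f W) : Fm.Lv D k :=
  ⟨Fm.inP_k D hk, ⟨1, by rw [one_smul]; exact inv_apply (Fm.K_fix_w D hk)⟩, fun y hy => (Fm.K_pr D hk y hy).2⟩

theorem Lv_h (t : Fˣ) : Fm.Lv D ((Fm.ro D.h).h t) :=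
  ⟨Fm.inP_h D t, ⟨(t : F), by
    apply inv_apply
    rw [map_smul, Fm.h_w, smul_smul, mul_inv_cancel₀ t.ne_zero, one_smul]⟩, fun y hy => (Fm.h_pr D t y hy).2⟩

theorem Lv_move {g : E} (hg : Fm.Lv D g) {y : V} (hy : y ∈ exS e f W) :
    ∃ y' ∈ exS e f W, Fm.r w y * g = g * Fm.r w y' := by
  obtain ⟨g1, ⟨s, hs⟩, g3⟩ := hg
  refine ⟨s • p g⁻¹ y, Submodule.smul_mem _ _ (g3 y hy), ?_⟩
  have h1 := Fm.conj' (g := g⁻¹) D.h.h1.qw (D.w_ex hy) hs rfl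
  rw [inv_inv, Fm.smul _ _ _ D.h.h1.qw (D.w_ex (g3 y hy))] at h1
  rw [← h1]; group

/-- `N` moves across the parabolic -/
theorem N_move {q : E} (hq : Fm.inP D q) : ∃ (l : E) (y : V), Fm.Lv D l ∧ y ∈ exS e f W ∧
    ∃ l', Fm.Lv D l' ∧ (Fm.ro D.h).w 1 * (Fm.ro D.h.swap).w 1 * q = l * Fm.r w y * l' * ((Fm.ro D.h).w 1 * (Fm.ro D.h.swap).w 1) := by
  obtain ⟨t, y, k, hy, hk, rfl⟩ := hq
  obtain ⟨N, hN⟩ : ∃ N, N = (Fm.ro D.h).w 1 * (Fm.ro D.h.swap).w 1 := ⟨_, rfl⟩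
  -- action of N
  have Nu : p N u = (-1 : F) • w := by
    rw [hN, mul_apply, Fm.w_u D.h.swap, map_smul, Fm.w_f D.h]
    simp
  have Ne : p N e = (-1 : F) • f := by
    rw [hN, mul_apply, Fm.w_f D.h.swap, map_smul, Fm.w_w D.h]
    simp
  have Nf : p N f = (-1 : F) • e := by
    rw [hN, mul_apply, Fm.w_e D.h.swap, map_smul, Fm.w_u D.h]
    simp
  have Nt : ∀ s ∈ W, p N s = s := fun s hs => by
    rw [hN, mul_apply, Fm.w_perp D.h.swap _ (D.pu s hs) (D.pw s hs) (D.pf s hs) (D.pe s hs),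
      Fm.w_perp D.h _ (D.pu s hs) (D.pw s hs) (D.pe s hs) (D.pf s hs)]
  have Ny : ∀ y ∈ exS e f W, p N y ∈ exS e f W := by
    intro y hy
    obtain ⟨a, b, s, hs, rfl⟩ := mem_exS.mp hy
    rw [map_add, map_add, map_smul, map_smul, Ne, Nf, Nt s hs]
    exact Submodule.add_mem _ (Submodule.add_mem _ (Submodule.smul_mem _ _ (Submodule.smul_mem _ _ (f_mem_exS e f W)))
      (Submodule.smul_mem _ _ (Submodule.smul_mem _ _ (e_mem_exS e f W)))) (le_exS e f W hs)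
  have h1 : N * (Fm.ro D.h).h t = (Fm.ro D.h).h t⁻¹ * N := by
    have c1 := Fm.comm_wh D.h.swap 1 t
    have c2 := (Fm.ro D.h).w_one_h t
    rw [hN]
    calc (Fm.ro D.h).w 1 * (Fm.ro D.h.swap).w 1 * (Fm.ro D.h).h t =
        (Fm.ro D.h).w 1 * ((Fm.ro D.h.swap).w 1 * (Fm.ro D.h).h t) := by group
      _ = (Fm.ro D.h).w 1 * ((Fm.ro D.h).h t * (Fm.ro D.h.swap).w 1) := by rw [show (Fm.ro D.h.swap).w 1 * (Fm.ro D.h).h t =
        (Fm.ro D.h).h t * (Fm.ro D.h.swap).w 1 from c1]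
      _ = ((Fm.ro D.h).w 1 * (Fm.ro D.h).h t) * (Fm.ro D.h.swap).w 1 := by group
      _ = _ := by rw [c2]; group
  have h2 : N * Fm.r u y * N⁻¹ = Fm.r w ((-1 : F) • p N y) := by
    rw [Fm.conj' D.h.h1.qu (D.u_ex hy) Nu rfl, Fm.smul _ _ _ D.h.h1.qw (D.w_ex (Ny y hy))]
  have h3 : N * k * N⁻¹ ∈ Fm.GG e f W := Fm.conjK D (Or.inr ⟨_, Ne⟩) (Or.inr ⟨_, Nf⟩) Nt hk
  refine ⟨(Fm.ro D.h).h t⁻¹, (-1 : F) • p N y, Fm.Lv_h D _, Submodule.smul_mem _ _ (Ny y hy), N * k * N⁻¹, Fm.Lv_k D h3, ?_⟩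
  rw [← hN, ← h2]
  calc N * ((Fm.ro D.h).h t * Fm.r u y * k) = (N * (Fm.ro D.h).h t) * Fm.r u y * k := by group
    _ = _ := by rw [h1]; group

theorem inM_Nmul {g : E} (hg : Fm.inM D g) : Fm.inM D ((Fm.ro D.h).w 1 * (Fm.ro D.h.swap).w 1 * g) := by
  obtain ⟨N, hN⟩ : ∃ N, N = (Fm.ro D.h).w 1 * (Fm.ro D.h.swap).w 1 := ⟨_, rfl⟩
  have cww := Fm.comm_ww D.h 1 1
  have NN : N * N = (Fm.ro D.h).h (-1) * (Fm.ro D.h.swap).h (-1) := by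
    rw [hN]
    calc _ = (Fm.ro D.h).w 1 * ((Fm.ro D.h.swap).w 1 * (Fm.ro D.h).w 1) * (Fm.ro D.h.swap).w 1 := by group
      _ = ((Fm.ro D.h).w 1 * (Fm.ro D.h).w 1) * ((Fm.ro D.h.swap).w 1 * (Fm.ro D.h.swap).w 1) := by rw [← cww]; group
      _ = _ := by rw [(Fm.ro D.h).w_one_sq, (Fm.ro D.h.swap).w_one_sq]
  rcases hg with hg | ⟨a, b, ha, hb, rfl⟩ | ⟨a, b, ha, hb, rfl⟩
  · have := Fm.inM_N D (Fm.inP_one D) hg
    rwa [one_mul] at this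
  · obtain ⟨l, y, hl, hy, l', hl', he⟩ := Fm.N_move D ha
    obtain ⟨k0, c, hk0, h1, h2⟩ := Fm.exists_k0 D
    -- `N n = h(-1) n'`, `n' = h'(c) k0 n k0⁻¹`
    have r5 : (Fm.ro D.h.swap).w 1 = (Fm.ro D.h.swap).h c * (k0 * (Fm.ro D.h).w 1 * k0⁻¹) := by
      rw [Fm.conj_w D hk0 h1 h2, one_mul, (Fm.ro D.h.swap).w_eq_h c⁻¹, ← mul_assoc,
        (Fm.ro D.h.swap).h_mul, mul_inv_cancel, (Fm.ro D.h.swap).h_one, one_mul]
    have r6 : (Fm.ro D.h.swap).h c = k0 * (Fm.ro D.h).h c * k0⁻¹ := (Fm.conj_h D hk0 h1 h2 c).symm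
    have hL : Fm.Lv D (l' * (Fm.ro D.h).h (-1) * k0 * (Fm.ro D.h).h c) :=
      Lv.mul Fm D (Lv.mul Fm D (Lv.mul Fm D hl' (Fm.Lv_h D _)) (Fm.Lv_k D hk0)) (Fm.Lv_h D _)
    obtain ⟨y', hy', hm⟩ := Fm.Lv_move D hL hy
    have e1 : (Fm.ro D.h).w 1 * (Fm.ro D.h.swap).w 1 * (a * (Fm.ro D.h).w 1 * b) =
        l * (l' * (Fm.ro D.h).h (-1) * k0 * (Fm.ro D.h).h c) * (Fm.r w y' * (Fm.ro D.h).w 1 * (k0⁻¹ * b)) := by
      calc _ = ((Fm.ro D.h).w 1 * (Fm.ro D.h.swap).w 1 * a) * (Fm.ro D.h).w 1 * b := by group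
        _ = l * Fm.r w y * l' * (Fm.ro D.h).w 1 * ((Fm.ro D.h.swap).w 1 * (Fm.ro D.h).w 1) * b := by rw [he]; group
        _ = l * Fm.r w y * l' * ((Fm.ro D.h).w 1 * (Fm.ro D.h).w 1) * (Fm.ro D.h.swap).w 1 * b := by rw [← cww]; group
        _ = l * (Fm.r w y * (l' * (Fm.ro D.h).h (-1) * k0 * (Fm.ro D.h).h c)) * (Fm.ro D.h).w 1 * (k0⁻¹ * b) := by
            rw [(Fm.ro D.h).w_one_sq, r5, r6]; group
        _ = _ := by rw [hm]; group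
    rw [e1]
    exact Fm.inM_left D (Fm.inP_mul D hl.1 hL.1) (Fm.claimZ D hy' (Fm.inP_mul D (Fm.inP_inv D (Fm.inP_k D hk0)) hb))
  · obtain ⟨l, y, hl, hy, l', hl', he⟩ := Fm.N_move D ha
    have e1 : (Fm.ro D.h).w 1 * (Fm.ro D.h.swap).w 1 * (a * ((Fm.ro D.h).w 1 * (Fm.ro D.h.swap).w 1) * b) =
        l * (Fm.r w y * (l' * ((Fm.ro D.h).h (-1) * (Fm.ro D.h.swap).h (-1)) * b)) := by
      rw [← hN] at he ⊢
      rw [← NN]
      calc N * (a * N * b) = (N * a) * N * b := by group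
        _ = _ := by rw [he]; group
    rw [e1]
    exact Fm.inM_left D hl.1 (Fm.claimY D hy (Fm.inP_mul D (Fm.inP_mul D hl'.1 (Fm.inP_mul D (Fm.inP_h D _) (Fm.inP_h' D _))) hb))

end Fam

end H40.Sieg
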