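import Mathlib
import Cfsg.Agent.Lib.H40.Sieg12

/-!
Descent theorem and the final bounds for the kernel.
-/
set_option autoImplicit false
set_option linter.unusedSimpArgs false
set_option linter.unusedSectionVars false
set_option linter.unusedVariables false

namespace H40.Sieg

open H7.Hyp QuadraticMap H17.OrthSiegel H50.OrthE

variable {F : Type*} [Field F] {V : Type*} [AddCommGroup V] [Module F V] {Q : QuadraticForm F V}
variable {E : Type*} [Group E] {p : E →* (V ≃ₗ[F] V)} (Fm : Fam Q p)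

namespace Fam

section desc
variable {u w e f : V} {W : Submodule F V} (D : DD Q u w e f W) [Finite F]
include D

theorem GG_le_M {g : E} (hg : g ∈ Fm.GG u w (exS e f W)) : Fm.inM D g := by
  obtain ⟨N, hN⟩ : ∃ N, N = (Fm.ro D.h).w 1 * (Fm.ro D.h.swap).w 1 := ⟨_, rfl⟩
  have cww := Fm.comm_ww D.h 1 1
  have NN : Fm.inP D (N * N) := by
    have : N * N = (Fm.ro D.h).h (-1) * (Fm.ro D.h.swap).h (-1) := by
      rw [hN]
      calc _ = (Fm.ro D.h).w 1 * ((Fm.ro D.h.swap).w 1 * (Fm.ro D.h).w 1) * (Fm.ro D.h.swap).w 1 := by group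
        _ = ((Fm.ro D.h).w 1 * (Fm.ro D.h).w 1) * ((Fm.ro D.h.swap).w 1 * (Fm.ro D.h.swap).w 1) := by rw [← cww]; group
        _ = _ := by rw [(Fm.ro D.h).w_one_sq, (Fm.ro D.h.swap).w_one_sq]
    rw [this]
    exact Fm.inP_mul D (Fm.inP_h D _) (Fm.inP_h' D _)
  have Nmul : ∀ g, Fm.inM D g → Fm.inM D (N * g) := fun g hg => by rw [hN]; exact Fm.inM_Nmul D hg
  have Ninv : ∀ g, Fm.inM D g → Fm.inM D (N⁻¹ * g) := fun g hg => by
    have h1 : N⁻¹ * g = (N * N)⁻¹ * (N * g) := by group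
    rw [h1]
    exact Fm.inM_left D (Fm.inP_inv D NN) (Nmul g hg)
  -- `r w y` is conjugate to `r u _` under `N`
  have Nu : p N u = (-1 : F) • w := by
    rw [hN, mul_apply, Fm.w_u D.h.swap, map_smul, Fm.w_f D.h]
    simp
  have Nw : p N⁻¹ w = (-1 : F) • u := by
    apply inv_apply
    rw [map_smul, Nu, smul_smul]; simp
  have Ny : ∀ y ∈ exS e f W, p N⁻¹ y ∈ exS e f W := by
    intro y hy
    obtain ⟨a, b, s, hs, rfl⟩ := mem_exS.mp hy
    have Ne : p N⁻¹ f = (-1 : F) • e := by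
      apply inv_apply
      rw [map_smul, hN, mul_apply, Fm.w_f D.h.swap, map_smul, Fm.w_w D.h]
      simp
    have Nf : p N⁻¹ e = (-1 : F) • f := by
      apply inv_apply
      rw [map_smul, hN, mul_apply, Fm.w_e D.h.swap, map_smul, Fm.w_u D.h]
      simp
    have Nt : p N⁻¹ s = s := by
      apply inv_apply
      rw [hN, mul_apply, Fm.w_perp D.h.swap _ (D.pu s hs) (D.pw s hs) (D.pf s hs) (D.pe s hs),
        Fm.w_perp D.h _ (D.pu s hs) (D.pw s hs) (D.pe s hs) (D.pf s hs)]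
    rw [map_add, map_add, map_smul, map_smul, Ne, Nf, Nt]
    exact Submodule.add_mem _ (Submodule.add_mem _ (Submodule.smul_mem _ _ (Submodule.smul_mem _ _ (f_mem_exS e f W)))
      (Submodule.smul_mem _ _ (Submodule.smul_mem _ _ (e_mem_exS e f W)))) (le_exS e f W hs)
  have rw1 : ∀ y ∈ exS e f W, ∃ y' ∈ exS e f W, Fm.r w y = N * Fm.r u y' * N⁻¹ := by
    intro y hy
    refine ⟨(-1 : F) • p N⁻¹ y, Submodule.smul_mem _ _ (Ny y hy), ?_⟩
    have h1 := Fm.conj' (g := N⁻¹) D.h.h1.qw (D.w_ex hy) Nw rfl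
    rw [inv_inv, Fm.smul _ _ _ D.h.h1.qu (D.u_ex (Ny y hy))] at h1
    rw [← h1]; group
  rw [GG] at hg
  induction hg using Subgroup.closure_induction_left with
  | one => exact Or.inl (Fm.inP_one D)
  | mul_left x hx y _ ih =>
    rcases hx with ⟨z, hz, rfl⟩ | ⟨z, hz, rfl⟩
    · exact Fm.inM_left D (Fm.inP_r D hz) ih
    · obtain ⟨z', hz', h⟩ := rw1 z hz
      rw [h, show N * Fm.r u z' * N⁻¹ * y = N * (Fm.r u z' * (N⁻¹ * y)) by group]
      exact Nmul _ (Fm.inM_left D (Fm.inP_r D hz') (Ninv _ ih))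
  | inv_mul_cancel x hx y _ ih =>
    rcases hx with ⟨z, hz, rfl⟩ | ⟨z, hz, rfl⟩
    · exact Fm.inM_left D (Fm.inP_inv D (Fm.inP_r D hz)) ih
    · obtain ⟨z', hz', h⟩ := rw1 z hz
      rw [h, show (N * Fm.r u z' * N⁻¹)⁻¹ * y = N * ((Fm.r u z')⁻¹ * (N⁻¹ * y)) by group]
      exact Nmul _ (Fm.inM_left D (Fm.inP_inv D (Fm.inP_r D hz')) (Ninv _ ih))

/-- the descent -/
theorem descent (hker : p.ker ≤ Fm.GG u w (exS e f W)) : p.ker ≤ Fm.GG e f W := by
  intro g hg
  have hu0 : u ≠ 0 := by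
    rintro rfl
    have := D.h.h1.uw
    rw [QuadraticMap.polar_zero_left] at this
    exact zero_ne_one this
  have gx : ∀ x, p g x = x := fun x => by rw [MonoidHom.mem_ker.mp hg]; rfl
  rcases Fm.GG_le_M D (hker hg) with h | ⟨a, b, ha, hb, h⟩ | ⟨a, b, ha, hb, h⟩
  · obtain ⟨t, y, k, hy, hk, rfl⟩ := h
    have ku : p k u = u := Fm.K_fix_u D hk
    have kw : p k w = w := Fm.K_fix_w D hk
    have ru : p (Fm.r u y) u = u := Fm.r_perp D.h.h1.qu (D.u_ex hy) D.h.h1.uu (by rw [polar_symm]; exact D.u_ex hy)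
    have h1 := gx u
    rw [mul_apply, mul_apply, ku, ru, Fm.h_u] at h1
    have ht : t = 1 := by
      apply Units.ext
      have h2 : ((t : F) - 1) • u = 0 := by rw [sub_smul, h1, one_smul, sub_self]
      rcases smul_eq_zero.mp h2 with h3 | h3
      · rw [sub_eq_zero.mp h3]; rfl
      · exact absurd h3 hu0
    rw [ht, (Fm.ro D.h).h_one, one_mul] at gx ⊢
    have h2 := gx w
    rw [mul_apply, kw, Fm.act u y D.h.h1.qu (D.u_ex hy), sl_apply, D.h.h1.uw, polar_symm y w, D.w_ex hy] at h2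
    have h3 : y = Q y • u := by
      have : w + (1 : F) • y - (0 : F) • u - (Q y * 1) • u - w = 0 := by rw [h2, sub_self]
      have h4 : y - Q y • u = 0 := by rw [← this]; module
      exact sub_eq_zero.mp h4
    have h4 : Q y = 0 := by
      have h5 : polar Q w (Q y • u) = 0 := by rw [← h3]; exact D.w_ex hy
      rw [QuadraticMap.polar_smul_right, D.h.h1.wu, smul_eq_mul, mul_one] at h5
      exact h5
    rw [h4, zero_smul] at h3
    rw [h3, Fm.r_zero D.h.h1.qu, one_mul]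
    exact hk
  · exfalso
    obtain ⟨s, hs⟩ := Fm.inP_u D (Fm.inP_inv D ha)
    obtain ⟨s', hs'⟩ := Fm.inP_u D hb
    have h1 : p a⁻¹ (p g u) = p a⁻¹ u := by rw [gx]
    rw [h, ← mul_apply, hs, show a⁻¹ * (a * (Fm.ro D.h).w 1 * b) = (Fm.ro D.h).w 1 * b by group, mul_apply, hs', map_smul,
      Fm.w_u] at h1
    have h2 : polar Q f ((s' : F) • (-((1 : Fˣ) : F)⁻¹ • e)) = polar Q f ((s : F) • u) := by rw [h1]
    rw [QuadraticMap.polar_smul_right, QuadraticMap.polar_smul_right, QuadraticMap.polar_smul_right, D.h.h2.wu,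
      polar_symm f u, D.h.uf] at h2
    simp at h2
  · exfalso
    obtain ⟨s, hs⟩ := Fm.inP_u D (Fm.inP_inv D ha)
    obtain ⟨s', hs'⟩ := Fm.inP_u D hb
    have h1 : p a⁻¹ (p g u) = p a⁻¹ u := by rw [gx]
    rw [h, ← mul_apply, hs, show a⁻¹ * (a * ((Fm.ro D.h).w 1 * (Fm.ro D.h.swap).w 1) * b) =
      ((Fm.ro D.h).w 1 * (Fm.ro D.h.swap).w 1) * b by group, mul_apply, hs', map_smul, mul_apply, Fm.w_u D.h.swap, map_smul,
      Fm.w_f] at h1
    have h2 : polar Q u ((s' : F) • (-((1 : Fˣ) : F)⁻¹ • (((1 : Fˣ) : F)⁻¹ • w))) = polar Q u ((s : F) • u) := by rw [h1]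
    rw [QuadraticMap.polar_smul_right, QuadraticMap.polar_smul_right, QuadraticMap.polar_smul_right, D.h.h1.uw,
      QuadraticMap.polar_smul_right, D.h.h1.uu] at h2
    simp at h2

end desc

/-! ### the plus case -/

section plus
variable {u w e f : V} (h : HP4 Q u w e f) [Finite F]
include h

theorem LL {g : E} (hg : g ∈ Fm.GG u w (exS e f ⊥)) : ∃ l ∈ Subgroup.closure (Set.range (Fm.ro h).x ∪ Set.range (Fm.ro h).y),
    ∃ l' ∈ Subgroup.closure (Set.range (Fm.ro h.swap).x ∪ Set.range (Fm.ro h.swap).y), g = l * l' := by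
  have cen : ∀ s l, l ∈ Subgroup.closure (Set.range (Fm.ro h).x ∪ Set.range (Fm.ro h).y) →
      (Fm.ro h.swap).x s * l = l * (Fm.ro h.swap).x s ∧ (Fm.ro h.swap).y s * l = l * (Fm.ro h.swap).y s := by
    intro s l hl
    induction hl using Subgroup.closure_induction with
    | mem x hx =>
      rcases hx with ⟨t, rfl⟩ | ⟨t, rfl⟩
      · exact ⟨(Fm.comm_xx h t s).symm, (Fm.comm_xy h t s).symm⟩
      · exact ⟨(Fm.comm_yx h t s).symm, (Fm.comm_yy h t s).symm⟩
    | one => simp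
    | mul a b _ _ ha hb =>
      refine ⟨?_, ?_⟩
      · rw [← mul_assoc, ha.1, mul_assoc, hb.1, mul_assoc]
      · rw [← mul_assoc, ha.2, mul_assoc, hb.2, mul_assoc]
    | inv a _ ha =>
      refine ⟨?_, ?_⟩
      · exact (show Commute _ _ from ha.1).inv_right
      · exact (show Commute _ _ from ha.2).inv_right
  have hr : ∀ y ∈ exS e f (⊥ : Submodule F V), ∃ s t, Fm.r u y = (Fm.ro h).x s * (Fm.ro h.swap).x t := by
    intro y hy
    obtain ⟨a, b, z, hz, rfl⟩ := mem_exS.mp hy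
    rw [Submodule.mem_bot] at hz
    refine ⟨-b, -a, ?_⟩
    rw [ro_x, ro_x, ← Fm.add u _ _ h.h1.qu (polar_smul0 h.uf _) (polar_smul0 h.ue _), hz]
    congr 1; module
  have hr' : ∀ y ∈ exS e f (⊥ : Submodule F V), ∃ s t, Fm.r w y = (Fm.ro h).y s * (Fm.ro h.swap).y t := by
    intro y hy
    obtain ⟨a, b, z, hz, rfl⟩ := mem_exS.mp hy
    rw [Submodule.mem_bot] at hz
    refine ⟨a, b, ?_⟩
    rw [ro_y, ro_y, ← Fm.add w _ _ h.h1.qw (polar_smul0 h.we _) (polar_smul0 h.wf _), hz]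
    congr 1; module
  have mx : ∀ s, (Fm.ro h).x s ∈ Subgroup.closure (Set.range (Fm.ro h).x ∪ Set.range (Fm.ro h).y) := fun s =>
    Subgroup.subset_closure (Or.inl ⟨s, rfl⟩)
  have my : ∀ s, (Fm.ro h).y s ∈ Subgroup.closure (Set.range (Fm.ro h).x ∪ Set.range (Fm.ro h).y) := fun s =>
    Subgroup.subset_closure (Or.inr ⟨s, rfl⟩)
  have mx' : ∀ s, (Fm.ro h.swap).x s ∈ Subgroup.closure (Set.range (Fm.ro h.swap).x ∪ Set.range (Fm.ro h.swap).y) := fun s =>
    Subgroup.subset_closure (Or.inl ⟨s, rfl⟩)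
  have my' : ∀ s, (Fm.ro h.swap).y s ∈ Subgroup.closure (Set.range (Fm.ro h.swap).x ∪ Set.range (Fm.ro h.swap).y) := fun s =>
    Subgroup.subset_closure (Or.inr ⟨s, rfl⟩)
  rw [GG] at hg
  induction hg using Subgroup.closure_induction_left with
  | one => exact ⟨1, Subgroup.one_mem _, 1, Subgroup.one_mem _, by simp⟩
  | mul_left x hx y _ ih =>
    obtain ⟨l, hl, l', hl', rfl⟩ := ih
    rcases hx with ⟨z, hz, rfl⟩ | ⟨z, hz, rfl⟩
    · obtain ⟨s, t, hst⟩ := hr z hz
      refine ⟨(Fm.ro h).x s * l, Subgroup.mul_mem _ (mx s) hl, (Fm.ro h.swap).x t * l', Subgroup.mul_mem _ (mx' t) hl', ?_⟩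
      rw [hst]
      calc _ = (Fm.ro h).x s * ((Fm.ro h.swap).x t * l) * l' := by group
        _ = _ := by rw [(cen t l hl).1]; group
    · obtain ⟨s, t, hst⟩ := hr' z hz
      refine ⟨(Fm.ro h).y s * l, Subgroup.mul_mem _ (my s) hl, (Fm.ro h.swap).y t * l', Subgroup.mul_mem _ (my' t) hl', ?_⟩
      rw [hst]
      calc _ = (Fm.ro h).y s * ((Fm.ro h.swap).y t * l) * l' := by group
        _ = _ := by rw [(cen t l hl).2]; group
  | inv_mul_cancel x hx y _ ih =>
    obtain ⟨l, hl, l', hl', rfl⟩ := ih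
    rcases hx with ⟨z, hz, rfl⟩ | ⟨z, hz, rfl⟩
    · rw [← Fm.r_neg h.h1.qu]
      · obtain ⟨s, t, hst⟩ := hr (-z) (Submodule.neg_mem _ hz)
        refine ⟨(Fm.ro h).x s * l, Subgroup.mul_mem _ (mx s) hl, (Fm.ro h.swap).x t * l', Subgroup.mul_mem _ (mx' t) hl', ?_⟩
        rw [hst]
        calc _ = (Fm.ro h).x s * ((Fm.ro h.swap).x t * l) * l' := by group
          _ = _ := by rw [(cen t l hl).1]; group
      · obtain ⟨a, b, z', hz', rfl⟩ := mem_exS.mp hz
        rw [Submodule.mem_bot] at hz'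
        rw [hz']
        exact polar_add0 (polar_add0 (polar_smul0 h.ue _) (polar_smul0 h.uf _)) (QuadraticMap.polar_zero_right _ _)
    · rw [← Fm.r_neg h.h1.qw]
      · obtain ⟨s, t, hst⟩ := hr' (-z) (Submodule.neg_mem _ hz)
        refine ⟨(Fm.ro h).y s * l, Subgroup.mul_mem _ (my s) hl, (Fm.ro h.swap).y t * l', Subgroup.mul_mem _ (my' t) hl', ?_⟩
        rw [hst]
        calc _ = (Fm.ro h).y s * ((Fm.ro h.swap).y t * l) * l' := by group
          _ = _ := by rw [(cen t l hl).2]; group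
      · obtain ⟨a, b, z', hz', rfl⟩ := mem_exS.mp hz
        rw [Submodule.mem_bot] at hz'
        rw [hz']
        exact polar_add0 (polar_add0 (polar_smul0 h.we _) (polar_smul0 h.wf _)) (QuadraticMap.polar_zero_right _ _)

/-- shape of an element of `L` from its action -/
theorem L_shape {l : E} (hl : l ∈ Subgroup.closure (Set.range (Fm.ro h).x ∪ Set.range (Fm.ro h).y))
    (h1 : polar Q f (p l u) = 0) : ∃ (a : F) (t : Fˣ), l = (Fm.ro h).x a * (Fm.ro h).h t := by
  rcases (Fm.ro h).mem_NF hl with ⟨a, t, rfl⟩ | ⟨a, t, b, rfl⟩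
  · exact ⟨a, t, rfl⟩
  · exfalso
    have fu : polar Q f u = 0 := by rw [polar_symm]; exact h.uf
    have ef := h.h2.uw
    have x1 : ∀ s, p ((Fm.ro h).x s) u = u := fun s => by
      rw [ro_x]
      exact Fm.r_perp h.h1.qu (polar_smul0 h.uf _) h.h1.uu (by rw [QuadraticMap.polar_smul_left, fu, smul_zero])
    have x2 : ∀ s, p ((Fm.ro h).x s) e = e + s • u := fun s => by
      rw [ro_x, Fm.act u _ h.h1.qu (polar_smul0 h.uf _), sl_apply, h.ue, QuadraticMap.polar_smul_left, h.h2.wu]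
      simp only [smul_eq_mul]
      module
    rw [mul_apply, mul_apply, mul_apply, x1, Fm.w_u, map_smul, map_smul, Fm.h_e, map_smul, x2] at h1
    rw [QuadraticMap.polar_smul_right, QuadraticMap.polar_smul_right, QuadraticMap.polar_add_right,
      QuadraticMap.polar_smul_right, h.h2.wu, fu] at h1
    simp at h1

/-- the kernel in the plus case -/
theorem ker_plus (hker : p.ker ≤ Fm.GG u w (exS e f ⊥)) {g : E} (hg : g ∈ p.ker) :
    g = 1 ∨ g = (Fm.ro h).h (-1) * (Fm.ro h.swap).h (-1) := by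
  have hu0 : u ≠ 0 := by
    rintro rfl
    have := h.h1.uw
    rw [QuadraticMap.polar_zero_left] at this
    exact zero_ne_one this
  have hw0 : w ≠ 0 := by
    rintro rfl
    have := h.h1.uw
    rw [QuadraticMap.polar_zero_right] at this
    exact zero_ne_one this
  have he0 : e ≠ 0 := by
    rintro rfl
    have := h.h2.uw
    rw [QuadraticMap.polar_zero_left] at this
    exact zero_ne_one this
  have fu : polar Q f u = 0 := by rw [polar_symm]; exact h.uf
  have eu : polar Q e u = 0 := by rw [polar_symm]; exact h.ue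
  obtain ⟨l, hl, l', hl', rfl⟩ := Fm.LL h (hker hg)
  have gx : ∀ x, p l (p l' x) = x := fun x => by
    rw [← mul_apply, MonoidHom.mem_ker.mp hg]; rfl
  have gx' : ∀ x, p l x = p l'⁻¹ x := fun x => by
    have h1 : p (l * l') (p l'⁻¹ x) = p l'⁻¹ x := by rw [MonoidHom.mem_ker.mp hg]; rfl
    rw [← h1, ← mul_apply, show l * l' * l'⁻¹ = l by group]
  -- `l u` is in `⟨u, e⟩` and in `⟨u, f⟩`
  have inv1 : ∀ {u w e f : V} (h : HP4 Q u w e f) (l : E),
      l ∈ Subgroup.closure (Set.range (Fm.ro h).x ∪ Set.range (Fm.ro h).y) →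
      ∃ a b : F, p l u = a • u + b • e := by
    intro u w e f h l hl
    have fu : polar Q f u = 0 := by rw [polar_symm]; exact h.uf
    have x1 : ∀ s, p ((Fm.ro h).x s) u = u := fun s => by
      rw [ro_x]
      exact Fm.r_perp h.h1.qu (polar_smul0 h.uf _) h.h1.uu (by rw [QuadraticMap.polar_smul_left, fu, smul_zero])
    have x2 : ∀ s, p ((Fm.ro h).x s) e = e + s • u := fun s => by
      rw [ro_x, Fm.act u _ h.h1.qu (polar_smul0 h.uf _), sl_apply, h.ue, QuadraticMap.polar_smul_left, h.h2.wu]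
      simp only [smul_eq_mul]
      module
    rcases (Fm.ro h).mem_NF hl with ⟨a, t, rfl⟩ | ⟨a, t, b, rfl⟩
    · refine ⟨t, 0, ?_⟩
      rw [mul_apply, Fm.h_u, map_smul, x1]; module
    · refine ⟨-(t : F)⁻¹ * a, -(t : F)⁻¹, ?_⟩
      rw [mul_apply, mul_apply, mul_apply, x1, Fm.w_u, map_smul, map_smul, Fm.h_e, map_smul, x2]
      match_scalars <;> simp
  have s1 : polar Q f (p l u) = 0 := by
    rw [gx' u]
    obtain ⟨a, b, hab⟩ := inv1 h.swap l'⁻¹ (Subgroup.inv_mem _ hl')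
    rw [hab, QuadraticMap.polar_add_right, QuadraticMap.polar_smul_right, QuadraticMap.polar_smul_right, fu, h.h2.ww]
    simp
  have s2 : polar Q e (p l'⁻¹ u) = 0 := by
    rw [← gx' u]
    obtain ⟨a, b, hab⟩ := inv1 h l hl
    rw [hab, QuadraticMap.polar_add_right, QuadraticMap.polar_smul_right, QuadraticMap.polar_smul_right, eu, h.h2.uu]
    simp
  obtain ⟨a, t, rfl⟩ := Fm.L_shape h hl s1
  obtain ⟨a', t', hl1⟩ := Fm.L_shape h.swap (Subgroup.inv_mem _ hl') s2
  have x1 : ∀ {u w e f : V} (h : HP4 Q u w e f) (s : F), p ((Fm.ro h).x s) u = u := fun {u w e f} h s => by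
    rw [ro_x]
    exact Fm.r_perp h.h1.qu (polar_smul0 h.uf _) h.h1.uu (by rw [QuadraticMap.polar_smul_left, polar_symm f u, h.uf, smul_zero])
  have x3 : ∀ {u w e f : V} (h : HP4 Q u w e f) (s : F), p ((Fm.ro h).x s) w = w - s • f := fun {u w e f} h s => by
    rw [ro_x, Fm.act u _ h.h1.qu (polar_smul0 h.uf _), sl_apply, h.h1.uw, QuadraticMap.polar_smul_left, polar_symm f w, h.wf,
      Q_smul, h.h2.qw]
    simp only [smul_eq_mul, mul_zero, zero_mul]
    module
  -- on `u`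
  have e1 := gx' u
  rw [hl1, mul_apply, mul_apply, Fm.h_u, Fm.h_u, map_smul, map_smul, x1, x1] at e1
  have htt : t = t' := by
    apply Units.ext
    have h2 : ((t : F) - t') • u = 0 := by rw [sub_smul, e1, sub_self]
    rcases smul_eq_zero.mp h2 with h3 | h3
    · exact sub_eq_zero.mp h3
    · exact absurd h3 hu0
  -- on `w`
  have e2 := gx' w
  rw [hl1, mul_apply, mul_apply, Fm.h_w, Fm.h_w, map_smul, map_smul, x3, x3, htt] at e2
  have ht0 : (t' : F) ≠ 0 := t'.ne_zero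
  have e3 : w - a • f = w - a' • e := by
    have : (t' : F) • ((t' : F)⁻¹ • (w - a • f)) = (t' : F) • ((t' : F)⁻¹ • (w - a' • e)) := by rw [e2]
    rwa [smul_smul, smul_smul, mul_inv_cancel₀ ht0, one_smul, one_smul] at this
  have ha : a = 0 := by
    have : polar Q e (w - a • f) = polar Q e (w - a' • e) := by rw [e3]
    rw [QuadraticMap.polar_sub_right, QuadraticMap.polar_sub_right, QuadraticMap.polar_smul_right,
      QuadraticMap.polar_smul_right, h.h2.uw, h.h2.uu] at this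
    simpa using this
  have ha' : a' = 0 := by
    have : polar Q f (w - a • f) = polar Q f (w - a' • e) := by rw [e3]
    rw [QuadraticMap.polar_sub_right, QuadraticMap.polar_sub_right, QuadraticMap.polar_smul_right,
      QuadraticMap.polar_smul_right, h.h2.wu, h.h2.ww] at this
    simpa using this.symm
  subst ha ha'
  have e4 := gx' e
  rw [hl1, (Fm.ro h).x_zero, (Fm.ro h.swap).x_zero, one_mul, one_mul, Fm.h_e, Fm.h_f h.swap, htt] at e4
  have e5 : (t' : F)⁻¹ = t' := by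
    have h2 : ((t' : F)⁻¹ - t') • e = 0 := by rw [sub_smul, e4, sub_self]
    rcases smul_eq_zero.mp h2 with h3 | h3
    · exact sub_eq_zero.mp h3
    · exact absurd h3 he0
  have e6 : t' * t' = 1 := by
    apply Units.ext
    rw [Units.val_mul, Units.val_one]
    calc (t' : F) * t' = (t' : F) * (t' : F)⁻¹ := by rw [e5]
      _ = 1 := mul_inv_cancel₀ ht0
  have e7 : l' = (Fm.ro h.swap).h t'⁻¹ := by
    rw [← (Fm.ro h.swap).h_inv]
    have := hl1
    rw [(Fm.ro h.swap).x_zero, one_mul] at this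
    rw [← this, inv_inv]
  rw [e7, (Fm.ro h).x_zero, one_mul, htt]
  have e8 : t' = 1 ∨ t' = -1 := by
    have : (t' : F) * t' = 1 := by rw [← Units.val_mul, e6, Units.val_one]
    rcases mul_self_eq_one_iff.mp this with h | h
    · left; exact Units.ext h
    · right; exact Units.ext h
  rcases e8 with h8 | h8
  · left
    rw [h8, inv_one, (Fm.ro h).h_one, (Fm.ro h.swap).h_one, one_mul]
  · right
    rw [h8, inv_neg_one]

end plus

end Fam

end H40.Sieg
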