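import Mathlib
import Cfsg.Agent.Lib.H40.Sieg13

/-!
The kernel for a hyperbolic plane plus an anisotropic norm form.
-/
set_option autoImplicit false
set_option linter.unusedSimpArgs false
set_option linter.unusedSectionVars false
set_option linter.unusedVariables false

namespace H40.Sieg

open H7.Hyp QuadraticMap H17.OrthSiegel H50.OrthE

variable {F : Type*} [Field F] {V : Type*} [AddCommGroup V] [Module F V]

/-- a norm form orthogonal to the hyperbolic pair `u, w` -/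
structure NS (Q : QuadraticForm F V) (u w : V) (K : Type*) [Field K] where
  i : K →+ V
  bar : K →+* K
  j : F →+* K
  c : F
  N : K → F
  hp : HP Q u w
  pu : ∀ k, polar Q u (i k) = 0
  pw : ∀ k, polar Q w (i k) = 0
  hc : c ≠ 0
  smul : ∀ (a : F) k, a • i k = i (j a * k)
  hQ : ∀ k, Q (i k) = c * N k
  hN : ∀ k, j (N k) = k * bar k
  barj : ∀ a, bar (j a) = j a
  barbar : ∀ k, bar (bar k) = k

variable {Q : QuadraticForm F V} {E : Type*} [Group E] {p : E →* (V ≃ₗ[F] V)} (Fm : Fam Q p)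

namespace Fam

/-- reflection-like element -/
def nS (u w s : V) : E := Fm.r u s * Fm.r w ((Q s)⁻¹ • s) * Fm.r u s

section nS
variable {u w s : V} (hp : HP Q u w) (us : polar Q u s = 0) (ws : polar Q w s = 0) (hs : Q s ≠ 0)
include hp us ws hs

theorem nS_u : p (Fm.nS u w s) u = -(Q s)⁻¹ • w := by
  rw [nS, mul_apply, mul_apply, Fm.act u _ hp.qu us, Fm.act w _ hp.qw (polar_smul0 ws _), Fm.act u _ hp.qu us]
  exact sl_n_u hp us ws hs
theorem nS_w : p (Fm.nS u w s) w = -(Q s) • u := by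
  rw [nS, mul_apply, mul_apply, Fm.act u _ hp.qu us, Fm.act w _ hp.qw (polar_smul0 ws _), Fm.act u _ hp.qu us]
  exact sl_n_w hp us ws hs
theorem nS_perp {x : V} (ux : polar Q u x = 0) (wx : polar Q w x = 0) :
    p (Fm.nS u w s) x = x - ((Q s)⁻¹ * polar Q s x) • s := by
  rw [nS, mul_apply, mul_apply, Fm.act u _ hp.qu us, Fm.act w _ hp.qw (polar_smul0 ws _), Fm.act u _ hp.qu us]
  exact sl_n_perp hp us ws hs ux wx
theorem nS_conj {y : V} (uy : polar Q u y = 0) (wy : polar Q w y = 0) :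
    Fm.nS u w s * Fm.r u y * (Fm.nS u w s)⁻¹ = Fm.r w (-(Q s)⁻¹ • (y - ((Q s)⁻¹ * polar Q s y) • s)) := by
  rw [Fm.conj' hp.qu uy (Fm.nS_u hp us ws hs) (Fm.nS_perp hp us ws hs uy wy)]
  apply Fm.smul _ _ _ hp.qw
  rw [QuadraticMap.polar_sub_right, wy, QuadraticMap.polar_smul_right, ws]; simp
end nS

end Fam

namespace NS

variable {u w : V} {K : Type*} [Field K] (S : NS Q u w K)

theorem N_ne {k : K} (hk : k ≠ 0) : S.N k ≠ 0 := by
  intro h
  have h1 := S.hN k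
  rw [h, map_zero] at h1
  rcases mul_eq_zero.mp h1.symm with h2 | h2
  · exact hk h2
  · exact hk ((map_eq_zero S.bar).mp h2)

theorem Q_ne {k : K} (hk : k ≠ 0) : Q (S.i k) ≠ 0 := by
  rw [S.hQ]; exact mul_ne_zero S.hc (S.N_ne hk)

theorem jQ (k : K) : S.j (Q (S.i k)) = S.j S.c * (k * S.bar k) := by rw [S.hQ, map_mul, S.hN]

theorem jpolar (k l : K) : S.j (polar Q (S.i k) (S.i l)) = S.j S.c * (k * S.bar l + l * S.bar k) := by
  rw [QuadraticMap.polar, ← map_add, map_sub, map_sub, S.jQ, S.jQ, S.jQ, map_add]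
  ring

theorem jc : S.j S.c ≠ 0 := (map_ne_zero S.j).mpr S.hc

theorem bar_ne {k : K} (hk : k ≠ 0) : S.bar k ≠ 0 := (map_ne_zero S.bar).mpr hk

theorem refl {k : K} (hk : k ≠ 0) (l : K) :
    S.i l - ((Q (S.i k))⁻¹ * polar Q (S.i k) (S.i l)) • S.i k = S.i (-(k * (S.bar k)⁻¹ * S.bar l)) := by
  rw [S.smul, ← map_sub]
  congr 1
  rw [map_mul, map_inv₀, S.jQ, S.jpolar]
  have h1 := S.jc
  have h2 := S.bar_ne hk
  field_simp
  ring

theorem inj {k : K} (h : S.i k = 0) : k = 0 := by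
  by_contra hk
  apply S.Q_ne hk
  rw [h]; simp

end NS

namespace Fam

variable {u w : V} {K : Type*} [Field K] (S : NS Q u w K)

theorem nS_y {t : K} (ht : t ≠ 0) : Fm.r w (S.i (-(S.j S.c)⁻¹ * S.bar (-t⁻¹))) = Fm.r w ((Q (S.i t))⁻¹ • S.i t) := by
  rw [S.smul]
  congr 2
  rw [map_inv₀, S.jQ, map_neg, map_inv₀]
  have h1 := S.jc
  have h2 := S.bar_ne ht
  field_simp

theorem nS_x {t : K} (ht : t ≠ 0) : Fm.r u (S.i (-t⁻¹)) =
    Fm.r u ((Q (S.i (-(S.j S.c)⁻¹ * S.bar t)))⁻¹ • S.i (-(S.j S.c)⁻¹ * S.bar t)) := by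
  rw [S.smul]
  congr 2
  rw [map_inv₀, S.jQ, map_mul, map_neg, map_inv₀, S.barj, S.barbar]
  have h1 := S.jc
  have h2 := S.bar_ne ht
  field_simp

/-- the rank one group over `K` -/
def roK : H45.RankOne K E where
  x k := Fm.r u (S.i k)
  y k := Fm.r w (S.i (-(S.j S.c)⁻¹ * S.bar k))
  x_add a b := by
    rw [map_add, Fm.add u _ _ S.hp.qu (S.pu _) (S.pu _)]
  y_add a b := by
    rw [map_add, mul_add, map_add, Fm.add w _ _ S.hp.qw (S.pw _) (S.pw _)]
  relx t a := by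
    have ht : (t : K) ≠ 0 := t.ne_zero
    have e0 : Fm.r u (S.i t) * Fm.r w (S.i (-(S.j S.c)⁻¹ * S.bar (-((t⁻¹ : Kˣ) : K)))) * Fm.r u (S.i t) = Fm.nS u w (S.i t) := by
      rw [nS, Units.val_inv_eq_inv_val, Fm.nS_y S ht]
    rw [e0, Fm.nS_conj S.hp (S.pu _) (S.pw _) (S.Q_ne ht) (S.pu _) (S.pw _), S.refl ht, S.smul]
    congr 2
    rw [map_neg, map_inv₀, S.jQ, Units.val_inv_eq_inv_val, map_neg, map_mul, map_pow, map_inv₀]
    have h1 := S.jc
    have h2 := S.bar_ne ht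
    field_simp
  rely t a := by
    have ht : (t : K) ≠ 0 := t.ne_zero
    have hk : -(S.j S.c)⁻¹ * S.bar t ≠ 0 := mul_ne_zero (neg_ne_zero.mpr (inv_ne_zero S.jc)) (S.bar_ne ht)
    have e0 : Fm.r w (S.i (-(S.j S.c)⁻¹ * S.bar t)) * Fm.r u (S.i (-((t⁻¹ : Kˣ) : K))) *
        Fm.r w (S.i (-(S.j S.c)⁻¹ * S.bar t)) = Fm.nS w u (S.i (-(S.j S.c)⁻¹ * S.bar t)) := by
      rw [nS, Units.val_inv_eq_inv_val, Fm.nS_x S ht]
    rw [e0, Fm.nS_conj S.hp.symm (S.pw _) (S.pu _) (S.Q_ne hk) (S.pw _) (S.pu _), S.refl hk, S.smul]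
    congr 2
    simp only [map_neg, map_inv₀, S.jQ, Units.val_inv_eq_inv_val, map_mul, map_pow, S.barj, S.barbar]
    have h1 := S.jc
    have h2 := S.bar_ne ht
    field_simp

theorem roK_x (k : K) : (Fm.roK S).x k = Fm.r u (S.i k) := rfl
theorem roK_y (k : K) : (Fm.roK S).y k = Fm.r w (S.i (-(S.j S.c)⁻¹ * S.bar k)) := rfl

theorem roK_w (t : Kˣ) : (Fm.roK S).w t = Fm.nS u w (S.i t) := by
  rw [H45.RankOne.w, roK_x, roK_y, nS, Units.val_inv_eq_inv_val, Fm.nS_y S t.ne_zero]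

theorem wK_u (t : Kˣ) : p ((Fm.roK S).w t) u = -(Q (S.i t))⁻¹ • w := by
  rw [roK_w, Fm.nS_u S.hp (S.pu _) (S.pw _) (S.Q_ne t.ne_zero)]
theorem wK_w (t : Kˣ) : p ((Fm.roK S).w t) w = -(Q (S.i t)) • u := by
  rw [roK_w, Fm.nS_w S.hp (S.pu _) (S.pw _) (S.Q_ne t.ne_zero)]
theorem wK_i (t : Kˣ) (l : K) : p ((Fm.roK S).w t) (S.i l) = S.i (-(t * (S.bar t)⁻¹ * S.bar l)) := by
  rw [roK_w, Fm.nS_perp S.hp (S.pu _) (S.pw _) (S.Q_ne t.ne_zero) (S.pu _) (S.pw _), S.refl t.ne_zero]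

theorem i_neg_one : Q (S.i (((-1 : Kˣ)) : K)) = S.c := by
  have h1 : S.j (Q (S.i (((-1 : Kˣ)) : K))) = S.j S.c := by
    rw [S.jQ]; simp
  exact S.j.injective h1

theorem hK_u (t : Kˣ) : p ((Fm.roK S).h t) u = S.N t • u := by
  have := S.hc
  rw [H45.RankOne.h, mul_apply, wK_u, map_smul, wK_w, i_neg_one, S.hQ]
  match_scalars
  field_simp

theorem hK_w (t : Kˣ) : p ((Fm.roK S).h t) w = (S.N t)⁻¹ • w := by
  have := S.hc
  rw [H45.RankOne.h, mul_apply, wK_w, map_smul, wK_u, i_neg_one, S.hQ]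
  match_scalars
  field_simp

theorem hK_i (t : Kˣ) (l : K) : p ((Fm.roK S).h t) (S.i l) = S.i (t * (S.bar t)⁻¹ * l) := by
  rw [H45.RankOne.h, mul_apply, wK_i, wK_i]
  congr 1
  simp [S.barbar]

/-- the kernel in the norm form case -/
theorem ker_norm [Finite K] {W : Submodule F V} (hW : ∀ x ∈ W, ∃ k, x = S.i k) (hker : p.ker ≤ Fm.GG u w W) {g : E} (hg : g ∈ p.ker) :
    g = 1 ∨ g = (Fm.roK S).h (-1) := by
  have hu0 : u ≠ 0 := by
    rintro rfl
    have := S.hp.uw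
    rw [QuadraticMap.polar_zero_left] at this
    exact zero_ne_one this
  have gx : ∀ x, p g x = x := fun x => by rw [MonoidHom.mem_ker.mp hg]; rfl
  have h1 : Fm.GG u w W ≤ Subgroup.closure (Set.range (Fm.roK S).x ∪ Set.range (Fm.roK S).y) := by
    rw [GG, Subgroup.closure_le]
    rintro _ (⟨y, hy, rfl⟩ | ⟨y, hy, rfl⟩)
    · obtain ⟨k, rfl⟩ := hW y hy
      exact Subgroup.subset_closure (Or.inl ⟨k, rfl⟩)
    · obtain ⟨k, rfl⟩ := hW y hy
      apply Subgroup.subset_closure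
      right
      refine ⟨-(S.j S.c) * S.bar k, ?_⟩
      rw [roK_y]
      congr 2
      rw [map_mul, map_neg, S.barj, S.barbar]
      have := S.jc
      field_simp
  have xu : ∀ k, p ((Fm.roK S).x k) u = u := fun k => by
    rw [roK_x]
    exact Fm.r_perp S.hp.qu (S.pu _) S.hp.uu (by rw [polar_symm]; exact S.pu _)
  have xw : ∀ k, p ((Fm.roK S).x k) w = w + S.i k - Q (S.i k) • u := fun k => by
    rw [roK_x, Fm.act u _ S.hp.qu (S.pu _), sl_apply, S.hp.uw, polar_symm (S.i k) w, S.pw]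
    module
  rcases (Fm.roK S).mem_NF (h1 (hker hg)) with ⟨a, t, rfl⟩ | ⟨a, t, b, rfl⟩
  · have e1 := gx u
    rw [mul_apply, hK_u, map_smul, xu] at e1
    have hN : S.N t = 1 := by
      have h2 : (S.N t - 1) • u = 0 := by rw [sub_smul, e1, one_smul, sub_self]
      rcases smul_eq_zero.mp h2 with h3 | h3
      · exact sub_eq_zero.mp h3
      · exact absurd h3 hu0
    have e2 := gx w
    rw [mul_apply, hK_w, hN, inv_one, one_smul, xw] at e2
    have e3 : Q (S.i a) = 0 := by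
      have h3 : polar Q w (w + S.i a - Q (S.i a) • u) = polar Q w w := by rw [e2]
      rw [QuadraticMap.polar_sub_right, QuadraticMap.polar_add_right, QuadraticMap.polar_smul_right, S.hp.ww, S.pw, S.hp.wu] at h3
      simpa using h3
    have ha : a = 0 := by
      by_contra h0
      exact S.Q_ne h0 e3
    have e4 := gx (S.i 1)
    rw [ha, (Fm.roK S).x_zero, one_mul, hK_i] at e4
    have e5 : (t : K) * (S.bar t)⁻¹ * 1 = 1 := by
      have h3 : S.i ((t : K) * (S.bar t)⁻¹ * 1 - 1) = 0 := by rw [map_sub, e4, sub_self]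
      exact sub_eq_zero.mp (S.inj h3)
    have e6 : (t : K) = S.bar t := by
      rw [mul_one] at e5
      exact (mul_inv_eq_one₀ (S.bar_ne t.ne_zero)).mp e5
    have e7 : (t : K) * t = 1 := by
      have h3 := S.hN t
      rw [hN, map_one, ← e6] at h3
      exact h3.symm
    rw [ha, (Fm.roK S).x_zero, one_mul]
    rcases mul_self_eq_one_iff.mp e7 with h | h
    · left
      rw [show t = 1 from Units.ext h, (Fm.roK S).h_one]
    · right
      rw [show t = -1 from Units.ext h]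
  · exfalso
    have e1 := gx u
    rw [mul_apply, mul_apply, mul_apply, xu, wK_u, map_smul, map_smul, hK_w, map_smul, xw] at e1
    have h2 : polar Q u (-(Q (S.i ((1 : Kˣ) : K)))⁻¹ • (S.N t)⁻¹ • (w + S.i a - Q (S.i a) • u)) = polar Q u u := by rw [e1]
    rw [QuadraticMap.polar_smul_right, QuadraticMap.polar_smul_right, QuadraticMap.polar_sub_right,
      QuadraticMap.polar_add_right, QuadraticMap.polar_smul_right, S.hp.uw, S.pu, S.hp.uu] at h2
    have h3 := S.N_ne t.ne_zero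
    have h4 := S.Q_ne (k := ((1 : Kˣ) : K)) (by simp)
    simp only [smul_eq_mul, add_zero, mul_zero, sub_zero, mul_one] at h2
    exact mul_ne_zero (neg_ne_zero.mpr (inv_ne_zero h4)) (inv_ne_zero h3) h2

end Fam

end H40.Sieg
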