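import Mathlib
import Cfsg.Agent.Lib.H40.Sieg14
import Cfsg.Agent.Lib.H50.OrthFam

/-!
Chains of descents in the families of quadratic forms.
-/
set_option autoImplicit false
set_option linter.unusedSimpArgs false
set_option linter.unusedSectionVars false
set_option linter.unusedVariables false

namespace H40.Sieg

open H7.Hyp H7.Omega QuadraticMap H17.OrthSiegel H50.OrthE H40.Ext H50.OrthModel

variable {F : Type*} [Field F] {V : Type*} [AddCommGroup V] [Module F V]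

/-- an isometric embedding orthogonal to the hyperbolic pair `u, w` -/
structure Emb (Q : QuadraticForm F V) {X : Type*} [AddCommGroup X] [Module F X] (q : QuadraticForm F X) (u w : V) where
  j : X →ₗ[F] V
  hj : ∀ x, Q (j x) = q x
  hp : HP Q u w
  pu : ∀ x, polar Q u (j x) = 0
  pw : ∀ x, polar Q w (j x) = 0

variable {Q : QuadraticForm F V} {X : Type*} [AddCommGroup X] [Module F X] {q : QuadraticForm F X}

theorem Emb.polar_j {u w : V} (A : Emb Q q u w) (x y : X) : polar Q (A.j x) (A.j y) = polar q x y := by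
  simp only [QuadraticMap.polar, ← map_add, A.hj]

theorem mem_hyp_range (j : (F × F × X) →ₗ[F] V) :
    LinearMap.range j = exS (j (1, 0, 0)) (j (0, 1, 0)) (LinearMap.range (j ∘ₗ LinearMap.inr F F (F × X) ∘ₗ LinearMap.inr F F X)) := by
  ext v
  rw [mem_exS]
  constructor
  · rintro ⟨⟨a, b, x⟩, rfl⟩
    refine ⟨a, b, j (0, 0, x), ⟨x, rfl⟩, ?_⟩
    rw [← map_smul, ← map_smul, ← map_add, ← map_add]
    congr 1
    simp
  · rintro ⟨a, b, t, ⟨x, rfl⟩, rfl⟩
    refine ⟨(a, b, x), ?_⟩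
    simp only [LinearMap.comp_apply, LinearMap.inr_apply]
    rw [← map_smul, ← map_smul, ← map_add, ← map_add]
    congr 1
    simp

/-- the inner embedding -/
def Emb.inner {u w : V} (A : Emb Q (hyp q) u w) : Emb Q q (A.j (1, 0, 0)) (A.j (0, 1, 0)) where
  j := A.j ∘ₗ LinearMap.inr F F (F × X) ∘ₗ LinearMap.inr F F X
  hj x := by
    simp only [LinearMap.comp_apply, LinearMap.inr_apply]
    rw [A.hj]; simp
  hp := ⟨by rw [A.hj]; simp, by rw [A.hj]; simp, by rw [A.polar_j, polar_hyp]; simp⟩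
  pu x := by
    simp only [LinearMap.comp_apply, LinearMap.inr_apply]
    rw [A.polar_j, polar_hyp]; simp
  pw x := by
    simp only [LinearMap.comp_apply, LinearMap.inr_apply]
    rw [A.polar_j, polar_hyp]; simp

/-- the configuration of the descent -/
theorem Emb.dd {u w : V} (A : Emb Q (hyp q) u w) (hq : ND q) (hns : ∃ x, q x ≠ 0) :
    DD Q u w (A.j (1, 0, 0)) (A.j (0, 1, 0)) (LinearMap.range A.inner.j) where
  h := ⟨A.hp, A.inner.hp, A.pu _, A.pu _, A.pw _, A.pw _⟩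
  pu := by rintro _ ⟨x, rfl⟩; exact A.pu _
  pw := by rintro _ ⟨x, rfl⟩; exact A.pw _
  pe := by rintro _ ⟨x, rfl⟩; exact A.inner.pu x
  pf := by rintro _ ⟨x, rfl⟩; exact A.inner.pw x
  ns := by
    obtain ⟨x, hx⟩ := hns
    exact ⟨_, ⟨x, rfl⟩, by rw [A.inner.hj]; exact hx⟩
  nd := by
    rintro _ ⟨x, rfl⟩ hx
    have hx0 : x ≠ 0 := by rintro rfl; simp at hx
    by_contra hc
    push Not at hc
    apply hx0
    apply hq
    intro y
    have := hc _ ⟨y, rfl⟩
    rw [A.inner.polar_j, polar_symm] at this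
    exact this

/-- change of the model -/
def Emb.congr {X' : Type*} [AddCommGroup X'] [Module F X'] {q' : QuadraticForm F X'} {u w : V} (A : Emb Q q u w)
    (φ : q.IsometryEquiv q') : Emb Q q' u w where
  j := A.j ∘ₗ (φ.symm.toLinearEquiv : X' →ₗ[F] X)
  hj x := by
    rw [LinearMap.comp_apply, A.hj]
    exact φ.symm.map_app x
  hp := A.hp
  pu x := A.pu _
  pw x := A.pw _

theorem Emb.congr_range {X' : Type*} [AddCommGroup X'] [Module F X'] {q' : QuadraticForm F X'} {u w : V} (A : Emb Q q u w)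
    (φ : q.IsometryEquiv q') : LinearMap.range (A.congr φ).j = LinearMap.range A.j := by
  ext v
  constructor
  · rintro ⟨x, rfl⟩; exact ⟨_, rfl⟩
  · rintro ⟨x, rfl⟩
    refine ⟨φ x, ?_⟩
    change A.j (φ.symm (φ x)) = _
    congr 1
    exact φ.toLinearEquiv.symm_apply_apply x

variable {E : Type*} [Group E] {p : E →* (V ≃ₗ[F] V)} (Fm : Fam Q p)

namespace Fam

theorem desc_emb [Finite F] {u w : V} (A : Emb Q (hyp q) u w) (hq : ND q) (hns : ∃ x, q x ≠ 0)
    (hker : p.ker ≤ Fm.GG u w (LinearMap.range A.j)) :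
    p.ker ≤ Fm.GG (A.j (1, 0, 0)) (A.j (0, 1, 0)) (LinearMap.range A.inner.j) := by
  apply Fm.descent (A.dd hq hns)
  have := mem_hyp_range A.j
  rw [this] at hker
  exact hker

/-- the shape of a negative on a subspace -/
def NEG (p : E →* (V ≃ₗ[F] V)) (Q : QuadraticForm F V) (U : Submodule F V) (δ : E) : Prop :=
  ∃ ε : E, ε * ε = δ ∧ (∀ x ∈ U, p ε x = -x) ∧ ∀ v, (∀ x ∈ U, polar Q x v = 0) → p ε v = v

include Fm in
theorem neg_step [Finite F] {u w e f : V} (h : HP4 Q u w e f) {U : Submodule F V}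
    (pu : ∀ x ∈ U, polar Q x u = 0) (pw : ∀ x ∈ U, polar Q x w = 0) (pe : ∀ x ∈ U, polar Q x e = 0)
    (pf : ∀ x ∈ U, polar Q x f = 0) {δ : E} (hU : NEG p Q U δ) : NEG p Q (exS u w (exS e f U)) δ := by
  obtain ⟨ε, h1, h2, h3⟩ := hU
  have hx : ∀ t, ε * (Fm.ro h).x t * ε⁻¹ = (Fm.ro h).x t := fun t => by
    rw [ro_x]
    exact Fm.conj' h.h1.qu (polar_smul0 h.uf _) (h3 u pu) (by rw [map_smul, h3 f pf])
  have hy : ∀ t, ε * (Fm.ro h).y t * ε⁻¹ = (Fm.ro h).y t := fun t => by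
    rw [ro_y]
    exact Fm.conj' h.h1.qw (polar_smul0 h.we _) (h3 w pw) (by rw [map_smul, h3 e pe])
  have cx : ∀ t, Commute ε ((Fm.ro h).x t) := fun t => mul_inv_eq_iff_eq_mul.mp (hx t)
  have cy : ∀ t, Commute ε ((Fm.ro h).y t) := fun t => mul_inv_eq_iff_eq_mul.mp (hy t)
  have cw : ∀ t, Commute ε ((Fm.ro h).w t) := fun t => ((cx _).mul_right (cy _)).mul_right (cx _)
  have ch : Commute ε ((Fm.ro h).h (-1)) := (cw _).mul_right (cw _)
  have hh : (Fm.ro h).h (-1) * (Fm.ro h).h (-1) = 1 := by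
    rw [(Fm.ro h).h_mul, neg_mul_neg, one_mul, (Fm.ro h).h_one]
  refine ⟨ε * (Fm.ro h).h (-1), ?_, ?_, ?_⟩
  · calc ε * (Fm.ro h).h (-1) * (ε * (Fm.ro h).h (-1)) = ε * ((Fm.ro h).h (-1) * ε) * (Fm.ro h).h (-1) := by group
      _ = (ε * ε) * ((Fm.ro h).h (-1) * (Fm.ro h).h (-1)) := by rw [← ch.eq]; group
      _ = δ := by rw [h1, hh, mul_one]
  · intro x hx
    obtain ⟨a, b, t, ht, rfl⟩ := mem_exS.mp hx
    obtain ⟨c, d, s, hs, rfl⟩ := mem_exS.mp ht
    rw [mul_apply]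
    simp only [map_add, map_smul]
    rw [Fm.h_u, Fm.h_w, Fm.h_e, Fm.h_f, Fm.h_perp h _ (by rw [polar_symm]; exact pu s hs) (by rw [polar_symm]; exact pw s hs)
      (by rw [polar_symm]; exact pe s hs) (by rw [polar_symm]; exact pf s hs)]
    simp only [map_smul]
    rw [h3 u pu, h3 w pw, h3 e pe, h3 f pf, h2 s hs]
    simp only [Units.val_neg, Units.val_one, inv_neg, inv_one]
    module
  · intro v hv
    have hU : ∀ x ∈ U, polar Q x v = 0 := fun x hx => hv x (le_exS u w _ (le_exS e f _ hx))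
    have vu := hv u (e_mem_exS u w _)
    have vw := hv w (f_mem_exS u w _)
    have ve := hv e (le_exS u w _ (e_mem_exS e f _))
    have vf := hv f (le_exS u w _ (f_mem_exS e f _))
    rw [mul_apply, Fm.h_perp h _ vu vw ve vf, h3 v hU]

end Fam

/-! ### the top of the chain -/

theorem closure_eq_top_of_perfect' {G E : Type*} [Group G] [Group E] {π : E →* G} (hπ : CE π)
    (hperf : commutator E = ⊤) {S : Set E} (hS : Subgroup.closure (π '' S) = ⊤) :
    Subgroup.closure S = ⊤ := by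
  set A := Subgroup.closure S with hA
  have h1 : ∀ e : E, ∃ a ∈ A, ∃ z ∈ Subgroup.center E, e = a * z := by
    intro e
    have h2 : π e ∈ A.map π := by rw [hA, MonoidHom.map_closure, hS]; exact Subgroup.mem_top _
    obtain ⟨a, ha, h3⟩ := h2
    obtain ⟨z, hz, h4⟩ := hπ.exists_central (a := e) (a' := a) h3.symm
    exact ⟨a, ha, z, hz, h4⟩
  rw [eq_top_iff, ← hperf, commutator_def, Subgroup.commutator_le]
  intro x _ y _
  obtain ⟨a, ha, z, hz, rfl⟩ := h1 x
  obtain ⟨b, hb, w, hw, rfl⟩ := h1 y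
  rw [CE.comm_mul_central hz hw, commutatorElement_def]
  exact A.mul_mem (A.mul_mem (A.mul_mem ha hb) (A.inv_mem ha)) (A.inv_mem hb)

/-- the embedding of `X` into `hyp X` -/
def topEmb (q : QuadraticForm F X) : Emb (hyp q) q (e1 F X) (e2 F X) where
  j := LinearMap.inr F F (F × X) ∘ₗ LinearMap.inr F F X
  hj x := by simp
  hp := ⟨hyp_e1, hyp_e2, polar_e1_e2⟩
  pu x := by
    simp only [LinearMap.comp_apply, LinearMap.inr_apply]
    exact polar_e1_jj x
  pw x := by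
    simp only [LinearMap.comp_apply, LinearMap.inr_apply]
    exact polar_e2_jj x

theorem top_GG {S : Su (hyp q) (Om q)} {E : Type*} [Group E] {π : E →* Om q} {hπ : CE π} (H : Hy S hπ)
    (hperf : commutator E = ⊤) : (H.fam).GG (e1 F X) (e2 F X) (LinearMap.range (topEmb q).j) = ⊤ := by
  rw [Fam.GG]
  apply closure_eq_top_of_perfect' hπ hperf
  have hr1 : ∀ x, π ((H.fam).r (e1 F X) ((topEmb q).j x)) = ⟨H7.Hyp.E q x, E_mem_Om q x⟩ := by
    intro x
    change π (H.r _ _) = _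
    rw [H.π_r (topEmb q).hp.qu ((topEmb q).pu x)]
    apply om_ext
    intro v
    rw [sg_apply S (topEmb q).hp.qu ((topEmb q).pu x)]
    exact sl_e1 x v
  have hr2 : ∀ x, π ((H.fam).r (e2 F X) ((topEmb q).j x)) = ⟨E' q x, E'_mem_Om q x⟩ := by
    intro x
    change π (H.r _ _) = _
    rw [H.π_r (topEmb q).hp.qw ((topEmb q).pw x)]
    apply om_ext
    intro v
    rw [sg_apply S (topEmb q).hp.qw ((topEmb q).pw x)]
    exact sl_e2 x v
  apply Subgroup.map_injective (Om q).subtype_injective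
  rw [MonoidHom.map_closure, ← MonoidHom.range_eq_map, Subgroup.range_subtype]
  conv_rhs => rw [Om]
  congr 1
  ext g
  constructor
  · rintro ⟨_, ⟨_, ⟨y, ⟨x, rfl⟩, rfl⟩ | ⟨y, ⟨x, rfl⟩, rfl⟩, rfl⟩, rfl⟩
    · left; exact ⟨x, by rw [hr1]; rfl⟩
    · right; exact ⟨x, by rw [hr2]; rfl⟩
  · rintro (⟨x, rfl⟩ | ⟨x, rfl⟩)
    · exact ⟨_, ⟨_, Or.inl ⟨_, ⟨x, rfl⟩, rfl⟩, rfl⟩, by rw [hr1]; rfl⟩
    · exact ⟨_, ⟨_, Or.inr ⟨_, ⟨x, rfl⟩, rfl⟩, rfl⟩, by rw [hr2]; rfl⟩

end H40.Sieg
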