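import Mathlib
import Cfsg.Agent.Lib.H40.Sieg15
import Cfsg.Agent.Lib.H7.MinusOrd

/-!
The kernel bounds in the three families of quadratic forms.
-/
set_option autoImplicit false
set_option linter.unusedSimpArgs false
set_option linter.unusedSectionVars false
set_option linter.unusedVariables false

namespace H40.Sieg

open H7.Hyp H7.Omega QuadraticMap H17.OrthSiegel H50.OrthE H40.Ext H50.OrthModel H7.HypStd H7.HypOrd H7.MinusOrd
open H48.QuadStd H7.AnisoPlane

variable {F : Type*} [Field F] {V : Type*} [AddCommGroup V] [Module F V]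

variable {Q : QuadraticForm F V} {X : Type*} [AddCommGroup X] [Module F X] {q : QuadraticForm F X}
variable {E : Type*} [Group E] {p : E →* (V ≃ₗ[F] V)} (Fm : Fam Q p)

theorem ns_hyp : ∃ x, hyp q x ≠ 0 := ⟨(1, 1, 0), by simp⟩

theorem ND.congr' {X' : Type*} [AddCommGroup X'] [Module F X'] {q' : QuadraticForm F X'} (h : ND q) (φ : q.IsometryEquiv q') :
    ND q' := by
  intro v hv
  have h1 : φ.symm v = 0 := by
    apply h
    intro w
    have := hv (φ w)
    have e1 : ∀ x, q' (φ x) = q x := φ.map_app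
    have e2 : φ (φ.symm v) = v := φ.toLinearEquiv.apply_symm_apply v
    rw [← e2] at this
    simpa only [QuadraticMap.polar, ← map_add, e1] using this
  have e2 : φ (φ.symm v) = v := φ.toLinearEquiv.apply_symm_apply v
  rw [← e2, h1, map_zero]

theorem ns_congr {X' : Type*} [AddCommGroup X'] [Module F X'] {q' : QuadraticForm F X'} (h : ∃ x, q x ≠ 0) (φ : q.IsometryEquiv q') :
    ∃ x, q' x ≠ 0 := by
  obtain ⟨x, hx⟩ := h
  exact ⟨φ x, by rw [φ.map_app]; exact hx⟩

/-- the bound for the kernel -/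
def KB (F : Type*) [Field F] {V : Type*} [AddCommGroup V] [Module F V] {E : Type*} [Group E] (p : E →* (V ≃ₗ[F] V)) : Prop :=
  ∃ ζ : E, (∀ g ∈ p.ker, g = 1 ∨ g = ζ) ∧ ((2 : F) = 0 → ζ = 1)

namespace Fam

include Fm in
/-- two steps -/
theorem neg_two [Finite F] {u w : V} (A : Emb Q (hyp (hyp q)) u w) {δ : E}
    (h : NEG p Q (LinearMap.range A.inner.inner.j) δ) : NEG p Q (LinearMap.range A.j) δ := by
  have h1 : LinearMap.range A.j = exS (A.j (1, 0, 0)) (A.j (0, 1, 0))
      (exS (A.inner.j (1, 0, 0)) (A.inner.j (0, 1, 0)) (LinearMap.range A.inner.inner.j)) := by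
    rw [mem_hyp_range A.j]
    congr 1
    exact mem_hyp_range A.inner.j
  rw [h1]
  refine Fm.neg_step ⟨A.inner.hp, A.inner.inner.hp, A.inner.pu _, A.inner.pu _, A.inner.pw _, A.inner.pw _⟩ ?_ ?_ ?_ ?_ h
  · rintro _ ⟨x, rfl⟩; rw [polar_symm]; exact A.inner.pu _
  · rintro _ ⟨x, rfl⟩; rw [polar_symm]; exact A.inner.pw _
  · rintro _ ⟨x, rfl⟩; rw [polar_symm]; exact A.inner.inner.pu _
  · rintro _ ⟨x, rfl⟩; rw [polar_symm]; exact A.inner.inner.pw _

theorem neg_congr {X' : Type*} [AddCommGroup X'] [Module F X'] {q' : QuadraticForm F X'} {u w : V} (A : Emb Q q u w)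
    (φ : q.IsometryEquiv q') {δ : E} (h : NEG p Q (LinearMap.range (A.congr φ).j) δ) : NEG p Q (LinearMap.range A.j) δ := by
  rwa [A.congr_range φ] at h

/-! ### plus type -/

theorem range_zero {u w : V} (A : Emb Q (qPlus 0 F) u w) : LinearMap.range A.j = ⊥ := by
  rw [eq_bot_iff]
  rintro _ ⟨x, rfl⟩
  have : x = 0 := by funext i; rcases i with i | i <;> exact i.elim0
  rw [this, map_zero]; exact Submodule.zero_mem _

theorem kb_plus_one [Finite F] {u w : V} (A : Emb Q (hyp (qPlus 0 F)) u w)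
    (hker : p.ker ≤ Fm.GG u w (LinearMap.range A.j)) : 
    ∀ g ∈ p.ker, g = 1 ∨ g = (Fm.ro ⟨A.hp, A.inner.hp, A.pu _, A.pu _, A.pw _, A.pw _⟩).h (-1) *
      (Fm.ro (HP4.swap ⟨A.hp, A.inner.hp, A.pu _, A.pu _, A.pw _, A.pw _⟩)).h (-1) := by
  intro g hg
  apply Fm.ker_plus _ _ hg
  have := mem_hyp_range A.j
  rw [this] at hker
  have h2 := range_zero A.inner
  change LinearMap.range (A.j ∘ₗ LinearMap.inr F F (F × _) ∘ₗ LinearMap.inr F F _) = ⊥ at h2
  rw [h2] at hker
  exact hker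

theorem kb_plus [Finite F] (m : ℕ) : ∀ {u w : V} (A : Emb Q (qPlus (m + 1) F) u w)
    (hker : p.ker ≤ Fm.GG u w (LinearMap.range A.j)), KB F p := by
  induction m with
  | zero =>
    intro u w A hker
    obtain ⟨φ⟩ := plus_succ (F := F) 0
    have h1 := Fm.kb_plus_one (A.congr φ) (by rw [A.congr_range φ]; exact hker)
    refine ⟨_, h1, fun h2 => ?_⟩
    have : (-1 : Fˣ) = 1 := by
      apply Units.ext
      rw [Units.val_neg, Units.val_one]
      have : (1 : F) + 1 = 0 := by rw [one_add_one_eq_two]; exact h2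
      exact (eq_neg_of_add_eq_zero_left this).symm
    rw [this, H45.RankOne.h_one, H45.RankOne.h_one, one_mul]
  | succ m ih =>
    intro u w A hker
    obtain ⟨φ⟩ := plus_succ (F := F) (m + 1)
    apply ih (A.congr φ).inner
    obtain ⟨ψ⟩ := plus_succ (F := F) m
    apply Fm.desc_emb (A.congr φ) (nd_plus _) (ns_congr ns_hyp ψ.symm)
    rw [A.congr_range φ]; exact hker

include Fm in
theorem neg_plus_even [Finite F] (m : ℕ) : ∀ {u w : V} (A : Emb Q (qPlus (2 * m) F) u w),
    NEG p Q (LinearMap.range A.j) 1 := by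
  induction m with
  | zero =>
    intro u w A
    have h0 := range_zero A
    change LinearMap.range A.j = ⊥ at h0
    refine ⟨1, one_mul _, ?_, fun v _ => one_apply v⟩
    intro x hx
    change x ∈ LinearMap.range A.j at hx
    rw [h0, Submodule.mem_bot] at hx
    rw [hx, map_zero, neg_zero]
  | succ m ih =>
    intro u w A
    obtain ⟨φ⟩ : (qPlus (2 * (m + 1)) F).Equivalent (hyp (hyp (qPlus (2 * m) F))) :=
      (plus_succ (2 * m + 1)).trans (H7.OmegaIso.hyp_congr (plus_succ (2 * m)))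
    apply neg_congr A φ
    apply Fm.neg_two (A.congr φ)
    exact ih _

theorem neg_plus_odd [Finite F] {i : Fˣ} (hi : i * i = -1) (m : ℕ) : ∀ {u w : V} (A : Emb Q (qPlus (2 * m + 1) F) u w)
    (hker : p.ker ≤ Fm.GG u w (LinearMap.range A.j)) {z : E} (hz : z ∈ p.ker) (hz1 : z ≠ 1),
    NEG p Q (LinearMap.range A.j) z := by
  induction m with
  | zero =>
    intro u w A hker z hz hz1
    obtain ⟨φ⟩ := plus_succ (F := F) 0
    have h1 := Fm.kb_plus_one (A.congr φ) (by rw [A.congr_range φ]; exact hker) z hz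
    apply neg_congr A φ
    set B := A.congr φ with hB
    have hrg : LinearMap.range B.j = exS (B.j (1, 0, 0)) (B.j (0, 1, 0)) ⊥ := by
      rw [mem_hyp_range B.j]
      congr 1
      exact range_zero B.inner
    rw [hrg]
    have h4 : HP4 Q u w (B.j (1, 0, 0)) (B.j (0, 1, 0)) := ⟨B.hp, B.inner.hp, B.pu _, B.pu _, B.pw _, B.pw _⟩
    have h2 : z = (Fm.ro h4).h (-1) * (Fm.ro h4.swap).h (-1) := h1.resolve_left hz1
    have hi0 : (i : F) * i = -1 := by
      rw [← Units.val_mul, hi]; rfl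
    have hi1 : ((i : F))⁻¹ = -i := by
      have hne : (i : F) ≠ 0 := i.ne_zero
      field_simp
      rw [pow_two, hi0, neg_neg]
    refine ⟨(Fm.ro h4).h i * ((Fm.ro h4.swap).h i)⁻¹, ?_, ?_, ?_⟩
    · have e1 : (Fm.ro h4).h i * (Fm.ro h4).h i = (Fm.ro h4).h (-1) := by rw [(Fm.ro h4).h_mul, hi]
      have e2 : (Fm.ro h4.swap).h i * (Fm.ro h4.swap).h i = (Fm.ro h4.swap).h (-1) := by rw [(Fm.ro h4.swap).h_mul, hi]
      have e3 : (Fm.ro h4.swap).h (-1) * (Fm.ro h4.swap).h (-1) = 1 := by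
        rw [(Fm.ro h4.swap).h_mul, neg_mul_neg, one_mul, (Fm.ro h4.swap).h_one]
      have e4 : Commute ((Fm.ro h4).h i) ((Fm.ro h4.swap).h i) := Fm.comm_hh h4 i i
      calc (Fm.ro h4).h i * ((Fm.ro h4.swap).h i)⁻¹ * ((Fm.ro h4).h i * ((Fm.ro h4.swap).h i)⁻¹)
          = (Fm.ro h4).h i * (((Fm.ro h4.swap).h i)⁻¹ * (Fm.ro h4).h i) * ((Fm.ro h4.swap).h i)⁻¹ := by group
        _ = ((Fm.ro h4).h i * (Fm.ro h4).h i) * ((Fm.ro h4.swap).h i * (Fm.ro h4.swap).h i)⁻¹ := by
            rw [← e4.inv_right.eq]; group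
        _ = z := by rw [e1, e2, inv_eq_of_mul_eq_one_left e3, h2]
    · intro x hx
      obtain ⟨a, b, t, ht, rfl⟩ := mem_exS.mp hx
      rw [Submodule.mem_bot] at ht
      subst ht
      have e1 : p ((Fm.ro h4).h i * ((Fm.ro h4.swap).h i)⁻¹) (B.j (1, 0, 0)) = -(B.j (1, 0, 0)) := by
        rw [mul_apply, inv_apply (x := (i : F)⁻¹ • B.j (1, 0, 0)) (y := B.j (1, 0, 0)), map_smul, Fm.h_e h4, smul_smul, hi1]
        · rw [neg_mul_neg, hi0, neg_one_smul]
        · rw [map_smul, Fm.h_f h4.swap, smul_smul, inv_mul_cancel₀ i.ne_zero, one_smul]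
      have e2 : p ((Fm.ro h4).h i * ((Fm.ro h4.swap).h i)⁻¹) (B.j (0, 1, 0)) = -(B.j (0, 1, 0)) := by
        rw [mul_apply, inv_apply (x := (i : F) • B.j (0, 1, 0)) (y := B.j (0, 1, 0)), map_smul, Fm.h_f h4, smul_smul]
        · rw [hi0, neg_one_smul]
        · rw [map_smul, Fm.h_e h4.swap, smul_smul, mul_inv_cancel₀ i.ne_zero, one_smul]
      rw [add_zero, map_add, map_smul, map_smul, e1, e2]
      module
    · intro v hv
      have ve := hv _ (e_mem_exS _ _ _)
      have vf := hv _ (f_mem_exS _ _ _)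
      have huw : ∀ a b : F, p ((Fm.ro h4).h i * ((Fm.ro h4.swap).h i)⁻¹) (a • u + b • w) = a • u + b • w := by
        intro a b
        rw [map_add, map_smul, map_smul, mul_apply, mul_apply]
        rw [inv_apply (x := (i : F)⁻¹ • u) (y := u), inv_apply (x := (i : F) • w) (y := w), map_smul, map_smul, Fm.h_u, Fm.h_w,
          smul_smul (i : F)⁻¹ (i : F) u, smul_smul (i : F) (i : F)⁻¹ w, inv_mul_cancel₀ i.ne_zero, mul_inv_cancel₀ i.ne_zero,
          one_smul, one_smul]
        · rw [map_smul, Fm.h_w, smul_smul, mul_inv_cancel₀ i.ne_zero, one_smul]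
        · rw [map_smul, Fm.h_u, smul_smul, inv_mul_cancel₀ i.ne_zero, one_smul]
      set x := v - (polar Q w v • u + polar Q u v • w) with hx
      have xu : polar Q u x = 0 := by
        rw [hx, QuadraticMap.polar_sub_right, QuadraticMap.polar_add_right, QuadraticMap.polar_smul_right,
          QuadraticMap.polar_smul_right, h4.h1.uu, h4.h1.uw]; simp
      have xw : polar Q w x = 0 := by
        rw [hx, QuadraticMap.polar_sub_right, QuadraticMap.polar_add_right, QuadraticMap.polar_smul_right,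
          QuadraticMap.polar_smul_right, h4.h1.ww, h4.h1.wu]; simp
      have xe : polar Q (B.j (1, 0, 0)) x = 0 := by
        rw [hx, QuadraticMap.polar_sub_right, QuadraticMap.polar_add_right, QuadraticMap.polar_smul_right,
          QuadraticMap.polar_smul_right, ve, polar_symm _ u, polar_symm _ w, h4.ue, h4.we]; simp
      have xf : polar Q (B.j (0, 1, 0)) x = 0 := by
        rw [hx, QuadraticMap.polar_sub_right, QuadraticMap.polar_add_right, QuadraticMap.polar_smul_right,
          QuadraticMap.polar_smul_right, vf, polar_symm _ u, polar_symm _ w, h4.uf, h4.wf]; simp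
      have hv2 : v = x + (polar Q w v • u + polar Q u v • w) := by rw [hx]; abel
      rw [hv2, map_add, huw]
      congr 1
      rw [mul_apply, inv_apply (x := x) (y := x), Fm.h_perp h4 i xu xw xe xf]
      exact Fm.h_perp h4.swap i xu xw xf xe
  | succ m ih =>
    intro u w A hker z hz hz1
    obtain ⟨φ⟩ : (qPlus (2 * (m + 1) + 1) F).Equivalent (hyp (hyp (qPlus (2 * m + 1) F))) :=
      (plus_succ (2 * m + 2)).trans (H7.OmegaIso.hyp_congr (plus_succ (2 * m + 1)))
    apply neg_congr A φ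
    apply Fm.neg_two (A.congr φ)
    refine ih _ ?_ hz hz1
    obtain ⟨ψ⟩ := plus_succ (F := F) (2 * m)
    apply Fm.desc_emb _ (nd_plus _) (ns_congr ns_hyp ψ.symm)
    apply Fm.desc_emb _ (nd_plus _).hyp ns_hyp
    rw [A.congr_range φ]; exact hker

end Fam

end H40.Sieg
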