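import Mathlib
import Cfsg.Agent.Lib.H40.Sieg16

/-!
The kernel bounds: minus type and odd dimension.
-/
set_option autoImplicit false
set_option linter.unusedSimpArgs false
set_option linter.unusedSectionVars false
set_option linter.unusedVariables false
set_option linter.style.haveILetI false

namespace H40.Sieg

open H7.Hyp H7.Omega QuadraticMap H17.OrthSiegel H50.OrthE H40.Ext H50.OrthModel H7.HypStd H7.HypOrd H7.MinusOrd
open H48.QuadStd H7.AnisoPlane

variable {F : Type*} [Field F] {V : Type*} [AddCommGroup V] [Module F V]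

variable {Q : QuadraticForm F V} {X : Type*} [AddCommGroup X] [Module F X] {q : QuadraticForm F X}
variable {E : Type*} [Group E] {p : E →* (V ≃ₗ[F] V)} (Fm : Fam Q p)

/-- decomposition along a hyperbolic pair -/
theorem HP.dec {u w : V} (h : HP Q u w) (v : V) : ∃ (a b : F) (x : V), v = x + (a • u + b • w) ∧ polar Q u x = 0 ∧
    polar Q w x = 0 ∧ ∀ y, polar Q y u = 0 → polar Q y w = 0 → polar Q y x = polar Q y v := by
  refine ⟨polar Q w v, polar Q u v, v - (polar Q w v • u + polar Q u v • w), by abel, ?_, ?_, ?_⟩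
  · rw [QuadraticMap.polar_sub_right, QuadraticMap.polar_add_right, QuadraticMap.polar_smul_right,
      QuadraticMap.polar_smul_right, h.uu, h.uw]; simp
  · rw [QuadraticMap.polar_sub_right, QuadraticMap.polar_add_right, QuadraticMap.polar_smul_right,
      QuadraticMap.polar_smul_right, h.ww, h.wu]; simp
  · intro y yu yw
    rw [QuadraticMap.polar_sub_right, QuadraticMap.polar_add_right, QuadraticMap.polar_smul_right,
      QuadraticMap.polar_smul_right, yu, yw]; simp

/-- norm structure from the minus form -/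
noncomputable def nsMinus {a b : F} [Fact (∀ r : F, r ^ 2 ≠ -b + a * r)] {u w : V} (A : Emb Q (qMinus 0 F a b) u w) :
    NS Q u w (K a b) where
  i := (A.j ∘ₗ (eK a b).symm.toLinearMap).toAddMonoidHom
  bar := starRingEnd (K a b)
  j := algebraMap F (K a b)
  c := 1
  N z := QuadraticAlgebra.norm z
  hp := A.hp
  pu k := A.pu _
  pw k := A.pw _
  hc := one_ne_zero
  smul c k := by
    change c • A.j ((eK a b).symm k) = A.j ((eK a b).symm _)
    rw [← map_smul, ← map_smul, Algebra.smul_def]
  hQ k := by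
    change Q (A.j ((eK a b).symm k)) = _
    rw [A.hj, ← norm_eK, LinearEquiv.apply_symm_apply, one_mul]
  hN k := by
    rw [QuadraticAlgebra.algebraMap_norm_eq_mul_star]; rfl
  barj c := by
    rw [starRingEnd_apply]
    ext <;> simp
  barbar k := by
    rw [starRingEnd_apply, starRingEnd_apply, star_star]

/-- norm structure in odd dimension -/
def nsOdd {c : F} (hc : c ≠ 0) {u w : V} (A : Emb Q (qOdd 0 F c) u w) : NS Q u w F where
  i := { toFun := fun k => A.j (fun _ => k)
         map_zero' := by rw [show (fun _ : Unit ⊕ (Fin 0 ⊕ Fin 0) => (0 : F)) = 0 from rfl, map_zero]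
         map_add' := fun x y => by rw [← map_add]; rfl }
  bar := RingHom.id F
  j := RingHom.id F
  c := c
  N z := z * z
  hp := A.hp
  pu k := A.pu _
  pw k := A.pw _
  hc := hc
  smul c k := by
    change c • A.j (fun _ => k) = A.j (fun _ => c * k)
    rw [← map_smul]; rfl
  hQ k := by
    change Q (A.j (fun _ => k)) = _
    rw [A.hj, qOdd_apply]
    simp [pow_two]
  hN k := rfl
  barj c := rfl
  barbar k := rfl

namespace Fam

theorem units_neg_one {K : Type*} [Field K] (h : (2 : K) = 0) : (-1 : Kˣ) = 1 := by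
  apply Units.ext
  rw [Units.val_neg, Units.val_one]
  have : (1 : K) + 1 = 0 := by rw [one_add_one_eq_two]; exact h
  exact (eq_neg_of_add_eq_zero_left this).symm

theorem kb_odd [Finite F] {c : F} (hc : c ≠ 0) (h2 : (2 : F) ≠ 0) (m : ℕ) : ∀ {u w : V} (A : Emb Q (qOdd m F c) u w)
    (hker : p.ker ≤ Fm.GG u w (LinearMap.range A.j)), KB F p := by
  induction m with
  | zero =>
    intro u w A hker
    refine ⟨(Fm.roK (nsOdd hc A)).h (-1), fun g hg => Fm.ker_norm (nsOdd hc A) (W := LinearMap.range A.j) ?_ hker hg,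
      fun h => absurd h h2⟩
    rintro _ ⟨x, rfl⟩
    refine ⟨x (.inl ()), ?_⟩
    change A.j x = A.j _
    congr 1
    funext i
    rcases i with i | i | i
    · rfl
    · exact i.elim0
    · exact i.elim0
  | succ m ih =>
    intro u w A hker
    obtain ⟨φ⟩ := odd_succ (F := F) m c
    apply ih (A.congr φ).inner
    apply Fm.desc_emb (A.congr φ) (nd_odd _ h2 hc) ⟨fun i => i.elim (fun _ => 1) (fun _ => 0), by rw [qOdd_apply]; simpa using hc⟩
    rw [A.congr_range φ]; exact hker

theorem kb_minus_zero [Finite F] {a b : F} [Fact (∀ r : F, r ^ 2 ≠ -b + a * r)] {u w : V} (A : Emb Q (qMinus 0 F a b) u w)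
    (hker : p.ker ≤ Fm.GG u w (LinearMap.range A.j)) : ∀ g ∈ p.ker, g = 1 ∨ g = (Fm.roK (nsMinus A)).h (-1) := by
  intro g hg
  refine Fm.ker_norm (nsMinus A) (W := LinearMap.range A.j) ?_ hker hg
  rintro _ ⟨x, rfl⟩
  refine ⟨eK a b x, ?_⟩
  change A.j x = A.j ((eK a b).symm (eK a b x))
  rw [LinearEquiv.symm_apply_apply]

theorem ns_minus (m : ℕ) (a b : F) : ∃ x, qMinus m F a b x ≠ 0 :=
  ⟨fun i => i.elim (fun _ => 0) (fun j => if j = 0 then 1 else 0), by rw [qMinus_apply]; simp⟩

theorem kb_minus [Finite F] {a b : F} (hab : Aniso a b) (m : ℕ) : ∀ {u w : V} (A : Emb Q (qMinus m F a b) u w)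
    (hker : p.ker ≤ Fm.GG u w (LinearMap.range A.j)), KB F p := by
  haveI := hab.fact
  induction m with
  | zero =>
    intro u w A hker
    refine ⟨_, Fm.kb_minus_zero A hker, fun h => ?_⟩
    have : (2 : K a b) = 0 := by
      have h1 : algebraMap F (K a b) 2 = 0 := by rw [h, map_zero]
      rwa [map_ofNat] at h1
    rw [units_neg_one this, H45.RankOne.h_one]
  | succ m ih =>
    intro u w A hker
    obtain ⟨φ⟩ := minus_succ (F := F) m a b
    apply ih (A.congr φ).inner
    apply Fm.desc_emb (A.congr φ) (nd_minus _ hab) (ns_minus m a b)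
    rw [A.congr_range φ]; exact hker

section perp
variable {u w : V} {K : Type*} [Field K] (S : NS Q u w K)

theorem wK_perp (t : Kˣ) {x : V} (ux : polar Q u x = 0) (wx : polar Q w x = 0) (ix : ∀ k, polar Q (S.i k) x = 0) :
    p ((Fm.roK S).w t) x = x := by
  rw [roK_w, Fm.nS_perp S.hp (S.pu _) (S.pw _) (S.Q_ne t.ne_zero) ux wx, ix, mul_zero, zero_smul, sub_zero]
theorem hK_perp (t : Kˣ) {x : V} (ux : polar Q u x = 0) (wx : polar Q w x = 0) (ix : ∀ k, polar Q (S.i k) x = 0) :
    p ((Fm.roK S).h t) x = x := by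
  rw [H45.RankOne.h, mul_apply, Fm.wK_perp S _ ux wx ix, Fm.wK_perp S _ ux wx ix]
end perp

theorem exists_i [Fintype F] {a b : F} [Fact (∀ r : F, r ^ 2 ≠ -b + a * r)] (hq : Fintype.card F % 4 = 3) :
    ∃ i : K a b, i * i = -1 ∧ star i = -i := by
  haveI : Fintype (K a b) := Fintype.ofFinite _
  have h1 : IsSquare (-1 : K a b) := by
    rw [FiniteField.isSquare_neg_one_iff, card_K]
    rw [Nat.pow_mod, hq]; norm_num
  obtain ⟨i, hi⟩ := h1
  refine ⟨i, hi.symm, ?_⟩
  rw [star_eq_pow]
  obtain ⟨k, hk⟩ : ∃ k, Fintype.card F = 4 * k + 3 := ⟨Fintype.card F / 4, by omega⟩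
  rw [hk, pow_add, pow_mul]
  have h2 : i ^ 4 = 1 := by
    rw [show i ^ 4 = (i * i) * (i * i) by ring, ← hi]; ring
  rw [h2, one_pow, one_mul, show i ^ 3 = (i * i) * i by ring, ← hi]; ring

theorem neg_minus [Fintype F] {a b : F} (hab : Aniso a b) (hq : Fintype.card F % 4 = 3) (m : ℕ) :
    ∀ {u w : V} (A : Emb Q (qMinus (2 * m) F a b) u w)
    (hker : p.ker ≤ Fm.GG u w (LinearMap.range A.j)) {z : E} (hz : z ∈ p.ker) (hz1 : z ≠ 1),
    NEG p Q (LinearMap.range A.j) z := by
  haveI := hab.fact
  induction m with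
  | zero =>
    intro u w A hker z hz hz1
    change Emb Q (qMinus 0 F a b) u w at A
    have h1 := (Fm.kb_minus_zero A hker z hz).resolve_left hz1
    set S := nsMinus A with hS
    obtain ⟨i, hi, hsi⟩ := exists_i (F := F) (a := a) (b := b) hq
    have hi0 : i ≠ 0 := by rintro rfl; simp at hi
    set t : (K a b)ˣ := Units.mk0 i hi0 with ht
    have htt : t * t = -1 := by
      apply Units.ext
      rw [Units.val_mul, Units.val_neg, Units.val_one, ht, Units.val_mk0, hi]
    have hbar : S.bar t = -(t : K a b) := hsi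
    have hN : S.N t = 1 := by
      apply S.j.injective
      rw [S.hN, hbar, map_one, mul_neg, ← Units.val_mul, htt]; simp
    have hact : ∀ x, p ((Fm.roK S).h t) (A.j x) = -(A.j x) := by
      intro x
      have h2 : A.j x = S.i (eK a b x) := by
        change A.j x = A.j ((eK a b).symm (eK a b x))
        rw [LinearEquiv.symm_apply_apply]
      rw [h2, hK_i, hbar, ← map_neg]
      congr 1
      have := t.ne_zero
      field_simp
    refine ⟨(Fm.roK S).h t, ?_, ?_, ?_⟩
    · rw [(Fm.roK S).h_mul, htt, h1]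
    · rintro _ ⟨x, rfl⟩
      exact hact x
    · intro v hv
      obtain ⟨c, d, x, rfl, hux, hwx, hyx⟩ := S.hp.dec v
      rw [map_add, map_add, map_smul, map_smul, hK_u, hK_w, hN, inv_one, one_smul, one_smul]
      congr 1
      apply Fm.hK_perp S t hux hwx
      intro k
      rw [hyx _ (by rw [polar_symm]; exact S.pu _) (by rw [polar_symm]; exact S.pw _)]
      exact hv _ ⟨_, rfl⟩
  | succ m ih =>
    intro u w A hker z hz hz1
    obtain ⟨φ⟩ : (qMinus (2 * (m + 1)) F a b).Equivalent (hyp (hyp (qMinus (2 * m) F a b))) :=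
      (minus_succ (2 * m + 1) a b).trans (H7.OmegaIso.hyp_congr (minus_succ (2 * m) a b))
    apply neg_congr A φ
    apply Fm.neg_two (A.congr φ)
    refine ih _ ?_ hz hz1
    apply Fm.desc_emb _ (nd_minus _ hab) (ns_minus _ a b)
    apply Fm.desc_emb _ (nd_minus _ hab).hyp ns_hyp
    rw [A.congr_range φ]; exact hker

end Fam

end H40.Sieg
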