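import Mathlib
import Cfsg.Agent.Lib.H40.Sieg17

/-!
Perfect central extensions of the groups `Om`: bounds for the kernel, and lifts of `-1`.
-/
set_option autoImplicit false
set_option linter.unusedSimpArgs false
set_option linter.unusedSectionVars false
set_option linter.unusedVariables false
set_option linter.style.haveILetI false

namespace H40.Sieg

open H7.Hyp H7.Omega QuadraticMap H17.OrthSiegel H50.OrthE H40.Ext H50.OrthModel H7.HypStd H7.HypOrd H7.MinusOrd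
open H48.QuadStd H7.AnisoPlane H50.OrthMat

variable {F : Type*} [Field F] {X : Type*} [AddCommGroup X] [Module F X]

theorem ht_three [FiniteDimensional F X] (q₀ : QuadraticForm F X) : HT (hyp (hyp (hyp q₀))) := by
  obtain ⟨T1, h1, h2⟩ := ts_up (q := q₀) (T := ⊥) (by intro x hx; rw [(Submodule.mem_bot F).mp hx, QuadraticMap.map_zero])
  obtain ⟨T2, h3, h4⟩ := ts_up h1
  obtain ⟨T3, h5, h6⟩ := ts_up h3
  exact ⟨T3, h5, by rw [finrank_bot] at h2; omega⟩

theorem top_exS (q : QuadraticForm F X) : (⊤ : Submodule F (F × F × X)) =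
    exS (e1 F X) (e2 F X) (LinearMap.range (topEmb q).j) := by
  symm
  rw [eq_top_iff]
  rintro ⟨a, b, x⟩ -
  rw [mem_exS]
  refine ⟨a, b, (0, 0, x), ⟨x, rfl⟩, ?_⟩
  simp [e1, e2]

/-- the abbreviation for the three-fold hyperbolic form -/
abbrev H3 (q₀ : QuadraticForm F X) : QuadraticForm F (F × F × (F × F × (F × F × X))) := hyp (hyp (hyp q₀))

/-- the second embedding -/
abbrev E2 (q₀ : QuadraticForm F X) := (topEmb (hyp (hyp q₀))).inner
/-- the third embedding -/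
abbrev E3 (q₀ : QuadraticForm F X) := (topEmb (hyp (hyp q₀))).inner.inner

/-- the kernel is inside of the group of an embedding -/
def Fam.KE {V : Type*} [AddCommGroup V] [Module F V] {Q : QuadraticForm F V} {E : Type*} [Group E] {p : E →* (V ≃ₗ[F] V)}
    (Fm : Fam Q p) {q : QuadraticForm F X} {u w : V} (A : Emb Q q u w) : Prop :=
  p.ker ≤ Fm.GG u w (LinearMap.range A.j)

theorem exists_fam [Finite F] [FiniteDimensional F X] {q₀ : QuadraticForm F X} (hq : ND q₀) (hd : 1 ≤ Module.finrank F X)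
    (hns : ∃ x, q₀ x ≠ 0) (hC : Cond (H3 q₀)) {E : Type*} [Group E] {π : E →* Om (hyp (hyp q₀))} (hπ : CE π)
    (hperf : commutator E = ⊤) :
    ∃ Fm : Fam (H3 q₀) ((Subgroup.subtype (Om (hyp (hyp q₀)))).comp π),
      Fm.KE (E2 q₀) ∧ Fm.KE (E3 q₀) := by
  let S : Su (H3 q₀) (Om (hyp (hyp q₀))) := su hq.hyp.hyp (by rw [hfr, hfr]; omega)
  let H : Hy S hπ := ⟨ht_three q₀, fun h => c1 S hπ hC h⟩
  have h0 : ((Subgroup.subtype (Om (hyp (hyp q₀)))).comp π).ker ≤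
      H.fam.GG (e1 F _) (e2 F _) (LinearMap.range (topEmb (hyp (hyp q₀))).j) := by
    rw [top_GG H hperf]; exact le_top
  have h1 := H.fam.desc_emb (topEmb (hyp (hyp q₀))) hq.hyp ns_hyp h0
  exact ⟨H.fam, h1, H.fam.desc_emb (topEmb (hyp (hyp q₀))).inner hq hns h1⟩

theorem Fam.neg_top [Finite F] {q : QuadraticForm F X} {E : Type*} [Group E] {p : E →* ((F × F × (F × F × X)) ≃ₗ[F] (F × F × (F × F × X)))}
    (Fm : Fam (hyp (hyp q)) p) {δ : E} (h : Fam.NEG p (hyp (hyp q)) (LinearMap.range (topEmb (hyp q)).inner.j) δ) :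
    ∃ ε : E, ε * ε = δ ∧ ∀ v, p ε v = -v := by
  set A := topEmb (hyp q) with hA
  have h1 : Fam.NEG p (hyp (hyp q)) ⊤ δ := by
    rw [top_exS, ← hA, mem_hyp_range A.j]
    refine Fm.neg_step ⟨A.hp, A.inner.hp, A.pu _, A.pu _, A.pw _, A.pw _⟩ ?_ ?_ ?_ ?_ h
    · rintro _ ⟨x, rfl⟩; rw [polar_symm]; exact A.pu _
    · rintro _ ⟨x, rfl⟩; rw [polar_symm]; exact A.pw _
    · rintro _ ⟨x, rfl⟩; rw [polar_symm]; exact A.inner.pu _
    · rintro _ ⟨x, rfl⟩; rw [polar_symm]; exact A.inner.pw _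
  obtain ⟨ε, h2, h3, -⟩ := h1
  exact ⟨ε, h2, fun v => h3 v Submodule.mem_top⟩

/-! ### the data of a family: bounds and negatives -/

/-- every perfect central extension of `Om (hyp (hyp q₀))` has a kernel of order at most 2 -/
def Bd.{u} {F : Type u} [Field F] {X : Type u} [AddCommGroup X] [Module F X] (q₀ : QuadraticForm F X) : Prop :=
  ∀ {E : Type u} [Group E] {π : E →* Om (hyp (hyp q₀))}, CE π → commutator E = ⊤ →
    ∃ ζ : E, (∀ g ∈ π.ker, g = 1 ∨ g = ζ) ∧ ((2 : F) = 0 → ζ = 1)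

/-- lifts of `-1` whose square is the given element of the kernel -/
def Ng.{u} {F : Type u} [Field F] {X : Type u} [AddCommGroup X] [Module F X] (q₀ : QuadraticForm F X) (b : Bool) : Prop :=
  ∀ {E : Type u} [Group E] {π : E →* Om (hyp (hyp q₀))}, CE π → commutator E = ⊤ → ∀ z ∈ π.ker, z ≠ 1 →
    ∃ ε : E, ε * ε = (if b then z else 1) ∧ ∀ v, (π ε : (F × F × (F × F × (F × F × X))) ≃ₗ[F] (F × F × (F × F × (F × F × X)))) v = -v

theorem ker_sub {V : Type*} [AddCommGroup V] [Module F V] {Ω : Subgroup (V ≃ₗ[F] V)} {E : Type*} [Group E] {π : E →* Ω} :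
    (Ω.subtype.comp π).ker = π.ker := by
  rw [MonoidHom.ker_comp_of_injective]
  exact Ω.subtype_injective

theorem fr_plus (m : ℕ) : Module.finrank F (Fin m ⊕ Fin m → F) = 2 * m := by
  rw [Module.finrank_fintype_fun_eq_card, Fintype.card_sum, Fintype.card_fin]; omega
theorem fr_odd (m : ℕ) : Module.finrank F (Unit ⊕ (Fin m ⊕ Fin m) → F) = 2 * m + 1 := by
  rw [Module.finrank_fintype_fun_eq_card, Fintype.card_sum, Fintype.card_sum, Fintype.card_fin]; simp; omega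
theorem fr_minus (m : ℕ) : Module.finrank F ((Fin m ⊕ Fin m) ⊕ Fin 2 → F) = 2 * m + 2 := by
  rw [Module.finrank_fintype_fun_eq_card, Fintype.card_sum, Fintype.card_sum, Fintype.card_fin, Fintype.card_fin]; omega

section plus
variable [Fintype F]

theorem cond_plus {k : ℕ} (h : 1 ≤ k ∨ 3 ≤ Fintype.card F) : Cond (H3 (qPlus (k + 1) F)) := by
  unfold Cond
  rw [hfr, hfr, hfr, fr_plus, Nat.card_eq_fintype_card]
  by_cases hk : 1 ≤ k
  · left; omega
  · have h3 := h.resolve_left hk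
    by_cases h4 : 4 ≤ Fintype.card F
    · right; left; exact h4
    · right; right; exact ⟨by omega, Or.inl (by omega)⟩

theorem ns_plus (k : ℕ) : ∃ x, qPlus (k + 1) F x ≠ 0 := by
  obtain ⟨ψ⟩ := plus_succ (F := F) k
  exact ns_congr ns_hyp ψ.symm

end plus

theorem cond_odd [Fintype F] {k : ℕ} {c : F} (h : 1 ≤ k ∨ 4 ≤ Fintype.card F) : Cond (H3 (qOdd k F c)) := by
  unfold Cond
  rw [hfr, hfr, hfr, fr_odd, Nat.card_eq_fintype_card]
  by_cases hk : 1 ≤ k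
  · left; omega
  · right; left; exact h.resolve_left hk

theorem ns_odd (k : ℕ) {c : F} (hc : c ≠ 0) : ∃ x, qOdd k F c x ≠ 0 :=
  ⟨fun i => i.elim (fun _ => 1) (fun _ => 0), by rw [qOdd_apply]; simpa using hc⟩

theorem cond_minus [Fintype F] {k : ℕ} {a b : F} (hab : Aniso a b) : Cond (H3 (qMinus k F a b)) := by
  unfold Cond
  rcases k with _ | k
  · right; right
    refine ⟨by rw [hfr, hfr, hfr, fr_minus], Or.inr fun M hM hM4 => ?_⟩
    refine h8_of_aniso (W := (Fin 0 ⊕ Fin 0) ⊕ Fin 2 → F) (q₀ := qMinus 0 F a b) ?_ M hM hM4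
    intro v hv
    rw [qMinus_apply] at hv
    simp only [Finset.univ_eq_empty, Finset.sum_empty, zero_add] at hv
    obtain ⟨h1, h2⟩ := hab _ _ hv
    ext i
    rcases i with (i | i) | i
    · exact i.elim0
    · exact i.elim0
    · fin_cases i
      · exact h1
      · exact h2
  · left
    rw [hfr, hfr, hfr, fr_minus]; omega

section main
universe u
variable {F : Type u} [Field F] [Fintype F]

theorem bd_plus {k : ℕ} (h : 1 ≤ k ∨ 3 ≤ Fintype.card F) : Bd (qPlus (k + 1) F) := by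
  intro E _ π hπ hperf
  obtain ⟨Fm, h1, h2⟩ := exists_fam (nd_plus (k + 1)) (by rw [fr_plus]; omega) (ns_plus k) (cond_plus h) hπ hperf
  obtain ⟨ζ, h3, h4⟩ := Fm.kb_plus k (E3 (qPlus (k + 1) F)) h2
  exact ⟨ζ, fun g hg => h3 g (by rw [ker_sub]; exact hg), h4⟩

theorem bd_odd {k : ℕ} {c : F} (hc : c ≠ 0) (h2' : (2 : F) ≠ 0) (h : 1 ≤ k ∨ 4 ≤ Fintype.card F) : Bd (qOdd k F c) := by
  intro E _ π hπ hperf
  obtain ⟨Fm, h1, h2⟩ := exists_fam (nd_odd k h2' hc) (by rw [fr_odd]; omega) (ns_odd k hc) (cond_odd h) hπ hperf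
  obtain ⟨ζ, h3, h4⟩ := Fm.kb_odd hc h2' k (E3 (qOdd k F c)) h2
  exact ⟨ζ, fun g hg => h3 g (by rw [ker_sub]; exact hg), h4⟩

theorem bd_minus {k : ℕ} {a b : F} (hab : Aniso a b) : Bd (qMinus k F a b) := by
  intro E _ π hπ hperf
  obtain ⟨Fm, h1, h2⟩ := exists_fam (nd_minus k hab) (by rw [fr_minus]; omega) (Fam.ns_minus k a b) (cond_minus hab) hπ hperf
  obtain ⟨ζ, h3, h4⟩ := Fm.kb_minus hab k (E3 (qMinus k F a b)) h2
  exact ⟨ζ, fun g hg => h3 g (by rw [ker_sub]; exact hg), h4⟩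

theorem ng_plus_odd {i : Fˣ} (hi : i * i = -1) {k : ℕ} (hk : k % 2 = 1) : Ng (qPlus (k + 1) F) true := by
  intro E _ π hπ hperf z hz hz1
  obtain ⟨m, rfl⟩ : ∃ m, k = 2 * m + 1 := ⟨k / 2, by omega⟩
  obtain ⟨Fm, h1, h2⟩ := exists_fam (nd_plus (2 * m + 1 + 1)) (by rw [fr_plus]; omega) (ns_plus _) (cond_plus (Or.inl (by omega))) hπ hperf
  obtain ⟨φ⟩ : (qPlus (2 * (m + 1) + 1) F).Equivalent (hyp (qPlus (2 * m + 1 + 1) F)) := plus_succ (2 * m + 1 + 1)
  obtain ⟨ε, h3, h4⟩ := Fm.neg_top (δ := z) (by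
    apply Fam.neg_congr _ φ.symm
    refine Fm.neg_plus_odd hi (m + 1) _ ?_ (by rw [ker_sub]; exact hz) hz1
    rw [Emb.congr_range]; exact h1)
  exact ⟨ε, by rw [h3]; rfl, h4⟩

theorem ng_plus_even {k : ℕ} (hk : k % 2 = 0) (h : 1 ≤ k ∨ 3 ≤ Fintype.card F) : Ng (qPlus (k + 1) F) false := by
  intro E _ π hπ hperf z hz hz1
  obtain ⟨m, rfl⟩ : ∃ m, k = 2 * m := ⟨k / 2, by omega⟩
  obtain ⟨Fm, h1, h2⟩ := exists_fam (nd_plus (2 * m + 1)) (by rw [fr_plus]; omega) (ns_plus _) (cond_plus h) hπ hperf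
  obtain ⟨φ⟩ : (qPlus (2 * (m + 1)) F).Equivalent (hyp (qPlus (2 * m + 1) F)) := plus_succ (2 * m + 1)
  obtain ⟨ε, h3, h4⟩ := Fm.neg_top (δ := 1) (by
    apply Fam.neg_congr _ φ.symm
    exact Fm.neg_plus_even (m + 1) _)
  exact ⟨ε, by rw [h3]; rfl, h4⟩

theorem ng_minus {a b : F} (hab : Aniso a b) (hq : Fintype.card F % 4 = 3) {k : ℕ} (hk : k % 2 = 1) : Ng (qMinus k F a b) true := by
  intro E _ π hπ hperf z hz hz1
  obtain ⟨m, rfl⟩ : ∃ m, k = 2 * m + 1 := ⟨k / 2, by omega⟩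
  obtain ⟨Fm, h1, h2⟩ := exists_fam (nd_minus _ hab) (by rw [fr_minus]; omega) (Fam.ns_minus _ a b) (cond_minus hab) hπ hperf
  obtain ⟨φ⟩ : (qMinus (2 * (m + 1)) F a b).Equivalent (hyp (qMinus (2 * m + 1) F a b)) := minus_succ (2 * m + 1) a b
  obtain ⟨ε, h3, h4⟩ := Fm.neg_top (δ := z) (by
    apply Fam.neg_congr _ φ.symm
    refine Fm.neg_minus hab hq (m + 1) _ ?_ (by rw [ker_sub]; exact hz) hz1
    rw [Emb.congr_range]; exact h1)
  exact ⟨ε, by rw [h3]; rfl, h4⟩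

end main

end H40.Sieg
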