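import Mathlib
import Cfsg.Agent.Lib.H40.Sieg18
import Cfsg.Agent.Lib.H69.SchurUniv
import Cfsg.Agent.Lib.H69.SchurPerfect

/-!
The double cover of `Om` in odd characteristic, from the Clifford algebra.
-/
set_option autoImplicit false
set_option linter.unusedSimpArgs false
set_option linter.unusedSectionVars false
set_option linter.unusedVariables false
set_option linter.style.haveILetI false

namespace H40.Sieg.Cl

open H7.Hyp H7.Omega QuadraticMap H17.OrthSiegel H50.OrthE CliffordAlgebra H40.Ext H50.OrthModel H50.OrthMat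
open scoped commutatorElement

variable {F : Type*} [Field F] {V : Type*} [AddCommGroup V] [Module F V] {Q : QuadraticForm F V}

theorem swp (a b : V) : ι Q a * ι Q b = algebraMap F (CliffordAlgebra Q) (polar Q a b) - ι Q b * ι Q a := by
  rw [← ι_mul_ι_add_swap]; abel
theorem anti {a b : V} (h : polar Q a b = 0) : ι Q a * ι Q b = -(ι Q b * ι Q a) := by
  rw [swp, h, map_zero, zero_sub]
theorem sq0 {a : V} (h : Q a = 0) : ι Q a * ι Q a = 0 := by
  rw [ι_sq_scalar, h, map_zero]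
theorem uyu {u y : V} (hu : Q u = 0) (hy : polar Q u y = 0) : ι Q u * ι Q y * ι Q u = 0 := by
  rw [anti hy, neg_mul, mul_assoc, sq0 hu, mul_zero, neg_zero]

theorem un_sq {u y : V} (hu : Q u = 0) (hy : polar Q u y = 0) : (ι Q u * ι Q y) * (ι Q u * ι Q y) = 0 := by
  rw [← mul_assoc, uyu hu hy, zero_mul]

/-- the lift of a Siegel element -/
def un (u y : V) (hu : Q u = 0) (hy : polar Q u y = 0) : (CliffordAlgebra Q)ˣ where
  val := 1 - ι Q u * ι Q y
  inv := 1 + ι Q u * ι Q y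
  val_inv := by
    have := un_sq hu hy
    simp only [mul_add, sub_mul, mul_one, one_mul, this]; abel
  inv_val := by
    have := un_sq hu hy
    simp only [add_mul, mul_sub, mul_one, one_mul, this]; abel

theorem un_val {u y : V} (hu : Q u = 0) (hy : polar Q u y = 0) : (un u y hu hy : CliffordAlgebra Q) = 1 - ι Q u * ι Q y := rfl

theorem un_conj {u y : V} (hu : Q u = 0) (hy : polar Q u y = 0) (x : V) :
    (un u y hu hy : CliffordAlgebra Q) * ι Q x = ι Q (sieLin Q u y x) * (un u y hu hy : CliffordAlgebra Q) := by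
  rw [un_val, sl_apply]
  simp only [map_add, map_sub, map_smul]
  have h1 : ι Q u * ι Q x = polar Q u x • 1 - ι Q x * ι Q u := by rw [swp, Algebra.algebraMap_eq_smul_one]
  have h2 : ι Q y * ι Q x = polar Q y x • 1 - ι Q x * ι Q y := by rw [swp, Algebra.algebraMap_eq_smul_one]
  have h3 : ι Q y * ι Q u = -(ι Q u * ι Q y) := by rw [anti hy, neg_neg]
  have h4 : ι Q u * ι Q u = 0 := sq0 hu
  have h5 : ι Q y * ι Q y = Q y • 1 := by rw [ι_sq_scalar, Algebra.algebraMap_eq_smul_one]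
  have e1 : ι Q u * ι Q y * ι Q x = polar Q y x • ι Q u - polar Q u x • ι Q y + ι Q x * (ι Q u * ι Q y) := by
    calc ι Q u * ι Q y * ι Q x = ι Q u * (ι Q y * ι Q x) := by rw [mul_assoc]
      _ = polar Q y x • ι Q u - (ι Q u * ι Q x) * ι Q y := by rw [h2, mul_sub, mul_smul_comm, mul_one, mul_assoc]
      _ = _ := by rw [h1, sub_mul, smul_mul_assoc, one_mul, mul_assoc]; module
  have e2 : ι Q y * (ι Q u * ι Q y) = -(Q y • ι Q u) := by
    rw [← mul_assoc, h3, neg_mul, mul_assoc, h5, mul_smul_comm, mul_one]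
  have e3 : ι Q u * (ι Q u * ι Q y) = 0 := by rw [← mul_assoc, h4, zero_mul]
  rw [sub_mul, one_mul, e1, mul_sub, mul_one]
  have e4 : (ι Q x + polar Q u x • ι Q y - polar Q y x • ι Q u - (Q y * polar Q u x) • ι Q u) * (ι Q u * ι Q y) =
      ι Q x * (ι Q u * ι Q y) + polar Q u x • (ι Q y * (ι Q u * ι Q y)) - polar Q y x • (ι Q u * (ι Q u * ι Q y)) -
        (Q y * polar Q u x) • (ι Q u * (ι Q u * ι Q y)) := by
    simp only [add_mul, sub_mul, smul_mul_assoc]
  rw [e4, e2, e3]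
  module

/-- the group of pairs -/
def Gam (Q : QuadraticForm F V) (Ω : Subgroup (V ≃ₗ[F] V)) : Subgroup ((CliffordAlgebra Q)ˣ × Ω) where
  carrier := {g | ∀ x, (g.1 : CliffordAlgebra Q) * ι Q x = ι Q ((g.2 : V ≃ₗ[F] V) x) * (g.1 : CliffordAlgebra Q)}
  one_mem' x := by
    change (1 : CliffordAlgebra Q) * _ = ι Q x * 1
    rw [one_mul, mul_one]
  mul_mem' {a b} ha hb x := by
    change ((a.1 : CliffordAlgebra Q) * (b.1 : CliffordAlgebra Q)) * _ = ι Q ((a.2 : V ≃ₗ[F] V) ((b.2 : V ≃ₗ[F] V) x)) * (_ * _)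
    rw [mul_assoc, hb x, ← mul_assoc, ha, mul_assoc]
  inv_mem' {a} ha x := by
    change ((a.1⁻¹ : (CliffordAlgebra Q)ˣ) : CliffordAlgebra Q) * ι Q x = ι Q ((a.2⁻¹ : V ≃ₗ[F] V) x) * ((a.1⁻¹ : (CliffordAlgebra Q)ˣ) : CliffordAlgebra Q)
    have h1 := ha ((a.2⁻¹ : V ≃ₗ[F] V) x)
    have h2 : (a.2 : V ≃ₗ[F] V) ((a.2⁻¹ : V ≃ₗ[F] V) x) = x := (a.2 : V ≃ₗ[F] V).apply_symm_apply x
    rw [h2] at h1
    rw [Units.inv_mul_eq_iff_eq_mul, ← mul_assoc, h1, mul_assoc, Units.mul_inv, mul_one]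

/-- the projection -/
def pr (Q : QuadraticForm F V) (Ω : Subgroup (V ≃ₗ[F] V)) : Gam Q Ω →* Ω := (MonoidHom.snd _ _).comp (Gam Q Ω).subtype

theorem mem_center_of_comm {g : (CliffordAlgebra Q)ˣ} (h : ∀ x, (g : CliffordAlgebra Q) * ι Q x = ι Q x * (g : CliffordAlgebra Q))
    (c : CliffordAlgebra Q) : (g : CliffordAlgebra Q) * c = c * g := by
  have h1 : (⊤ : Subalgebra F (CliffordAlgebra Q)) ≤ Subalgebra.centralizer F {(g : CliffordAlgebra Q)} := by
    rw [← adjoin_range_ι, Algebra.adjoin_le_iff]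
    rintro _ ⟨x, rfl⟩
    change _ ∈ Subalgebra.centralizer F _
    rw [Subalgebra.mem_centralizer_iff]
    rintro _ rfl
    exact h x
  have h2 := h1 (Algebra.mem_top (x := c))
  rw [Subalgebra.mem_centralizer_iff] at h2
  exact h2 _ rfl

theorem ker_pr (Q : QuadraticForm F V) (Ω : Subgroup (V ≃ₗ[F] V)) : (pr Q Ω).ker ≤ Subgroup.center (Gam Q Ω) := by
  rintro ⟨⟨g, w⟩, hg⟩ hk
  have hw : w = 1 := hk
  subst hw
  rw [Subgroup.mem_center_iff]
  rintro ⟨⟨g', w'⟩, hg'⟩
  apply Subtype.ext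
  apply Prod.ext
  · change g' * g = g * g'
    apply Units.ext
    rw [Units.val_mul, Units.val_mul]
    exact (mem_center_of_comm (fun x => hg x) _).symm
  · change w' * 1 = 1 * w'
    rw [mul_one, one_mul]

section S
variable {Ω : Subgroup (V ≃ₗ[F] V)} (S : Su Q Ω)

/-- the lift inside of the group of pairs -/
noncomputable def gn (u y : V) (hu : Q u = 0) (hy : polar Q u y = 0) : Gam Q Ω :=
  ⟨(un u y hu hy, sg S u y), fun x => by
    change (un u y hu hy : CliffordAlgebra Q) * ι Q x = ι Q ((sg S u y : V ≃ₗ[F] V) x) * (un u y hu hy : CliffordAlgebra Q)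
    rw [sg_apply S hu hy]
    exact un_conj hu hy x⟩

theorem pr_gn (u y : V) (hu : Q u = 0) (hy : polar Q u y = 0) : pr Q Ω (gn S u y hu hy) = sg S u y := rfl

/-- the commutator -/
theorem gn_comm {u v e f : V} (hu : Q u = 0) (hv : Q v = 0) (huv : polar Q u v = 0) (hp : HP Q e f)
    (ue : polar Q u e = 0) (uf : polar Q u f = 0) (ve : polar Q v e = 0) (vf : polar Q v f = 0) :
    gn S u v hu huv = ⁅gn S u e hu ue, gn S v f hv vf⁆ := by
  apply Subtype.ext
  apply Prod.ext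
  · change un u v hu huv = ⁅un u e hu ue, un v f hv vf⁆
    rw [commutatorElement_def, eq_mul_inv_iff_mul_eq, eq_mul_inv_iff_mul_eq]
    apply Units.ext
    simp only [Units.val_mul, un_val]
    generalize hU : ι Q u = U
    generalize hV : ι Q v = W
    generalize hE : ι Q e = E
    generalize hF' : ι Q f = G
    have vv : W * W = 0 := by rw [← hV]; exact sq0 hv
    have uu : U * U = 0 := by rw [← hU]; exact sq0 hu
    have uv : W * U = -(U * W) := by rw [← hV, ← hU]; exact anti (by rw [polar_symm]; exact huv)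
    have fu : G * U = -(U * G) := by rw [← hF', ← hU]; exact anti (by rw [polar_symm]; exact uf)
    have ev : E * W = -(W * E) := by rw [← hE, ← hV]; exact anti (by rw [polar_symm]; exact ve)
    have ef : E * G = 1 - G * E := by rw [← hE, ← hF', swp, hp.uw, map_one]
    have a1 : U * E * (W * G) = -(U * W) + U * W * (G * E) := by
      calc U * E * (W * G) = U * (E * W) * G := by simp only [mul_assoc]
        _ = -(U * W * (E * G)) := by rw [ev]; simp only [mul_assoc, mul_neg, neg_mul]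
        _ = _ := by rw [ef]; simp only [mul_sub, mul_one]; abel
    have a2 : U * W * (W * G) = 0 := by
      rw [show U * W * (W * G) = U * (W * W) * G by simp only [mul_assoc], vv]; simp
    have a3 : U * W * (U * E) = 0 := by
      rw [show U * W * (U * E) = U * (W * U) * E by simp only [mul_assoc], uv, mul_neg, neg_mul, ← mul_assoc, uu]; simp
    have a4 : W * G * (U * E) = U * W * (G * E) := by
      calc W * G * (U * E) = W * (G * U) * E := by simp only [mul_assoc]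
        _ = -((W * U) * (G * E)) := by rw [fu]; simp only [mul_assoc, mul_neg, neg_mul]
        _ = _ := by rw [uv]; simp only [neg_mul, neg_neg]
    have a5 : U * W * (W * G) * (U * E) = 0 := by rw [a2, zero_mul]
    simp only [mul_sub, sub_mul, one_mul, mul_one, a1, a2, a3, a4, a5, zero_mul]
    abel
  · change sg S u v = ⁅sg S u e, sg S v f⁆
    rw [comm_sg S hu hv huv ue vf ve uf, hp.uw, one_smul]

end S

/-! ### the element `-1` -/

theorem alg_n {A : Type*} [Ring A] {P R : A} (hP : P * P = 0) (hR : R * R = 0) (h1 : P * R * P = -P) (h2 : R * P * R = -R) :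
    ((1 - P) * (1 - R) * (1 - P)) * ((1 - P) * (1 - R) * (1 - P)) = 1 + 2 * (P * R + R * P) ∧
      (P * R + R * P) * (P * R + R * P) = -(P * R + R * P) := by
  have e0 : (P + R) * (P + R) = P * R + R * P := by
    rw [mul_add, add_mul, add_mul, hP, hR]; abel
  have e1 : (1 - P) * (1 - R) * (1 - P) = 1 - (P + R) + (P + R) * (P + R) := by
    have : (1 - P) * (1 - R) * (1 - P) = 1 - P - R + P * R - P + P * P + R * P - P * R * P := by noncomm_ring
    rw [this, hP, h1, e0]; abel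
  have e2 : (P + R) * (P + R) * (P + R) = -(P + R) := by
    rw [e0]
    have : (P * R + R * P) * (P + R) = P * R * P + P * (R * R) + R * (P * P) + R * P * R := by noncomm_ring
    rw [this, h1, h2, hP, hR]; simp; abel
  have e3 : (P + R) * (P + R) * (P + R) * (P + R) = -((P + R) * (P + R)) := by rw [e2, neg_mul]
  constructor
  · rw [e1, ← e0]
    have : (1 - (P + R) + (P + R) * (P + R)) * (1 - (P + R) + (P + R) * (P + R)) =
        1 - 2 * (P + R) + 3 * ((P + R) * (P + R)) - 2 * ((P + R) * (P + R) * (P + R)) + (P + R) * (P + R) * (P + R) * (P + R) := by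
      noncomm_ring
    rw [this, e3, e2]
    noncomm_ring
  · rw [← e0]
    calc (P + R) * (P + R) * ((P + R) * (P + R)) = (P + R) * (P + R) * (P + R) * (P + R) := by simp only [mul_assoc]
      _ = _ := e3

theorem alg_z {A : Type*} [Ring A] {s s' : A} (h1 : s * s = -s) (h2 : s + s' = -1) : (1 + 2 * s) * (1 + 2 * s') = -1 := by
  have h3 : s' = -1 - s := by rw [← h2]; abel
  rw [h3]
  have : (1 + 2 * s) * (1 + 2 * (-1 - s)) = -1 - 4 * s - 4 * (s * s) := by noncomm_ring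
  rw [this, h1]
  noncomm_ring

theorem hp_rel {u w : V} (h : HP Q u w) : ι Q u * ι Q w + ι Q w * ι Q u = 1 := by
  rw [ι_mul_ι_add_swap, h.uw, map_one]

theorem uwu {u w : V} (h : HP Q u w) : ι Q u * ι Q w * ι Q u = ι Q u := by
  have h1 : ι Q w * ι Q u = 1 - ι Q u * ι Q w := by rw [← hp_rel h]; abel
  rw [mul_assoc, h1, mul_sub, mul_one, ← mul_assoc, sq0 h.qu, zero_mul, sub_zero]

theorem rel_P {u w e f : V} (h : HP4 Q u w e f) :
    (ι Q u * ι Q f) * (ι Q w * ι Q e) * (ι Q u * ι Q f) = -(ι Q u * ι Q f) := by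
  have h1 : ι Q f * ι Q w = -(ι Q w * ι Q f) := anti (by rw [polar_symm]; exact h.wf)
  have h2 : ι Q e * ι Q u = -(ι Q u * ι Q e) := anti (by rw [polar_symm]; exact h.ue)
  have h3 : ι Q f * ι Q u = -(ι Q u * ι Q f) := anti (by rw [polar_symm]; exact h.uf)
  calc (ι Q u * ι Q f) * (ι Q w * ι Q e) * (ι Q u * ι Q f) = ι Q u * (ι Q f * ι Q w) * (ι Q e * ι Q u) * ι Q f := by
        simp only [mul_assoc]
    _ = ι Q u * ι Q w * (ι Q f * ι Q u) * ι Q e * ι Q f := by rw [h1, h2]; simp only [mul_assoc, mul_neg, neg_mul, neg_neg]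
    _ = -((ι Q u * ι Q w * ι Q u) * (ι Q f * ι Q e * ι Q f)) := by rw [h3]; simp only [mul_assoc, mul_neg, neg_mul, neg_neg]
    _ = _ := by rw [uwu h.h1, uwu h.h2.symm]

theorem rel_PR {u w e f : V} (h : HP4 Q u w e f) : (ι Q u * ι Q f) * (ι Q w * ι Q e) * (ι Q u * ι Q f) = -(ι Q u * ι Q f) ∧
    (ι Q w * ι Q e) * (ι Q u * ι Q f) * (ι Q w * ι Q e) = -(ι Q w * ι Q e) := ⟨rel_P h, rel_P h.flip⟩

theorem rel_sum {u w e f : V} (h : HP4 Q u w e f) :
    ((ι Q u * ι Q f) * (ι Q w * ι Q e) + (ι Q w * ι Q e) * (ι Q u * ι Q f)) +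
    ((ι Q u * ι Q e) * (ι Q w * ι Q f) + (ι Q w * ι Q f) * (ι Q u * ι Q e)) = -1 := by
  have h1 : ι Q f * ι Q w = -(ι Q w * ι Q f) := anti (by rw [polar_symm]; exact h.wf)
  have h2 : ι Q e * ι Q u = -(ι Q u * ι Q e) := anti (by rw [polar_symm]; exact h.ue)
  have h3 : ι Q f * ι Q u = -(ι Q u * ι Q f) := anti (by rw [polar_symm]; exact h.uf)
  have h4 : ι Q e * ι Q w = -(ι Q w * ι Q e) := anti (by rw [polar_symm]; exact h.we)
  have e1 : (ι Q u * ι Q f) * (ι Q w * ι Q e) = -(ι Q u * ι Q w * (ι Q f * ι Q e)) := by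
    rw [show (ι Q u * ι Q f) * (ι Q w * ι Q e) = ι Q u * (ι Q f * ι Q w) * ι Q e by simp only [mul_assoc], h1]
    simp only [mul_assoc, mul_neg, neg_mul, neg_neg]
  have e2 : (ι Q w * ι Q e) * (ι Q u * ι Q f) = -(ι Q w * ι Q u * (ι Q e * ι Q f)) := by
    rw [show (ι Q w * ι Q e) * (ι Q u * ι Q f) = ι Q w * (ι Q e * ι Q u) * ι Q f by simp only [mul_assoc], h2]
    simp only [mul_assoc, mul_neg, neg_mul, neg_neg]
  have e3 : (ι Q u * ι Q e) * (ι Q w * ι Q f) = -(ι Q u * ι Q w * (ι Q e * ι Q f)) := by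
    rw [show (ι Q u * ι Q e) * (ι Q w * ι Q f) = ι Q u * (ι Q e * ι Q w) * ι Q f by simp only [mul_assoc], h4]
    simp only [mul_assoc, mul_neg, neg_mul, neg_neg]
  have e4 : (ι Q w * ι Q f) * (ι Q u * ι Q e) = -(ι Q w * ι Q u * (ι Q f * ι Q e)) := by
    rw [show (ι Q w * ι Q f) * (ι Q u * ι Q e) = ι Q w * (ι Q f * ι Q u) * ι Q e by simp only [mul_assoc], h3]
    simp only [mul_assoc, mul_neg, neg_mul, neg_neg]
  rw [e1, e2, e3, e4]
  calc _ = -(ι Q u * ι Q w * (ι Q e * ι Q f + ι Q f * ι Q e) + ι Q w * ι Q u * (ι Q e * ι Q f + ι Q f * ι Q e)) := by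
        simp only [mul_add]; abel
    _ = -1 := by rw [hp_rel h.h2, mul_one, mul_one, hp_rel h.h1]

section S
variable {Ω : Subgroup (V ≃ₗ[F] V)} (S : Su Q Ω)
include S

theorem gn_mem (hT : HT Q) {u v : V} (hu : Q u = 0) (hv : Q v = 0) (huv : polar Q u v = 0) :
    gn S u v hu huv ∈ commutator (Gam Q Ω) := by
  haveI := S.fd
  obtain ⟨e, f, hp, ue, uf, ve, vf⟩ := exists_hp2 S.nd hT hu hv huv
  rw [gn_comm S hu hv huv hp ue uf ve vf]
  exact Subgroup.commutator_mem_commutator (Subgroup.mem_top _) (Subgroup.mem_top _)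

theorem exists_neg_one (hT : HT Q) (h2 : (2 : F) ≠ 0) {u w e f : V} (h : HP4 Q u w e f) :
    ∃ z ∈ commutator (Gam Q Ω), pr Q Ω z = 1 ∧ z ≠ 1 := by
  haveI : Invertible (2 : F) := invertibleOfNonzero h2
  have n1 : gn S u f h.h1.qu h.uf * gn S w e h.h1.qw h.we * gn S u f h.h1.qu h.uf ∈ commutator (Gam Q Ω) :=
    Subgroup.mul_mem _ (Subgroup.mul_mem _ (gn_mem S hT _ h.h2.qw _) (gn_mem S hT _ h.h2.qu _)) (gn_mem S hT _ h.h2.qw _)
  have n2 : gn S u e h.h1.qu h.ue * gn S w f h.h1.qw h.wf * gn S u e h.h1.qu h.ue ∈ commutator (Gam Q Ω) :=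
    Subgroup.mul_mem _ (Subgroup.mul_mem _ (gn_mem S hT _ h.h2.qu _) (gn_mem S hT _ h.h2.qw _)) (gn_mem S hT _ h.h2.qu _)
  set n := gn S u f h.h1.qu h.uf * gn S w e h.h1.qw h.we * gn S u f h.h1.qu h.uf with hn
  set n' := gn S u e h.h1.qu h.ue * gn S w f h.h1.qw h.wf * gn S u e h.h1.qu h.ue with hn'
  have hz : (((n * n * (n' * n') : Gam Q Ω).1.1 : (CliffordAlgebra Q)ˣ) : CliffordAlgebra Q) = -1 := by
    change ((1 - ι Q u * ι Q f) * (1 - ι Q w * ι Q e) * (1 - ι Q u * ι Q f)) *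
      ((1 - ι Q u * ι Q f) * (1 - ι Q w * ι Q e) * (1 - ι Q u * ι Q f)) *
      (((1 - ι Q u * ι Q e) * (1 - ι Q w * ι Q f) * (1 - ι Q u * ι Q e)) *
      ((1 - ι Q u * ι Q e) * (1 - ι Q w * ι Q f) * (1 - ι Q u * ι Q e))) = -1
    have a1 := alg_n (un_sq h.h1.qu h.uf) (un_sq h.h1.qw h.we) (rel_PR h).1 (rel_PR h).2
    have a2 := alg_n (un_sq h.h1.qu h.ue) (un_sq h.h1.qw h.wf) (rel_PR h.swap).1 (rel_PR h.swap).2
    rw [a1.1, a2.1]
    exact alg_z a1.2 (rel_sum h)
  refine ⟨n * n * (n' * n'), Subgroup.mul_mem _ (Subgroup.mul_mem _ n1 n1) (Subgroup.mul_mem _ n2 n2), ?_, ?_⟩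
  · apply om_ext
    intro x
    set z := n * n * (n' * n') with hzdef
    have h3 := z.2 x
    rw [hz] at h3
    have h4 : ι Q ((pr Q Ω z : V ≃ₗ[F] V) x - x) = 0 := by
      change (-1 : CliffordAlgebra Q) * ι Q x = ι Q ((pr Q Ω z : V ≃ₗ[F] V) x) * (-1) at h3
      rw [map_sub, sub_eq_zero]
      rw [neg_one_mul, mul_neg_one, neg_inj] at h3
      exact h3.symm
    have h5 : (pr Q Ω z : V ≃ₗ[F] V) x - x = 0 := by
      apply S.nd
      intro y
      have h6 := ι_mul_ι_add_swap (Q := Q) ((pr Q Ω z : V ≃ₗ[F] V) x - x) y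
      rw [h4, zero_mul, mul_zero, add_zero] at h6
      exact (algebraMap F (CliffordAlgebra Q)).injective (by rw [← h6, map_zero])
    change (pr Q Ω z : V ≃ₗ[F] V) x = x
    exact sub_eq_zero.mp h5
  · intro h3
    rw [h3] at hz
    have h4 : (1 : CliffordAlgebra Q) = -1 := hz
    have h5 : algebraMap F (CliffordAlgebra Q) 2 = 0 := by
      rw [map_ofNat, ← one_add_one_eq_two]
      nth_rewrite 1 [h4]
      simp
    exact h2 ((algebraMap F (CliffordAlgebra Q)).injective (by rw [h5, map_zero]))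

end S

/-! ### the cover -/

theorem cover_of.{u} {Γ G : Type u} [Group Γ] [Group G] [Finite G] (p : Γ →* G) (hs : Function.Surjective p)
    (hc : p.ker ≤ Subgroup.center Γ) (hG : Group.IsPerfect G) {z : Γ} (hz : z ∈ commutator Γ) (hz1 : p z = 1) (hz2 : z ≠ 1) :
    ∃ (E : Type u) (_ : Group E) (_ : Finite E) (π : E →* G), CE π ∧ commutator E = ⊤ ∧ ∃ z ∈ π.ker, z ≠ 1 := by
  have hP := H69.SchurPerfect.perfect_commutator hG p hs hc
  haveI := H69.SchurUniv.finite_commutator p hc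
  refine ⟨↥(commutator Γ), inferInstance, inferInstance, p.comp (Subgroup.subtype _), ⟨?_, ?_⟩, hP.commutator_eq_top,
    ⟨z, hz⟩, hz1, ?_⟩
  · intro g
    obtain ⟨a, ha, ha'⟩ := H69.SchurPerfect.exists_mem_commutator hG p hs g
    exact ⟨⟨a, ha⟩, ha'⟩
  · intro a ha
    rw [Subgroup.mem_center_iff]
    intro b
    apply Subtype.ext
    exact Subgroup.mem_center_iff.mp (hc (show (a : Γ) ∈ p.ker from ha)) _
  · intro h
    exact hz2 (congrArg Subtype.val h)

theorem exists_cover.{u} {F : Type u} [Field F] [Finite F] {X : Type u} [AddCommGroup X] [Module F X] [FiniteDimensional F X]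
    {q₀ : QuadraticForm F X} (hq : ND q₀) (hd : 1 ≤ Module.finrank F X) (h2 : (2 : F) ≠ 0) :
    ∃ (E : Type u) (_ : Group E) (_ : Finite E) (π : E →* Om (hyp (hyp q₀))), CE π ∧ commutator E = ⊤ ∧ ∃ z ∈ π.ker, z ≠ 1 := by
  let S : Su (H3 q₀) (Om (hyp (hyp q₀))) := su hq.hyp.hyp (by rw [hfr, hfr]; omega)
  haveI : Nontrivial X := Module.finrank_pos_iff.mp (by omega : 0 < Module.finrank F X)
  haveI : Finite (Om (hyp (hyp q₀))) := by
    haveI : Finite X := Module.finite_of_finite F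
    haveI : Finite ((F × F × (F × F × (F × F × X))) ≃ₗ[F] (F × F × (F × F × (F × F × X)))) :=
      Finite.of_injective (fun e => (e : _ → _)) DFunLike.coe_injective
    infer_instance
  have hT := ht_three q₀
  -- surjectivity
  have hsurj : Function.Surjective (pr (H3 q₀) (Om (hyp (hyp q₀)))) := by
    have h1 : Om (hyp (hyp q₀)) ≤ (pr (H3 q₀) (Om (hyp (hyp q₀)))).range.map (Om (hyp (hyp q₀))).subtype := by
      conv_lhs => rw [Om]
      rw [Subgroup.closure_le]
      rintro g (⟨x, rfl⟩ | ⟨x, rfl⟩)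
      · refine ⟨_, ⟨gn S (e1 F _) ((topEmb _).j x) (topEmb _).hp.qu ((topEmb _).pu x), rfl⟩, ?_⟩
        rw [pr_gn]
        apply LinearEquiv.ext
        intro v
        change ((sg S (e1 F _) ((topEmb (hyp (hyp q₀))).j x) : Om (hyp (hyp q₀))) :
          (F × F × (F × F × (F × F × X))) ≃ₗ[F] (F × F × (F × F × (F × F × X)))) v = _
        rw [sg_apply S (topEmb _).hp.qu ((topEmb _).pu x)]
        exact sl_e1 x v
      · refine ⟨_, ⟨gn S (e2 F _) ((topEmb _).j x) (topEmb _).hp.qw ((topEmb _).pw x), rfl⟩, ?_⟩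
        rw [pr_gn]
        apply LinearEquiv.ext
        intro v
        change ((sg S (e2 F _) ((topEmb (hyp (hyp q₀))).j x) : Om (hyp (hyp q₀))) :
          (F × F × (F × F × (F × F × X))) ≃ₗ[F] (F × F × (F × F × (F × F × X)))) v = _
        rw [sg_apply S (topEmb _).hp.qw ((topEmb _).pw x)]
        exact sl_e2 x v
    intro g
    obtain ⟨g', ⟨y, hy⟩, h3⟩ := h1 g.2
    exact ⟨y, by rw [hy]; exact Subtype.ext h3⟩
  have hperf : Group.IsPerfect (Om (hyp (hyp q₀))) := by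
    rw [Subgroup.isPerfect_iff]
    exact le_antisymm (Subgroup.commutator_le_self _) (H7.Omega.perfect hq.hyp)
  have hc := ker_pr (H3 q₀) (Om (hyp (hyp q₀)))
  have h4 : HP4 (H3 q₀) (e1 F _) (e2 F _) ((topEmb (hyp (hyp q₀))).j (1, 0, 0)) ((topEmb (hyp (hyp q₀))).j (0, 1, 0)) :=
    ⟨(topEmb _).hp, (topEmb _).inner.hp, (topEmb _).pu _, (topEmb _).pu _, (topEmb _).pw _, (topEmb _).pw _⟩
  obtain ⟨z, hz, hz1, hz2⟩ := exists_neg_one S hT h2 h4
  exact cover_of _ hsurj hc hperf hz hz1 hz2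

end H40.Sieg.Cl
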