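import Mathlib
import Cfsg.Agent.Lib.H40.Sieg19
import Cfsg.Agent.Lib.H19.UCov

/-!
Assembly of the Schur multipliers.
-/
set_option autoImplicit false
set_option linter.unusedSimpArgs false
set_option linter.unusedSectionVars false
set_option linter.unusedVariables false
set_option linter.style.haveILetI false

namespace H40.Sieg

open H7.Hyp H7.Omega QuadraticMap H17.OrthSiegel H50.OrthE H40.Ext H50.OrthModel H7.HypStd H7.HypOrd H7.MinusOrd
open H48.QuadStd H7.AnisoPlane H50.OrthMat Cfsg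

universe u

/-! ### group theory -/

section grp
variable {E G : Type u} [Group E] [Group G]

theorem perf_stem {Δ : Type u} [Group Δ] {ρ : Δ →* E} (hρ : IsStemExtension ρ) (hE : commutator E = ⊤) : commutator Δ = ⊤ := by
  rw [eq_top_iff]
  intro x _
  obtain ⟨a, ha, h1⟩ := H69.SchurPerfect.exists_mem_commutator ((Group.isPerfect_def).mpr hE) ρ hρ.1 (ρ x)
  have h2 : x * a⁻¹ ∈ ρ.ker := by rw [MonoidHom.mem_ker, map_mul, map_inv, h1, mul_inv_cancel]
  have h3 : x = (x * a⁻¹) * a := by group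
  rw [h3]
  exact Subgroup.mul_mem _ (hρ.2.2 h2) ha

/-- the composite of central extensions -/
theorem ce_comp {Δ : Type u} [Group Δ] {ρ : Δ →* E} {π : E →* G} (h1 : Function.Surjective ρ) (h2 : ρ.ker ≤ Subgroup.center Δ)
    (hΔ : commutator Δ = ⊤) (hπ : CE π) : CE (π.comp ρ) := by
  refine ⟨hπ.surj.comp h1, ?_⟩
  intro x hx
  apply H69.SchurPerfect.mem_center_of_perfect (Group.isPerfect_def.mpr hΔ)
  intro g
  apply h2
  have h3 : ρ x ∈ π.ker := hx
  have h4 := Subgroup.mem_center_iff.mp (hπ.cen h3) (ρ g)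
  rw [MonoidHom.mem_ker, map_mul, map_mul, map_mul, map_inv, map_inv, ← h4, mul_inv_cancel_right, mul_inv_cancel]

/-- a maximal perfect central extension has no proper stem extensions -/
theorem stem_trivial (hB : ∀ {Δ : Type u} [Group Δ] {π : Δ →* G}, CE π → commutator Δ = ⊤ → ∃ ζ : Δ, ∀ g ∈ π.ker, g = 1 ∨ g = ζ)
    {π : E →* G} (hπ : CE π) (hE : commutator E = ⊤) {z : E} (hz : z ∈ π.ker) (hz1 : z ≠ 1) {Δ : Type u} [Group Δ]
    (ρ : Δ →* E) (hρ : IsStemExtension ρ) : ρ.ker = ⊥ := by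
  have hΔ := perf_stem hρ hE
  obtain ⟨ζ, hζ⟩ := hB (ce_comp hρ.1 hρ.2.1 hΔ hπ) hΔ
  obtain ⟨a, ha⟩ := hρ.1 z
  have h1 : a = ζ := by
    refine (hζ a ?_).resolve_left ?_
    · rw [MonoidHom.mem_ker, MonoidHom.comp_apply, ha]; exact hz
    · rintro rfl
      rw [map_one] at ha
      exact hz1 ha.symm
  rw [eq_bot_iff]
  intro k hk
  rw [Subgroup.mem_bot]
  refine (hζ k ?_).resolve_right ?_
  · rw [MonoidHom.mem_ker, MonoidHom.comp_apply, MonoidHom.mem_ker.mp hk, map_one]
  · intro h2
    rw [← h1] at h2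
    rw [h2, MonoidHom.mem_ker, ha] at hk
    exact hz1 hk

theorem card_two_of {K : Type*} [Group K] {z : K} (hz : z ≠ 1) (h : ∀ g : K, g = 1 ∨ g = z) : Nat.card K = 2 := by
  rw [Nat.card_eq_two_iff]
  refine ⟨1, z, hz.symm, ?_⟩
  rw [Set.eq_univ_iff_forall]
  intro g
  rcases h g with h | h <;> simp [h]

theorem sq_of {K : Type*} [Group K] {z : K} (hz : z ≠ 1) (h : z * z = 1 ∨ z * z = z) : z * z = 1 := by
  rcases h with h | h
  · exact h
  · exact absurd (mul_eq_left.mp h) hz

theorem cyc_four {K : Type*} [Group K] {z ε : K} (hz : z ≠ 1) (hzz : z * z = 1) (hε : ε * ε = z)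
    (h : ∀ g : K, g = 1 ∨ g = z ∨ g = ε ∨ g = ε * z) : Nonempty (K ≃* Multiplicative (ZMod 4)) := by
  have h4 : orderOf ε = 4 := by
    apply orderOf_eq_prime_pow (p := 2) (n := 1)
    · rw [pow_one, pow_two, hε]; exact hz
    · rw [show 2 ^ (1 + 1) = 2 * 2 from rfl, pow_mul, pow_two ε, hε, pow_two, hzz]
  have h5 : ∀ g : K, g ∈ Subgroup.zpowers ε := by
    intro g
    have he := Subgroup.mem_zpowers ε
    have hz' : z ∈ Subgroup.zpowers ε := by rw [← hε]; exact Subgroup.mul_mem _ he he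
    rcases h g with h | h | h | h
    · rw [h]; exact Subgroup.one_mem _
    · rw [h]; exact hz'
    · rw [h]; exact he
    · rw [h]; exact Subgroup.mul_mem _ he hz'
  haveI : IsCyclic K := ⟨⟨ε, h5⟩⟩
  have h6 : Nat.card K = 4 := by rw [← h4, orderOf_eq_card_of_forall_mem_zpowers h5]
  have e := (zmodCyclicMulEquiv (G := K) inferInstance).symm
  rw [h6] at e
  exact ⟨e⟩

theorem klein {K : Type*} [Group K] {z ε : K} (hz : z ≠ 1) (hzz : z * z = 1) (hε : ε * ε = 1) (h1 : ε ≠ 1) (h2 : ε ≠ z)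
    (hc : ε * z = z * ε) (h : ∀ g : K, g = 1 ∨ g = z ∨ g = ε ∨ g = ε * z) :
    Nonempty (K ≃* Multiplicative (ZMod 2 × ZMod 2)) := by
  have hsq : ∀ g : K, g * g = 1 := by
    intro g
    rcases h g with h | h | h | h
    · rw [h, one_mul]
    · rw [h, hzz]
    · rw [h, hε]
    · rw [h, mul_assoc, ← mul_assoc z ε z, ← hc, mul_assoc ε z z, hzz, mul_one, hε]
  have hcard : Nat.card K = 4 := by
    let f : Bool × Bool → K := fun p => (if p.1 then ε else 1) * (if p.2 then z else 1)
    have hf : Function.Bijective f := by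
      constructor
      · have e1 : ε * z ≠ 1 := fun e => h2 (by rw [← mul_left_inj z, e, hzz])
        have e2 : ε * z ≠ ε := fun e => hz (mul_eq_left.mp e)
        have e3 : ε * z ≠ z := fun e => h1 (mul_eq_right.mp e)
        rintro ⟨a, b⟩ ⟨c, d⟩ hab
        cases a <;> cases b <;> cases c <;> cases d <;> simp [f] at hab ⊢ <;>
          first | exact hz hab | exact hz hab.symm | exact h1 hab | exact h1 hab.symm | exact h2 hab | exact h2 hab.symm |
            exact e1 hab | exact e1 hab.symm | exact e2 hab | exact e2 hab.symm | exact e3 hab | exact e3 hab.symm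
      · intro g
        rcases h g with h | h | h | h
        · exact ⟨(false, false), by simp [f, h]⟩
        · exact ⟨(false, true), by simp [f, h]⟩
        · exact ⟨(true, false), by simp [f, h]⟩
        · exact ⟨(true, true), by simp [f, h]⟩
    rw [← Nat.card_eq_of_bijective f hf]; simp
  haveI : Nontrivial K := ⟨z, 1, hz⟩
  haveI : IsKleinFour K := ⟨hcard, by
    rw [Monoid.exponent_eq_prime_iff Nat.prime_two]
    intro g hg
    exact orderOf_eq_prime (by rw [pow_two, hsq]) hg⟩
  exact IsKleinFour.nonempty_mulEquiv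

end grp

end H40.Sieg
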