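import Mathlib
import Cfsg.Agent.Lib.H40.Sieg20

/-!
Assembly of the Schur multipliers, continued.
-/
set_option autoImplicit false
set_option linter.unusedSimpArgs false
set_option linter.unusedSectionVars false
set_option linter.unusedVariables false
set_option linter.style.haveILetI false

namespace H40.Sieg

open H7.Hyp H7.Omega QuadraticMap H17.OrthSiegel H50.OrthE H40.Ext H50.OrthModel H7.HypStd H7.HypOrd H7.MinusOrd
open H48.QuadStd H7.AnisoPlane H50.OrthMat Cfsg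

universe u

variable {F : Type u} [Field F] [Fintype F] {X : Type u} [AddCommGroup X] [Module F X] [FiniteDimensional F X]
variable {ι : Type} [Fintype ι] [DecidableEq ι] {Q₀ : QuadraticForm F (ι → F)}
variable {q₀ : QuadraticForm F X}

/-- the space -/
abbrev V3 (F X : Type u) : Type u := F × F × (F × F × (F × F × X))

/-- `-1` is in `Om` -/
def HasNeg (q₀ : QuadraticForm F X) : Prop := ∃ g : Om (hyp (hyp q₀)), ∀ v, (g : V3 F X ≃ₗ[F] V3 F X) v = -v

theorem cen_iff (hq : ND q₀) (hd : 1 ≤ Module.finrank F X) (g : Om (hyp (hyp q₀))) : g ∈ Subgroup.center (Om (hyp (hyp q₀))) ↔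
    (∀ v, (g : V3 F X ≃ₗ[F] V3 F X) v = v) ∨ (∀ v, (g : V3 F X ≃ₗ[F] V3 F X) v = -v) := by
  have S : Su (H3 q₀) (Om (hyp (hyp q₀))) := su hq.hyp.hyp (by rw [hfr, hfr]; omega)
  rw [S.cen g]
  constructor
  · rintro ⟨x, hx, h⟩
    rcases mul_self_eq_one_iff.mp hx with rfl | rfl
    · left; intro v; rw [h, one_smul]
    · right; intro v; rw [h, neg_one_smul]
  · rintro (h | h)
    · exact ⟨1, one_mul _, fun v => by rw [h, one_smul]⟩
    · exact ⟨-1, by ring, fun v => by rw [h, neg_one_smul]⟩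

/-- the projection to the matrix group -/
theorem exists_quo (hq : ND q₀) (hd : 1 ≤ Module.finrank F X) (L : Q₀.IsometryEquiv (H3 q₀)) :
    ∃ θ : Om (hyp (hyp q₀)) →* Cfsg.POmega F Q₀, Function.Surjective θ ∧ θ.ker = Subgroup.center (Om (hyp (hyp q₀))) := by
  have h := H7.OmegaIso.commutator_eq_two hq.hyp
  refine ⟨((pomL L h).symm.toMonoidHom).comp (QuotientGroup.mk' _), ?_, ?_⟩
  · exact (pomL L h).symm.surjective.comp (QuotientGroup.mk'_surjective _)
  · rw [MonoidHom.ker_comp_of_injective]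
    · exact QuotientGroup.ker_mk' _
    · exact (pomL L h).symm.injective

theorem finite_om : Finite (Om (hyp (hyp q₀))) := by
  haveI : Finite X := Module.finite_of_finite F
  haveI : Finite (V3 F X ≃ₗ[F] V3 F X) := Finite.of_injective (fun e => (e : _ → _)) DFunLike.coe_injective
  infer_instance

theorem perf_om (hq : ND q₀) (hd : 1 ≤ Module.finrank F X) : commutator (Om (hyp (hyp q₀))) = ⊤ := by
  haveI : Nontrivial X := Module.finrank_pos_iff.mp (by omega : 0 < Module.finrank F X)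
  have hperf : Group.IsPerfect (Om (hyp (hyp q₀))) := by
    rw [Subgroup.isPerfect_iff]
    exact le_antisymm (Subgroup.commutator_le_self _) (H7.Omega.perfect hq.hyp)
  exact hperf.commutator_eq_top

/-- characteristic two -/
theorem mult_even (hq : ND q₀) (hd : 1 ≤ Module.finrank F X) (L : Q₀.IsometryEquiv (H3 q₀)) (hB : Bd q₀) (h2 : (2 : F) = 0)
    {A : Type*} [CommGroup A] [Subsingleton A] : HasSchurMultiplier (Cfsg.POmega F Q₀) A := by
  haveI := finite_om (q₀ := q₀)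
  obtain ⟨θ, hθ, hk⟩ := exists_quo hq hd L
  have hp := perf_om hq hd
  have hc : Subgroup.center (Om (hyp (hyp q₀))) = ⊥ := by
    rw [eq_bot_iff]
    intro g hg
    rw [Subgroup.mem_bot]
    rcases (cen_iff hq hd g).mp hg with h | h
    · exact om_ext h
    · apply om_ext
      intro v
      change (g : V3 F X ≃ₗ[F] V3 F X) v = v
      rw [h]
      have : (2 : F) • v = 0 := by rw [h2, zero_smul]
      rw [two_smul] at this
      exact neg_eq_of_add_eq_zero_left this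
  have hstem : IsStemExtension θ := ⟨hθ, by rw [hk], by rw [hp]; exact le_top⟩
  have hS : ∀ (Δ : Type u) [Group Δ] [Finite Δ] (ρ : Δ →* Om (hyp (hyp q₀))), IsStemExtension ρ → ρ.ker = ⊥ := by
    intro Δ _ _ ρ hρ
    obtain ⟨ζ, h1, h2'⟩ := hB (π := ρ) ⟨hρ.1, hρ.2.1⟩ (perf_stem hρ hp)
    rw [eq_bot_iff]
    intro g hg
    rw [Subgroup.mem_bot]
    rcases h1 g hg with h | h
    · exact h
    · rw [h, h2' h2]
  have hker : θ.ker = ⊥ := by rw [hk, hc]
  have e : θ.ker ≃* A := by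
    haveI : Subsingleton θ.ker := by rw [hker]; infer_instance
    haveI : Unique θ.ker := ⟨⟨1⟩, fun _ => Subsingleton.elim _ _⟩
    haveI : Unique A := ⟨⟨1⟩, fun _ => Subsingleton.elim _ _⟩
    exact MulEquiv.ofUnique
  exact H19.UCov.hasSchurMultiplier_of_simply_connected hstem hp hS e

/-- odd characteristic: reduction to the kernel of the cover -/
theorem mult_odd (hq : ND q₀) (hd : 1 ≤ Module.finrank F X) (L : Q₀.IsometryEquiv (H3 q₀)) (hB : Bd q₀) (h2 : (2 : F) ≠ 0)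
    {A : Type*} [CommGroup A]
    (hA : ∀ {E : Type u} [Group E] (π : E →* Om (hyp (hyp q₀))) (K : Subgroup E), CE π → commutator E = ⊤ → ∀ z ∈ π.ker, z ≠ 1 →
      (∀ g ∈ π.ker, g = 1 ∨ g = z) → (∀ g, g ∈ K ↔ π g ∈ Subgroup.center (Om (hyp (hyp q₀)))) → Nonempty (K ≃* A)) :
    HasSchurMultiplier (Cfsg.POmega F Q₀) A := by
  obtain ⟨E, _, _, π, hπ, hE, z, hz, hz1⟩ := Cl.exists_cover hq hd h2
  obtain ⟨θ, hθ, hk⟩ := exists_quo hq hd L
  have hce : CE (θ.comp π) := ce_comp hπ.surj hπ.cen hE ⟨hθ, by rw [hk]⟩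
  have hstem : IsStemExtension (θ.comp π) := ⟨hce.surj, hce.cen, by rw [hE]; exact le_top⟩
  have hS : ∀ (Δ : Type u) [Group Δ] [Finite Δ] (ρ : Δ →* E), IsStemExtension ρ → ρ.ker = ⊥ := by
    intro Δ _ _ ρ hρ
    refine stem_trivial ?_ hπ hE hz hz1 ρ hρ
    intro Δ _ σ h3 h4
    obtain ⟨ζ, h5, -⟩ := hB h3 h4
    exact ⟨ζ, h5⟩
  obtain ⟨e⟩ := hA π (θ.comp π).ker hπ hE z hz hz1 (by
    intro g hg
    obtain ⟨ζ, h5, -⟩ := hB hπ hE
    rcases h5 g hg with h | h
    · left; exact h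
    · right; rw [h, ← (h5 z hz).resolve_left hz1]) (by
    intro g
    rw [MonoidHom.mem_ker, MonoidHom.comp_apply, ← MonoidHom.mem_ker, hk])
  exact H19.UCov.hasSchurMultiplier_of_simply_connected hstem hE hS e

theorem neg_ne_one (h2 : (2 : F) ≠ 0) {g : Om (hyp (hyp q₀))} (h : ∀ v, (g : V3 F X ≃ₗ[F] V3 F X) v = -v) : g ≠ 1 := by
  rintro rfl
  have h1 := h (1, 0, 0)
  change ((1, 0, 0) : V3 F X) = -(1, 0, 0) at h1
  have h3 : (1 : F) = -1 := congrArg Prod.fst h1
  apply h2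
  rw [← one_add_one_eq_two]
  nth_rewrite 1 [h3]
  simp

theorem mult_two (hq : ND q₀) (hd : 1 ≤ Module.finrank F X) (L : Q₀.IsometryEquiv (H3 q₀)) (hB : Bd q₀) (h2 : (2 : F) ≠ 0)
    (hn : ¬ HasNeg q₀) : HasCyclicSchurMultiplier (Cfsg.POmega F Q₀) 2 := by
  apply mult_odd hq hd L hB h2
  intro E _ π K hπ hE z hz hz1 hall hK
  have hKk : ∀ g ∈ K, g ∈ π.ker := by
    intro g hg
    rcases (cen_iff hq hd _).mp ((hK g).mp hg) with h | h
    · exact om_ext h
    · exact absurd ⟨_, h⟩ hn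
  have hzK : z ∈ K := by
    rw [hK, MonoidHom.mem_ker.mp hz]; exact Subgroup.one_mem _
  have hcard : Nat.card K = 2 := by
    apply card_two_of (z := (⟨z, hzK⟩ : K)) (fun h => hz1 (congrArg Subtype.val h))
    rintro ⟨g, hg⟩
    rcases hall g (hKk g hg) with h | h
    · left; exact Subtype.ext h
    · right; exact Subtype.ext h
  haveI : Fact (Nat.Prime 2) := ⟨Nat.prime_two⟩
  exact ⟨mulEquivOfPrimeCardEq (p := 2) hcard (by simp)⟩

theorem mult_neg (hq : ND q₀) (hd : 1 ≤ Module.finrank F X) (L : Q₀.IsometryEquiv (H3 q₀)) (hB : Bd q₀) (h2 : (2 : F) ≠ 0)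
    {b : Bool} (hN : Ng q₀ b) {A : Type*} [CommGroup A]
    (hA : ∀ (K : Type u) [Group K] (z ε : K), z ≠ 1 → z * z = 1 → ε * ε = (if b then z else 1) → ε ≠ 1 → ε ≠ z → ε * z = z * ε →
      (∀ g : K, g = 1 ∨ g = z ∨ g = ε ∨ g = ε * z) → Nonempty (K ≃* A)) :
    HasSchurMultiplier (Cfsg.POmega F Q₀) A := by
  apply mult_odd hq hd L hB h2
  intro E _ π K hπ hE z hz hz1 hall hK
  obtain ⟨ε, hε, hε1⟩ := hN hπ hE z hz hz1
  have hzK : z ∈ K := by
    rw [hK, MonoidHom.mem_ker.mp hz]; exact Subgroup.one_mem _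
  have hεK : ε ∈ K := by
    rw [hK, cen_iff hq hd]; right; exact hε1
  have hzz : z * z = 1 := sq_of hz1 (hall _ (Subgroup.mul_mem _ hz hz))
  have hne : π ε ≠ 1 := neg_ne_one h2 hε1
  refine hA K ⟨z, hzK⟩ ⟨ε, hεK⟩ (fun h => hz1 (congrArg Subtype.val h)) (Subtype.ext hzz) ?_ ?_ ?_ ?_ ?_
  · apply Subtype.ext
    change ε * ε = _
    rw [hε]
    cases b <;> rfl
  · intro h
    apply hne
    rw [show ε = 1 from congrArg Subtype.val h, map_one]
  · intro h
    apply hne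
    rw [show ε = z from congrArg Subtype.val h]
    exact hz
  · apply Subtype.ext
    exact Subgroup.mem_center_iff.mp (hπ.cen hz) ε
  · rintro ⟨g, hg⟩
    rcases (cen_iff hq hd _).mp ((hK g).mp hg) with h | h
    · have h1 : g ∈ π.ker := om_ext h
      rcases hall g h1 with h | h
      · left; exact Subtype.ext h
      · right; left; exact Subtype.ext h
    · have h1 : ε⁻¹ * g ∈ π.ker := by
        rw [MonoidHom.mem_ker, map_mul, map_inv, inv_mul_eq_one]
        apply om_ext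
        intro v
        rw [h]; exact hε1 v
      rcases hall _ h1 with h | h
      · right; right; left
        apply Subtype.ext
        exact (inv_mul_eq_one.mp h).symm
      · right; right; right
        apply Subtype.ext
        change g = ε * z
        rw [← h, mul_inv_cancel_left]

theorem mult_four (hq : ND q₀) (hd : 1 ≤ Module.finrank F X) (L : Q₀.IsometryEquiv (H3 q₀)) (hB : Bd q₀) (h2 : (2 : F) ≠ 0)
    (hN : Ng q₀ true) : HasCyclicSchurMultiplier (Cfsg.POmega F Q₀) 4 := by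
  apply mult_neg hq hd L hB h2 hN
  intro K _ z ε hz hzz hε _ _ _ h
  exact cyc_four hz hzz hε h

theorem mult_klein (hq : ND q₀) (hd : 1 ≤ Module.finrank F X) (L : Q₀.IsometryEquiv (H3 q₀)) (hB : Bd q₀) (h2 : (2 : F) ≠ 0)
    (hN : Ng q₀ false) : HasSchurMultiplier (Cfsg.POmega F Q₀) (Multiplicative (ZMod 2 × ZMod 2)) := by
  apply mult_neg hq hd L hB h2 hN
  intro K _ z ε hz hzz hε h1 h2 hc h
  exact klein hz hzz hε h1 h2 hc h

/-- transfer of `-1` -/
theorem neg_transfer (hq : ND q₀) (hd : 1 ≤ Module.finrank F X) (L : Q₀.IsometryEquiv (H3 q₀)) (h : HasNeg q₀) :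
    ∃ g : ↥(Cfsg.isometryGroup F Q₀), g ∈ Cfsg.Omega F Q₀ ∧ ((g : Matrix.GeneralLinearGroup ι F) : Matrix ι ι F) = -1 := by
  obtain ⟨g, hg⟩ := h
  have hc := H7.OmegaIso.commutator_eq_two hq.hyp
  set g' := (omL L hc).symm g with hg'
  refine ⟨g'.1, g'.2, ?_⟩
  have h1 : ∀ v, Matrix.mulVec ((((g' : Cfsg.Omega F Q₀) : Cfsg.isometryGroup F Q₀) : GL ι F) : Matrix ι ι F) v = -v := by
    intro v
    apply L.toLinearEquiv.injective
    change L (Matrix.mulVec ((((g' : Cfsg.Omega F Q₀) : Cfsg.isometryGroup F Q₀) : GL ι F) : Matrix ι ι F) v) = L (-v)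
    rw [← omL_apply L hc, hg', MulEquiv.apply_symm_apply]
    change (g : V3 F X ≃ₗ[F] V3 F X) (L v) = L (-v)
    rw [hg]
    exact (map_neg L.toLinearEquiv v).symm
  ext i j
  have := congrFun (h1 (Pi.single j 1)) i
  simp only [Matrix.mulVec_single_one, Matrix.col_apply, Pi.neg_apply] at this
  rw [this, Matrix.neg_apply, Matrix.one_apply, Pi.single_apply]

/-- `-1` is not in `Om` in odd dimension -/
theorem not_neg_odd (hq : ND q₀) (hd : 1 ≤ Module.finrank F X) (h2 : (2 : F) ≠ 0) (hodd : Odd (Module.finrank F X)) : ¬ HasNeg q₀ := by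
  rintro ⟨g, hg⟩
  have h1 : (g : V3 F X ≃ₗ[F] V3 F X) ∈ ⁅O (hyp (hyp (hyp q₀))), O (hyp (hyp (hyp q₀)))⁆ := by
    rw [H7.OmegaIso.commutator_eq_two hq.hyp]; exact g.2
  have h3 : ⁅O (hyp (hyp (hyp q₀))), O (hyp (hyp (hyp q₀)))⁆ ≤ (LinearEquiv.det : (V3 F X ≃ₗ[F] V3 F X) →* Fˣ).ker := by
    rw [Subgroup.commutator_le]
    intro a _ b _
    rw [MonoidHom.mem_ker, map_commutatorElement, commutatorElement_eq_one_iff_mul_comm, mul_comm]
  have h4 := h3 h1
  rw [MonoidHom.mem_ker] at h4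
  have h5 : LinearMap.det ((g : V3 F X ≃ₗ[F] V3 F X) : V3 F X →ₗ[F] V3 F X) = 1 := by
    have := congrArg Units.val h4
    simpa using this
  have h6 : ((g : V3 F X ≃ₗ[F] V3 F X) : V3 F X →ₗ[F] V3 F X) = (-1 : F) • LinearMap.id := by
    apply LinearMap.ext
    intro v
    change (g : V3 F X ≃ₗ[F] V3 F X) v = (-1 : F) • v
    rw [hg, neg_one_smul]
  rw [h6, LinearMap.det_smul, LinearMap.det_id, mul_one, hfr, hfr, hfr] at h5
  have h7 : Odd (Module.finrank F X + 2 + 2 + 2) := by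
    rw [Nat.odd_iff] at hodd ⊢; omega
  rw [h7.neg_one_pow] at h5
  apply h2
  rw [← one_add_one_eq_two]
  nth_rewrite 1 [← h5]
  simp

end H40.Sieg
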