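import Mathlib
import Cfsg.Prelude.Def_KGroupFacts

/-!
# Central extensions of perfect groups, doubling with an automorphism of order two
-/

set_option autoImplicit false
set_option linter.all false

namespace H40.CE

open Subgroup
open scoped commutatorElement

section ce

variable {E Q : Type*} [Group E] [Group Q] (σ : E →* Q) (hs : Function.Surjective σ) (hc : σ.ker ≤ center E)
  (hQ : commutator Q = ⊤)

include hs hQ in
theorem exists_split (e : E) : ∃ e' ∈ commutator E, ∃ z ∈ σ.ker, e = e' * z := by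
  have h1 : (commutator E).map σ = commutator Q := by
    rw [_root_.commutator_def, _root_.commutator_def, Subgroup.map_commutator, ← MonoidHom.range_eq_map,
      MonoidHom.range_eq_top.mpr hs]
  have h2 : σ e ∈ (commutator E).map σ := by rw [h1, hQ]; trivial
  obtain ⟨e', he', h3⟩ := h2
  refine ⟨e', he', e'⁻¹ * e, ?_, by group⟩
  rw [MonoidHom.mem_ker, map_mul, map_inv, h3, inv_mul_cancel]

include hs hc hQ in
theorem comm_le : commutator E ≤ ⁅commutator E, commutator E⁆ := by
  conv_lhs => rw [_root_.commutator_def]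
  rw [commutator_le]
  intro x _ y _
  obtain ⟨a, ha, z, hz, rfl⟩ := exists_split σ hs hQ x
  obtain ⟨b, hb, w, hw, rfl⟩ := exists_split σ hs hQ y
  have hzc : ∀ k, k * z = z * k := fun k => mem_center_iff.mp (hc hz) k
  have hwc : ∀ k, k * w = w * k := fun k => mem_center_iff.mp (hc hw) k
  have : ⁅a * z, b * w⁆ = ⁅a, b⁆ := by
    rw [commutatorElement_def, commutatorElement_def]
    calc a * z * (b * w) * (a * z)⁻¹ * (b * w)⁻¹
        = a * (z * b) * w * z⁻¹ * a⁻¹ * w⁻¹ * b⁻¹ := by group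
      _ = a * (b * z) * w * z⁻¹ * a⁻¹ * w⁻¹ * b⁻¹ := by rw [hzc b]
      _ = a * b * (z * w) * z⁻¹ * a⁻¹ * w⁻¹ * b⁻¹ := by group
      _ = a * b * (w * z) * z⁻¹ * a⁻¹ * w⁻¹ * b⁻¹ := by rw [hwc z]
      _ = a * b * (w * a⁻¹) * w⁻¹ * b⁻¹ := by group
      _ = a * b * (a⁻¹ * w) * w⁻¹ * b⁻¹ := by rw [hwc a⁻¹]
      _ = a * b * a⁻¹ * b⁻¹ := by group
  rw [this]
  exact commutator_mem_commutator ha hb

include hs hc hQ in
theorem perfect : commutator (commutator E) = ⊤ := by
  apply Subgroup.map_injective (commutator E).subtype_injective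
  have h1 := Subgroup.map_subtype_commutator (commutator E)
  rw [h1, ← MonoidHom.range_eq_map, Subgroup.range_subtype]
  apply le_antisymm
  · exact Subgroup.commutator_le_self _
  · exact comm_le σ hs hc hQ

include hs hc hQ in
theorem stem : Cfsg.IsStemExtension (σ.comp (commutator E).subtype) := by
  refine ⟨?_, ?_, ?_⟩
  · intro q
    obtain ⟨e, rfl⟩ := hs q
    obtain ⟨e', he', z, hz, rfl⟩ := exists_split σ hs hQ e
    refine ⟨⟨e', he'⟩, ?_⟩
    change σ e' = σ (e' * z)
    rw [map_mul, MonoidHom.mem_ker.mp hz, mul_one]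
  · intro x hx
    have h1 : (x : E) ∈ σ.ker := hx
    rw [mem_center_iff]
    intro g
    exact Subtype.ext (mem_center_iff.mp (hc h1) g)
  · rw [perfect σ hs hc hQ]
    exact le_top

end ce

/-- a stem extension of a perfect group is perfect -/
theorem perfect_of_stem {E Q : Type*} [Group E] [Group Q] {σ : E →* Q} (h : Cfsg.IsStemExtension σ)
    (hQ : commutator Q = ⊤) : commutator E = ⊤ := by
  rw [eq_top_iff]
  intro e _
  obtain ⟨e', he', z, hz, rfl⟩ := exists_split σ h.1 hQ e
  exact mul_mem he' (h.2.2 hz)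

section dbl

variable {Γ Q : Type} [Group Γ] [Finite Γ] [Group Q] {σ : Γ →* Q} (hσ : Cfsg.IsStemExtension σ)
  (hQ : commutator Q = ⊤) (θ : MulAut Q) (hθ : ∀ q, θ (θ q) = q)

/-- pairs of lifts of `q` and `θ q` -/
def E0 (σ : Γ →* Q) (θ : MulAut Q) : Subgroup (Γ × Γ) where
  carrier := {p | σ p.2 = θ (σ p.1)}
  one_mem' := by simp
  mul_mem' := by
    intro a b ha hb
    change σ (a.2 * b.2) = θ (σ (a.1 * b.1))
    have ha : σ a.2 = θ (σ a.1) := ha
    have hb : σ b.2 = θ (σ b.1) := hb
    rw [map_mul, map_mul, map_mul, ha, hb]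
  inv_mem' := by
    intro a ha
    change σ (a.2)⁻¹ = θ (σ (a.1)⁻¹)
    have ha : σ a.2 = θ (σ a.1) := ha
    rw [map_inv, map_inv, map_inv, ha]

/-- the first projection -/
def p0 (σ : Γ →* Q) (θ : MulAut Q) : E0 σ θ →* Γ := (MonoidHom.fst Γ Γ).comp (E0 σ θ).subtype

include hσ in
theorem p0_surj : Function.Surjective (p0 σ θ) := by
  intro a
  obtain ⟨b, hb⟩ := hσ.1 (θ (σ a))
  exact ⟨⟨(a, b), hb⟩, rfl⟩

/-- the swap -/
def sw0 : MulAut (E0 σ θ) where
  toFun p := ⟨(p.1.2, p.1.1), by
    have h : σ p.1.2 = θ (σ p.1.1) := p.2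
    change σ p.1.1 = θ (σ p.1.2)
    rw [h, hθ]⟩
  invFun p := ⟨(p.1.2, p.1.1), by
    have h : σ p.1.2 = θ (σ p.1.1) := p.2
    change σ p.1.1 = θ (σ p.1.2)
    rw [h, hθ]⟩
  left_inv p := rfl
  right_inv p := rfl
  map_mul' p q := rfl

include hσ in
theorem s0_surj : Function.Surjective (σ.comp (p0 σ θ)) := hσ.1.comp (p0_surj hσ θ)

include hσ in
theorem s0_ker : (σ.comp (p0 σ θ)).ker ≤ center (E0 σ θ) := by
  intro x hx
  have h1 : σ x.1.1 = 1 := hx
  have h2 : σ x.1.2 = 1 := by
    have : σ x.1.2 = θ (σ x.1.1) := x.2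
    rw [this, h1, map_one]
  rw [mem_center_iff]
  intro g
  apply Subtype.ext
  exact Prod.ext (mem_center_iff.mp (hσ.2.1 h1) _) (mem_center_iff.mp (hσ.2.1 h2) _)

include hσ hQ hθ in
/-- the doubled stem extension carries a lift of the automorphism `θ` -/
theorem double : ∃ (E : Type) (_ : Group E) (_ : Finite E) (s : E →* Q) (τ : MulAut E),
    Cfsg.IsStemExtension s ∧ commutator E = ⊤ ∧ (∀ e, τ (τ e) = e) ∧ (∀ e, s (τ e) = θ (s e)) ∧
    Nat.card σ.ker ∣ Nat.card s.ker := by
  set X := E0 σ θ with hX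
  have h1 := s0_surj hσ θ
  have h2 := s0_ker hσ θ
  have hst := stem _ h1 h2 hQ
  have hpf := perfect _ h1 h2 hQ
  have hmem : ∀ x : X, x ∈ commutator X → sw0 θ hθ x ∈ commutator X := by
    intro x hx
    have h3 : (commutator X).map ((sw0 θ hθ : MulAut X) : X →* X) = commutator X := by
      rw [_root_.commutator_def, Subgroup.map_commutator, ← MonoidHom.range_eq_map,
        MonoidHom.range_eq_top.mpr (sw0 θ hθ : MulAut X).surjective]
    rw [← h3]
    exact ⟨x, hx, rfl⟩
  let τ : MulAut (commutator X) :=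
    { toFun := fun x => ⟨sw0 θ hθ x.1, hmem _ x.2⟩
      invFun := fun x => ⟨sw0 θ hθ x.1, hmem _ x.2⟩
      left_inv := fun x => rfl
      right_inv := fun x => rfl
      map_mul' := fun x y => rfl }
  let π : commutator X →* Γ := (p0 σ θ).comp (commutator X).subtype
  have hπ : Function.Surjective π := by
    rw [← MonoidHom.range_eq_top, MonoidHom.range_comp, Subgroup.range_subtype]
    have h3 : (commutator X).map (p0 σ θ) = commutator Γ := by
      rw [_root_.commutator_def, _root_.commutator_def, Subgroup.map_commutator, ← MonoidHom.range_eq_map,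
        MonoidHom.range_eq_top.mpr (p0_surj hσ θ)]
    rw [h3]
    exact perfect_of_stem hσ hQ
  refine ⟨commutator X, inferInstance, inferInstance, _, τ, hst, hpf, fun e => rfl, fun e => e.1.2, ?_⟩
  have h4 : σ.comp π = (σ.comp (p0 σ θ)).comp (commutator X).subtype := rfl
  have h5 : (((σ.comp (p0 σ θ)).comp (commutator X).subtype).ker).map π = σ.ker := by
    ext y
    constructor
    · rintro ⟨x, hx, rfl⟩
      exact hx
    · intro hy
      obtain ⟨x, rfl⟩ := hπ y
      exact ⟨x, hy, rfl⟩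
  have h6 : Function.Surjective (π.subgroupMap (((σ.comp (p0 σ θ)).comp (commutator X).subtype).ker)) :=
    π.subgroupMap_surjective _
  rw [← h5]
  exact Subgroup.card_dvd_of_surjective _ h6

end dbl

end H40.CE
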