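import Mathlib
import Cfsg.Agent.Lib.H35.NetKit

/-!
# Permutation networks with an inverting `Z/3`-valued cocycle
-/

set_option autoImplicit false

namespace H40.CocNet

open H35.TC H35.Net

/-- the value coded by two planes -/
def val (A B b : ℕ) : ZMod 3 := if A.testBit b then 1 else if B.testBit b then 2 else 0

/-- value of two bits -/
def bv (x y : Bool) : ZMod 3 := if x then 1 else if y then 2 else 0

theorem val_eq (A B b : ℕ) : val A B b = bv (A.testBit b) (B.testBit b) := rfl

/-- first plane of a sum -/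
def add1 (A B C D : ℕ) : ℕ :=
  Nat.lor (Nat.lor (Nat.xor A (Nat.land A (Nat.lor C D))) (Nat.xor C (Nat.land C (Nat.lor A B)))) (Nat.land B D)

/-- bitwise version -/
def b1 (a b c d : Bool) : Bool := ((a ^^ (a && (c || d))) || (c ^^ (c && (a || b)))) || (b && d)

theorem testBit_add1 (A B C D i : ℕ) :
    (add1 A B C D).testBit i = b1 (A.testBit i) (B.testBit i) (C.testBit i) (D.testBit i) := by
  change (((A ^^^ (A &&& (C ||| D))) ||| (C ^^^ (C &&& (A ||| B)))) ||| (B &&& D)).testBit i = _
  simp only [Nat.testBit_or, Nat.testBit_xor, Nat.testBit_and, b1, Bool.bne_eq_xor]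

theorem bits (a b c d : Bool) (h1 : (a && b) = false) (h2 : (c && d) = false) :
    (b1 a b c d && b1 b a d c) = false ∧ bv (b1 a b c d) (b1 b a d c) = bv a b + bv c d := by
  revert a b c d
  decide

theorem bv_swap (a b : Bool) (h : (a && b) = false) : bv b a = - bv a b := by
  revert a b
  decide

/-- planes are disjoint -/
def Dj (A B : ℕ) : Prop := ∀ b, (A.testBit b && B.testBit b) = false

theorem Dj.symm {A B : ℕ} (h : Dj A B) : Dj B A := fun b => by rw [Bool.and_comm]; exact h b

theorem dj_of {A B : ℕ} (h : Nat.beq (Nat.land A B) 0 = true) : Dj A B := by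
  intro b
  have h1 : A &&& B = 0 := eqOfBeq h
  have h2 := congrArg (fun x => x.testBit b) h1
  simp only [Nat.testBit_and, Nat.zero_testBit] at h2
  exact h2

theorem val_swap {A B : ℕ} (h : Dj A B) (b : ℕ) : val B A b = - val A B b := bv_swap _ _ (h b)

theorem add_ok {A B C D : ℕ} (h1 : Dj A B) (h2 : Dj C D) :
    Dj (add1 A B C D) (add1 B A D C) ∧ ∀ b, val (add1 A B C D) (add1 B A D C) b = val A B b + val C D b := by
  refine ⟨fun b => ?_, fun b => ?_⟩
  · rw [testBit_add1, testBit_add1]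
    exact (bits _ _ _ _ (h1 b) (h2 b)).1
  · rw [val_eq, testBit_add1, testBit_add1]
    exact (bits _ _ _ _ (h1 b) (h2 b)).2

variable {L : Type}

section sem

variable (π : L → Equiv.Perm ℕ) (e1 e2 : L → ℕ)

/-- the permutation of a letter -/
def F (x : L) : Equiv.Perm (ℕ × ZMod 3) where
  toFun p := (π x p.1, val (e1 x) (e2 x) p.1 - p.2)
  invFun p := ((π x).symm p.1, val (e1 x) (e2 x) ((π x).symm p.1) - p.2)
  left_inv p := by simp
  right_inv p := by simp

theorem F_apply (x : L) (b : ℕ) (s : ZMod 3) : F π e1 e2 x (b, s) = (π x b, val (e1 x) (e2 x) b - s) := rfl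

/-- sign of a word -/
def sg : List L → ZMod 3
  | [] => 1
  | _ :: w => - sg w

/-- the cocycle of a word -/
def E (w : List L) (b : ℕ) : ZMod 3 := ((w.map (F π e1 e2)).prod (b, 0)).2

theorem word_apply (w : List L) (b : ℕ) (s : ZMod 3) :
    (w.map (F π e1 e2)).prod (b, s) = ((w.map π).prod b, sg w * s + E π e1 e2 w b) := by
  induction w generalizing b s with
  | nil => simp [sg, E]
  | cons x w ih =>
    have h1 : ∀ s, (((x :: w).map (F π e1 e2)).prod (b, s)) = F π e1 e2 x (((w.map (F π e1 e2)).prod) (b, s)) := fun s => by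
      rw [List.map_cons, List.prod_cons, Equiv.Perm.mul_apply]
    have h2 : E π e1 e2 (x :: w) b = val (e1 x) (e2 x) ((w.map π).prod b) - E π e1 e2 w b := by
      rw [E, h1, ih, F_apply]
      simp
    rw [h1, ih, F_apply, h2, List.map_cons, List.prod_cons, Equiv.Perm.mul_apply, sg]
    congr 1
    ring

theorem sg_append (u v : List L) : sg (u ++ v) = sg u * sg v := by
  induction u with
  | nil => simp [sg]
  | cons x u ih => rw [List.cons_append, sg, sg, ih]; ring

theorem E_append (u v : List L) (b : ℕ) :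
    E π e1 e2 (u ++ v) b = sg u * E π e1 e2 v b + E π e1 e2 u ((v.map π).prod b) := by
  rw [E, List.map_append, List.prod_append, Equiv.Perm.mul_apply, word_apply π e1 e2 v, word_apply π e1 e2 u]
  simp

/-- a word with trivial permutation and trivial cocycle -/
theorem word_one {w : List L} (h1 : (w.map π).prod = 1) (h2 : sg w = 1) (h3 : ∀ b, E π e1 e2 w b = 0) :
    (w.map (F π e1 e2)).prod = 1 := by
  ext ⟨b, s⟩ : 1
  rw [word_apply, h1, h2, h3]
  simp

end sem

/-- evaluation of a word on a pair of planes, first letter first; `s` tells whether the sign is plus -/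
noncomputable def run (nl : L → List (ℕ × ℕ)) (e1 e2 : L → ℕ) (w : List L) : Bool → ℕ → ℕ → (ℕ → ℕ → Bool) → Bool :=
  List.rec (motive := fun _ => Bool → ℕ → ℕ → (ℕ → ℕ → Bool) → Bool) (fun _ A B k => k A B)
    (fun x _ ih s A B k => force (runNet (nl x) A) fun A1 => force (runNet (nl x) B) fun B1 =>
      Bool.rec (motive := fun _ => Bool)
        (force (add1 A1 B1 (e2 x) (e1 x)) fun A2 => force (add1 B1 A1 (e1 x) (e2 x)) fun B2 => ih true A2 B2 k)
        (force (add1 A1 B1 (e1 x) (e2 x)) fun A2 => force (add1 B1 A1 (e2 x) (e1 x)) fun B2 => ih false A2 B2 k) s) w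

/-- `(A, B)` represents the cocycle of the word `u` with sign `s` -/
structure Rep (π : L → Equiv.Perm ℕ) (e1 e2 : L → ℕ) (u : List L) (s : Bool) (A B : ℕ) : Prop where
  dj : Dj A B
  sgn : sg u = if s then 1 else -1
  ev : ∀ b, E π e1 e2 u b = val A B b

variable {nl : L → List (ℕ × ℕ)} {S : ℕ} {π : L → Equiv.Perm ℕ} {e1 e2 : L → ℕ}

theorem Rep.nil : Rep π e1 e2 [] true 0 0 :=
  ⟨fun b => by simp, by simp [sg], fun b => by simp [E, val]⟩

theorem Rep.step (hbp : ∀ x, BP S (runNet (nl x)) (π x)) (hd : ∀ x, Dj (e1 x) (e2 x)) {u : List L} {s : Bool} {A B : ℕ}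
    (h : Rep π e1 e2 u s A B) (x : L) :
    Rep π e1 e2 (u ++ [x]) (!s)
      (cond s (add1 (runNet (nl x) A) (runNet (nl x) B) (e1 x) (e2 x)) (add1 (runNet (nl x) A) (runNet (nl x) B) (e2 x) (e1 x)))
      (cond s (add1 (runNet (nl x) B) (runNet (nl x) A) (e2 x) (e1 x)) (add1 (runNet (nl x) B) (runNet (nl x) A) (e1 x) (e2 x))) := by
  have hv : ∀ b, val (runNet (nl x) A) (runNet (nl x) B) b = val A B (π x b) := by
    intro b
    rw [val_eq, val_eq, (hbp x).bit, (hbp x).bit]
  have hdj : Dj (runNet (nl x) A) (runNet (nl x) B) := by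
    intro b
    rw [(hbp x).bit, (hbp x).bit]
    exact h.dj _
  have hE : ∀ b, E π e1 e2 (u ++ [x]) b = sg u * val (e1 x) (e2 x) b + val A B (π x b) := by
    intro b
    have e3 : E π e1 e2 [x] b = val (e1 x) (e2 x) b := by simp [E, F_apply]
    rw [E_append, h.ev, e3]
    simp
  have hsg : sg (u ++ [x]) = - sg u := by rw [sg_append]; simp [sg]
  cases s
  · obtain ⟨h1, h2⟩ := add_ok hdj (hd x).symm
    refine ⟨h1, ?_, fun b => ?_⟩
    · rw [hsg, h.sgn]; simp
    · change _ = val (add1 (runNet (nl x) A) (runNet (nl x) B) (e2 x) (e1 x)) (add1 (runNet (nl x) B) (runNet (nl x) A) (e1 x) (e2 x)) b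
      rw [hE, h2, hv, val_swap (hd x), h.sgn]
      simp only [Bool.false_eq_true, if_false]
      ring
  · obtain ⟨h1, h2⟩ := add_ok hdj (hd x)
    refine ⟨h1, ?_, fun b => ?_⟩
    · rw [hsg, h.sgn]; simp
    · change _ = val (add1 (runNet (nl x) A) (runNet (nl x) B) (e1 x) (e2 x)) (add1 (runNet (nl x) B) (runNet (nl x) A) (e2 x) (e1 x)) b
      rw [hE, h2, hv, h.sgn]
      simp only [if_true]
      ring

theorem run_spec (hbp : ∀ x, BP S (runNet (nl x)) (π x)) (hd : ∀ x, Dj (e1 x) (e2 x)) {k : ℕ → ℕ → Bool} (w : List L) :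
    ∀ {u : List L} {s : Bool} {A B : ℕ}, Rep π e1 e2 u s A B → run nl e1 e2 w s A B k = true →
      ∃ s' A' B', Rep π e1 e2 (u ++ w) s' A' B' ∧ k A' B' = true := by
  induction w with
  | nil =>
    intro u s A B h hk
    exact ⟨s, A, B, by rw [List.append_nil]; exact h, hk⟩
  | cons x w ih =>
    intro u s A B h hk
    have hst := h.step hbp hd x
    cases s
    · have hk' : force (runNet (nl x) A) (fun A1 => force (runNet (nl x) B) fun B1 =>
          force (add1 A1 B1 (e2 x) (e1 x)) fun A2 => force (add1 B1 A1 (e1 x) (e2 x)) fun B2 =>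
            run nl e1 e2 w true A2 B2 k) = true := hk
      rw [force_eq, force_eq, force_eq, force_eq] at hk'
      obtain ⟨s', A', B', h1, h2⟩ := ih hst hk'
      exact ⟨s', A', B', by rw [List.append_assoc] at h1; exact h1, h2⟩
    · have hk' : force (runNet (nl x) A) (fun A1 => force (runNet (nl x) B) fun B1 =>
          force (add1 A1 B1 (e1 x) (e2 x)) fun A2 => force (add1 B1 A1 (e2 x) (e1 x)) fun B2 =>
            run nl e1 e2 w false A2 B2 k) = true := hk
      rw [force_eq, force_eq, force_eq, force_eq] at hk'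
      obtain ⟨s', A', B', h1, h2⟩ := ih hst hk'
      exact ⟨s', A', B', by rw [List.append_assoc] at h1; exact h1, h2⟩

/-- final check -/
noncomputable def fin (A0 B0 A B : ℕ) : Bool := band (Nat.beq A A0) (Nat.beq B B0)

/-- one segment from the planes `A B` to the planes `A' B'` -/
noncomputable def seg (nl : L → List (ℕ × ℕ)) (e1 e2 : L → ℕ) (w : List L) (s : Bool) (A B A' B' : ℕ) : Bool :=
  run nl e1 e2 w s A B (fin A' B')

theorem seg_spec (hbp : ∀ x, BP S (runNet (nl x)) (π x)) (hd : ∀ x, Dj (e1 x) (e2 x)) {u w : List L} {s s' : Bool}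
    {A B A' B' : ℕ} (h : Rep π e1 e2 u s A B) (hk : seg nl e1 e2 w s A B A' B' = true)
    (hs : sg (u ++ w) = if s' then 1 else -1) : Rep π e1 e2 (u ++ w) s' A' B' := by
  obtain ⟨t, X, Y, h1, h2⟩ := run_spec hbp hd w h hk
  obtain ⟨h3, h4⟩ := band_eq_true.1 h2
  have h3 := eqOfBeq h3
  have h4 := eqOfBeq h4
  subst h3 h4
  exact ⟨h1.dj, hs, h1.ev⟩

end H40.CocNet
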