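import Mathlib
import Cfsg.Prelude.Def_KGroupFacts

/-!
# Canonical lifts of a conjugacy class with perfect centraliser to a central extension
-/

set_option autoImplicit false

namespace H40.CL

open Subgroup
open scoped commutatorElement

universe u v

variable {Γ : Type v} [Group Γ] {G : Type u} [Group G] {σ : Γ →* G}

/-- kernel elements are central -/
theorem ker_comm (hc : σ.ker ≤ center Γ) {z : Γ} (hz : σ z = 1) (y : Γ) : y * z = z * y :=
  mem_center_iff.mp (hc hz) y

/-- two lifts of the same element differ by a kernel element -/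
theorem exists_ker {x y : Γ} (h : σ x = σ y) : ∃ z, σ z = 1 ∧ x = y * z :=
  ⟨y⁻¹ * x, by rw [map_mul, map_inv, h, inv_mul_cancel], by group⟩

/-- when the centraliser of `t` is perfect, everything which commutes with `t` modulo the kernel commutes with every
lift of `t` -/
theorem comm_of_perfect (hσ : Function.Surjective σ) (hc : σ.ker ≤ center Γ) {t : G}
    (hp : ⁅centralizer {t}, centralizer {t}⁆ = (centralizer {t} : Subgroup G)) {t' : Γ} (ht : σ t' = t)
    {c : Γ} (h : σ c * t = t * σ c) : c * t' = t' * c := by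
  set C : Subgroup G := centralizer {t} with hC
  have key : ∀ d : Γ, σ d ∈ C → ∃ a, σ a = 1 ∧ d * t' = t' * d * a := by
    intro d hd
    have h1 : σ (d * t') = σ (t' * d) := by
      rw [map_mul, map_mul, ht]
      exact (mem_centralizer_singleton_iff.mp hd)
    exact exists_ker h1
  have h1 : ⁅C.comap σ, C.comap σ⁆ ≤ centralizer {t'} := by
    rw [commutator_le]
    intro c hc' d hd
    obtain ⟨a, ha, hca⟩ := key c hc'
    obtain ⟨b, hb, hdb⟩ := key d hd
    rw [mem_centralizer_singleton_iff]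
    have ha' := ker_comm hc ha
    have hb' := ker_comm hc hb
    have e1 : c * d * t' = t' * (c * d) * (a * b) := by
      rw [mul_assoc, hdb]
      calc c * (t' * d * b) = c * t' * d * b := by group
        _ = t' * c * a * d * b := by rw [hca]
        _ = t' * c * (a * d) * b := by group
        _ = t' * c * (d * a) * b := by rw [ha' d]
        _ = _ := by group
    have e2 : d * c * t' = t' * (d * c) * (a * b) := by
      rw [mul_assoc, hca]
      calc d * (t' * c * a) = d * t' * c * a := by group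
        _ = t' * d * b * c * a := by rw [hdb]
        _ = t' * d * (b * c) * a := by group
        _ = t' * d * (c * b) * a := by rw [hb' c]
        _ = t' * (d * c) * (b * a) := by group
        _ = t' * (d * c) * (a * b) := by rw [ha' b]
    have e3 : (d * c)⁻¹ * t' = t' * (d * c)⁻¹ * (a * b)⁻¹ := by
      have hab : ∀ y, y * (a * b) = (a * b) * y := fun y => by
        calc y * (a * b) = (y * a) * b := by group
          _ = a * (y * b) := by rw [ha' y]; group
          _ = a * b * y := by rw [hb' y]; group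
      have e4 : t' = (d * c)⁻¹ * t' * (d * c) * (a * b) := by
        rw [show (d * c)⁻¹ * t' * (d * c) * (a * b) = (d * c)⁻¹ * (t' * (d * c) * (a * b)) by group, ← e2]
        group
      calc (d * c)⁻¹ * t' = ((d * c)⁻¹ * t' * (d * c) * (a * b)) * ((a * b)⁻¹ * (d * c)⁻¹) := by group
        _ = t' * ((a * b)⁻¹ * (d * c)⁻¹) := by rw [← e4]
        _ = t' * (d * c)⁻¹ * (a * b)⁻¹ := by
          have : (a * b)⁻¹ * (d * c)⁻¹ = (d * c)⁻¹ * (a * b)⁻¹ := by
            rw [← mul_inv_rev, ← mul_inv_rev, hab]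
          rw [this]; group
    rw [show ⁅c, d⁆ = (c * d) * (d * c)⁻¹ by rw [commutatorElement_def]; group]
    calc c * d * (d * c)⁻¹ * t' = c * d * ((d * c)⁻¹ * t') := by group
      _ = c * d * t' * ((d * c)⁻¹ * (a * b)⁻¹) := by rw [e3]; group
      _ = t' * (c * d) * (a * b) * ((d * c)⁻¹ * (a * b)⁻¹) := by rw [e1]
      _ = t' * (c * d * (d * c)⁻¹) := by
        have hab : ∀ y, y * (a * b) = (a * b) * y := fun y => by
          calc y * (a * b) = (y * a) * b := by group
            _ = a * (y * b) := by rw [ha' y]; group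
            _ = a * b * y := by rw [hb' y]; group
        have := hab ((d * c)⁻¹)
        calc t' * (c * d) * (a * b) * ((d * c)⁻¹ * (a * b)⁻¹)
            = t' * (c * d) * ((a * b) * (d * c)⁻¹) * (a * b)⁻¹ := by group
          _ = t' * (c * d) * ((d * c)⁻¹ * (a * b)) * (a * b)⁻¹ := by rw [← this]
          _ = _ := by group
  have hcC : σ c ∈ C := mem_centralizer_singleton_iff.mpr h
  have h2 : (⁅C.comap σ, C.comap σ⁆).map σ = C := by
    rw [map_commutator, map_comap_eq_self_of_surjective hσ]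
    exact hp
  have h3 : σ c ∈ (⁅C.comap σ, C.comap σ⁆).map σ := by rw [h2]; exact hcC
  obtain ⟨n, hn, hnc⟩ := h3
  obtain ⟨z, hz, hcz⟩ := exists_ker (σ := σ) (x := c) (y := n) hnc.symm
  have h4 := mem_centralizer_singleton_iff.mp (h1 hn)
  rw [hcz]
  calc n * z * t' = n * (z * t') := by group
    _ = n * (t' * z) := by rw [ker_comm hc hz t']
    _ = n * t' * z := by group
    _ = t' * n * z := by rw [h4]
    _ = _ := by group

/-- canonical lifts of the class of `t` -/
structure CLift (σ : Γ →* G) (t : G) (L : G → Γ) : Prop where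
  map : ∀ g : G, σ (L (g * t * g⁻¹)) = g * t * g⁻¹
  conj : ∀ (γ : Γ) (g : G), γ * L (g * t * g⁻¹) * γ⁻¹ = L (σ γ * (g * t * g⁻¹) * (σ γ)⁻¹)

theorem exists_clift (hσ : Function.Surjective σ) (hc : σ.ker ≤ center Γ) {t : G}
    (hp : ⁅centralizer {t}, centralizer {t}⁆ = (centralizer {t} : Subgroup G)) {t' : Γ} (ht : σ t' = t) :
    ∃ L : G → Γ, CLift σ t L ∧ L t = t' := by
  classical
  have hex : ∀ g : G, ∃ γ : Γ, σ γ = g := fun g => hσ g
  have huniq : ∀ γ δ : Γ, σ γ * t * (σ γ)⁻¹ = σ δ * t * (σ δ)⁻¹ → γ * t' * γ⁻¹ = δ * t' * δ⁻¹ := by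
    intro γ δ h
    have h1 : σ (δ⁻¹ * γ) * t = t * σ (δ⁻¹ * γ) := by
      rw [map_mul, map_inv]
      calc (σ δ)⁻¹ * σ γ * t = (σ δ)⁻¹ * (σ γ * t * (σ γ)⁻¹) * σ γ := by group
        _ = (σ δ)⁻¹ * (σ δ * t * (σ δ)⁻¹) * σ γ := by rw [h]
        _ = _ := by group
    have h2 := comm_of_perfect hσ hc hp ht h1
    calc γ * t' * γ⁻¹ = δ * ((δ⁻¹ * γ) * t') * γ⁻¹ := by group
      _ = δ * (t' * (δ⁻¹ * γ)) * γ⁻¹ := by rw [h2]
      _ = _ := by group
  let L : G → Γ := fun x => if h : ∃ γ : Γ, σ γ * t * (σ γ)⁻¹ = x then h.choose * t' * h.choose⁻¹ else 1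
  have hL : ∀ γ : Γ, L (σ γ * t * (σ γ)⁻¹) = γ * t' * γ⁻¹ := by
    intro γ
    have h : ∃ δ : Γ, σ δ * t * (σ δ)⁻¹ = σ γ * t * (σ γ)⁻¹ := ⟨γ, rfl⟩
    have : L (σ γ * t * (σ γ)⁻¹) = h.choose * t' * h.choose⁻¹ := dif_pos h
    rw [this]
    exact huniq _ _ h.choose_spec
  refine ⟨L, ⟨?_, ?_⟩, ?_⟩
  · intro g
    obtain ⟨γ, rfl⟩ := hex g
    rw [hL, map_mul, map_mul, map_inv, ht]
  · intro γ g
    obtain ⟨δ, rfl⟩ := hex g
    rw [hL, show σ γ * (σ δ * t * (σ δ)⁻¹) * (σ γ)⁻¹ = σ (γ * δ) * t * (σ (γ * δ))⁻¹ by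
      rw [map_mul]; group, hL]
    group
  · have := hL 1
    rw [map_one] at this
    simpa using this

namespace CLift

variable {t : G} {L : G → Γ}

/-- the class -/
def D (t : G) : Set G := {x | ∃ g : G, x = g * t * g⁻¹}

theorem conj_mem {x : G} (hx : x ∈ D t) (g : G) : g * x * g⁻¹ ∈ D t := by
  obtain ⟨h, rfl⟩ := hx
  exact ⟨g * h, by group⟩

theorem map' (h : CLift σ t L) {x : G} (hx : x ∈ D t) : σ (L x) = x := by
  obtain ⟨g, rfl⟩ := hx
  exact h.map g

theorem conj' (h : CLift σ t L) (γ : Γ) {x : G} (hx : x ∈ D t) : γ * L x * γ⁻¹ = L (σ γ * x * (σ γ)⁻¹) := by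
  obtain ⟨g, rfl⟩ := hx
  exact h.conj γ g

/-- multiplying by a central element -/
theorem smul (h : CLift σ t L) {a : Γ} (ha : σ a = 1) (hac : ∀ y, y * a = a * y) :
    CLift σ t (fun x => a * L x) := by
  constructor
  · intro g; rw [map_mul, ha, one_mul, h.map]
  · intro γ g
    rw [← h.conj]
    calc γ * (a * L (g * t * g⁻¹)) * γ⁻¹ = (γ * a) * L (g * t * g⁻¹) * γ⁻¹ := by group
      _ = _ := by rw [hac]; group

/-- elements of the group commuting with an element of the class -/
theorem comm_of (h : CLift σ t L) {γ : Γ} {x : G} (hx : x ∈ D t) (hg : σ γ * x = x * σ γ) : γ * L x = L x * γ := by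
  have h1 := h.conj' γ hx
  rw [show σ γ * x * (σ γ)⁻¹ = x by rw [hg]; group] at h1
  calc γ * L x = γ * L x * γ⁻¹ * γ := by group
    _ = _ := by rw [h1]

/-- the square is constant -/
theorem sq_eq (h : CLift σ t L) (hσ : Function.Surjective σ) (hc : σ.ker ≤ center Γ) (ht : t * t = 1)
    {x : G} (hx : x ∈ D t) : L x * L x = L t * L t := by
  obtain ⟨g, rfl⟩ := hx
  obtain ⟨γ, rfl⟩ := hσ g
  have htD : t ∈ D t := ⟨1, by group⟩
  have h1 := h.conj' γ htD
  have h2 : σ (L t * L t) = 1 := by rw [map_mul, h.map' htD, ht]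
  have h3 := ker_comm hc h2 γ
  rw [← h1]
  calc γ * L t * γ⁻¹ * (γ * L t * γ⁻¹) = γ * (L t * L t) * γ⁻¹ := by group
    _ = _ := by rw [h3]; group

/-- braid relation of length three -/
theorem braid (h : CLift σ t L) {x y : G} (hx : x ∈ D t) (hy : y ∈ D t) (hx2 : x * x = 1) (hy2 : y * y = 1)
    (hxy : (x * y) ^ 3 = 1) (hLx : L x * L x = 1) (hLy : L y * L y = 1) : (L x * L y) ^ 3 = 1 := by
  have h1 := h.conj' (L x) hy
  have h2 := h.conj' (L y) hx
  rw [h.map' hx] at h1
  rw [h.map' hy] at h2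
  have e : x * y * x⁻¹ = y * x * y⁻¹ := by
    rw [inv_eq_of_mul_eq_one_left hx2, inv_eq_of_mul_eq_one_left hy2]
    have h3 : x * y * (x * y) * (x * y) = 1 := by rw [← hxy, pow_succ, pow_two]
    have h4 : x * y * x * (y * x * y) = 1 := by rw [← h3]; group
    rw [eq_comm, ← inv_inj]
    have h5 : (x * y * x)⁻¹ = y * x * y := inv_eq_of_mul_eq_one_right h4
    rw [h5]
    calc (y * x * y)⁻¹ = y⁻¹ * x⁻¹ * y⁻¹ := by group
      _ = y * x * y := by rw [inv_eq_of_mul_eq_one_left hx2, inv_eq_of_mul_eq_one_left hy2]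
  rw [e] at h1
  have h6 : L x * L y * (L x)⁻¹ = L y * L x * (L y)⁻¹ := h1.trans h2.symm
  rw [inv_eq_of_mul_eq_one_left hLx, inv_eq_of_mul_eq_one_left hLy] at h6
  calc (L x * L y) ^ 3 = (L x * L y * L x) * (L y * L x * L y) := by rw [pow_succ, pow_two]; group
    _ = (L y * L x * L y) * (L y * L x * L y) := by rw [h6]
    _ = L y * L x * (L y * L y) * L x * L y := by group
    _ = L y * (L x * L x) * L y := by rw [hLy]; group
    _ = 1 := by rw [hLx]; simpa using hLy

/-- commuting pairs -/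
theorem comm (h : CLift σ t L) {x y : G} (hx : x ∈ D t) (hy : y ∈ D t) (hxy : x * y = y * x) :
    L x * L y = L y * L x := by
  refine h.comm_of (γ := L x) hy ?_
  rw [h.map' hx, hxy]

end CLift

/-- a power of a product of two elements with central squares -/
theorem uv_pow {u v : Γ} {p : Γ} (n : ℕ) (hpc : ∀ y, y * p = p * y) (hu : ∀ y, y * (u * u) = (u * u) * y)
    (huv : v * v * (u * u) = p)
    (hv : ∀ y, y * (v * v) = (v * v) * y) (hz : ∀ y, y * (u * v) ^ n = (u * v) ^ n * y) :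
    (u * v) ^ n * (u * v) ^ n = p ^ n := by
  have h1 : (u * v) * (v * u) = p := by
    calc (u * v) * (v * u) = u * (v * v) * u := by group
      _ = v * v * (u * u) := by rw [hv u]; group
      _ = p := huv
  have h2 : u * (u * v) * u⁻¹ = v * u := by
    calc u * (u * v) * u⁻¹ = ((u * u) * v) * u⁻¹ := by group
      _ = (v * (u * u)) * u⁻¹ := by rw [← hu v]
      _ = _ := by group
  have h3 : u * (u * v) ^ n * u⁻¹ = (v * u) ^ n := by
    rw [← h2, conj_pow]
  have h4 : (u * v) ^ n = (v * u) ^ n := by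
    rw [← h3, hz u]; group
  have hcomm : Commute (u * v) (v * u) := by
    have e1 : v * u = (u * v)⁻¹ * p := by rw [← h1]; group
    rw [e1]
    refine (Commute.refl (u * v)).inv_right.mul_right ?_
    exact hpc _
  calc (u * v) ^ n * (u * v) ^ n = (u * v) ^ n * (v * u) ^ n := by rw [← h4]
    _ = (u * v * (v * u)) ^ n := (hcomm.mul_pow n).symm
    _ = p ^ n := by rw [h1]

end H40.CL
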