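import Mathlib

/-!
# Rewriting certificates in groups generated by involutions with Coxeter relations
-/

set_option autoImplicit false

namespace H40.Rew

variable {α : Type*}

/-- alternating word of length `n` -/
def alt (x y : α) : ℕ → List α
  | 0 => []
  | n + 1 => x :: alt y x n

/-- one move at the head -/
def step0 [DecidableEq α] (m : α → α → ℕ) : List α → List α
  | [] => []
  | [x] => [x]
  | x :: y :: w =>
    if x = y then w
    else if (alt x y (m x y)).isPrefixOf (x :: y :: w) then
      alt y x (m x y) ++ (x :: y :: w).drop (m x y)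
    else x :: y :: w

/-- one move at position `i` -/
def step [DecidableEq α] (m : α → α → ℕ) : List α → ℕ → List α
  | w, 0 => step0 m w
  | [], _ + 1 => []
  | x :: w, i + 1 => x :: step m w i

/-- a sequence of moves -/
def run [DecidableEq α] (m : α → α → ℕ) (w : List α) (l : List ℕ) : List α := l.foldl (step m) w

section sound

variable {K : Type*} [Group K] (g : α → K)

theorem alt_prod {x y : α} (hx : g x * g x = 1) (hy : g y * g y = 1) (n : ℕ) :
    ((alt x y n).map g).prod = (g x * g y) ^ n * ((alt y x n).map g).prod := by
  have key : ∀ (n : ℕ) (x y : α), g x * g x = 1 → g y * g y = 1 →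
      ((alt x y n).map g).prod = (g x * g y) ^ n * ((alt y x n).map g).prod := by
    intro n
    induction n with
    | zero => intro x y _ _; simp [alt]
    | succ n ih =>
      intro x y hx hy
      simp only [alt, List.map_cons, List.prod_cons]
      rw [ih y x hy hx, ← mul_assoc, ← mul_assoc, pow_succ']
      have h1 : g x * (g y * g x) ^ n = (g x * g y) ^ n * g x := by
        have h2 : (g y * g x) ^ n = (g x)⁻¹ * (g x * g y) ^ n * g x := by
          rw [show (g x)⁻¹ * (g x * g y) ^ n * g x = (g x)⁻¹ * (g x * g y) ^ n * (g x)⁻¹⁻¹ by rw [inv_inv],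
            ← conj_pow]
          congr 1
          group
        rw [h2]; group
      rw [h1]
      have h3 : g x * g y * (g x * g y) ^ n = (g x * g y) ^ n * (g x * g y) := by
        rw [← pow_succ', ← pow_succ]
      rw [h3]
      have h4 : (g x * g y) ^ n * (g x * g y) * g y = (g x * g y) ^ n * g x := by
        rw [mul_assoc, mul_assoc, hy, mul_one]
      rw [h4]
  exact key n x y hx hy

theorem step0_prod [DecidableEq α] {m : α → α → ℕ} (hs : ∀ x, g x * g x = 1)
    (hm : ∀ x y, (g x * g y) ^ m x y = 1) : ∀ w : List α, ((step0 m w).map g).prod = (w.map g).prod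
  | [] => rfl
  | [x] => rfl
  | x :: y :: w => by
    rw [step0]
    split_ifs with h1 h2
    · subst h1
      rw [List.map_cons, List.map_cons, List.prod_cons, List.prod_cons, ← mul_assoc, hs, one_mul]
    · obtain ⟨t, ht⟩ := List.isPrefixOf_iff_prefix.mp h2
      have hlen : (alt x y (m x y)).length = m x y := by
        have key : ∀ (n : ℕ) (x y : α), (alt x y n).length = n := by
          intro n; induction n with
          | zero => intro x y; rfl
          | succ n ih => intro x y; simp [alt, ih]
        exact key _ _ _
      have hd : (x :: y :: w).drop (m x y) = t := by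
        rw [← ht]
        exact List.drop_left' hlen
      rw [hd, ← ht, List.map_append, List.prod_append, List.map_append, List.prod_append,
        alt_prod g (hs x) (hs y), hm, one_mul]
    · rfl

theorem step_prod [DecidableEq α] {m : α → α → ℕ} (hs : ∀ x, g x * g x = 1)
    (hm : ∀ x y, (g x * g y) ^ m x y = 1) : ∀ (w : List α) (i : ℕ), ((step m w i).map g).prod = (w.map g).prod
  | w, 0 => by rw [step]; exact step0_prod g hs hm w
  | [], _ + 1 => rfl
  | x :: w, i + 1 => by
    rw [step, List.map_cons, List.prod_cons, List.map_cons, List.prod_cons, step_prod hs hm w i]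

theorem run_prod [DecidableEq α] {m : α → α → ℕ} (hs : ∀ x, g x * g x = 1)
    (hm : ∀ x y, (g x * g y) ^ m x y = 1) (l : List ℕ) : ∀ w : List α,
    ((run m w l).map g).prod = (w.map g).prod := by
  induction l with
  | nil => intro w; rfl
  | cons i l ih =>
    intro w
    rw [run, List.foldl_cons]
    have := ih (step m w i)
    rw [run] at this
    rw [this, step_prod g hs hm]

/-- the checker -/
def chk [DecidableEq α] (m : α → α → ℕ) (w : List α) (l : List ℕ) : Bool := (run m w l).isEmpty

theorem prod_of_chk [DecidableEq α] {m : α → α → ℕ} (hs : ∀ x, g x * g x = 1)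
    (hm : ∀ x y, (g x * g y) ^ m x y = 1) {w : List α} {l : List ℕ} (h : chk m w l = true) :
    (w.map g).prod = 1 := by
  rw [← run_prod g hs hm l w, List.isEmpty_iff.mp h]
  rfl

end sound

end H40.Rew
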