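import Cfsg.Agent.Lib.H40.CL1
import Cfsg.Agent.Lib.H40.Rew

/-!
# Lifting the letters of a Coxeter type presentation, normalised by an odd relator
-/

set_option autoImplicit false

namespace H40.CL

open Subgroup H40.Rew
open scoped commutatorElement

universe u v

section sw

variable {α : Type*}

/-- swap the letters at position `i` when allowed -/
def sw (c : α → α → Bool) : List α → ℕ → List α
  | x :: w, i + 1 => x :: sw c w i
  | x :: y :: w, 0 => if c x y then y :: x :: w else x :: y :: w
  | w, _ => w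

variable {K : Type*} [Group K] (g : α → K)

theorem sw_prod {c : α → α → Bool} (hc : ∀ x y, c x y = true → g x * g y = g y * g x) :
    ∀ (w : List α) (i : ℕ), ((sw c w i).map g).prod = (w.map g).prod
  | [], 0 => rfl
  | [], _ + 1 => rfl
  | [x], 0 => rfl
  | x :: w, i + 1 => by
    rw [sw, List.map_cons, List.prod_cons, List.map_cons, List.prod_cons, sw_prod hc w i]
  | x :: y :: w, 0 => by
    rw [sw]
    split_ifs with h
    · simp only [List.map_cons, List.prod_cons]
      rw [← mul_assoc, ← hc x y h, mul_assoc]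
    · rfl

/-- a sequence of swaps -/
def runSw (c : α → α → Bool) (w : List α) (l : List ℕ) : List α := l.foldl (sw c) w

theorem runSw_prod {c : α → α → Bool} (hc : ∀ x y, c x y = true → g x * g y = g y * g x) (l : List ℕ) :
    ∀ w : List α, ((runSw c w l).map g).prod = (w.map g).prod := by
  induction l with
  | nil => intro w; rfl
  | cons i l ih =>
    intro w
    rw [runSw, List.foldl_cons]
    have := ih (sw c w i)
    rw [runSw] at this
    rw [this, sw_prod g hc]

theorem dbl_prod {ζ : K} (hζ : ∀ x, g x * g x = ζ) (u : List α) :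
    ((u.flatMap (fun x => [x, x])).map g).prod = ζ ^ u.length := by
  induction u with
  | nil => simp
  | cons x u ih =>
    rw [List.flatMap_cons, List.map_append, List.prod_append, ih]
    simp only [List.map_cons, List.map_nil, List.prod_cons, List.prod_nil, mul_one, List.length_cons]
    rw [hζ, pow_succ']

theorem smul_prod {t : K} (ht : ∀ y, y * t = t * y) (u : List α) :
    (u.map (fun x => t * g x)).prod = t ^ u.length * (u.map g).prod := by
  induction u with
  | nil => simp
  | cons x u ih =>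
    simp only [List.map_cons, List.prod_cons, List.length_cons]
    rw [ih, pow_succ']
    have : g x * t ^ u.length = t ^ u.length * g x := by
      have h : Commute (g x) t := ht _
      exact (h.pow_right _).eq
    calc t * g x * (t ^ u.length * (u.map g).prod) = t * (g x * t ^ u.length) * (u.map g).prod := by group
      _ = _ := by rw [this]; group

end sw

variable {Γ : Type v} [Group Γ] {G : Type u} [Group G] {σ : Γ →* G}

/-- canonical lifts normalised so that the lifts are involutions and a relator of odd total length of bipartite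
type lifts -/
theorem exists_normalised (hσ : Function.Surjective σ) (hc : σ.ker ≤ center Γ) {t : G}
    (hp : ⁅centralizer {t}, centralizer {t}⁆ = (centralizer {t} : Subgroup G)) (ht2 : t * t = 1)
    {α : Type*} (g : α → G) (hg : ∀ x, g x ∈ CLift.D t) (c : α → α → Bool)
    (hcm : ∀ x y, c x y = true → g x * g y = g y * g x) (W P U V : List α) (n k : ℕ)
    (hk : W.length * n = 2 * k + 1) (hW : ((W.map g).prod) ^ n = 1) (l₁ l₂ l₃ : List ℕ)
    (h₁ : runSw c (W ++ P) l₁ = P ++ (U ++ V)) (h₂ : runSw c (U ++ U) l₂ = U.flatMap (fun x => [x, x]))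
    (h₃ : runSw c (V ++ V) l₃ = V.flatMap (fun x => [x, x])) (hlen : W.length = V.length + U.length) :
    ∃ L : G → Γ, CLift σ t L ∧ (∀ x ∈ CLift.D t, L x * L x = 1) ∧
      ((W.map (fun x => L (g x))).prod) ^ n = 1 := by
  obtain ⟨t', ht'⟩ := hσ t
  obtain ⟨L, hL, hLt⟩ := exists_clift hσ hc hp ht'
  set ζ : Γ := L t * L t with hζ
  have htD : t ∈ CLift.D t := ⟨1, by group⟩
  have hζk : σ ζ = 1 := by rw [hζ, map_mul, hL.map' htD, ht2]
  have hζc := ker_comm hc hζk
  have hsq : ∀ x, L (g x) * L (g x) = ζ := fun x => hL.sq_eq hσ hc ht2 (hg x)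
  have hcL : ∀ x y, c x y = true → L (g x) * L (g y) = L (g y) * L (g x) :=
    fun x y h => hL.comm (hg x) (hg y) (hcm x y h)
  set F : α → Γ := fun x => L (g x) with hF
  have hFg : ∀ w : List α, σ ((w.map F).prod) = (w.map g).prod := by
    intro w
    rw [map_list_prod, List.map_map]
    congr 1
    apply List.map_congr_left
    intro x _
    exact hL.map' (hg x)
  set z : Γ := ((W.map F).prod) ^ n with hz
  have hzk : σ z = 1 := by rw [hz, map_pow, hFg, hW]
  have hzc := ker_comm hc hzk
  -- moving to bipartite form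
  have hmv : (W.map F).prod * (P.map F).prod = (P.map F).prod * ((U.map F).prod * (V.map F).prod) := by
    rw [← List.prod_append, ← List.map_append, ← runSw_prod F hcL l₁, h₁]
    simp only [List.map_append, List.prod_append]
  have hW' : (W.map F).prod = (P.map F).prod * ((U.map F).prod * (V.map F).prod) * ((P.map F).prod)⁻¹ := by
    rw [← hmv]; group
  have hUV : ((U.map F).prod * (V.map F).prod) ^ n = z := by
    have h1 : z = (P.map F).prod * ((U.map F).prod * (V.map F).prod) ^ n * ((P.map F).prod)⁻¹ := by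
      rw [hz, hW', conj_pow]
    calc ((U.map F).prod * (V.map F).prod) ^ n = ((P.map F).prod)⁻¹ * z * (P.map F).prod := by rw [h1]; group
      _ = z := by rw [hzc]; group
  have hUU : (U.map F).prod * (U.map F).prod = ζ ^ U.length := by
    rw [← List.prod_append, ← List.map_append, ← runSw_prod F hcL l₂, h₂, dbl_prod F hsq U]
  have hVV : (V.map F).prod * (V.map F).prod = ζ ^ V.length := by
    rw [← List.prod_append, ← List.map_append, ← runSw_prod F hcL l₃, h₃, dbl_prod F hsq V]
  have hpc : ∀ (m : ℕ) (y : Γ), y * ζ ^ m = ζ ^ m * y := fun m y => by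
    have h : Commute y ζ := hζc y
    exact (h.pow_right m).eq
  have hzz : z * z = ζ ^ (2 * k + 1) := by
    have h1 := uv_pow (u := (U.map F).prod) (v := (V.map F).prod) (p := ζ ^ W.length) n (hpc _)
      (by rw [hUU]; exact hpc _) (by rw [hUU, hVV, hlen, pow_add]) (by rw [hVV]; exact hpc _)
      (by rw [hUV]; exact hzc)
    rw [hUV] at h1
    rw [h1, ← pow_mul, hk]
  -- normalisation
  clear_value z ζ
  set s : Γ := z⁻¹ * ζ ^ k with hs
  have hsk : σ s = 1 := by
    have e : σ s = (σ z)⁻¹ * (σ ζ) ^ k := by rw [← map_inv, ← map_pow, ← map_mul]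
    rw [e, hzk, hζk, inv_one, one_pow, mul_one]
  have hsc := ker_comm hc hsk
  have hzζ : Commute z ζ := hζc z
  have hss : s * s * ζ = 1 := by
    have h1 : s * s = (z * z)⁻¹ * ζ ^ (2 * k) := by
      rw [hs]
      have h2 : ζ ^ k * z⁻¹ = z⁻¹ * ζ ^ k := ((hzζ.inv_left.pow_right k).eq).symm
      calc z⁻¹ * ζ ^ k * (z⁻¹ * ζ ^ k) = z⁻¹ * (ζ ^ k * z⁻¹) * ζ ^ k := by group
        _ = z⁻¹ * (z⁻¹ * ζ ^ k) * ζ ^ k := by rw [h2]
        _ = (z * z)⁻¹ * (ζ ^ k * ζ ^ k) := by group
        _ = _ := by rw [← pow_add, two_mul]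
    rw [h1, hzz, mul_assoc, ← pow_succ]
    exact inv_mul_cancel _
  have hsn : s ^ (2 * k + 1) * z = 1 := by
    have h1 : s * s = ζ⁻¹ := eq_inv_of_mul_eq_one_left hss
    rw [pow_succ, pow_mul, pow_two, h1, hs]
    have h2 : (ζ⁻¹) ^ k * (z⁻¹ * ζ ^ k) = z⁻¹ * ((ζ⁻¹) ^ k * ζ ^ k) := by
      have h3 : (ζ⁻¹) ^ k * z⁻¹ = z⁻¹ * (ζ⁻¹) ^ k := ((hzζ.inv_left.inv_right.pow_right k).eq).symm
      rw [← mul_assoc, h3, mul_assoc]
    rw [h2, inv_pow, inv_mul_cancel, mul_one, inv_mul_cancel]
  refine ⟨fun x => s * L x, hL.smul hsk hsc, ?_, ?_⟩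
  · intro x hx
    have h1 := hL.sq_eq hσ hc ht2 hx
    calc s * L x * (s * L x) = s * (L x * s) * L x := by group
      _ = s * s * (L x * L x) := by rw [hsc (L x)]; group
      _ = s * s * ζ := by rw [h1, ← hζ]
      _ = 1 := hss
  · rw [smul_prod F hsc W]
    have h1 : Commute (s ^ W.length) ((W.map F).prod) := by
      have h2 : Commute ((W.map F).prod) s := hsc _
      exact (h2.pow_right _).symm
    rw [h1.mul_pow, ← pow_mul, hk, ← hz]
    exact hsn

/-- Coxeter relations with labels 2 and 3 lift -/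
theorem cox_lift {t : G} {L : G → Γ} (hL : CLift σ t L) (h1 : ∀ x ∈ CLift.D t, L x * L x = 1)
    (h2 : ∀ x ∈ CLift.D t, x * x = 1)
    {x y : G} (hx : x ∈ CLift.D t) (hy : y ∈ CLift.D t) {m : ℕ} (hm : m = 1 ∧ x = y ∨ m = 2 ∨ m = 3)
    (h : (x * y) ^ m = 1) : (L x * L y) ^ m = 1 := by
  rcases hm with ⟨rfl, rfl⟩ | rfl | rfl
  · rw [pow_one]; exact h1 x hx
  · have hxy : x * y = y * x := by
      have e : (x * y)⁻¹ = x * y := inv_eq_of_mul_eq_one_left (by rw [← pow_two]; exact h)
      rw [← e, mul_inv_rev, inv_eq_of_mul_eq_one_left (h2 x hx), inv_eq_of_mul_eq_one_left (h2 y hy)]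
    have h3 := hL.comm hx hy hxy
    calc (L x * L y) ^ 2 = L x * (L y * L x) * L y := by rw [pow_two]; group
      _ = (L x * L x) * (L y * L y) := by rw [← h3]; group
      _ = 1 := by rw [h1 x hx, h1 y hy, mul_one]
  · exact hL.braid hx hy (h2 x hx) (h2 y hy) h (h1 x hx) (h1 y hy)

end H40.CL
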