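import Cfsg.Agent.Lib.H40.CL2

/-!
# Words in normalised canonical lifts
-/

set_option autoImplicit false

namespace H40.CL

open Subgroup H40.Rew

universe u v

variable {Γ : Type v} [Group Γ] {G : Type u} [Group G] {σ : Γ →* G} {α : Type*}

/-- the value of a word -/
def ev {K : Type*} [Group K] (F : α → K) (w : List α) : K := (w.map F).prod

section ev

variable {K : Type*} [Group K] (F : α → K)

theorem ev_append (u v : List α) : ev F (u ++ v) = ev F u * ev F v := by
  rw [ev, ev, ev, List.map_append, List.prod_append]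

theorem ev_cons (x : α) (v : List α) : ev F (x :: v) = F x * ev F v := by
  rw [ev, ev, List.map_cons, List.prod_cons]

theorem ev_single (x : α) : ev F [x] = F x := by simp [ev]

theorem ev_nil : ev F [] = 1 := rfl

theorem ev_reverse (hs : ∀ x, F x * F x = 1) (u : List α) : ev F u.reverse = (ev F u)⁻¹ := by
  induction u with
  | nil => simp [ev]
  | cons x u ih =>
    rw [List.reverse_cons, ev_append, ev_single, ih, ev_cons, mul_inv_rev, inv_eq_of_mul_eq_one_left (hs x)]

theorem ev_rep (n : ℕ) (u : List α) : ev F ((List.replicate n u).flatten) = (ev F u) ^ n := by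
  rw [ev, List.map_flatten, List.prod_flatten, List.map_replicate, List.map_replicate, List.prod_replicate]
  rfl

theorem ev_map {σ : Γ →* G} {F : α → Γ} {g : α → G} (h : ∀ x, σ (F x) = g x) (w : List α) : σ (ev F w) = ev g w := by
  rw [ev, ev, map_list_prod, List.map_map]
  congr 1
  apply List.map_congr_left
  intro x _
  exact h x

end ev

variable {t : G} {L : G → Γ} {g : α → G}

/-- palindromic words are canonical lifts -/
theorem ev_pal (hL : CLift σ t L) (hg : ∀ x, g x ∈ CLift.D t)
    (hs : ∀ x, L (g x) * L (g x) = 1) (u : List α) (y : α) :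
    ∃ x, x ∈ CLift.D t ∧ ev (fun x => L (g x)) (u ++ [y] ++ u.reverse) = L x ∧ x = ev g u * g y * (ev g u)⁻¹ := by
  refine ⟨ev g u * g y * (ev g u)⁻¹, CLift.conj_mem (hg y) _, ?_, rfl⟩
  rw [ev_append, ev_append, ev_reverse _ hs, ev_single]
  have h := hL.conj' (ev (fun x => L (g x)) u) (hg y)
  rw [ev_map (g := g) (fun x => hL.map' (hg x))] at h
  exact h

/-- an element commuting modulo the kernel with a palindromic word commutes with it -/
theorem comm_pal (hL : CLift σ t L) (hg : ∀ x, g x ∈ CLift.D t)
    (hs : ∀ x, L (g x) * L (g x) = 1) (hgs : ∀ x, g x * g x = 1) (u : List α) (y : α) {X : Γ}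
    (hX : σ X * ev g (u ++ [y] ++ u.reverse) = ev g (u ++ [y] ++ u.reverse) * σ X) :
    X * ev (fun x => L (g x)) (u ++ [y] ++ u.reverse) = ev (fun x => L (g x)) (u ++ [y] ++ u.reverse) * X := by
  obtain ⟨x, hx, h1, h2⟩ := ev_pal hL hg hs u y
  rw [h1]
  refine hL.comm_of hx ?_
  have h3 : ev g (u ++ [y] ++ u.reverse) = x := by
    rw [ev_append, ev_append, ev_reverse _ hgs, ev_single, h2]
  rw [← h3, hX]

/-- relation `w₁ w₂ w₁⁻¹ w₂⁻¹ = 1` for words in involutions -/
theorem comm_of_word {K : Type*} [Group K] {F : α → K} (hs : ∀ x, F x * F x = 1) {u v : List α}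
    (h : ev F (u ++ v ++ u.reverse ++ v.reverse) = 1) : ev F u * ev F v = ev F v * ev F u := by
  rw [ev_append, ev_append, ev_append, ev_reverse _ hs, ev_reverse _ hs] at h
  calc ev F u * ev F v = ev F u * ev F v * (ev F u)⁻¹ * (ev F v)⁻¹ * (ev F v * ev F u) := by group
    _ = _ := by rw [h, one_mul]

end H40.CL
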