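import Cfsg.Agent.Lib.H40.ChevAut1
import Cfsg.Agent.Lib.H22.ChevSimple
import Cfsg.Prelude.Def_ChevAutomorphisms

/-!
Automorphisms of finite Chevalley groups, part 2: the functions are field automorphisms, the
permutation is a diagram symmetry.
-/

set_option autoImplicit false

namespace H40.ChevAut

open H22.RGD H22.Coord H22.RCCheck H22.RCComb H22.ChevTri H22.ChevRel H22.ChevSys H22.ChevMain
open H22.ChevStd H40.RGDOpp H40.RGDAut H40.RGDSyl
open Cfsg.Lie (ChevalleyDatum)
open scoped MatrixGroups Matrix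

/-- additive functions with `φ(t²u) = φ(t)²φ(u)` on a finite field are multiplicative -/
theorem mul_of_sq {F : Type*} [Field F] [Finite F] {φ : F → F} (hadd : ∀ a b, φ (a + b) = φ a + φ b)
    (h1 : φ 1 = 1) (hsq : ∀ t, t ≠ 0 → ∀ u, φ (t ^ 2 * u) = φ t ^ 2 * φ u) (a b : F) :
    φ (a * b) = φ a * φ b := by
  have h0 : φ 0 = 0 := by
    have := hadd 0 0
    rw [add_zero] at this
    exact left_eq_add.1 this
  have hneg : ∀ a, φ (-a) = - φ a := by
    intro a
    rw [eq_neg_iff_add_eq_zero, ← hadd, neg_add_cancel, h0]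
  have hsub : ∀ a b, φ (a - b) = φ a - φ b := by
    intro a b; rw [sub_eq_add_neg, hadd, hneg, ← sub_eq_add_neg]
  have hsq' : ∀ t u, φ (t ^ 2 * u) = φ t ^ 2 * φ u := by
    intro t u
    by_cases ht : t = 0
    · subst ht; simp [h0]
    · exact hsq t ht u
  by_cases hc : ringChar F = 2
  · obtain ⟨t, rfl⟩ := FiniteField.isSquare_of_char_two hc a
    have e1 := hsq' t b
    have e2 := hsq' t 1
    rw [mul_one, h1, mul_one] at e2
    rw [← pow_two, e1, e2]
  · have h2 : (2 : F) ≠ 0 := Ring.two_ne_zero hc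
    have e1 : φ ((a + 1) ^ 2 * b) - φ ((a - 1) ^ 2 * b) = φ (4 * (a * b)) := by
      rw [← hsub]; congr 1; ring
    have h4 : ∀ x, φ (4 * x) = 4 * φ x := by
      intro x
      have : (4 : F) * x = x + x + x + x := by ring
      rw [this, hadd, hadd, hadd]; ring
    rw [hsq', hsq', h4, hadd, hsub, h1] at e1
    have h4' : (4 : F) ≠ 0 := by
      have : (4 : F) = 2 * 2 := by norm_num
      rw [this]; exact mul_ne_zero h2 h2
    apply mul_left_cancel₀ h4'
    rw [← e1]; ring

variable {D : ChevalleyDatum} {F : Type*} [Field F] {R : Rel D F} {X : RCX D}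

namespace Dat

variable {θ : ↥(D.group F) ≃* ↥(D.group F)} {ρ : Equiv.Perm (Fin D.rank)}
    {f g : Fin D.rank → F → F} (h : Dat R X θ ρ f g)

include h

theorem ratio_mul [Finite F] (i : Fin D.rank) (a b : F) :
    f i (a * b) * (f i 1)⁻¹ = (f i a * (f i 1)⁻¹) * (f i b * (f i 1)⁻¹) := by
  have hf1 : f i 1 ≠ 0 := h.f_ne i one_ne_zero
  refine mul_of_sq (φ := fun t => f i t * (f i 1)⁻¹) ?_ ?_ ?_ a b
  · intro a b; rw [h.f_add]; ring
  · exact mul_inv_cancel₀ hf1
  · intro t ht u
    have h1 := h.f_mul i i ht u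
    have hA : ∀ j : Fin D.rank, D.cartan j (D.simple j) = 2 := fun j => by
      rw [cartan_simple X.rc j.2 j.2, cartan_self X.rc j.2]
    rw [hA, hA] at h1
    have e2 : ∀ x : F, x ^ (2 : ℤ) = x ^ 2 := fun x => by
      rw [show (2 : ℤ) = ((2 : ℕ) : ℤ) from rfl, zpow_natCast]
    rw [e2, e2] at h1
    show f i (t ^ 2 * u) * (f i 1)⁻¹ = (f i t * (f i 1)⁻¹) ^ 2 * (f i u * (f i 1)⁻¹)
    rw [h1]; ring

/-- the field automorphism attached to a node -/
noncomputable def phiHom [Finite F] (i : Fin D.rank) : F →+* F where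
  toFun := fun t => f i t * (f i 1)⁻¹
  map_one' := mul_inv_cancel₀ (h.f_ne i one_ne_zero)
  map_mul' := h.ratio_mul i
  map_zero' := by rw [h.f_zero, zero_mul]
  map_add' := fun a b => by rw [h.f_add]; ring

/-- the field automorphism attached to a node -/
noncomputable def phi [Finite F] (i : Fin D.rank) : F ≃+* F :=
  RingEquiv.ofBijective (h.phiHom i) (Finite.injective_iff_bijective.1 (h.phiHom i).injective)

theorem phi_apply [Finite F] (i : Fin D.rank) (t : F) : h.phi i t = f i t * (f i 1)⁻¹ := rfl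

theorem f_eq [Finite F] (i : Fin D.rank) (t : F) : f i t = f i 1 * h.phi i t := by
  rw [phi_apply, mul_comm (f i t), ← mul_assoc, mul_inv_cancel₀ (h.f_ne i one_ne_zero), one_mul]

theorem g_eq' [Finite F] (i : Fin D.rank) (t : F) : g i t = (f i 1)⁻¹ * h.phi i t := by
  by_cases ht : t = 0
  · subst ht; rw [h.g_zero, map_zero, mul_zero]
  · have h1 := h.g_eq i (inv_ne_zero ht)
    rw [inv_inv] at h1
    rw [h1, h.f_eq i t⁻¹, mul_inv, map_inv₀, inv_inv]

/-- the relation between the field automorphisms -/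
theorem phi_rel [Finite F] (i k : Fin D.rank) {t : F} (ht : t ≠ 0) :
    h.phi k t ^ D.cartan i (D.simple k) = h.phi i t ^ D.cartan (ρ i) (D.simple (ρ k)) := by
  have h1 := h.f_mul i k ht 1
  rw [mul_one, h.f_eq k, mul_comm (f k 1)] at h1
  have h2 := mul_right_cancel₀ (h.f_ne k one_ne_zero) h1
  rw [map_zpow₀] at h2
  exact h2

theorem mem_H_iff (x : ↥(D.group F)) : θ x ∈ (sys R X).H ↔ x ∈ (sys R X).H := by
  have := apply_mem_im (θ := θ) (K := (sys R X).H) (x := x)
  rwa [h.norm.H (longest X) (sys_Γ R X)] at this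

/-- orders of products of two simple reflections are preserved -/
theorem order_eq (i k : Fin D.rank) :
    orderOf ((comb X).refl (ρ i) * (comb X).refl (ρ k)) =
      orderOf ((comb X).refl i * (comb X).refl k) := by
  set S := sys R X with hS
  have key : ∀ {g : ↥(D.group F)} {w : Equiv.Perm (Fin D.nroots)}, S.Rep g w → (g ∈ S.H ↔ w = 1) := by
    intro g w hg
    constructor
    · intro hh; exact hg.unique (S.rep_H hh)
    · rintro rfl; exact S.mem_H_of_rep_one hg
  have hpow : ∀ {g : ↥(D.group F)} {w : Equiv.Perm (Fin D.nroots)}, S.Rep g w → ∀ m : ℕ,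
      S.Rep (g ^ m) (w ^ m) := by
    intro g w hg m
    induction m with
    | zero => rw [pow_zero, pow_zero]; exact S.rep_H (one_mem _)
    | succ m ih => rw [pow_succ, pow_succ]; exact ih.mul hg
  rw [orderOf_eq_orderOf_iff]
  intro m
  have h1 := hpow ((S.rep_n i).mul (S.rep_n k)) m
  have h2 : S.Rep (θ ((S.n i * S.n k) ^ m)) (((comb X).refl (ρ i) * (comb X).refl (ρ k)) ^ m) := by
    rw [map_pow]
    apply hpow
    rw [map_mul]
    have h3 : ∀ i, S.Rep (θ (S.n i)) ((comb X).refl (ρ i)) := by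
      intro i
      obtain ⟨k, hk, e⟩ := h.n i
      rw [e]
      have := (S.rep_n (ρ i)).mul (S.rep_H hk)
      rwa [mul_one] at this
    exact (h3 i).mul (h3 k)
  rw [← key h1, ← key h2, h.mem_H_iff]

end Dat

/-! ### diagram facts -/

/-- the number of bonds belonging to an order -/
def bo (m : ℕ) : ℤ := if m = 2 then 0 else if m = 3 then 1 else if m = 4 then 2 else 3

/-- facts on the diagram of a datum -/
structure Diag (X : RCX D) : Prop where
  bond : ∀ i j : Fin D.rank, i ≠ j →
    D.bonds i j = bo (orderOf ((comb X).refl i * (comb X).refl j))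
  conn : ∀ J : Set (Fin D.rank), J.Nonempty → Jᶜ.Nonempty → ∃ i ∈ J, ∃ j ∉ J,
    (comb X).refl i * (comb X).refl j ≠ (comb X).refl j * (comb X).refl i
  comm : ∀ i j : Fin D.rank, i ≠ j → D.bonds i j = 0 →
    (comb X).refl i * (comb X).refl j = (comb X).refl j * (comb X).refl i

theorem Dat.symmetry (Z : Diag X) {θ : ↥(D.group F) ≃* ↥(D.group F)}
    {ρ : Equiv.Perm (Fin D.rank)} {f g : Fin D.rank → F → F} (h : Dat R X θ ρ f g) :
    D.IsDiagramSymmetry ρ := by
  intro i j hij
  rw [Z.bond i j hij, Z.bond _ _ (fun e => hij (ρ.injective e)), h.order_eq]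

theorem comm_of_order_two {Φ I : Type*} {C : RootComb Φ I} {i j : I}
    (h : orderOf (C.refl i * C.refl j) = 2) : C.refl i * C.refl j = C.refl j * C.refl i := by
  have h1 : (C.refl i * C.refl j) ^ 2 = 1 := by rw [← h]; exact pow_orderOf_eq_one _
  have h2 : (C.refl i * C.refl j)⁻¹ = C.refl j * C.refl i := by
    rw [mul_inv_rev, C.refl_inv, C.refl_inv]
  rw [← h2, eq_comm, inv_eq_iff_mul_eq_one, ← pow_two, h1]

theorem mkDiag {l : ℕ} (hl : l = D.rank) {rows : List (List ℤ)}
    (hr : H22.Poincare.RowsOk (coord X) rows) {M : List (List ℕ)}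
    (hM : H22.CoxCalc.coxB rows D.rank M = true)
    (hb : ((List.range l).all fun i => (List.range l).all fun j =>
      decide (i = j) || (decide (D.bonds i j = bo ((M.getD i []).getD j 0)) &&
        (decide (D.bonds i j ≠ 0) || decide ((M.getD i []).getD j 0 = 2)))) = true)
    (hconn : ∀ J : Set (Fin D.rank), J.Nonempty → Jᶜ.Nonempty → ∃ i ∈ J, ∃ j ∉ J,
      (comb X).refl i * (comb X).refl j ≠ (comb X).refl j * (comb X).refl i) : Diag X := by
  subst hl
  have key : ∀ i j : Fin D.rank, i ≠ j → D.bonds i j = bo ((M.getD i []).getD j 0) ∧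
      (D.bonds i j ≠ 0 ∨ (M.getD i []).getD j 0 = 2) := by
    intro i j hij
    rw [List.all_eq_true] at hb
    have h1 := hb i (List.mem_range.2 i.2)
    rw [List.all_eq_true] at h1
    have h2 := h1 j (List.mem_range.2 j.2)
    rw [Bool.or_eq_true, Bool.and_eq_true, Bool.or_eq_true, decide_eq_true_eq, decide_eq_true_eq,
      decide_eq_true_eq, decide_eq_true_eq] at h2
    rcases h2 with h2 | h2
    · exact absurd (Fin.ext h2) hij
    · exact h2
  refine ⟨fun i j hij => ?_, hconn, fun i j hij h0 => ?_⟩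
  · rw [H22.CoxCalc.cox_orders (coord X) hr hM]
    exact (key i j hij).1
  · rcases (key i j hij).2 with h1 | h1
    · exact absurd h0 h1
    · apply comm_of_order_two
      rw [H22.CoxCalc.cox_orders (coord X) hr hM]
      exact h1

/-! ### simply laced data: all field automorphisms are equal -/

/-- simply laced -/
structure Simply (D : ChevalleyDatum) : Prop where
  cartan : ∀ i j : Fin D.rank, i ≠ j → D.bonds i j ≠ 0 → D.cartan i (D.simple j) = -1
  long : ∀ i : Fin D.rank, D.isLong (D.simple i) = false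

theorem eq_of_simply (Z : Diag X) (L : Simply D) {ρ : Equiv.Perm (Fin D.rank)}
    (hρ : D.IsDiagramSymmetry ρ) {φ : Fin D.rank → (F ≃+* F)}
    (hE : ∀ (i k : Fin D.rank) (t : F), t ≠ 0 → φ k t ^ D.cartan i (D.simple k) =
      φ i t ^ D.cartan (ρ i) (D.simple (ρ k))) (i j : Fin D.rank) : φ i = φ j := by
  by_contra hne
  obtain ⟨a, ha, b, hb, hab⟩ := Z.conn {k | φ k = φ i} ⟨i, rfl⟩ ⟨j, fun h => hne (Eq.symm h)⟩
  have hne' : a ≠ b := by rintro rfl; exact hb ha
  have h1 : D.bonds a b ≠ 0 := fun h0 => hab (Z.comm a b hne' h0)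
  apply hb
  show φ b = φ i
  rw [← (show φ a = φ i from ha)]
  ext t
  by_cases ht : t = 0
  · subst ht; simp
  · have h2 := hE a b t ht
    rw [L.cartan a b hne' h1, L.cartan _ _ (fun e => hne' (ρ.injective e))
      (by rw [hρ a b hne']; exact h1), zpow_neg, zpow_neg, inv_inj, zpow_one, zpow_one] at h2
    exact h2

end H40.ChevAut
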