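import Cfsg.Agent.Lib.H40.ChevAut2

/-!
Automorphisms of finite Chevalley groups, part 3: the diagram facts and the field property of the
seven data.
-/

set_option autoImplicit false

namespace H40.ChevAut

open H22.RGD H22.Coord H22.RCCheck H22.RCComb H22.ChevTri H22.ChevRel H22.ChevSys H22.ChevMain
open H22.ChevStd H40.RGDOpp H40.RGDAut H40.RGDSyl
open Cfsg.Lie (ChevalleyDatum)
open Cfsg.Lie
open scoped MatrixGroups Matrix

/-- the field automorphisms attached to the nodes come from one of them -/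
def FieldProp (D : ChevalleyDatum) (F : Type*) [Field F] : Prop :=
  ∀ (ρ : Equiv.Perm (Fin D.rank)), D.IsDiagramSymmetry ρ → ∀ φ : Fin D.rank → (F ≃+* F),
    (∀ (i k : Fin D.rank) (t : F), t ≠ 0 → φ k t ^ D.cartan i (D.simple k) =
      φ i t ^ D.cartan (ρ i) (D.simple (ρ k))) →
    ∃ σ : F ≃+* F, ∀ i t, φ i t = σ t ^ D.graphExp (ringChar F) i (ρ i)

theorem fieldProp_of_simply {D : ChevalleyDatum} {F : Type*} [Field F] {X : RCX D} (Z : Diag X)
    (L : Simply D) (h0 : 0 < D.rank) : FieldProp D F := by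
  intro ρ hρ φ hE
  refine ⟨φ ⟨0, h0⟩, fun i t => ?_⟩
  have h1 : D.graphExp (ringChar F) i (ρ i) = 1 := by
    unfold ChevalleyDatum.graphExp
    rw [L.long]; simp
  rw [h1, pow_one, eq_of_simply Z L hρ hE i ⟨0, h0⟩]

theorem mkSimply {D : ChevalleyDatum} {l : ℕ} (hl : l = D.rank)
    (h : ((List.range l).all fun i => (!D.isLong (D.simple i)) && (List.range l).all fun j =>
      decide (i = j) || decide (D.bonds i j = 0) || decide (D.cartan i (D.simple j) = -1)) = true) :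
    Simply D := by
  subst hl
  rw [List.all_eq_true] at h
  constructor
  · intro i j hij hb
    have h1 := h i (List.mem_range.2 i.2)
    rw [Bool.and_eq_true, List.all_eq_true] at h1
    have h2 := h1.2 j (List.mem_range.2 j.2)
    rw [Bool.or_eq_true, Bool.or_eq_true, decide_eq_true_eq, decide_eq_true_eq,
      decide_eq_true_eq] at h2
    rcases h2 with (h2 | h2) | h2
    · exact absurd (Fin.ext h2) hij
    · exact absurd h2 hb
    · exact h2
  · intro i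
    have h1 := h i (List.mem_range.2 i.2)
    rw [Bool.and_eq_true] at h1
    simpa using h1.1

/-! ### the diagrams -/

theorem diagG2 : Diag H22.PoinG2.rcxG2 :=
  mkDiag (l := 2) rfl H22.PoinG2.rowsOk (M := [[1, 6], [6, 1]]) (by decide +kernel)
    (by decide +kernel)
    (H22.ChevSimple.connected_of (l := 2) (coord H22.PoinG2.rcxG2) H22.PoinG2.rowsOk
      (M := [[1, 6], [6, 1]]) (by decide +kernel) [0, 0] [0, 1] (by decide +kernel) (by norm_num))

theorem diagB2 : Diag H22.PoinB2.rcxB2 :=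
  mkDiag (l := 2) rfl H22.PoinB2.rowsOk (M := [[1, 4], [4, 1]]) (by decide +kernel)
    (by decide +kernel)
    (H22.ChevSimple.connected_of (l := 2) (coord H22.PoinB2.rcxB2) H22.PoinB2.rowsOk
      (M := [[1, 4], [4, 1]]) (by decide +kernel) [0, 0] [0, 1] (by decide +kernel) (by norm_num))

theorem diagD4 : Diag H22.PoinD4.rcxD4 :=
  mkDiag (l := 4) rfl H22.PoinD4.rowsOk
    (M := [[1, 3, 2, 2], [3, 1, 3, 3], [2, 3, 1, 2], [2, 3, 2, 1]]) (by decide +kernel)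
    (by decide +kernel)
    (H22.ChevSimple.connected_of (l := 4) (coord H22.PoinD4.rcxD4) H22.PoinD4.rowsOk
      (M := [[1, 3, 2, 2], [3, 1, 3, 3], [2, 3, 1, 2], [2, 3, 2, 1]]) (by decide +kernel)
      [0, 0, 1, 1] [0, 1, 2, 2] (by decide +kernel) (by norm_num))

theorem diagF4 : Diag H22.PoinF4.rcxF4 :=
  mkDiag (l := 4) rfl H22.PoinF4.rowsOk
    (M := [[1, 3, 2, 2], [3, 1, 4, 2], [2, 4, 1, 3], [2, 2, 3, 1]]) (by decide +kernel)
    (by decide +kernel)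
    (H22.ChevSimple.connected_of (l := 4) (coord H22.PoinF4.rcxF4) H22.PoinF4.rowsOk
      (M := [[1, 3, 2, 2], [3, 1, 4, 2], [2, 4, 1, 3], [2, 2, 3, 1]]) (by decide +kernel)
      [0, 0, 1, 2] [0, 1, 2, 3] (by decide +kernel) (by norm_num))

theorem diagE6 : Diag H22.PoinE6.rcxE6 :=
  mkDiag (l := 6) rfl H22.PoinE6.rowsOk
    (M := [[1, 2, 3, 2, 2, 2], [2, 1, 2, 3, 2, 2], [3, 2, 1, 3, 2, 2], [2, 3, 3, 1, 3, 2],
        [2, 2, 2, 3, 1, 3], [2, 2, 2, 2, 3, 1]]) (by decide +kernel)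
    (by decide +kernel)
    (H22.ChevSimple.connected_of (l := 6) (coord H22.PoinE6.rcxE6) H22.PoinE6.rowsOk
      (M := [[1, 2, 3, 2, 2, 2], [2, 1, 2, 3, 2, 2], [3, 2, 1, 3, 2, 2], [2, 3, 3, 1, 3, 2],
        [2, 2, 2, 3, 1, 3], [2, 2, 2, 2, 3, 1]]) (by decide +kernel)
      [0, 3, 0, 2, 3, 4] [0, 3, 1, 2, 3, 4] (by decide +kernel) (by norm_num))

theorem diagE7 : Diag H22.PoinE7.rcxE7 :=
  mkDiag (l := 7) rfl H22.PoinE7.rowsOk
    (M := [[1, 2, 3, 2, 2, 2, 2], [2, 1, 2, 3, 2, 2, 2], [3, 2, 1, 3, 2, 2, 2],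
        [2, 3, 3, 1, 3, 2, 2], [2, 2, 2, 3, 1, 3, 2], [2, 2, 2, 2, 3, 1, 3], [2, 2, 2, 2, 2, 3, 1]])
    (by decide +kernel) (by decide +kernel)
    (H22.ChevSimple.connected_of (l := 7) (coord H22.PoinE7.rcxE7) H22.PoinE7.rowsOk
      (M := [[1, 2, 3, 2, 2, 2, 2], [2, 1, 2, 3, 2, 2, 2], [3, 2, 1, 3, 2, 2, 2],
        [2, 3, 3, 1, 3, 2, 2], [2, 2, 2, 3, 1, 3, 2], [2, 2, 2, 2, 3, 1, 3], [2, 2, 2, 2, 2, 3, 1]])
      (by decide +kernel) [0, 3, 0, 2, 3, 4, 5] [0, 3, 1, 2, 3, 4, 5] (by decide +kernel)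
      (by norm_num))

theorem diagE8 : Diag H22.PoinE8.rcxE8 :=
  mkDiag (l := 8) rfl H22.PoinE8.rowsOk
    (M := [[1, 2, 3, 2, 2, 2, 2, 2], [2, 1, 2, 3, 2, 2, 2, 2], [3, 2, 1, 3, 2, 2, 2, 2],
        [2, 3, 3, 1, 3, 2, 2, 2], [2, 2, 2, 3, 1, 3, 2, 2], [2, 2, 2, 2, 3, 1, 3, 2],
        [2, 2, 2, 2, 2, 3, 1, 3], [2, 2, 2, 2, 2, 2, 3, 1]])
    (by decide +kernel) (by decide +kernel)
    (H22.ChevSimple.connected_of (l := 8) (coord H22.PoinE8.rcxE8) H22.PoinE8.rowsOk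
      (M := [[1, 2, 3, 2, 2, 2, 2, 2], [2, 1, 2, 3, 2, 2, 2, 2], [3, 2, 1, 3, 2, 2, 2, 2],
        [2, 3, 3, 1, 3, 2, 2, 2], [2, 2, 2, 3, 1, 3, 2, 2], [2, 2, 2, 2, 3, 1, 3, 2],
        [2, 2, 2, 2, 2, 3, 1, 3], [2, 2, 2, 2, 2, 2, 3, 1]])
      (by decide +kernel) [0, 3, 0, 2, 3, 4, 5, 6] [0, 3, 1, 2, 3, 4, 5, 6] (by decide +kernel)
      (by norm_num))

theorem slD4 : Simply chevD4 := mkSimply (l := 4) rfl (by decide +kernel)
theorem slE6 : Simply chevE6 := mkSimply (l := 6) rfl (by decide +kernel)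
theorem slE7 : Simply chevE7 := mkSimply (l := 7) rfl (by decide +kernel)
theorem slE8 : Simply chevE8 := mkSimply (l := 8) rfl (by decide +kernel)

section fieldprops

variable (F : Type*) [Field F]

theorem fpD4 : FieldProp chevD4 F := fieldProp_of_simply diagD4 slD4 (by decide)
theorem fpE6 : FieldProp chevE6 F := fieldProp_of_simply diagE6 slE6 (by decide)
theorem fpE7 : FieldProp chevE7 F := fieldProp_of_simply diagE7 slE7 (by decide)
theorem fpE8 : FieldProp chevE8 F := fieldProp_of_simply diagE8 slE8 (by decide)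

variable {F}

theorem char_of_sq {φ ψ : F ≃+* F} (h : ∀ t, t ≠ 0 → φ t = ψ t ^ 2) : ringChar F = 2 := by
  by_contra hne
  have h2 : (2 : F) ≠ 0 := Ring.two_ne_zero hne
  have h3 := h 2 h2
  have e1 : φ 2 = 2 := map_ofNat φ 2
  have e2 : ψ 2 = 2 := map_ofNat ψ 2
  rw [e1, e2] at h3
  apply h2
  have : (2 : F) * (2 - 1) = 0 := by rw [mul_sub, ← pow_two, ← h3]; ring
  have h4 : (2 : F) - 1 = 1 := by norm_num
  rwa [h4, mul_one] at this

theorem char_of_cube {φ ψ : F ≃+* F} (h : ∀ t, t ≠ 0 → φ t = ψ t ^ 3) (t : F) :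
    t ^ 3 = t ^ ringChar F := by
  have h' : ∀ t, φ t = ψ t ^ 3 := by
    intro t
    by_cases ht : t = 0
    · subst ht; simp
    · exact h t ht
  have hadd : ∀ x : F, 3 * (x * (1 + x)) = 0 := by
    intro x
    obtain ⟨t, rfl⟩ := ψ.surjective x
    have h1 := h' (1 + t)
    rw [map_add, map_add, map_one, map_one, h'] at h1
    have : (3 : F) * (ψ t * (1 + ψ t)) = (1 + ψ t) ^ 3 - (1 + ψ t ^ 3) := by ring
    rw [this, ← h1, sub_self]
  by_cases h3 : (3 : F) = 0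
  · have : ringChar F = 3 := by
      have h4 : ringChar F ∣ 3 := (ringChar.spec F 3).1 (by exact_mod_cast h3)
      rcases (Nat.dvd_prime Nat.prime_three).1 h4 with h5 | h5
      · have h6 := (ringChar.spec F 1).2 (by rw [h5])
        rw [Nat.cast_one] at h6
        exact absurd h6 one_ne_zero
      · exact h5
    rw [this]
  · have h4 : ∀ x : F, x * (1 + x) = 0 := fun x =>
      (mul_eq_zero.1 (hadd x)).resolve_left h3
    have h5 : (2 : F) = 0 := by
      have := h4 1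
      rw [one_mul] at this
      rw [← this]; norm_num
    have h6 : ringChar F = 2 := by
      by_contra hne
      exact Ring.two_ne_zero hne h5
    rw [h6]
    have h7 := h4 t
    have h8 : t ^ 2 = t := by
      have : t ^ 2 = t * (1 + t) + t - 2 * t := by ring
      rw [this, h7, h5]; ring
    calc t ^ 3 = t ^ 2 * t := by ring
      _ = t ^ 2 := by rw [h8, ← pow_two, h8]

theorem perm_two (ρ : Equiv.Perm (Fin 2)) : (ρ 0 = 0 ∧ ρ 1 = 1) ∨ (ρ 0 = 1 ∧ ρ 1 = 0) := by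
  revert ρ; decide

theorem inv_eq_of {φ ψ : F ≃+* F} (h : ∀ t, t ≠ 0 → φ t ^ (-1 : ℤ) = ψ t ^ (-1 : ℤ)) : φ = ψ := by
  ext t
  by_cases ht : t = 0
  · subst ht; simp
  · have := h t ht
    rwa [zpow_neg, zpow_neg, inv_inj, zpow_one, zpow_one] at this

theorem pow_eq_of {φ ψ : F ≃+* F} {m : ℕ}
    (h : ∀ t, t ≠ 0 → φ t ^ (-1 : ℤ) = ψ t ^ (-(m : ℤ))) (t : F) (ht : t ≠ 0) : φ t = ψ t ^ m := by
  have := h t ht
  rwa [zpow_neg, zpow_neg, inv_inj, zpow_one, zpow_natCast] at this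

theorem two_aux {m : ℕ} (hm0 : m ≠ 0) (hm : ∀ φ ψ : F ≃+* F, (∀ t, t ≠ 0 → φ t = ψ t ^ m) →
      ∀ t : F, t ^ m = t ^ ringChar F)
    {A : Fin 2 → Fin 2 → ℤ} (h10 : A 1 0 = -1) (h01 : A 0 1 = -(m : ℤ))
    {e : Fin 2 → Fin 2 → ℕ} (e01 : e 0 1 = ringChar F) (e10 : e 1 0 = 1) (e00 : e 0 0 = 1)
    (e11 : e 1 1 = 1) (ρ : Equiv.Perm (Fin 2)) (φ : Fin 2 → (F ≃+* F))
    (hE : ∀ i k t, t ≠ 0 → φ k t ^ A i k = φ i t ^ A (ρ i) (ρ k)) :
    ∃ σ : F ≃+* F, ∀ i t, φ i t = σ t ^ e i (ρ i) := by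
  rcases perm_two ρ with ⟨h0, h1⟩ | ⟨h0, h1⟩
  · have e : φ 0 = φ 1 := inv_eq_of fun t ht => by
      have := hE 1 0 t ht
      rwa [h0, h1, h10] at this
    refine ⟨φ 1, ?_⟩
    rw [Fin.forall_fin_two]
    refine ⟨fun t => ?_, fun t => ?_⟩
    · rw [h0, e00, pow_one, e]
    · rw [h1, e11, pow_one]
  · have e : ∀ t, t ≠ 0 → φ 0 t = φ 1 t ^ m := pow_eq_of fun t ht => by
      have := hE 1 0 t ht
      rwa [h0, h1, h10, h01] at this
    refine ⟨φ 1, ?_⟩
    rw [Fin.forall_fin_two]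
    refine ⟨fun t => ?_, fun t => ?_⟩
    · rw [h0, e01, ← hm _ _ e]
      by_cases ht : t = 0
      · subst ht; simp [hm0]
      · exact e t ht
    · rw [h1, e10, pow_one]

theorem perm_four (ρ : Equiv.Perm (Fin 4)) (b : Fin 4 → Fin 4 → ℤ)
    (hb : ∀ i j, i ≠ j → (b i j = 0 ↔ ¬ (i.val + 1 = j.val ∨ j.val + 1 = i.val)))
    (h : ∀ i j, i ≠ j → b (ρ i) (ρ j) = b i j) (hb1 : b 0 1 = 1) (hb2 : b 1 2 = 2) :
    (ρ 0 = 0 ∧ ρ 1 = 1 ∧ ρ 2 = 2 ∧ ρ 3 = 3) ∨ (ρ 0 = 3 ∧ ρ 1 = 2 ∧ ρ 2 = 1 ∧ ρ 3 = 0) := by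
  have h1 : ∀ i j, i ≠ j → ((ρ i).val + 1 = (ρ j).val ∨ (ρ j).val + 1 = (ρ i).val ↔
      (i.val + 1 = j.val ∨ j.val + 1 = i.val)) := by
    intro i j hij
    have h2 := hb i j hij
    have h3 := hb _ _ (fun e => hij (ρ.injective e))
    rw [h i j hij] at h3
    rw [← not_iff_not, ← h3, h2]
  clear hb h hb1 hb2
  revert ρ; decide

theorem four_aux {A : Fin 4 → Fin 4 → ℤ} (h01 : A 0 1 = -1) (h10 : A 1 0 = -1) (h12 : A 1 2 = -2)
    (h21 : A 2 1 = -1) (h23 : A 2 3 = -1) (h32 : A 3 2 = -1)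
    {e : Fin 4 → Fin 4 → ℕ} (e0 : ∀ i, e i i = 1) (e03 : e 0 3 = ringChar F)
    (e12 : e 1 2 = ringChar F) (e21 : e 2 1 = 1) (e30 : e 3 0 = 1)
    (ρ : Equiv.Perm (Fin 4))
    (hρ : (ρ 0 = 0 ∧ ρ 1 = 1 ∧ ρ 2 = 2 ∧ ρ 3 = 3) ∨ (ρ 0 = 3 ∧ ρ 1 = 2 ∧ ρ 2 = 1 ∧ ρ 3 = 0))
    (φ : Fin 4 → (F ≃+* F))
    (hE : ∀ i k t, t ≠ 0 → φ k t ^ A i k = φ i t ^ A (ρ i) (ρ k)) :
    ∃ σ : F ≃+* F, ∀ i t, φ i t = σ t ^ e i (ρ i) := by
  have all4 : ∀ {P : Fin 4 → Prop}, P 0 → P 1 → P 2 → P 3 → ∀ i, P i := by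
    intro P h0 h1 h2 h3 i
    fin_cases i <;> assumption
  rcases hρ with ⟨r0, r1, r2, r3⟩ | ⟨r0, r1, r2, r3⟩
  · have ea : φ 0 = φ 1 := inv_eq_of fun t ht => by
      have := hE 1 0 t ht
      rwa [r0, r1, h10] at this
    have eb : φ 1 = φ 2 := inv_eq_of fun t ht => by
      have := hE 2 1 t ht
      rwa [r2, r1, h21] at this
    have ec : φ 2 = φ 3 := inv_eq_of fun t ht => by
      have := hE 3 2 t ht
      rwa [r3, r2, h32] at this
    refine ⟨φ 3, all4 ?_ ?_ ?_ ?_⟩ <;> intro t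
    · rw [r0, e0, pow_one, ea, eb, ec]
    · rw [r1, e0, pow_one, eb, ec]
    · rw [r2, e0, pow_one, ec]
    · rw [r3, e0, pow_one]
  · have ea : φ 0 = φ 1 := inv_eq_of fun t ht => by
      have := hE 1 0 t ht
      rwa [r0, r1, h10, h23] at this
    have eb : ∀ t, t ≠ 0 → φ 1 t = φ 2 t ^ 2 := pow_eq_of fun t ht => by
      have := hE 2 1 t ht
      rwa [r2, r1, h21, h12] at this
    have ec : φ 2 = φ 3 := inv_eq_of fun t ht => by
      have := hE 3 2 t ht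
      rwa [r3, r2, h32, h01] at this
    have hc : ringChar F = 2 := char_of_sq eb
    have eb' : ∀ t, φ 1 t = φ 2 t ^ 2 := by
      intro t
      by_cases ht : t = 0
      · subst ht; simp
      · exact eb t ht
    refine ⟨φ 3, all4 ?_ ?_ ?_ ?_⟩ <;> intro t
    · rw [r0, e03, ea, hc, ← ec, eb']
    · rw [r1, e12, hc, ← ec, eb']
    · rw [r2, e21, pow_one, ec]
    · rw [r3, e30, pow_one]

variable (F)

theorem graphExp_self (D : ChevalleyDatum) (c i : ℕ) : D.graphExp c i i = 1 := by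
  unfold ChevalleyDatum.graphExp
  cases D.isLong (D.simple i) <;> simp

theorem graphExp_of {D : ChevalleyDatum} {i j : ℕ} (hi : D.isLong (D.simple i) = false)
    (hj : D.isLong (D.simple j) = true) (c : ℕ) : D.graphExp c i j = c := by
  unfold ChevalleyDatum.graphExp
  rw [hi, hj]; simp

theorem graphExp_of_long {D : ChevalleyDatum} {i : ℕ} (hi : D.isLong (D.simple i) = true)
    (c j : ℕ) : D.graphExp c i j = 1 := by
  unfold ChevalleyDatum.graphExp
  rw [hi]; simp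

theorem fpB2 : FieldProp chevB2 F := by
  intro ρ _ φ hE
  have l0 : chevB2.isLong (chevB2.simple 0) = false := by decide +kernel
  have l1 : chevB2.isLong (chevB2.simple 1) = true := by decide +kernel
  exact two_aux (m := 2) two_ne_zero
    (fun φ ψ h t => by rw [char_of_sq h])
    (A := fun i k => chevB2.cartan i (chevB2.simple k))
    (by decide +kernel) (by decide +kernel)
    (e := fun i j => chevB2.graphExp (ringChar F) i j)
    (graphExp_of l0 l1 _) (graphExp_of_long l1 _ _) (graphExp_self _ _ _) (graphExp_self _ _ _)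
    ρ φ hE

theorem fpG2 : FieldProp chevG2 F := by
  intro ρ _ φ hE
  have l0 : chevG2.isLong (chevG2.simple 0) = false := by decide +kernel
  have l1 : chevG2.isLong (chevG2.simple 1) = true := by decide +kernel
  exact two_aux (m := 3) three_ne_zero
    (fun φ ψ h t => char_of_cube h t)
    (A := fun i k => chevG2.cartan i (chevG2.simple k))
    (by decide +kernel) (by decide +kernel)
    (e := fun i j => chevG2.graphExp (ringChar F) i j)
    (graphExp_of l0 l1 _) (graphExp_of_long l1 _ _) (graphExp_self _ _ _) (graphExp_self _ _ _)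
    ρ φ hE

theorem permF4 (ρ : Equiv.Perm (Fin 4)) (hρ : chevF4.IsDiagramSymmetry ρ) :
    (ρ 0 = 0 ∧ ρ 1 = 1 ∧ ρ 2 = 2 ∧ ρ 3 = 3) ∨ (ρ 0 = 3 ∧ ρ 1 = 2 ∧ ρ 2 = 1 ∧ ρ 3 = 0) :=
  perm_four ρ (fun i j => chevF4.bonds i j) (by decide +kernel) hρ (by decide +kernel)
    (by decide +kernel)

theorem fpF4 : FieldProp chevF4 F := by
  intro ρ hρ φ hE
  have l0 : chevF4.isLong (chevF4.simple 0) = false := by decide +kernel
  have l1 : chevF4.isLong (chevF4.simple 1) = false := by decide +kernel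
  have l2 : chevF4.isLong (chevF4.simple 2) = true := by decide +kernel
  have l3 : chevF4.isLong (chevF4.simple 3) = true := by decide +kernel
  exact four_aux (A := fun i k => chevF4.cartan i (chevF4.simple k))
    (by decide +kernel) (by decide +kernel) (by decide +kernel) (by decide +kernel)
    (by decide +kernel) (by decide +kernel)
    (e := fun i j => chevF4.graphExp (ringChar F) i j)
    (fun i => graphExp_self _ _ _) (graphExp_of l0 l3 _) (graphExp_of l1 l2 _)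
    (graphExp_of_long l2 _ _) (graphExp_of_long l3 _ _)
    ρ (permF4 ρ hρ) φ hE

end fieldprops

end H40.ChevAut
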