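import Cfsg.Agent.Lib.H40.ChevAut2
import Cfsg.Agent.Lib.H22.ChevField

/-!
Automorphisms of finite Chevalley groups, part 4: diagonal and field automorphisms, generation by
the simple root subgroups and their negatives, the main theorem.
-/

set_option autoImplicit false

namespace H40.ChevAut

open H22.RGD H22.Coord H22.RCCheck H22.RCComb H22.ChevTri H22.ChevRel H22.ChevSys H22.ChevMain
open H22.ChevStd H40.RGDOpp H40.RGDAut H40.RGDSyl H22.ChevTorus H22.ChevHom
open Cfsg.Lie (ChevalleyDatum)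
open scoped MatrixGroups Matrix

/-- conjugation by a normalising element -/
def conjEquiv {G : Type*} [Group G] (K : Subgroup G) (t : G) (h : t ∈ stabSub K) : K ≃* K where
  toFun x := ⟨t * x * t⁻¹, conj_mem_of_stabSub h x.2⟩
  invFun x := ⟨t⁻¹ * x * t, inv_conj_mem_of_stabSub h x.2⟩
  left_inv x := Subtype.ext (by simp [mul_assoc])
  right_inv x := Subtype.ext (by simp [mul_assoc])
  map_mul' x y := Subtype.ext (by simp [mul_assoc])

theorem conjEquiv_val {G : Type*} [Group G] (K : Subgroup G) (t : G) (h : t ∈ stabSub K) (x : K) :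
    (conjEquiv K t h x : G) = t * x * t⁻¹ := rfl

variable {D : ChevalleyDatum} {F : Type*} [Field F]

/-- the character of the root lattice with given values on the simple roots -/
def chr (Q : RC D) (a : Fin D.rank → Fˣ) (r : ℕ) : Fˣ := ∏ j, a j ^ Q.co r j

theorem chr_simple (Q : RC D) (a : Fin D.rank → Fˣ) (i : Fin D.rank) :
    chr Q a (D.simple i) = a i := by
  unfold chr
  rw [Finset.prod_eq_single i]
  · rw [Q.co_simple i i.2 i i.2, if_pos rfl, zpow_one]
  · intro j _ hj
    rw [Q.co_simple i i.2 j j.2, if_neg (fun e => hj (Fin.ext e)), zpow_zero]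
  · intro h; exact absurd (Finset.mem_univ _) h

theorem chr_neg (Q : RC D) (a : Fin D.rank → Fˣ) {r : ℕ} (hr : r < D.nroots) :
    chr Q a (D.neg r) = (chr Q a r)⁻¹ := by
  unfold chr
  rw [← Finset.prod_inv_distrib]
  refine Finset.prod_congr rfl fun j _ => ?_
  rw [co_neg' Q hr j.2, zpow_neg]

theorem chr_isRootCharacter (Q : RC D) (a : Fin D.rank → Fˣ) :
    D.IsRootCharacter (F := F) (chr Q a) := by
  refine ⟨fun r hr => chr_neg Q a hr, fun r s k hr hs hk => ?_⟩
  obtain ⟨_, _, h⟩ := chainRoot_co Q hr le_rfl hk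
  unfold chr
  rw [← Finset.prod_mul_distrib]
  refine Finset.prod_congr rfl fun j _ => ?_
  rw [h j j.2, ← zpow_add]
  simp

theorem chr_mul (Q : RC D) (a b : Fin D.rank → Fˣ) (r : ℕ) :
    chr Q (a * b) r = chr Q a r * chr Q b r := by
  unfold chr
  rw [← Finset.prod_mul_distrib]
  refine Finset.prod_congr rfl fun j _ => ?_
  rw [Pi.mul_apply, mul_zpow]

theorem chr_inv (Q : RC D) (a : Fin D.rank → Fˣ) (r : ℕ) :
    chr Q a⁻¹ r = (chr Q a r)⁻¹ := by
  unfold chr
  rw [← Finset.prod_inv_distrib]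
  refine Finset.prod_congr rfl fun j _ => ?_
  rw [Pi.inv_apply, inv_zpow]

/-- the diagonal matrix of a character -/
def Tt (Q : RC D) (a : Fin D.rank → Fˣ) : GL D.Idx F := dg D F (fun s => chr Q a s)

theorem Tt_mul (Q : RC D) (a b : Fin D.rank → Fˣ) :
    Tt (F := F) Q (a * b) = Tt Q a * Tt Q b := by
  unfold Tt
  rw [← map_mul]
  congr 1
  funext s
  exact chr_mul Q a b s

theorem Tt_inv (Q : RC D) (a : Fin D.rank → Fˣ) : (Tt Q a)⁻¹ = Tt (F := F) Q a⁻¹ := by
  unfold Tt
  rw [← map_inv]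
  congr 1
  funext s
  exact (chr_inv Q a s).symm

theorem Tt_val (Q : RC D) (a : Fin D.rank → Fˣ) :
    ((Tt Q a : GL D.Idx F) : Matrix D.Idx D.Idx F) = D.charDiag F (chr Q a) := rfl

theorem wt_prod (Q : RC D) (a : Fin D.rank → Fˣ) (x : D.Idx) :
    (Sum.elim (fun _ => (1 : F)) (fun s : Fin D.nroots => (chr Q a s : F))) x =
      ((∏ j : Fin D.rank, a j ^ wt Q x j : Fˣ) : F) := by
  rcases x with x | x
  · simp [wt]
  · simp [wt, chr]

variable (R : Rel D F) (X : RCX D)

theorem Tt_conj (Q : RC D) (a : Fin D.rank → Fˣ) {s : ℕ} (hs' : s < D.nroots) (t : F) :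
    Tt Q a * xg R s t * (Tt Q a)⁻¹ = xg R s ((chr Q a s : F) * t) := by
  rw [mul_inv_eq_iff_eq_mul]
  apply Units.ext
  rw [Units.val_mul, Units.val_mul, xg_val, xg_val, Tt_val]
  unfold ChevalleyDatum.charDiag
  ext row col
  rw [Matrix.diagonal_mul, Matrix.mul_diagonal]
  have h0 := wt_prod (F := F) Q a row
  have h0' := wt_prod (F := F) Q a col
  rw [h0, h0']
  obtain ⟨k, b, h1, h2⟩ := x_homog F Q hs' row col
  rw [h1, h1]
  by_cases hb : b = 0
  · rw [hb]; simp
  · have h3 : (∏ j : Fin D.rank, a j ^ wt Q row j) =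
        (∏ j : Fin D.rank, a j ^ wt Q col j) * (chr Q a s) ^ k := by
      unfold chr
      rw [← Finset.prod_pow, ← Finset.prod_mul_distrib]
      refine Finset.prod_congr rfl fun j _ => ?_
      rw [h2 hb j j.2, ← zpow_natCast, ← zpow_mul, ← zpow_add]
      congr 1
      ring
    rw [h3, mul_pow]
    push_cast
    ring

include R in
theorem Tt_stab (Q : RC D) (a : Fin D.rank → Fˣ) : Tt (F := F) Q a ∈ stabSub (D.group F) := by
  have key : ∀ a : Fin D.rank → Fˣ, cj (Tt (F := F) Q a) (D.group F) ≤ D.group F := by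
    intro a
    rw [cj, group_eq_closure, MonoidHom.map_closure, Subgroup.closure_le, ← group_eq_closure]
    rintro _ ⟨g, ⟨r, t, hr, hg⟩, rfl⟩
    rw [xg_eq R hg]
    show Tt Q a * xg R r t * (Tt Q a)⁻¹ ∈ D.group F
    rw [Tt_conj R Q a hr]
    exact xg_mem_group R hr _
  rw [mem_stabSub]
  apply le_antisymm (key a)
  have h1 := cj_mono (g := Tt (F := F) Q a) (key a⁻¹)
  rwa [← Tt_inv, cj_cj_inv] at h1

/-- the diagonal automorphism -/
def dAut (a : Fin D.rank → Fˣ) : ↥(D.group F) ≃* ↥(D.group F) :=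
  conjEquiv (D.group F) (Tt X.rc a) (Tt_stab R X.rc a)

theorem dAut_xe (a : Fin D.rank → Fˣ) (s : Fin D.nroots) (t : F) :
    dAut R X a (xe R s t) = xe R s ((chr X.rc a s : F) * t) :=
  Subtype.ext (Tt_conj R X.rc a s.2 t)

theorem dAut_isDiagonal (a : Fin D.rank → Fˣ) : D.IsDiagonalAut (dAut R X a) := by
  refine ⟨chr X.rc a, chr_isRootCharacter X.rc a, fun g => ?_⟩
  show ((Tt X.rc a * (g : GL D.Idx F) * (Tt X.rc a)⁻¹ : GL D.Idx F) : Matrix D.Idx D.Idx F) = _
  rw [Units.val_mul, Units.val_mul, Tt_inv, Tt_val, Tt_val]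
  congr 2
  funext r
  exact chr_inv X.rc a r

theorem dAut_simple (a : Fin D.rank → Fˣ) (i : Fin D.rank) (t : F) :
    dAut R X a (xe R ((comb X).simple i) t) = xe R ((comb X).simple i) ((a i : F) * t) := by
  rw [dAut_xe, comb_simple_val, chr_simple]

theorem dAut_neg_simple (a : Fin D.rank → Fˣ) (i : Fin D.rank) (t : F) :
    dAut R X a (xe R ((comb X).neg ((comb X).simple i)) t) =
      xe R ((comb X).neg ((comb X).simple i)) (((a i)⁻¹ : Fˣ) * t) := by
  rw [dAut_xe, comb_neg_val, comb_simple_val, chr_neg X.rc a (X.rc.simple_lt i i.2), chr_simple]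

/-! ### field automorphisms -/

/-- the field automorphism -/
noncomputable def fAut (σ : F ≃+* F) : ↥(D.group F) ≃* ↥(D.group F) :=
  H22.ChevField.fieldEquiv D σ

theorem fAut_val (σ : F ≃+* F) (g : ↥(D.group F)) :
    ((fAut σ g : GL D.Idx F) : Matrix D.Idx D.Idx F) =
      ((g : GL D.Idx F) : Matrix D.Idx D.Idx F).map σ := rfl

theorem fAut_xe (σ : F ≃+* F) (s : Fin D.nroots) (t : F) :
    fAut σ (xe R s t) = xe R s (σ t) := by
  rw [xe_eq_iff, fAut_val]
  exact H22.ChevField.x_map (σ : F →+* F) s t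

include R in
theorem fAut_isField (σ : F ≃+* F) : D.IsFieldAut (fAut (D := D) σ) := by
  refine ⟨σ, fun g r t hr hg => ?_⟩
  have : g = xe R ⟨r, hr⟩ t := (xe_eq_iff R _ _ _).2 hg
  rw [this, fAut_xe]; rfl

/-! ### generation -/

include X in
/-- the simple root subgroups and their negatives generate -/
theorem closure_simple_eq_top : Subgroup.closure {g : ↥(D.group F) | ∃ (i : Fin D.rank) (t : F),
    g = xe R ((comb X).simple i) t ∨ g = xe R ((comb X).neg ((comb X).simple i)) t} = ⊤ := by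
  set K := Subgroup.closure {g : ↥(D.group F) | ∃ (i : Fin D.rank) (t : F),
    g = xe R ((comb X).simple i) t ∨ g = xe R ((comb X).neg ((comb X).simple i)) t} with hK
  have hp : ∀ i t, xe R ((comb X).simple i) t ∈ K := fun i t =>
    Subgroup.subset_closure ⟨i, t, Or.inl rfl⟩
  have hn : ∀ i t, xe R ((comb X).neg ((comb X).simple i)) t ∈ K := fun i t =>
    Subgroup.subset_closure ⟨i, t, Or.inr rfl⟩
  have hN : ∀ i, (sys R X).n i ∈ K := by
    intro i
    rw [← ne_one]
    exact K.mul_mem (K.mul_mem (hp i 1) (hn i _)) (hp i 1)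
  have hnw : ∀ L, (sys R X).nw L ∈ K := by
    intro L
    induction L with
    | nil => exact one_mem _
    | cons i L ih => rw [Sys.nw_cons]; exact K.mul_mem (hN i) ih
  have hr : ∀ r : Fin D.nroots, ∀ t : F, xe R r t ∈ K := by
    intro r t
    obtain ⟨L, i, rfl⟩ := exists_simple_conj X r
    have h1 := (sys R X).cj_nw L ((comb X).simple i)
    have h2 : xe R ((comb X).w L ((comb X).simple i)) t ∈ cj ((sys R X).nw L)
        ((sys R X).X ((comb X).simple i)) := by rw [h1]; exact xe_mem R X _ _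
    obtain ⟨y, hy, e⟩ := h2
    rw [SetLike.mem_coe, mem_X] at hy
    obtain ⟨u, rfl⟩ := hy
    rw [← e]
    exact K.mul_mem (K.mul_mem (hnw L) (hp i u)) (K.inv_mem (hnw L))
  rw [eq_top_iff]
  rintro ⟨g, hg⟩ _
  have h1 : D.group F ≤ K.map (D.group F).subtype := by
    nth_rewrite 1 [group_eq_closure]
    rw [Subgroup.closure_le]
    rintro x ⟨r, t, hr', hx⟩
    exact ⟨xe R ⟨r, hr'⟩ t, hr _ _, (xg_eq R hx).symm⟩
  obtain ⟨y, hy, e⟩ := h1 hg
  have : (⟨g, hg⟩ : ↥(D.group F)) = y := Subtype.ext e.symm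
  rw [this]; exact hy

theorem ext_simple {M : Type*} [Group M] {φ ψ : ↥(D.group F) →* M}
    (hp : ∀ i t, φ (xe R ((comb X).simple i) t) = ψ (xe R ((comb X).simple i) t))
    (hn : ∀ i t, φ (xe R ((comb X).neg ((comb X).simple i)) t) =
      ψ (xe R ((comb X).neg ((comb X).simple i)) t)) : φ = ψ := by
  apply MonoidHom.eq_of_eqOn_dense (closure_simple_eq_top R X)
  rintro g ⟨i, t, rfl | rfl⟩
  · exact hp i t
  · exact hn i t

end H40.ChevAut
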