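import Cfsg.Agent.Lib.H40.ChevAut3
import Cfsg.Agent.Lib.H40.ChevAut4

/-!
Automorphisms of finite Chevalley groups, part 5: every automorphism is a product of an inner, a
diagonal, a graph and a field automorphism.
-/

set_option autoImplicit false

namespace H40.ChevAut

open H22.RGD H22.Coord H22.RCCheck H22.RCComb H22.ChevTri H22.ChevRel H22.ChevSys H22.ChevMain
open H22.ChevStd H40.RGDOpp H40.RGDAut H40.RGDSyl H22.ChevTorus H22.ChevHom
open Cfsg.Lie (ChevalleyDatum)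
open scoped MatrixGroups Matrix

variable {D : ChevalleyDatum} {F : Type*} [Field F] (R : Rel D F) (X : RCX D)

theorem dAut_symm (a : Fin D.rank → Fˣ) (x : ↥(D.group F)) :
    (dAut R X a).symm x = dAut R X a⁻¹ x := by
  apply Subtype.ext
  show (Tt X.rc a)⁻¹ * (x : GL D.Idx F) * Tt X.rc a =
    Tt X.rc a⁻¹ * (x : GL D.Idx F) * (Tt X.rc a⁻¹)⁻¹
  rw [Tt_inv, Tt_inv, inv_inv]

theorem fAut_symm (σ : F ≃+* F) (x : ↥(D.group F)) :
    (fAut σ).symm x = fAut σ.symm x := by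
  rw [MulEquiv.symm_apply_eq]
  apply Subtype.ext
  apply Units.ext
  rw [fAut_val, fAut_val]
  ext i j
  simp [Matrix.map_apply]

/-- a graph automorphism with permutation `ρ` and exponents -/
structure IsG (g : ↥(D.group F) ≃* ↥(D.group F)) (ρ : Equiv.Perm (Fin D.rank)) : Prop where
  sym : D.IsDiagramSymmetry ρ
  pos : ∀ i t, g (xe R ((comb X).simple i) t) =
    xe R ((comb X).simple (ρ i)) (t ^ D.graphExp (ringChar F) i (ρ i))
  neg : ∀ i t, g (xe R ((comb X).neg ((comb X).simple i)) t) =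
    xe R ((comb X).neg ((comb X).simple (ρ i))) (t ^ D.graphExp (ringChar F) i (ρ i))

theorem IsG.isGraph {g : ↥(D.group F) ≃* ↥(D.group F)} {ρ : Equiv.Perm (Fin D.rank)}
    (h : IsG R X g ρ) : D.IsGraphAut g := by
  refine ⟨ρ, h.sym, fun y i t => ⟨fun hy => ?_, fun hy => ?_⟩⟩
  · have : y = xe R ((comb X).simple i) t := (xe_eq_iff R _ _ _).2 hy
    rw [this, h.pos]; rfl
  · have : y = xe R ((comb X).neg ((comb X).simple i)) t := (xe_eq_iff R _ _ _).2 hy
    rw [this, h.neg]; rfl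

theorem isG_of_isGraph {g : ↥(D.group F) ≃* ↥(D.group F)} (h : D.IsGraphAut g) :
    ∃ ρ, IsG R X g ρ := by
  obtain ⟨ρ, h1, h2⟩ := h
  refine ⟨ρ, h1, fun i t => ?_, fun i t => ?_⟩
  · rw [xe_eq_iff]; exact (h2 _ i t).1 rfl
  · rw [xe_eq_iff]; exact (h2 _ i t).2 rfl

/-- the normal form of a normalised automorphism -/
theorem Dat.normalForm [Finite F] {R : Rel D F} {X : RCX D} (Z : Diag X) (FP : FieldProp D F)
    {θ : ↥(D.group F) ≃* ↥(D.group F)} {ρ : Equiv.Perm (Fin D.rank)} {f g : Fin D.rank → F → F}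
    (h : Dat R X θ ρ f g) : ∃ (a : Fin D.rank → Fˣ) (γ : ↥(D.group F) ≃* ↥(D.group F)) (σ : F ≃+* F),
      IsG R X γ ρ ∧ ∀ y, θ y = dAut R X a (γ (fAut σ y)) := by
  have hρ := h.symmetry Z
  obtain ⟨σ, hσ⟩ := FP ρ hρ h.phi (fun i k t ht => h.phi_rel i k ht)
  have hc : ∀ i, f i 1 ≠ 0 := fun i => h.f_ne i one_ne_zero
  set a : Fin D.rank → Fˣ := fun j => Units.mk0 (f (ρ.symm j) 1) (hc _) with ha
  have haρ : ∀ i, (a (ρ i) : F) = f i 1 := fun i => by simp [ha]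
  refine ⟨a, ((fAut σ).symm.trans θ).trans (dAut R X a).symm, σ, ⟨hρ, fun i t => ?_, fun i t => ?_⟩,
    fun y => ?_⟩
  · rw [MulEquiv.trans_apply, MulEquiv.trans_apply, fAut_symm, fAut_xe, h.pos, dAut_symm,
      dAut_simple, h.f_eq, hσ]
    congr 1
    rw [Pi.inv_apply, Units.val_inv_eq_inv_val, haρ, ← mul_assoc, inv_mul_cancel₀ (hc i), one_mul,
      RingEquiv.apply_symm_apply]
  · rw [MulEquiv.trans_apply, MulEquiv.trans_apply, fAut_symm, fAut_xe, h.neg, dAut_symm,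
      dAut_neg_simple, h.g_eq', hσ]
    congr 1
    rw [Pi.inv_apply, inv_inv, haρ, ← mul_assoc, mul_inv_cancel₀ (hc i), one_mul,
      RingEquiv.apply_symm_apply]
  · simp

include R in
/-- MAIN THEOREM -/
theorem main [Finite F] (Z : Diag X) (FP : FieldProp D F) (θ : ↥(D.group F) ≃* ↥(D.group F)) :
    ∃ (x : ↥(D.group F)) (d g f : ↥(D.group F) ≃* ↥(D.group F)),
      D.IsDiagonalAut d ∧ D.IsGraphAut g ∧ D.IsFieldAut f ∧
      ∀ y : ↥(D.group F), θ y = x * d (g (f y)) * x⁻¹ := by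
  obtain ⟨y0, hy⟩ := exists_norm' R X θ
  obtain ⟨ρ, f, g, hdat⟩ := exists_dat R X hy
  obtain ⟨a, γ, σ, hγ, e⟩ := hdat.normalForm Z FP
  refine ⟨y0⁻¹, dAut R X a, γ, fAut σ, dAut_isDiagonal R X a, hγ.isGraph, fAut_isField R σ,
    fun y => ?_⟩
  rw [← e]
  simp [mul_assoc]

/-- the facts on a datum used in the theory -/
structure Facts (D : ChevalleyDatum) (F : Type*) [Field F] where
  rel : Rel D F
  rcx : RCX D
  diag : Diag rcx
  fp : FieldProp D F

end H40.ChevAut
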