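import Cfsg.Agent.Lib.H40.ChevAut5

/-!
Characters of the root lattice are determined by the simple roots; `G ∩ Ĥ ≤ H`.
-/

set_option autoImplicit false

namespace H40.ChevAut

open H22.RGD H22.Coord H22.RCCheck H22.RCComb H22.ChevTri H22.ChevRel H22.ChevSys H22.ChevMain
open H22.ChevStd H40.RGDOpp H40.RGDAut H40.RGDSyl H22.ChevTorus H22.ChevHom
open Cfsg.Lie (ChevalleyDatum)
open scoped MatrixGroups Matrix

variable {D : ChevalleyDatum} {F : Type*} [Field F]

/-- a positive root which is not simple is the sum of a simple root and a root -/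
theorem exists_chain (Q : RC D) {r : ℕ} (hr : r < D.nroots) {i : ℕ} (hi : i < D.rank)
    (hne : r ≠ D.simple i) (hne' : r ≠ D.neg (D.simple i)) (hc : 0 < D.cartan i r) :
    ∃ s, D.chainRoot (D.neg (D.simple i)) r 1 = some s := by
  have h1 : D.reflectRoot i r = (D.chainRoot (D.neg (D.simple i)) r (D.cartan i r).toNat).getD r := by
    unfold ChevalleyDatum.reflectRoot
    simp only
    rw [if_neg hne, if_neg hne', if_pos hc]
  have h2 : D.reflectRoot i r ≠ r := by
    intro h
    have h3 := Q.co_refl i hi r hr i hi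
    rw [h, if_pos rfl] at h3
    omega
  rcases h3 : D.chainRoot (D.neg (D.simple i)) r (D.cartan i r).toNat with _ | u
  · rw [h3] at h1; exact absurd h1 h2
  · unfold ChevalleyDatum.chainRoot at h3 ⊢
    rcases h4 : (D.chainEntry (D.neg (D.simple i)) r)[(D.cartan i r).toNat - 1]? with _ | p
    · rw [h4] at h3; simp at h3
    · have h5 : (D.cartan i r).toNat - 1 < (D.chainEntry (D.neg (D.simple i)) r).length := by
        rw [List.getElem?_eq_some_iff] at h4
        exact h4.1
      have h6 : 0 < (D.chainEntry (D.neg (D.simple i)) r).length := by omega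
      refine ⟨((D.chainEntry (D.neg (D.simple i)) r)[0]).1, ?_⟩
      rw [show (1 : ℕ) - 1 = 0 from rfl, List.getElem?_eq_getElem h6]
      rfl

/-- root characters are determined by the simple roots -/
theorem rootChar_eq (X : RCX D) {χ : ℕ → Fˣ} (hχ : D.IsRootCharacter χ) {r : ℕ}
    (hr : r < D.nroots) : χ r = chr X.rc (fun i => χ (D.simple i)) r := by
  set Q := X.rc with hQ
  set a : Fin D.rank → Fˣ := fun i => χ (D.simple i) with ha
  have hχ' := chr_isRootCharacter (F := F) Q a
  have key : ∀ n : ℕ, ∀ r < D.nroots, Q.half ≤ r → fr Q (fun _ => 1) r = n →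
      χ r = chr Q a r := by
    intro n
    induction n using Nat.strong_induction_on with
    | _ n ih =>
      intro r hr hpos hn
      rcases Q.red r hr hpos with ⟨i, hi, h⟩ | ⟨i, hi, h1, h2⟩
      · subst h
        exact (chr_simple Q a ⟨i, hi⟩).symm
      · rcases X.red2 r hr hpos i hi with h3 | ⟨j, hj, hji, hjp⟩
        · subst h3; exact (chr_simple Q a ⟨i, hi⟩).symm
        · have hsi := Q.simple_lt i hi
          have hni := neg_lt Q hsi
          have hne : r ≠ D.simple i := by
            rintro rfl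
            rw [Q.co_simple i hi j hj, if_neg hji] at hjp
            exact lt_irrefl _ hjp
          have hne' : r ≠ D.neg (D.simple i) := by
            rintro rfl
            rw [co_neg' Q hsi hj, Q.co_simple i hi j hj, if_neg hji] at hjp
            simp at hjp
          obtain ⟨s, hs⟩ := exists_chain Q hr hi hne hne' h2
          obtain ⟨hsl, _, hco⟩ := chainRoot_co Q hni le_rfl hs
          have e1 := hχ.2 _ r s hni hr hs
          have e2 := hχ'.2 _ r s hni hr hs
          rw [hχ.1 _ hsi] at e1
          rw [hχ'.1 _ hsi] at e2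
          have h5 : 0 < Q.co s j := by
            rw [hco j hj, co_neg' Q hsi hj, Q.co_simple i hi j hj, if_neg hji]
            simpa using hjp
          have hspos : Q.half ≤ s := half_le_of_pos Q hsl hj h5
          have hfr : fr Q (fun _ => 1) s = n - 1 := by
            rw [← hn]
            unfold fr
            have : ∑ j ∈ Finset.range D.rank, 1 * Q.co s j =
                ∑ j ∈ Finset.range D.rank, (1 * Q.co r j - if j = i then 1 else 0) := by
              refine Finset.sum_congr rfl fun j hj => ?_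
              rw [hco j (Finset.mem_range.1 hj), co_neg' Q hsi (Finset.mem_range.1 hj),
                Q.co_simple i hi j (Finset.mem_range.1 hj)]
              push_cast; ring
            rw [this, Finset.sum_sub_distrib, Finset.sum_ite_eq' (Finset.range D.rank) i,
              if_pos (Finset.mem_range.2 hi)]
          have hspos' := ht_pos Q hsl hspos
          obtain ⟨m, hm⟩ := Int.eq_ofNat_of_zero_le hspos'.le
          have e3 := ih m (by omega) s hsl hspos hm
          have e4 : chr Q a (D.simple i) = χ (D.simple i) := chr_simple Q a ⟨i, hi⟩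
          rw [e3, e2, e4] at e1
          exact (mul_left_cancel e1).symm
  by_cases hpos : Q.half ≤ r
  · obtain ⟨m, hm⟩ := Int.eq_ofNat_of_zero_le (ht_pos Q hr hpos).le
    exact key m r hr hpos hm
  · have h1 := neg_lt Q hr
    have h2 : Q.half ≤ D.neg r := by
      rw [Q.neg_eq r hr]; have := Q.nroots_eq; omega
    obtain ⟨m, hm⟩ := Int.eq_ofNat_of_zero_le (ht_pos Q h1 h2).le
    have h3 := key m _ h1 h2 hm
    rw [hχ.1 r hr, hχ'.1 r hr] at h3
    exact inv_injective h3

theorem charDiag_eq (X : RCX D) {χ : ℕ → Fˣ} (hχ : D.IsRootCharacter χ) :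
    D.charDiag F χ = ((Tt X.rc (fun i => χ (D.simple i)) : GL D.Idx F) : Matrix D.Idx D.Idx F) := by
  rw [Tt_val]
  unfold ChevalleyDatum.charDiag
  congr 1
  funext x
  rcases x with x | x
  · rfl
  · simp only [Sum.elim_inr]
    rw [rootChar_eq X hχ x.2]

theorem charDiag_inv_eq (X : RCX D) {χ : ℕ → Fˣ} (hχ : D.IsRootCharacter χ) :
    D.charDiag F (fun s => (χ s)⁻¹) =
      (((Tt X.rc (fun i => χ (D.simple i)))⁻¹ : GL D.Idx F) : Matrix D.Idx D.Idx F) := by
  rw [Tt_inv, Tt_val]
  unfold ChevalleyDatum.charDiag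
  congr 1
  funext x
  rcases x with x | x
  · rfl
  · simp only [Sum.elim_inr]
    rw [rootChar_eq X hχ x.2, chr_inv]

theorem charDiag_conj (R : Rel D F) (X : RCX D) {χ : ℕ → Fˣ} (hχ : D.IsRootCharacter χ) {r : ℕ}
    (hr : r < D.nroots) (t : F) :
    D.charDiag F χ * D.x F r t * D.charDiag F (fun s => (χ s)⁻¹) = D.x F r ((χ r : F) * t) := by
  rw [charDiag_eq X hχ, charDiag_inv_eq X hχ, rootChar_eq X hχ hr]
  have := congrArg (fun g : GL D.Idx F => (g : Matrix D.Idx D.Idx F))
    (Tt_conj R X.rc (fun i => χ (D.simple i)) hr t)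
  simpa using this

/-- `G ∩ Ĥ ≤ H` -/
theorem mem_H_of_diag (R : Rel D F) (X : RCX D) {a : Fin D.rank → Fˣ}
    (hg : Tt (F := F) X.rc a ∈ D.group F) : Tt (F := F) X.rc a ∈ D.diagonalSubgroup F := by
  have hst : ∀ r : Fin D.nroots, Tt (F := F) X.rc a ∈ stabSub (D.rootSubgroup F r) := by
    intro r
    have key : ∀ a : Fin D.rank → Fˣ, cj (Tt (F := F) X.rc a) (D.rootSubgroup F r) ≤
        D.rootSubgroup F r := by
      rintro a _ ⟨x, hx, rfl⟩
      rw [SetLike.mem_coe, mem_rootSubgroup R] at hx
      obtain ⟨t, rfl⟩ := hx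
      show Tt X.rc a * xg R r t * (Tt X.rc a)⁻¹ ∈ _
      rw [Tt_conj R X.rc a r.2]
      exact xg_mem R _ _
    rw [mem_stabSub]
    apply le_antisymm (key a)
    have h1 := cj_mono (g := Tt (F := F) X.rc a) (key a⁻¹)
    rwa [← Tt_inv, cj_cj_inv] at h1
  have h1 : Tt (F := F) X.rc a ∈ (chevSys R X).H := by
    apply mem_H_of_stab (chevSys R X) (longest X)
    · rw [chevSys_Γ]; exact hg
    · rw [mem_stabSub]
      unfold Sys.U
      rw [cj_iSup]
      exact iSup_congr fun s => hst s
    · rw [mem_stabSub]
      unfold Sys.V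
      rw [cj_iSup]
      exact iSup_congr fun s => hst s
  exact h1

end H40.ChevAut
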