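import Cfsg.Agent.Lib.H40.ChevAut5
import Cfsg.Agent.Lib.H22.ChevAll

/-!
The facts for each of the seven data.
-/

set_option autoImplicit false

namespace H40.ChevAut

open H22.RCCheck H22.RCComb H22.ChevRel
open Cfsg.Lie

theorem facts (D : ChevalleyDatum) (hD : D ∈ [chevG2, chevB2, chevD4, chevF4, chevE6, chevE7, chevE8])
    (F : Type*) [Field F] : Nonempty (Facts D F) := by
  have R := H22.ChevAll.rel D hD F
  simp only [List.mem_cons, List.not_mem_nil, or_false] at hD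
  rcases hD with rfl | rfl | rfl | rfl | rfl | rfl | rfl
  · exact ⟨⟨R, H22.PoinG2.rcxG2, diagG2, fpG2 F⟩⟩
  · exact ⟨⟨R, H22.PoinB2.rcxB2, diagB2, fpB2 F⟩⟩
  · exact ⟨⟨R, H22.PoinD4.rcxD4, diagD4, fpD4 F⟩⟩
  · exact ⟨⟨R, H22.PoinF4.rcxF4, diagF4, fpF4 F⟩⟩
  · exact ⟨⟨R, H22.PoinE6.rcxE6, diagE6, fpE6 F⟩⟩
  · exact ⟨⟨R, H22.PoinE7.rcxE7, diagE7, fpE7 F⟩⟩
  · exact ⟨⟨R, H22.PoinE8.rcxE8, diagE8, fpE8 F⟩⟩

theorem relG2 (F : Type*) [Field F] : Rel chevG2 F := H22.ChevAll.rel _ (by simp) F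
theorem relB2 (F : Type*) [Field F] : Rel chevB2 F := H22.ChevAll.rel _ (by simp) F
theorem relD4 (F : Type*) [Field F] : Rel chevD4 F := H22.ChevAll.rel _ (by simp) F
theorem relF4 (F : Type*) [Field F] : Rel chevF4 F := H22.ChevAll.rel _ (by simp) F
theorem relE6 (F : Type*) [Field F] : Rel chevE6 F := H22.ChevAll.rel _ (by simp) F
theorem relE7 (F : Type*) [Field F] : Rel chevE7 F := H22.ChevAll.rel _ (by simp) F
theorem relE8 (F : Type*) [Field F] : Rel chevE8 F := H22.ChevAll.rel _ (by simp) F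

end H40.ChevAut
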