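import Cfsg.Agent.Lib.H40.RGDAut

/-!
An automorphism permuting the simple root subgroups and their negatives, and preserving `H`,
preserves `U` and `V`.
-/

set_option autoImplicit false

namespace H40.RGDNorm

open H22.RGD H40.RGDOpp H40.RGDAut

variable {Φ I G : Type*} [Group G] {C : RootComb Φ I} (S : Sys G C) [Finite Φ]

/-- an automorphism permuting the simple root subgroups -/
structure Perms (θ : G ≃* G) (ρ : Equiv.Perm I) : Prop where
  pos : ∀ i, im θ (S.X (C.simple i)) = S.X (C.simple (ρ i))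
  neg : ∀ i, im θ (S.X (C.neg (C.simple i))) = S.X (C.neg (C.simple (ρ i)))
  H : im θ S.H = S.H

variable {S} {θ : G ≃* G} {ρ : Equiv.Perm I} (h : Perms S θ ρ)

namespace Perms

include h

omit [Finite Φ] in
theorem n_mem (i : I) : ∃ k ∈ S.H, θ (S.n i) = S.n (ρ i) * k := by
  obtain ⟨x, hx, hx1⟩ := (Subgroup.bot_or_exists_ne_one (S.X (C.neg (C.simple i)))).resolve_left
    (S.nontriv _)
  obtain ⟨y, hy, k, hk, z, hz, e⟩ := S.rank_one i x hx hx1
  have e3 : S.n i = y⁻¹ * x * z⁻¹ * k⁻¹ := by rw [e]; simp [mul_assoc]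
  refine S.rank_one_rec (ρ i) (g := θ (S.n i)) ?_ ?_ (y := θ y⁻¹) (x := θ x) (z := θ z⁻¹)
    (h := θ k⁻¹) ?_ ?_ ?_ ?_ ?_
  · rw [← h.pos, ← im_cj, S.cj_n_simple, h.neg]
  · rw [← h.neg, ← im_cj, S.cj_n_neg_simple, h.pos]
  · rw [← h.pos, apply_mem_im]; exact (S.X _).inv_mem hy
  · rw [← h.neg, apply_mem_im]; exact hx
  · rw [← h.pos, apply_mem_im]; exact (S.X _).inv_mem hz
  · rw [← h.H, apply_mem_im]; exact S.H.inv_mem hk
  · rw [← map_mul, ← map_mul, ← map_mul, ← e3]

omit [Finite Φ] in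
theorem mem_H_iff {x : G} : θ x ∈ S.H ↔ x ∈ S.H := by
  have := apply_mem_im (θ := θ) (K := S.H) (x := x)
  rwa [h.H] at this

omit [Finite Φ] in
theorem rep_nw (L : List I) : S.Rep (θ (S.nw L)) (C.w (L.map ρ)) := by
  induction L with
  | nil => rw [Sys.nw_nil, map_one]; exact S.rep_H (one_mem _)
  | cons i L ih =>
    rw [Sys.nw_cons, map_mul, List.map_cons, RootComb.w_cons]
    obtain ⟨k, hk, e⟩ := h.n_mem i
    have h1 : S.Rep (θ (S.n i)) (C.refl (ρ i)) := by
      rw [e]
      have := (S.rep_n (ρ i)).mul (S.rep_H hk)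
      rwa [mul_one] at this
    exact h1.mul ih

theorem w_eq_iff (L M : List I) : C.w (L.map ρ) = C.w (M.map ρ) ↔ C.w L = C.w M := by
  constructor
  · intro e
    have h1 := h.rep_nw L
    rw [e] at h1
    obtain ⟨k, hk, e2⟩ := S.rep_mod_H h1 (h.rep_nw M)
    have h2 : (S.nw L)⁻¹ * S.nw M ∈ S.H := by
      rw [← h.mem_H_iff, map_mul, map_inv, e2]; simpa using hk
    have h3 : S.Rep (S.nw M) (C.w L * 1) := by
      have := (S.rep_nw L).mul (S.rep_H h2)
      simpa using this
    rw [mul_one] at h3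
    exact h3.unique (S.rep_nw M)
  · intro e
    have h1 := S.rep_nw L
    rw [e] at h1
    obtain ⟨k, hk, e2⟩ := S.rep_mod_H h1 (S.rep_nw M)
    have h2 : S.Rep (θ (S.nw M)) (C.w (L.map ρ)) := by
      rw [e2, map_mul]
      have := (h.rep_nw L).mul (S.rep_H (h.mem_H_iff.2 hk))
      rwa [mul_one] at this
    exact h2.unique (h.rep_nw M)

theorem len_eq (L : List I) : C.len (C.w (L.map ρ)) = C.len (C.w L) := by
  apply le_antisymm
  · obtain ⟨M, hM, hM'⟩ := S.exists_word_len (C.w_mem L)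
    have := (h.w_eq_iff M L).2 hM
    rw [← this, ← hM']
    have h1 := C.len_le_length (M.map ρ)
    rwa [List.length_map] at h1
  · obtain ⟨M, hM, hM'⟩ := S.exists_word_len (C.w_mem (L.map ρ))
    have h1 : M = (M.map ρ.symm).map ρ := by
      rw [List.map_map]; simp
    rw [h1, h.w_eq_iff] at hM
    rw [← hM', ← hM]
    have h2 := C.len_le_length (M.map ρ.symm)
    rwa [List.length_map] at h2

theorem pos_iff (L : List I) (i : I) :
    C.pos (C.w (L.map ρ) (C.simple (ρ i))) ↔ C.pos (C.w L (C.simple i)) := by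
  have e1 : C.w (L.map ρ) * C.refl (ρ i) = C.w ((L ++ [i]).map ρ) := by
    rw [List.map_append, RootComb.w_append, List.map_singleton, RootComb.w_singleton]
  have e2 : C.w L * C.refl i = C.w (L ++ [i]) := by
    rw [RootComb.w_append, RootComb.w_singleton]
  by_cases hp : C.pos (C.w L (C.simple i))
  · simp only [hp, iff_true]
    by_contra hc
    have h1 := C.len_mul_refl_of_neg _ _ (C.w_neg (L.map ρ)) hc
    have h2 := C.len_mul_refl_of_pos _ _ (C.w_neg L) hp
    rw [e1, h.len_eq, h.len_eq] at h1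
    rw [e2] at h2
    omega
  · simp only [hp, iff_false]
    intro hc
    have h1 := C.len_mul_refl_of_pos _ _ (C.w_neg (L.map ρ)) hc
    have h2 := C.len_mul_refl_of_neg _ _ (C.w_neg L) hp
    rw [e1, h.len_eq, h.len_eq] at h1
    rw [e2] at h2
    omega

omit [Finite Φ] in
theorem im_X (L : List I) (i : I) :
    im θ (S.X (C.w L (C.simple i))) = S.X (C.w (L.map ρ) (C.simple (ρ i))) := by
  rw [← S.cj_nw, im_cj, h.pos, (h.rep_nw L).2.2]

theorem norm [Finite G] (hconj : ∀ r, ∃ L i, C.w L (C.simple i) = r) : Norm S θ := by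
  have key : ∀ r, ∃ s, im θ (S.X r) = S.X s ∧ (C.pos s ↔ C.pos r) := by
    intro r
    obtain ⟨L, i, rfl⟩ := hconj r
    exact ⟨_, h.im_X L i, h.pos_iff L i⟩
  have hU : im θ S.U ≤ S.U := by
    unfold Sys.U
    rw [im, Subgroup.map_iSup]
    refine iSup_le fun s => ?_
    obtain ⟨t, e, ht⟩ := key s
    have e' : Subgroup.map θ.toMonoidHom (S.X s) = S.X t := e
    rw [e']
    exact S.X_le_U (ht.2 s.2)
  have hV : im θ S.V ≤ S.V := by
    unfold Sys.V
    rw [im, Subgroup.map_iSup]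
    refine iSup_le fun s => ?_
    obtain ⟨t, e, ht⟩ := key s
    have e' : Subgroup.map θ.toMonoidHom (S.X s) = S.X t := e
    rw [e']
    exact S.X_le_V (fun hp => s.2 (ht.1 hp))
  exact ⟨Subgroup.eq_of_le_of_card_ge hU (by rw [card_im]),
    Subgroup.eq_of_le_of_card_ge hV (by rw [card_im])⟩

end Perms

end H40.RGDNorm
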