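import Cfsg.Agent.Lib.H40.ChevChar
import Cfsg.Agent.Lib.H40.RGDNorm
import Cfsg.Prelude.Def_KGroupFacts

/-!
The order of the outer automorphism group of a finite Chevalley group.
-/

set_option autoImplicit false

namespace H40.ChevAut

open H22.RGD H22.Coord H22.RCCheck H22.RCComb H22.ChevTri H22.ChevRel H22.ChevSys H22.ChevMain
open H22.ChevStd H40.RGDOpp H40.RGDAut H40.RGDSyl H22.ChevTorus H22.ChevHom
open Cfsg.Lie (ChevalleyDatum)
open scoped MatrixGroups Matrix

variable {D : ChevalleyDatum} {F : Type*} [Field F] (R : Rel D F) (X : RCX D)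

/-- the characters whose diagonal matrices lie in `H` -/
def TH (D : ChevalleyDatum) (F : Type*) [Field F] (Q : RC D) : Subgroup (Fin D.rank → Fˣ) where
  carrier := {a | Tt (F := F) Q a ∈ D.diagonalSubgroup F}
  one_mem' := by
    show Tt (F := F) Q 1 ∈ D.diagonalSubgroup F
    have : Tt (F := F) Q 1 = 1 := by
      have := Tt_mul (F := F) Q 1 1
      rw [mul_one] at this
      exact left_eq_mul.1 this
    rw [this]; exact one_mem _
  mul_mem' := by
    intro a b ha hb
    show Tt (F := F) Q (a * b) ∈ D.diagonalSubgroup F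
    rw [Tt_mul]; exact mul_mem ha hb
  inv_mem' := by
    intro a ha
    show Tt (F := F) Q a⁻¹ ∈ D.diagonalSubgroup F
    rw [← Tt_inv]; exact inv_mem ha

theorem mem_TH {Q : RC D} {a : Fin D.rank → Fˣ} :
    a ∈ TH D F Q ↔ Tt (F := F) Q a ∈ D.diagonalSubgroup F := Iff.rfl

theorem Tt_injective (Q : RC D) : Function.Injective (Tt (F := F) Q) := by
  intro a b h
  funext i
  have h1 := dg_injective h
  have h2 := congrFun h1 ⟨D.simple i, Q.simple_lt i i.2⟩
  simp only at h2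
  rwa [chr_simple, chr_simple] at h2

include R X in
/-- elements of `H` come from characters -/
theorem exists_Tt_of_mem_H {g : GL D.Idx F} (hg : g ∈ D.diagonalSubgroup F) :
    ∃ a, g = Tt X.rc a := by
  rw [diagonalSubgroup_eq_range R X] at hg
  obtain ⟨c, rfl⟩ := hg
  refine ⟨fun j => ∏ i, c i ^ D.cartan i (D.simple j), ?_⟩
  unfold Tt
  rw [MonoidHom.comp_apply]
  congr 1
  funext s
  show ∏ i, c i ^ D.cartan i s = _
  unfold chr
  have h1 : ∀ j : Fin D.rank, (∏ i : Fin D.rank, c i ^ D.cartan i (D.simple j)) ^ X.rc.co s j =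
      ∏ i : Fin D.rank, c i ^ (X.rc.A i j * X.rc.co s j) := by
    intro j
    rw [← Finset.prod_zpow]
    refine Finset.prod_congr rfl fun i _ => ?_
    rw [← zpow_mul, cartan_simple X.rc i.2 j.2]
  simp only [h1]
  rw [Finset.prod_comm]
  refine Finset.prod_congr rfl fun i _ => ?_
  rw [← zpow_finset_sum, X.rc.cartan_eq i i.2 s s.2]
  congr 1
  exact Finset.sum_range (fun j => X.rc.A i j * X.rc.co s j)

include R X in
theorem card_TH : Nat.card (TH D F X.rc) = Nat.card (D.diagonalSubgroup F) := by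
  refine Nat.card_congr (Equiv.ofBijective
    (fun a : TH D F X.rc => (⟨Tt X.rc a, a.2⟩ : D.diagonalSubgroup F)) ⟨?_, ?_⟩)
  · intro a b h
    exact Subtype.ext (Tt_injective X.rc (congrArg Subtype.val h))
  · rintro ⟨g, hg⟩
    obtain ⟨a, rfl⟩ := exists_Tt_of_mem_H R X hg
    exact ⟨⟨a, hg⟩, rfl⟩

include R X in
theorem index_TH [Fintype F] : (TH D F X.rc).index = Nat.card (chi D F).ker := by
  have h1 := card_ker_mul R X (q := Fintype.card F) rfl
  have h2 := (TH D F X.rc).card_mul_index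
  rw [card_TH R X] at h2
  have h3 : Nat.card (Fin D.rank → Fˣ) = (Fintype.card F - 1) ^ D.rank := by
    classical
    rw [Nat.card_eq_fintype_card, Fintype.card_fun, Fintype.card_units, Fintype.card_fin]
  rw [h3, ← h1, mul_comm (Nat.card (chi D F).ker)] at h2
  have : Finite (D.diagonalSubgroup F) := by
    have : Finite (GL D.Idx F) := inferInstance
    infer_instance
  exact Nat.eq_of_mul_eq_mul_left Nat.card_pos h2

/-- the permutations realised by graph automorphisms -/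
abbrev PG : Type := {ρ : Equiv.Perm (Fin D.rank) // ∃ g, IsG R X g ρ}

noncomputable def gA (ρ : PG R X) : ↥(D.group F) ≃* ↥(D.group F) := ρ.2.choose

theorem gA_spec (ρ : PG R X) : IsG R X (gA R X ρ) ρ.1 := ρ.2.choose_spec

variable {R X} in
theorem IsG.eq {g g' : ↥(D.group F) ≃* ↥(D.group F)} {ρ : Equiv.Perm (Fin D.rank)}
    (h : IsG R X g ρ) (h' : IsG R X g' ρ) : g = g' := by
  have : g.toMonoidHom = g'.toMonoidHom := by
    apply ext_simple R X
    · intro i t
      show g _ = g' _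
      rw [h.pos, h'.pos]
    · intro i t
      show g _ = g' _
      rw [h.neg, h'.neg]
  ext x
  exact congrArg (fun f : ↥(D.group F) →* ↥(D.group F) => (((f x : ↥(D.group F)) : GL D.Idx F) : Matrix D.Idx D.Idx F) _ _) this

/-- the standard automorphism -/
noncomputable def st (a : Fin D.rank → Fˣ) (ρ : PG R X) (σ : F ≃+* F) : MulAut ↥(D.group F) :=
  ((fAut σ).trans (gA R X ρ)).trans (dAut R X a)

theorem st_apply (a : Fin D.rank → Fˣ) (ρ : PG R X) (σ : F ≃+* F) (y : ↥(D.group F)) :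
    st R X a ρ σ y = dAut R X a (gA R X ρ (fAut σ y)) := rfl

theorem st_simple (a : Fin D.rank → Fˣ) (ρ : PG R X) (σ : F ≃+* F) (i : Fin D.rank) (t : F) :
    st R X a ρ σ (xe R ((comb X).simple i) t) =
      xe R ((comb X).simple (ρ.1 i)) ((a (ρ.1 i) : F) * σ t ^ D.graphExp (ringChar F) i (ρ.1 i)) := by
  rw [st_apply, fAut_xe, (gA_spec R X ρ).pos, dAut_simple]

theorem st_neg (a : Fin D.rank → Fˣ) (ρ : PG R X) (σ : F ≃+* F) (i : Fin D.rank) (t : F) :
    st R X a ρ σ (xe R ((comb X).neg ((comb X).simple i)) t) =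
      xe R ((comb X).neg ((comb X).simple (ρ.1 i)))
        (((a (ρ.1 i))⁻¹ : Fˣ) * σ t ^ D.graphExp (ringChar F) i (ρ.1 i)) := by
  rw [st_apply, fAut_xe, (gA_spec R X ρ).neg, dAut_neg_simple]

include X in
theorem simple_eq_of {i j : Fin D.rank} {t u : F} (ht : t ≠ 0)
    (h : xe R ((comb X).simple i) t = xe R ((comb X).simple j) u) : i = j := by
  by_contra hne
  have h1 : xe R ((comb X).simple i) t ∈ (sys R X).Ui j ⊓ (sys R X).X ((comb X).simple j) := by
    refine ⟨(sys R X).X_le_Ui ((comb X).simple_pos _) (fun e => hne (simple_inj X e))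
      (xe_mem R X _ _), ?_⟩
    rw [h]; exact xe_mem R X _ _
  rw [(sys R X).Ui_inf_X, Subgroup.mem_bot] at h1
  exact xe_ne_one R X ht h1

/-- conjugation by an element of `H` -/
theorem conj_eq_dAut {y : ↥(D.group F)} {h : Fin D.rank → Fˣ} (e : (y : GL D.Idx F) = Tt X.rc h) :
    MulAut.conj y = dAut R X h := by
  ext x : 1
  apply Subtype.ext
  show (y : GL D.Idx F) * x * (y : GL D.Idx F)⁻¹ = Tt X.rc h * x * (Tt X.rc h)⁻¹
  rw [e]

theorem dAut_mul (a b : Fin D.rank → Fˣ) (x : ↥(D.group F)) :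
    dAut R X (a * b) x = dAut R X a (dAut R X b x) := by
  apply Subtype.ext
  show Tt X.rc (a * b) * (x : GL D.Idx F) * (Tt X.rc (a * b))⁻¹ =
    Tt X.rc a * (Tt X.rc b * (x : GL D.Idx F) * (Tt X.rc b)⁻¹) * (Tt X.rc a)⁻¹
  rw [Tt_mul]; simp [mul_assoc]

/-- standard automorphisms are normalised -/
theorem dAut_norm (a : Fin D.rank → Fˣ) (r : Fin D.nroots) :
    im (dAut R X a) ((sys R X).X r) = (sys R X).X r := by
  ext x
  rw [mem_im, mem_X, mem_X]
  constructor
  · rintro ⟨t, e⟩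
    rw [MulEquiv.symm_apply_eq, dAut_xe] at e
    exact ⟨_, e⟩
  · rintro ⟨t, rfl⟩
    rw [dAut_symm, dAut_xe]
    exact ⟨_, rfl⟩

theorem fAut_norm (σ : F ≃+* F) (r : Fin D.nroots) :
    im (fAut σ) ((sys R X).X r) = (sys R X).X r := by
  ext x
  rw [mem_im, mem_X, mem_X]
  constructor
  · rintro ⟨t, e⟩
    rw [MulEquiv.symm_apply_eq, fAut_xe] at e
    exact ⟨_, e⟩
  · rintro ⟨t, rfl⟩
    rw [fAut_symm, fAut_xe]
    exact ⟨_, rfl⟩

section graphnorm

variable [Finite F]

/-- powers by the exponents are bijective -/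
theorem graphExp_bij (c : ℕ) (hc : c = ringChar F) (i j : ℕ) :
    Function.Bijective (fun t : F => t ^ D.graphExp c i j) := by
  unfold ChevalleyDatum.graphExp
  split_ifs
  · subst hc
    have hp : (ringChar F).Prime := by
      have := CharP.char_is_prime F (ringChar F)
      exact this
    have : Fact (ringChar F).Prime := ⟨hp⟩
    exact Finite.injective_iff_bijective.1 (frobenius_inj F (ringChar F))
  · simp only [pow_one]; exact Function.bijective_id

variable {R X} in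
theorem IsG.im_simple {g : ↥(D.group F) ≃* ↥(D.group F)} {ρ : Equiv.Perm (Fin D.rank)}
    (h : IsG R X g ρ) (i : Fin D.rank) :
    im g ((sys R X).X ((comb X).simple i)) = (sys R X).X ((comb X).simple (ρ i)) := by
  ext x
  rw [mem_im, mem_X, mem_X]
  constructor
  · rintro ⟨t, e⟩
    rw [MulEquiv.symm_apply_eq, h.pos] at e
    exact ⟨_, e⟩
  · rintro ⟨t, rfl⟩
    obtain ⟨u, hu⟩ := (graphExp_bij (D := D) (ringChar F) rfl i (ρ i)).2 t
    refine ⟨u, ?_⟩
    rw [MulEquiv.symm_apply_eq, h.pos]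
    exact congrArg _ hu.symm

variable {R X} in
theorem IsG.im_neg {g : ↥(D.group F) ≃* ↥(D.group F)} {ρ : Equiv.Perm (Fin D.rank)}
    (h : IsG R X g ρ) (i : Fin D.rank) :
    im g ((sys R X).X ((comb X).neg ((comb X).simple i))) =
      (sys R X).X ((comb X).neg ((comb X).simple (ρ i))) := by
  ext x
  rw [mem_im, mem_X, mem_X]
  constructor
  · rintro ⟨t, e⟩
    rw [MulEquiv.symm_apply_eq, h.neg] at e
    exact ⟨_, e⟩
  · rintro ⟨t, rfl⟩
    obtain ⟨u, hu⟩ := (graphExp_bij (D := D) (ringChar F) rfl i (ρ i)).2 t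
    refine ⟨u, ?_⟩
    rw [MulEquiv.symm_apply_eq, h.neg]
    exact congrArg _ hu.symm

variable {R X} in
theorem IsG.map_ne {g : ↥(D.group F) ≃* ↥(D.group F)} {ρ : Equiv.Perm (Fin D.rank)}
    (h : IsG R X g ρ) (i : Fin D.rank) (t : F) :
    g (ne R X i t) = ne R X (ρ i) (t ^ D.graphExp (ringChar F) i (ρ i)) := by
  unfold ne
  rw [map_mul, map_mul, h.pos, h.neg]
  congr 3
  unfold ChevalleyDatum.graphExp
  split_ifs
  · have hp : (ringChar F).Prime := CharP.char_is_prime F (ringChar F)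
    have : Fact (ringChar F).Prime := ⟨hp⟩
    have h1 := map_neg (frobenius F (ringChar F)) t⁻¹
    have h2 := map_inv₀ (frobenius F (ringChar F)) t
    simp only [frobenius_def] at h1 h2
    rw [h1, h2]
  · simp

variable {R X} in
theorem IsG.map_he {g : ↥(D.group F) ≃* ↥(D.group F)} {ρ : Equiv.Perm (Fin D.rank)}
    (h : IsG R X g ρ) (i : Fin D.rank) (t : F) :
    g (he R X i t) = he R X (ρ i) (t ^ D.graphExp (ringChar F) i (ρ i)) := by
  unfold he
  rw [map_mul, h.map_ne, h.map_ne]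
  congr 2
  unfold ChevalleyDatum.graphExp
  split_ifs
  · have hp : (ringChar F).Prime := CharP.char_is_prime F (ringChar F)
    have : Fact (ringChar F).Prime := ⟨hp⟩
    have h1 := map_neg (frobenius F (ringChar F)) 1
    simp only [frobenius_def, one_pow] at h1
    exact h1
  · simp

omit [Finite F] in
theorem sys_H_eq : (sys R X).H = Subgroup.closure {g | ∃ (i : Fin D.rank) (t : F), t ≠ 0 ∧
    g = he R X i t} := by
  have hle : D.diagonalSubgroup F ≤ D.group F := hHle R X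
  rw [← map_inj, sys_H, Subgroup.map_subgroupOf_eq_of_le hle, MonoidHom.map_closure]
  rw [diagonalSubgroup_eq R X]
  unfold Hs
  congr 1
  ext g
  constructor
  · rintro ⟨i, hi, c, hc, rfl⟩
    exact ⟨he R X ⟨i, hi⟩ c, ⟨⟨i, hi⟩, c, hc, rfl⟩, he_val R X ⟨i, hi⟩ c⟩
  · rintro ⟨_, ⟨i, c, hc, rfl⟩, rfl⟩
    exact ⟨i, i.2, c, hc, he_val R X i c⟩

variable {R X} in
theorem IsG.im_H {g : ↥(D.group F) ≃* ↥(D.group F)} {ρ : Equiv.Perm (Fin D.rank)}
    (h : IsG R X g ρ) : im g (sys R X).H = (sys R X).H := by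
  have h1 : im g (sys R X).H ≤ (sys R X).H := by
    nth_rewrite 1 [sys_H_eq]
    rw [im, MonoidHom.map_closure, Subgroup.closure_le]
    rintro _ ⟨_, ⟨i, t, ht, rfl⟩, rfl⟩
    show g (he R X i t) ∈ _
    rw [h.map_he]
    exact he_mem_H R X _ (pow_ne_zero _ ht)
  exact Subgroup.eq_of_le_of_card_ge h1 (by rw [card_im])

variable {R X} in
theorem IsG.norm {g : ↥(D.group F) ≃* ↥(D.group F)} {ρ : Equiv.Perm (Fin D.rank)}
    (h : IsG R X g ρ) : Norm (sys R X) g :=
  (H40.RGDNorm.Perms.mk h.im_simple h.im_neg h.im_H).norm (exists_simple_conj X)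

end graphnorm

omit [Field F] in
theorem norm_of_im {G Φ I : Type*} [Group G] {C : RootComb Φ I} {S : Sys G C} {θ : G ≃* G}
    (h : ∀ r, im θ (S.X r) = S.X r) : Norm S θ := by
  constructor
  · unfold Sys.U
    rw [im, Subgroup.map_iSup]
    exact iSup_congr fun s => h s
  · unfold Sys.V
    rw [im, Subgroup.map_iSup]
    exact iSup_congr fun s => h s

theorem Norm.trans {G Φ I : Type*} [Group G] {C : RootComb Φ I} {S : Sys G C} {θ ψ : G ≃* G}
    (h : Norm S θ) (h' : Norm S ψ) : Norm S (θ.trans ψ) := by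
  have key : ∀ K : Subgroup G, im (θ.trans ψ) K = im ψ (im θ K) := by
    intro K
    ext x
    constructor
    · rintro ⟨y, hy, rfl⟩; exact ⟨θ y, ⟨y, hy, rfl⟩, rfl⟩
    · rintro ⟨_, ⟨y, hy, rfl⟩, rfl⟩; exact ⟨y, hy, rfl⟩
  exact ⟨by rw [key, h.U, h'.U], by rw [key, h.V, h'.V]⟩

theorem st_norm [Finite F] (a : Fin D.rank → Fˣ) (ρ : PG R X) (σ : F ≃+* F) :
    Norm (sys R X) (st R X a ρ σ) :=
  Norm.trans (Norm.trans (norm_of_im (fAut_norm R X σ)) (gA_spec R X ρ).norm)
    (norm_of_im (dAut_norm R X a))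

/-- some exponent is one -/
theorem exists_graphExp_one (D : ChevalleyDatum) (c : ℕ) (h0 : 0 < D.rank)
    (ρ : Equiv.Perm (Fin D.rank)) : ∃ i : Fin D.rank, D.graphExp c i (ρ i) = 1 := by
  by_contra hcon
  push Not at hcon
  have h1 : ∀ i, D.isLong (D.simple (ρ i)) = true ∧ D.isLong (D.simple i) = false := by
    intro i
    have h := hcon i
    unfold ChevalleyDatum.graphExp at h
    split_ifs at h with h2
    · simpa using h2
    · exact absurd rfl h
  have h2 := (h1 ⟨0, h0⟩).1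
  have h3 := (h1 (ρ ⟨0, h0⟩)).2
  rw [h2] at h3
  exact Bool.noConfusion h3

/-- fibres -/
theorem st_fibre [Finite F] (h0 : 0 < D.rank) {a a' : Fin D.rank → Fˣ} {ρ ρ' : PG R X}
    {σ σ' : F ≃+* F}
    (e : (st R X a ρ σ : MulAut ↥(D.group F))⁻¹ * st R X a' ρ' σ' ∈ Cfsg.Inn ↥(D.group F)) :
    a⁻¹ * a' ∈ TH D F X.rc ∧ ρ = ρ' ∧ σ = σ' := by
  obtain ⟨x, hx⟩ := e
  set A := st R X a ρ σ with hA
  set B := st R X a' ρ' σ' with hB
  -- B z = y * A z * y⁻¹
  set y := A x with hy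
  have h1 : ∀ z, B z = y * A z * y⁻¹ := by
    intro z
    have h2 : B = A * MulAut.conj x := by rw [hx]; group
    rw [h2, MulAut.mul_apply, MulAut.conj_apply, map_mul, map_mul, map_inv]
  have hAn := st_norm R X a ρ σ
  have hBn := st_norm R X a' ρ' σ'
  rw [← hA] at hAn
  rw [← hB] at hBn
  have him : ∀ K : Subgroup ↥(D.group F), im B K = cj y (im A K) := by
    intro K
    ext z
    constructor
    · rintro ⟨w, hw, rfl⟩
      exact ⟨A w, ⟨w, hw, rfl⟩, (h1 w).symm⟩
    · rintro ⟨_, ⟨w, hw, rfl⟩, rfl⟩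
      exact ⟨w, hw, h1 w⟩
  have hyU : y ∈ stabSub (sys R X).U := by
    show cj y (sys R X).U = (sys R X).U
    have := him (sys R X).U
    rw [hAn.U, hBn.U] at this
    exact this.symm
  have hyV : y ∈ stabSub (sys R X).V := by
    show cj y (sys R X).V = (sys R X).V
    have := him (sys R X).V
    rw [hAn.V, hBn.V] at this
    exact this.symm
  have hyH : y ∈ (sys R X).H :=
    mem_H_of_stab (sys R X) (longest X) (by rw [sys_Γ]; trivial) hyU hyV
  have hyH' : (y : GL D.Idx F) ∈ D.diagonalSubgroup F := hyH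
  obtain ⟨h, hh⟩ := exists_Tt_of_mem_H R X hyH'
  have h2 : ∀ z, B z = dAut R X h (A z) := by
    intro z
    rw [h1, ← MulAut.conj_apply, conj_eq_dAut R X hh]
  have h3 : ∀ i t, xe R ((comb X).simple (ρ'.1 i))
      ((a' (ρ'.1 i) : F) * σ' t ^ D.graphExp (ringChar F) i (ρ'.1 i)) =
      xe R ((comb X).simple (ρ.1 i)) ((h (ρ.1 i) : F) *
        ((a (ρ.1 i) : F) * σ t ^ D.graphExp (ringChar F) i (ρ.1 i))) := by
    intro i t
    rw [← st_simple, ← hB, h2, hA, st_simple, dAut_simple]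
  have h4 : ∀ i, ρ'.1 i = ρ.1 i := by
    intro i
    have h5 := h3 i 1
    rw [map_one, map_one, one_pow, one_pow, mul_one, mul_one] at h5
    exact simple_eq_of R X (Units.ne_zero _) h5
  have h5 : ρ = ρ' := Subtype.ext (Equiv.ext fun i => (h4 i).symm)
  subst h5
  have h6 : a' = h * a := by
    funext j
    have h7 := h3 (ρ.1.symm j) 1
    rw [map_one, map_one, one_pow, mul_one, mul_one, Equiv.apply_symm_apply] at h7
    exact Units.ext (xe_inj R X h7)
  refine ⟨?_, rfl, ?_⟩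
  · rw [h6, mul_comm h a, inv_mul_cancel_left, mem_TH, ← hh]; exact hyH'
  · obtain ⟨i, hi⟩ := exists_graphExp_one D (ringChar F) h0 ρ.1
    ext t
    have h7 := xe_inj R X (h3 i t)
    rw [hi, pow_one, pow_one, h6, Pi.mul_apply, Units.val_mul, mul_assoc] at h7
    have h8 := mul_left_cancel₀ (Units.ne_zero _) h7
    exact (mul_left_cancel₀ (Units.ne_zero _) h8).symm

/-- surjectivity -/
theorem exists_st [Finite F] (Z : Diag X) (FP : FieldProp D F) (θ : MulAut ↥(D.group F)) :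
    ∃ a ρ σ, θ⁻¹ * st R X a ρ σ ∈ Cfsg.Inn ↥(D.group F) := by
  obtain ⟨y0, hy⟩ := exists_norm' R X θ
  obtain ⟨ρ, f, g, hdat⟩ := exists_dat R X hy
  obtain ⟨a, γ, σ, hγ, e⟩ := hdat.normalForm Z FP
  refine ⟨a, ⟨ρ, γ, hγ⟩, σ, θ⁻¹ y0, ?_⟩
  have h1 : gA R X ⟨ρ, γ, hγ⟩ = γ := (gA_spec R X ⟨ρ, γ, hγ⟩).eq hγ
  ext x : 1
  rw [MulAut.mul_apply, st_apply, h1, ← e, MulAut.conj_apply]
  show θ⁻¹ y0 * x * (θ⁻¹ y0)⁻¹ = θ⁻¹ (y0 * θ x * y0⁻¹)
  rw [map_mul, map_mul, map_inv, MulAut.inv_apply_self]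

theorem st_mul_inner (a b : Fin D.rank → Fˣ) (hb : b ∈ TH D F X.rc) (ρ : PG R X) (σ : F ≃+* F) :
    (st R X a ρ σ)⁻¹ * st R X (b * a) ρ σ ∈ Cfsg.Inn ↥(D.group F) := by
  have hb' : Tt (F := F) X.rc b ∈ D.group F := (hHle R X : D.diagonalSubgroup F ≤ D.group F) hb
  refine ⟨(st R X a ρ σ)⁻¹ ⟨Tt X.rc b, hb'⟩, ?_⟩
  ext x : 1
  apply (st R X a ρ σ).injective
  rw [MulAut.mul_apply, MulAut.apply_inv_self, MulAut.conj_apply, map_mul, map_mul, map_inv,
    MulAut.apply_inv_self, st_apply (R := R) (X := X) (b * a), dAut_mul, ← st_apply,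
    ← MulAut.conj_apply, conj_eq_dAut R X (h := b) rfl]

/-- the order of the outer automorphism group -/
theorem card_out [Finite F] (h0 : 0 < D.rank) (Z : Diag X) (FP : FieldProp D F) :
    Nat.card (Cfsg.Out ↥(D.group F)) =
      (TH D F X.rc).index * Nat.card (PG R X) * Nat.card (F ≃+* F) := by
  let Ψ : ((Fin D.rank → Fˣ) ⧸ TH D F X.rc) × PG R X × (F ≃+* F) → Cfsg.Out ↥(D.group F) :=
    fun p => QuotientGroup.mk (st R X p.1.out p.2.1 p.2.2)
  have hbij : Function.Bijective Ψ := by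
    constructor
    · rintro ⟨a, ρ, σ⟩ ⟨a', ρ', σ'⟩ e
      have e1 := QuotientGroup.eq.1 e
      obtain ⟨h1, h2, h3⟩ := st_fibre R X h0 e1
      have h4 : a = a' := by
        have := QuotientGroup.eq.2 h1
        rwa [QuotientGroup.out_eq', QuotientGroup.out_eq'] at this
      exact Prod.ext h4 (Prod.ext h2 h3)
    · intro o
      obtain ⟨θ, rfl⟩ := QuotientGroup.mk_surjective o
      obtain ⟨a, ρ, σ, h1⟩ := exists_st R X Z FP θ
      refine ⟨(QuotientGroup.mk a, ρ, σ), ?_⟩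
      have h2 : ((QuotientGroup.mk a : (Fin D.rank → Fˣ) ⧸ TH D F X.rc).out)⁻¹ * a ∈ TH D F X.rc := by
        rw [← QuotientGroup.eq, QuotientGroup.out_eq']
      have h3 := st_mul_inner R X (QuotientGroup.mk a : (Fin D.rank → Fˣ) ⧸ TH D F X.rc).out _ h2 ρ σ
      rw [mul_comm _ a] at h3
      show QuotientGroup.mk _ = _
      have h4 : (QuotientGroup.mk θ : Cfsg.Out ↥(D.group F)) = QuotientGroup.mk (st R X a ρ σ) :=
        QuotientGroup.eq.2 h1
      rw [h4, QuotientGroup.eq]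
      simpa [mul_assoc] using h3
  rw [← Nat.card_congr (Equiv.ofBijective Ψ hbij), Nat.card_prod, Nat.card_prod, mul_assoc]
  rfl

end H40.ChevAut
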