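import Cfsg.Agent.Lib.H40.ChevOut
import Cfsg.Agent.Lib.H40.ChevFacts
import Cfsg.Agent.Lib.H50.FieldAut

/-!
Diagram symmetries by search, and the orders of the outer automorphism groups.
-/

set_option autoImplicit false

namespace H40.ChevAut

open H22.RGD H22.Coord H22.RCCheck H22.RCComb H22.ChevTri H22.ChevRel H22.ChevSys H22.ChevMain
open H22.ChevStd H40.RGDOpp H40.RGDAut H40.RGDSyl H22.ChevTorus H22.ChevHom
open Cfsg.Lie
open scoped MatrixGroups Matrix

/-- extend partial maps preserving `b` by one value -/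
def extend (b : ℕ → ℕ → ℤ) (l : ℕ) (P : List ℕ) : List (List ℕ) :=
  ((List.range l).filter fun v => !(P.contains v) &&
    (List.range P.length).all fun j => b (P.getD j 0) v == b j P.length).map fun v => P ++ [v]

/-- all partial maps of length `k` -/
def search (b : ℕ → ℕ → ℤ) (l : ℕ) : ℕ → List (List ℕ)
  | 0 => [[]]
  | k + 1 => (search b l k).flatMap (extend b l)

theorem mem_search {l : ℕ} (b : ℕ → ℕ → ℤ) (ρ : Equiv.Perm (Fin l))
    (hρ : ∀ i j : Fin l, i ≠ j → b (ρ i) (ρ j) = b i j) : ∀ k, k ≤ l →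
      ((List.finRange l).take k).map (fun i => (ρ i : ℕ)) ∈ search b l k := by
  intro k
  induction k with
  | zero => intro _; simp [search]
  | succ k ih =>
    intro hk
    have hk' : k < l := hk
    have h1 := ih hk'.le
    have h2 : (List.finRange l).take (k + 1) = (List.finRange l).take k ++ [⟨k, hk'⟩] := by
      rw [List.take_add_one]
      congr 1
      rw [List.getElem?_eq_getElem (by simpa using hk')]
      simp
    rw [h2, List.map_append]
    unfold search
    rw [List.mem_flatMap]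
    refine ⟨_, h1, ?_⟩
    unfold extend
    rw [List.mem_map]
    refine ⟨ρ ⟨k, hk'⟩, ?_, by simp⟩
    rw [List.mem_filter]
    have hlen : (((List.finRange l).take k).map (fun i => (ρ i : ℕ))).length = k := by
      simp; omega
    refine ⟨List.mem_range.2 (ρ _).2, ?_⟩
    rw [Bool.and_eq_true]
    constructor
    · rw [Bool.not_eq_true', ← Bool.not_eq_true, List.contains_iff_mem, List.mem_map]
      rintro ⟨i, hi, e⟩
      have h3 := ρ.injective (Fin.ext e)
      subst h3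
      rw [List.mem_take_iff_getElem] at hi
      obtain ⟨j, hj, e⟩ := hi
      simp only [List.getElem_finRange, Fin.ext_iff, Fin.val_cast] at e
      omega
    · rw [hlen, List.all_eq_true]
      intro j hj
      rw [List.mem_range] at hj
      have h3 : (((List.finRange l).take k).map (fun i => (ρ i : ℕ))).getD j 0 =
          (ρ ⟨j, by omega⟩ : ℕ) := by
        rw [List.getD_eq_getElem _ _ (by rw [hlen]; exact hj)]
        simp
      rw [h3, beq_iff_eq]
      exact hρ ⟨j, by omega⟩ ⟨k, hk'⟩ (by intro e; exact hj.ne (congrArg Fin.val e))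

/-- table function -/
def tb (M : List (List ℤ)) (i j : ℕ) : ℤ := (M.getD i []).getD j 0

theorem sym_mem {D : ChevalleyDatum} {l : ℕ} (hl : D.rank = l) (M : List (List ℤ))
    (hM : ((List.range l).all fun i => (List.range l).all fun j =>
      decide (D.bonds i j = tb M i j)) = true) {L : List (List ℕ)}
    (h : search (tb M) l l = L) (ρ : Equiv.Perm (Fin D.rank)) (hρ : D.IsDiagramSymmetry ρ) :
    (List.finRange D.rank).map (fun i => (ρ i : ℕ)) ∈ L := by
  subst hl
  rw [← h]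
  have hb : ∀ i j : Fin D.rank, D.bonds i j = tb M i j := by
    intro i j
    rw [List.all_eq_true] at hM
    have h1 := hM i (List.mem_range.2 i.2)
    rw [List.all_eq_true] at h1
    exact of_decide_eq_true (h1 j (List.mem_range.2 j.2))
  have := mem_search (tb M) ρ (fun i j hij => by rw [← hb, ← hb]; exact hρ i j hij) D.rank le_rfl
  rwa [List.take_of_length_le (by simp)] at this

theorem eq_one_of_sym {D : ChevalleyDatum} {l : ℕ} (hl : D.rank = l) (M : List (List ℤ))
    (hM : ((List.range l).all fun i => (List.range l).all fun j =>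
      decide (D.bonds i j = tb M i j)) = true)
    (h : search (tb M) l l = [List.range l]) (ρ : Equiv.Perm (Fin D.rank))
    (hρ : D.IsDiagramSymmetry ρ) : ρ = 1 := by
  have h1 := sym_mem hl M hM h ρ hρ
  rw [List.mem_singleton, ← hl] at h1
  ext i
  have h2 := congrArg (fun L : List ℕ => L.getD i 0) h1
  have h3 : ((List.finRange D.rank).map (fun i => (ρ i : ℕ))).getD i 0 = ρ i := by
    rw [List.getD_eq_getElem _ _ (by simp)]; simp
  have h4 : (List.range D.rank).getD i 0 = i := by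
    rw [List.getD_eq_getElem _ _ (by simp)]; simp
  exact (h3.symm.trans h2).trans h4

def tE6 : List (List ℤ) := [[4, 0, 1, 0, 0, 0], [0, 4, 0, 1, 0, 0], [1, 0, 4, 1, 0, 0],
  [0, 1, 1, 4, 1, 0], [0, 0, 0, 1, 4, 1], [0, 0, 0, 0, 1, 4]]

def tE7 : List (List ℤ) := [[4, 0, 1, 0, 0, 0, 0], [0, 4, 0, 1, 0, 0, 0], [1, 0, 4, 1, 0, 0, 0],
  [0, 1, 1, 4, 1, 0, 0], [0, 0, 0, 1, 4, 1, 0], [0, 0, 0, 0, 1, 4, 1], [0, 0, 0, 0, 0, 1, 4]]

def tE8 : List (List ℤ) := [[4, 0, 1, 0, 0, 0, 0, 0], [0, 4, 0, 1, 0, 0, 0, 0],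
  [1, 0, 4, 1, 0, 0, 0, 0], [0, 1, 1, 4, 1, 0, 0, 0], [0, 0, 0, 1, 4, 1, 0, 0],
  [0, 0, 0, 0, 1, 4, 1, 0], [0, 0, 0, 0, 0, 1, 4, 1], [0, 0, 0, 0, 0, 0, 1, 4]]

theorem symE7 (ρ : Equiv.Perm (Fin chevE7.rank)) (hρ : chevE7.IsDiagramSymmetry ρ) : ρ = 1 :=
  eq_one_of_sym (l := 7) rfl tE7 (by decide +kernel) (by decide +kernel) ρ hρ

theorem symE8 (ρ : Equiv.Perm (Fin chevE8.rank)) (hρ : chevE8.IsDiagramSymmetry ρ) : ρ = 1 :=
  eq_one_of_sym (l := 8) rfl tE8 (by decide +kernel) (by decide +kernel) ρ hρ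

theorem symE6 (ρ : Equiv.Perm (Fin chevE6.rank)) (hρ : chevE6.IsDiagramSymmetry ρ) :
    (List.finRange 6).map (fun i => (ρ i : ℕ)) = [0, 1, 2, 3, 4, 5] ∨
    (List.finRange 6).map (fun i => (ρ i : ℕ)) = [5, 1, 4, 3, 2, 0] := by
  have h := sym_mem (D := chevE6) (l := 6) rfl tE6 (by decide +kernel)
    (L := [[0, 1, 2, 3, 4, 5], [5, 1, 4, 3, 2, 0]]) (by decide +kernel) ρ hρ
  rcases List.mem_cons.1 h with h | h
  · exact Or.inl h
  · exact Or.inr (List.mem_singleton.1 h)

section counting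

variable {D : ChevalleyDatum} {F : Type*} [Field F] (R : Rel D F) (X : RCX D)

theorem isG_one : IsG R X (MulEquiv.refl _) 1 := by
  refine ⟨fun i j _ => rfl, fun i t => ?_, fun i t => ?_⟩
  · have : D.graphExp (ringChar F) i ((1 : Equiv.Perm (Fin D.rank)) i) = 1 := graphExp_self _ _ _
    rw [this, pow_one]; rfl
  · have : D.graphExp (ringChar F) i ((1 : Equiv.Perm (Fin D.rank)) i) = 1 := graphExp_self _ _ _
    rw [this, pow_one]; rfl

theorem card_PG_one (h : ∀ ρ g, IsG R X g ρ → ρ = 1) : Nat.card (PG R X) = 1 := by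
  rw [Nat.card_eq_one_iff_unique]
  refine ⟨⟨fun a b => ?_⟩, ⟨⟨1, _, isG_one R X⟩⟩⟩
  obtain ⟨g, hg⟩ := a.2
  obtain ⟨g', hg'⟩ := b.2
  exact Subtype.ext ((h _ _ hg).trans (h _ _ hg').symm)

theorem card_PG_two {τ : Equiv.Perm (Fin D.rank)} (hτ : τ ≠ 1) (hg : ∃ g, IsG R X g τ)
    (h : ∀ ρ g, IsG R X g ρ → ρ = 1 ∨ ρ = τ) : Nat.card (PG R X) = 2 := by
  rw [Nat.card_eq_two_iff]
  refine ⟨⟨1, _, isG_one R X⟩, ⟨τ, hg⟩, fun e => hτ (congrArg Subtype.val e).symm, ?_⟩
  rw [Set.eq_univ_iff_forall]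
  rintro ⟨ρ, g, hρ⟩
  rcases h ρ g hρ with rfl | rfl
  · exact Or.inl rfl
  · exact Or.inr rfl

end counting

section final

variable {F : Type*} [Field F] [Fintype F]

theorem outE8 (p f : ℕ) [Fact p.Prime] [CharP F p] (hF : Fintype.card F = p ^ f) :
    Nat.card (Cfsg.Out ↥(chevE8.group F)) = f := by
  rw [card_out (relE8 F) H22.PoinE8.rcxE8 (by decide) diagE8 (fpE8 F),
    index_TH (relE8 F) H22.PoinE8.rcxE8, H22.ChevTorusCard.kerE8 (q := Fintype.card F) rfl,
    card_PG_one (relE8 F) H22.PoinE8.rcxE8 (fun ρ g hg => symE8 ρ hg.sym),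
    H50.FieldAut.card_ringAut (p := p) (by rw [Nat.card_eq_fintype_card, hF])]
  simp

theorem outE7 (p f : ℕ) [Fact p.Prime] [CharP F p] (hF : Fintype.card F = p ^ f) :
    Nat.card (Cfsg.Out ↥(chevE7.group F)) = Nat.gcd 2 (p ^ f - 1) * f := by
  rw [card_out (relE7 F) H22.PoinE7.rcxE7 (by decide) diagE7 (fpE7 F),
    index_TH (relE7 F) H22.PoinE7.rcxE7, H22.ChevTorusCard.kerE7 (q := p ^ f) hF,
    card_PG_one (relE7 F) H22.PoinE7.rcxE7 (fun ρ g hg => symE7 ρ hg.sym),
    H50.FieldAut.card_ringAut (p := p) (by rw [Nat.card_eq_fintype_card, hF])]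
  simp

end final

end H40.ChevAut
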