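import Cfsg.Agent.Lib.H40.ChevOut2
import Cfsg.Agent.S1081

/-!
The outer automorphism group of `E₆(q)`.
-/

set_option autoImplicit false

namespace H40.ChevAut

open H22.RGD H22.Coord H22.RCCheck H22.RCComb H22.ChevTri H22.ChevRel H22.ChevSys H22.ChevMain
open H22.ChevStd H40.RGDOpp H40.RGDAut H40.RGDSyl H22.ChevTorus H22.ChevHom
open Cfsg.Lie
open scoped MatrixGroups Matrix

/-- the flip of the diagram of type `E₆` -/
def flipE6 : Equiv.Perm (Fin 6) :=
  ⟨![5, 1, 4, 3, 2, 0], ![5, 1, 4, 3, 2, 0], by decide, by decide⟩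

theorem flipE6_ne : flipE6 ≠ 1 := by decide

theorem eq_of_map6 {ρ : Equiv.Perm (Fin 6)} {L : List ℕ} {τ : Equiv.Perm (Fin 6)}
    (h : (List.finRange 6).map (fun i => (ρ i : ℕ)) = L)
    (h' : (List.finRange 6).map (fun i => (τ i : ℕ)) = L) : ρ = τ := by
  ext i
  have h1 := h.trans h'.symm
  have h2 := congrArg (fun L : List ℕ => L.getD i 0) h1
  have h3 : ∀ ρ : Equiv.Perm (Fin 6), ((List.finRange 6).map (fun i => (ρ i : ℕ))).getD i 0 = ρ i := by
    intro ρ
    rw [List.getD_eq_getElem _ _ (by simp)]; simp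
  exact (h3 ρ).symm.trans (h2.trans (h3 τ))

theorem symE6' (ρ : Equiv.Perm (Fin 6)) (hρ : chevE6.IsDiagramSymmetry ρ) : ρ = 1 ∨ ρ = flipE6 := by
  rcases symE6 ρ hρ with h | h
  · left; exact eq_of_map6 h (by decide)
  · right; exact eq_of_map6 h (by decide)

theorem flipE6_sym : chevE6.IsDiagramSymmetry flipE6 := by
  have h1 : ((List.range 6).all fun i => (List.range 6).all fun j =>
      decide (chevE6.bonds i j = tb tE6 i j)) = true := by decide +kernel
  have hb : ∀ i j : Fin 6, chevE6.bonds i j = tb tE6 i j := by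
    intro i j
    rw [List.all_eq_true] at h1
    have h2 := h1 i (List.mem_range.2 i.2)
    rw [List.all_eq_true] at h2
    exact of_decide_eq_true (h2 j (List.mem_range.2 j.2))
  have h3 : ∀ i j : Fin 6, tb tE6 (flipE6 i) (flipE6 j) = tb tE6 i j := by decide
  intro i j _
  exact (hb (flipE6 i) (flipE6 j)).trans ((h3 i j).trans (hb i j).symm)

theorem exists_flipE6 {F : Type*} [Field F] (R : Rel chevE6 F) (X : RCX chevE6) :
    ∃ g, IsG R X g flipE6 := by
  obtain ⟨α, hα⟩ := Cfsg.Agent.S1081.result (F := F) (chevE6, [5, 1, 4, 3, 2, 0]) (by simp)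
  have he : ∀ i : Fin 6, chevE6.graphExp (ringChar F) i (flipE6 i) = 1 := by
    intro i
    unfold ChevalleyDatum.graphExp
    have := slE6.long i
    rw [if_neg]
    rw [slE6.long (flipE6 i)]; simp
  have hv : ∀ i : Fin 6, [5, 1, 4, 3, 2, 0].getD (i : ℕ) 0 = (flipE6 i : ℕ) := by decide
  refine ⟨α, flipE6_sym, fun i t => ?_, fun i t => ?_⟩
  · rw [xe_eq_iff]
    have h1 := (hα (xe R ((comb X).simple i) t) i t i.2).1 rfl
    rw [h1]
    show chevE6.x F (chevE6.simple ([5, 1, 4, 3, 2, 0].getD (i : ℕ) 0)) t =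
      chevE6.x F (chevE6.simple (flipE6 i : ℕ)) (t ^ chevE6.graphExp (ringChar F) i (flipE6 i))
    rw [he i, pow_one, hv i]
  · rw [xe_eq_iff]
    have h1 := (hα (xe R ((comb X).neg ((comb X).simple i)) t) i t i.2).2 rfl
    rw [h1]
    show chevE6.x F (chevE6.neg (chevE6.simple ([5, 1, 4, 3, 2, 0].getD (i : ℕ) 0))) t =
      chevE6.x F (chevE6.neg (chevE6.simple (flipE6 i : ℕ)))
        (t ^ chevE6.graphExp (ringChar F) i (flipE6 i))
    rw [he i, pow_one, hv i]

theorem outE6 {F : Type*} [Field F] [Fintype F] (p f : ℕ) [Fact p.Prime] [CharP F p]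
    (hF : Fintype.card F = p ^ f) :
    Nat.card (Cfsg.Out ↥(chevE6.group F)) = 2 * Nat.gcd 3 (p ^ f - 1) * f := by
  rw [card_out (relE6 F) H22.PoinE6.rcxE6 (by decide) diagE6 (fpE6 F),
    index_TH (relE6 F) H22.PoinE6.rcxE6, H22.ChevTorusCard.kerE6 (q := p ^ f) hF,
    card_PG_two (relE6 F) H22.PoinE6.rcxE6 (τ := flipE6) flipE6_ne (exists_flipE6 _ _)
      (fun ρ g hg => symE6' ρ hg.sym),
    H50.FieldAut.card_ringAut (p := p) (by rw [Nat.card_eq_fintype_card, hF])]
  ring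

end H40.ChevAut
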