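import Cfsg.Agent.Lib.H40.ChevOut3

/-!
The structure of the outer automorphism group: diagonal classes are normal and abelian, field
classes cyclic, the index of their join is the number of graph classes.
-/

set_option autoImplicit false

namespace H40.ChevAut

open H22.RGD H22.Coord H22.RCCheck H22.RCComb H22.ChevTri H22.ChevRel H22.ChevSys H22.ChevMain
open H22.ChevStd H40.RGDOpp H40.RGDAut H40.RGDSyl H22.ChevTorus H22.ChevHom
open Cfsg.Lie
open scoped MatrixGroups Matrix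

/-! ### field automorphisms of a finite field -/

theorem isCyclic_ringAut (F : Type*) [Field F] [Finite F] : IsCyclic (F ≃+* F) := by
  have : Fact (ringChar F).Prime := ⟨CharP.char_is_prime F (ringChar F)⟩
  let _ : Algebra (ZMod (ringChar F)) F := ZMod.algebra F (ringChar F)
  exact isCyclic_of_surjective (H50.FieldAut.galEquiv (F := F) (ringChar F)).symm
    (H50.FieldAut.galEquiv (F := F) (ringChar F)).symm.surjective

theorem ringAut_comm {F : Type*} [Field F] [Finite F] (σ τ : F ≃+* F) (t : F) :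
    σ (τ t) = τ (σ t) := by
  have := isCyclic_ringAut F
  have hc : IsMulCommutative (F ≃+* F) := inferInstance
  have h : σ * τ = τ * σ := hc.is_comm.comm σ τ
  exact congrArg (fun f : F ≃+* F => f t) h

variable {D : ChevalleyDatum} {F : Type*} [Field F] (R : Rel D F) (X : RCX D)

theorem eq_of_simple {θ ψ : MulAut ↥(D.group F)}
    (hp : ∀ i t, θ (xe R ((comb X).simple i) t) = ψ (xe R ((comb X).simple i) t))
    (hn : ∀ i t, θ (xe R ((comb X).neg ((comb X).simple i)) t) =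
      ψ (xe R ((comb X).neg ((comb X).simple i)) t)) : θ = ψ := by
  have : θ.toMonoidHom = ψ.toMonoidHom := ext_simple R X hp hn
  ext x : 1
  exact congrArg (fun f : ↥(D.group F) →* ↥(D.group F) => f x) this

include R X in
theorem fAut_of_isField {f : ↥(D.group F) ≃* ↥(D.group F)} (hf : D.IsFieldAut f) :
    ∃ σ : F ≃+* F, f = fAut σ := by
  obtain ⟨σ, h⟩ := hf
  refine ⟨σ, ?_⟩
  have key : ∀ (r : Fin D.nroots) (t : F), f (xe R r t) = fAut σ (xe R r t) := by
    intro r t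
    rw [fAut_xe, xe_eq_iff]
    exact h _ r t r.2 rfl
  exact eq_of_simple R X (θ := f) (ψ := fAut σ) (fun i t => key _ _) (fun i t => key _ _)

theorem dAut_of_isDiagonal {d : ↥(D.group F) ≃* ↥(D.group F)} (hd : D.IsDiagonalAut d) :
    ∃ a, d = dAut R X a := by
  obtain ⟨χ, hχ, h⟩ := hd
  refine ⟨fun i => χ (D.simple i), ?_⟩
  ext x : 1
  apply Subtype.ext
  apply Units.ext
  rw [h]
  show _ = ((Tt X.rc _ * (x : GL D.Idx F) * (Tt X.rc _)⁻¹ : GL D.Idx F) : Matrix D.Idx D.Idx F)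
  rw [Units.val_mul, Units.val_mul, charDiag_eq X hχ, charDiag_inv_eq X hχ]

include R X in
/-- S2160 -/
theorem field_graph_comm {f g : ↥(D.group F) ≃* ↥(D.group F)} (hf : D.IsFieldAut f)
    (hg : D.IsGraphAut g) (y : ↥(D.group F)) : f (g y) = g (f y) := by
  obtain ⟨σ, rfl⟩ := fAut_of_isField R X hf
  obtain ⟨ρ, hρ⟩ := isG_of_isGraph R X hg
  have h : (g.trans (fAut σ) : MulAut ↥(D.group F)) = (fAut σ).trans g := by
    refine eq_of_simple R X (fun i t => ?_) (fun i t => ?_)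
    · show fAut σ (g _) = g (fAut σ _)
      rw [hρ.pos, fAut_xe, fAut_xe, hρ.pos, map_pow]
    · show fAut σ (g _) = g (fAut σ _)
      rw [hρ.neg, fAut_xe, fAut_xe, hρ.neg, map_pow]
  exact congrArg (fun f : MulAut ↥(D.group F) => f y) h

/-- the diagonal automorphisms as a homomorphism -/
def dHom : (Fin D.rank → Fˣ) →* MulAut ↥(D.group F) where
  toFun := dAut R X
  map_one' := by
    refine eq_of_simple R X (fun i t => ?_) (fun i t => ?_)
    · rw [dAut_simple, Pi.one_apply, Units.val_one, one_mul]; rfl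
    · rw [dAut_neg_simple, Pi.one_apply, inv_one, Units.val_one, one_mul]; rfl
  map_mul' a b := by
    ext x : 1
    exact dAut_mul R X a b x

/-- the field automorphisms as a homomorphism -/
noncomputable def fHom : (F ≃+* F) →* MulAut ↥(D.group F) where
  toFun := fAut
  map_one' := by
    ext x : 1
    apply Subtype.ext
    apply Units.ext
    show _ = ((x : GL D.Idx F) : Matrix D.Idx D.Idx F)
    rw [fAut_val]
    ext i j
    rfl
  map_mul' σ τ := by
    ext x : 1
    apply Subtype.ext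
    apply Units.ext
    rw [MulAut.mul_apply, fAut_val, fAut_val, fAut_val]
    ext i j
    rfl

theorem dHom_apply (a : Fin D.rank → Fˣ) : dHom R X a = dAut R X a := rfl

theorem fHom_apply (σ : F ≃+* F) : fHom (D := D) σ = fAut σ := rfl

theorem closure_diag : Subgroup.closure {φ : MulAut ↥(D.group F) | D.IsDiagonalAut φ} =
    (dHom R X).range := by
  apply le_antisymm
  · rw [Subgroup.closure_le]
    intro φ hφ
    obtain ⟨a, rfl⟩ := dAut_of_isDiagonal R X hφ
    exact ⟨a, rfl⟩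
  · rintro _ ⟨a, rfl⟩
    exact Subgroup.subset_closure (dAut_isDiagonal R X a)

include R X in
theorem closure_field : Subgroup.closure {φ : MulAut ↥(D.group F) | D.IsFieldAut φ} =
    (fHom (D := D) (F := F)).range := by
  apply le_antisymm
  · rw [Subgroup.closure_le]
    intro φ hφ
    obtain ⟨σ, rfl⟩ := fAut_of_isField R X hφ
    exact ⟨σ, rfl⟩
  · rintro _ ⟨σ, rfl⟩
    exact Subgroup.subset_closure (fAut_isField R σ)

/-! ### conjugation relations -/

section conj

variable (a : Fin D.rank → Fˣ) (ρ : PG R X) (σ : F ≃+* F)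

theorem st_mul_dAut (b : Fin D.rank → Fˣ) : ∃ c, st R X a ρ σ * dAut R X b =
    dAut R X c * st R X a ρ σ := by
  refine ⟨fun j => Units.map (σ : F →* F) (b (ρ.1.symm j)) ^
    D.graphExp (ringChar F) (ρ.1.symm j) j, ?_⟩
  refine eq_of_simple R X (fun i t => ?_) (fun i t => ?_)
  · rw [MulAut.mul_apply, MulAut.mul_apply, dAut_simple, st_simple, st_simple, dAut_simple]
    congr 1
    simp only [Equiv.symm_apply_apply, Units.val_pow_eq_pow_val, Units.coe_map, map_mul, mul_pow]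
    show _ = σ (b i : F) ^ _ * _
    ring
  · rw [MulAut.mul_apply, MulAut.mul_apply, dAut_neg_simple, st_neg, st_neg, dAut_neg_simple]
    congr 1
    simp only [Equiv.symm_apply_apply, map_mul, mul_pow, Units.val_inv_eq_inv_val,
      Units.val_pow_eq_pow_val, Units.coe_map, map_inv₀, inv_pow]
    show _ = (σ (b i : F) ^ _)⁻¹ * _
    ring

theorem st_mul_fAut [Finite F] (τ : F ≃+* F) : ∃ c, st R X a ρ σ * fAut τ =
    dAut R X c * fAut τ * st R X a ρ σ := by
  refine ⟨fun j => a j * (Units.map (τ : F →* F) (a j))⁻¹, ?_⟩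
  have hne : ∀ j, τ (a j : F) ≠ 0 := fun j => by
    rw [_root_.ne_eq, map_eq_zero_iff τ τ.injective]; exact Units.ne_zero _
  refine eq_of_simple R X (fun i t => ?_) (fun i t => ?_)
  · rw [MulAut.mul_apply, MulAut.mul_apply, MulAut.mul_apply, fAut_xe, st_simple, st_simple,
      fAut_xe, dAut_simple]
    congr 1
    simp only [Units.val_mul, Units.val_inv_eq_inv_val, Units.coe_map, map_mul, map_pow]
    show _ = (a (ρ.1 i) : F) * (τ (a (ρ.1 i) : F))⁻¹ * (τ (a (ρ.1 i) : F) * _)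
    rw [ringAut_comm σ τ]
    have := hne (ρ.1 i)
    field_simp
  · rw [MulAut.mul_apply, MulAut.mul_apply, MulAut.mul_apply, fAut_xe, st_neg, st_neg,
      fAut_xe, dAut_neg_simple]
    congr 1
    simp only [mul_inv, inv_inv, Units.val_mul, Units.val_inv_eq_inv_val, Units.coe_map, map_mul,
      map_pow, map_inv₀]
    show _ = (a (ρ.1 i) : F)⁻¹ * (τ (a (ρ.1 i) : F)) * ((τ (a (ρ.1 i) : F))⁻¹ * _)
    rw [ringAut_comm σ τ]
    have := hne (ρ.1 i)
    field_simp

end conj

/-! ### the subgroups of the outer automorphism group -/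

section outer

variable [Finite F]

theorem mk_eq_st (Z : Diag X) (FP : FieldProp D F) (o : Cfsg.Out ↥(D.group F)) :
    ∃ a ρ σ, o = QuotientGroup.mk (st R X a ρ σ) := by
  obtain ⟨θ, rfl⟩ := QuotientGroup.mk_surjective o
  obtain ⟨a, ρ, σ, h⟩ := exists_st R X Z FP θ
  exact ⟨a, ρ, σ, QuotientGroup.eq.2 h⟩

/-- diagonal classes -/
def Db : Subgroup (Cfsg.Out ↥(D.group F)) :=
  (dHom R X).range.map (QuotientGroup.mk' (Cfsg.Inn ↥(D.group F)))

/-- field classes -/
noncomputable def Fb : Subgroup (Cfsg.Out ↥(D.group F)) :=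
  (fHom (D := D) (F := F)).range.map (QuotientGroup.mk' (Cfsg.Inn ↥(D.group F)))

omit [Finite F] in
theorem mem_Db {o : Cfsg.Out ↥(D.group F)} :
    o ∈ Db R X ↔ ∃ a, o = QuotientGroup.mk (dAut R X a : MulAut ↥(D.group F)) := by
  constructor
  · rintro ⟨_, ⟨a, rfl⟩, rfl⟩; exact ⟨a, rfl⟩
  · rintro ⟨a, rfl⟩; exact ⟨_, ⟨a, rfl⟩, rfl⟩

omit [Finite F] in
theorem mem_Fb {o : Cfsg.Out ↥(D.group F)} :
    o ∈ Fb (D := D) (F := F) ↔ ∃ σ, o = QuotientGroup.mk (fAut σ : MulAut ↥(D.group F)) := by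
  constructor
  · rintro ⟨_, ⟨a, rfl⟩, rfl⟩; exact ⟨a, rfl⟩
  · rintro ⟨a, rfl⟩; exact ⟨_, ⟨a, rfl⟩, rfl⟩

theorem Db_normal (Z : Diag X) (FP : FieldProp D F) : (Db R X).Normal := by
  constructor
  intro n hn o
  obtain ⟨b, rfl⟩ := (mem_Db R X).1 hn
  obtain ⟨a, ρ, σ, rfl⟩ := mk_eq_st R X Z FP o
  obtain ⟨c, hc⟩ := st_mul_dAut R X a ρ σ b
  rw [mem_Db]
  refine ⟨c, ?_⟩
  rw [← QuotientGroup.mk_mul, hc, QuotientGroup.mk_mul, mul_inv_cancel_right]

omit [Finite F] in
theorem Db_comm : IsMulCommutative ↥(Db R X) := by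
  constructor
  constructor
  rintro ⟨x, hx⟩ ⟨y, hy⟩
  obtain ⟨a, rfl⟩ := (mem_Db R X).1 hx
  obtain ⟨b, rfl⟩ := (mem_Db R X).1 hy
  apply Subtype.ext
  show QuotientGroup.mk _ * QuotientGroup.mk _ = QuotientGroup.mk _ * QuotientGroup.mk _
  rw [← QuotientGroup.mk_mul, ← QuotientGroup.mk_mul, ← dHom_apply, ← dHom_apply, ← map_mul,
    mul_comm, map_mul]

theorem Fb_cyclic : IsCyclic ↥(Fb (D := D) (F := F)) := by
  have := isCyclic_ringAut F
  have h1 : IsCyclic (fHom (D := D) (F := F)).range :=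
    isCyclic_of_surjective (fHom (D := D) (F := F)).rangeRestrict
      (MonoidHom.rangeRestrict_surjective _)
  have h2 : (((fHom (D := D) (F := F)).range).map
    (QuotientGroup.mk' (Cfsg.Inn ↥(D.group F)))) = (((QuotientGroup.mk' (Cfsg.Inn ↥(D.group F))).comp
      (fHom (D := D) (F := F))).range) := by
    rw [MonoidHom.range_comp]
  unfold Fb
  rw [h2]
  exact isCyclic_of_surjective _ (MonoidHom.rangeRestrict_surjective _)

theorem sup_normal (Z : Diag X) (FP : FieldProp D F) : (Db R X ⊔ Fb (D := D) (F := F)).Normal := by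
  have hD := Db_normal R X Z FP
  constructor
  intro n hn o
  obtain ⟨x, hx, y, hy, rfl⟩ := (Subgroup.mem_sup_of_normal_left (s := Db R X)).1 hn
  obtain ⟨τ, rfl⟩ := mem_Fb.1 hy
  obtain ⟨a, ρ, σ, rfl⟩ := mk_eq_st R X Z FP o
  obtain ⟨c, hc⟩ := st_mul_fAut R X a ρ σ τ
  have h1 : (QuotientGroup.mk (st R X a ρ σ) : Cfsg.Out ↥(D.group F)) * (x *
      QuotientGroup.mk (fAut τ : MulAut ↥(D.group F))) * (QuotientGroup.mk (st R X a ρ σ))⁻¹ =
      (QuotientGroup.mk (st R X a ρ σ) * x * (QuotientGroup.mk (st R X a ρ σ))⁻¹) *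
      (QuotientGroup.mk (dAut R X c : MulAut ↥(D.group F)) *
        QuotientGroup.mk (fAut τ : MulAut ↥(D.group F))) := by
    have h2 : (QuotientGroup.mk (st R X a ρ σ) : Cfsg.Out ↥(D.group F)) *
        QuotientGroup.mk (fAut τ : MulAut ↥(D.group F)) =
        QuotientGroup.mk (dAut R X c : MulAut ↥(D.group F)) *
        QuotientGroup.mk (fAut τ : MulAut ↥(D.group F)) * QuotientGroup.mk (st R X a ρ σ) := by
      rw [← QuotientGroup.mk_mul, hc, QuotientGroup.mk_mul, QuotientGroup.mk_mul]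
    have h3 : ∀ s x f d : Cfsg.Out ↥(D.group F), s * f = d * f * s →
        s * (x * f) * s⁻¹ = (s * x * s⁻¹) * (d * f) := by
      intro s x f d h
      have : s * x * f * s⁻¹ = s * x * s⁻¹ * (s * f) * s⁻¹ := by group
      rw [← mul_assoc, this, h]; group
    exact h3 _ _ _ _ h2
  rw [h1]
  exact mul_mem (Subgroup.mem_sup_left (hD.conj_mem _ hx _))
    (mul_mem (Subgroup.mem_sup_left ((mem_Db R X).2 ⟨c, rfl⟩)) (Subgroup.mem_sup_right hy))

theorem st_eq (a : Fin D.rank → Fˣ) (ρ : PG R X) (σ : F ≃+* F) :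
    (QuotientGroup.mk (st R X a ρ σ) : Cfsg.Out ↥(D.group F)) =
      QuotientGroup.mk (dAut R X a : MulAut ↥(D.group F)) *
        QuotientGroup.mk (gA R X ρ : MulAut ↥(D.group F)) *
        QuotientGroup.mk (fAut σ : MulAut ↥(D.group F)) := rfl

/-- graph classes are distinct modulo diagonal and field classes -/
theorem gA_inj (Z : Diag X) (FP : FieldProp D F) (h0 : 0 < D.rank) {ρ ρ' : PG R X}
    (h : (QuotientGroup.mk (gA R X ρ : MulAut ↥(D.group F)) : Cfsg.Out ↥(D.group F))⁻¹ *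
      QuotientGroup.mk (gA R X ρ' : MulAut ↥(D.group F)) ∈ Db R X ⊔ Fb (D := D) (F := F)) :
    ρ = ρ' := by
  have hD := Db_normal R X Z FP
  obtain ⟨x, hx, y, hy, e⟩ := (Subgroup.mem_sup_of_normal_left (s := Db R X)).1 h
  obtain ⟨τ, rfl⟩ := mem_Fb.1 hy
  -- g' = g x f = (g x g⁻¹) g f
  have h1 : (QuotientGroup.mk (gA R X ρ' : MulAut ↥(D.group F)) : Cfsg.Out ↥(D.group F)) =
      (QuotientGroup.mk (gA R X ρ : MulAut ↥(D.group F)) * x *
        (QuotientGroup.mk (gA R X ρ : MulAut ↥(D.group F)))⁻¹) *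
      QuotientGroup.mk (gA R X ρ : MulAut ↥(D.group F)) *
        QuotientGroup.mk (fAut τ : MulAut ↥(D.group F)) := by
    have h3 : ∀ g g' x f : Cfsg.Out ↥(D.group F), x * f = g⁻¹ * g' →
        g' = (g * x * g⁻¹) * g * f := by
      intro g g' x f h
      have : g * x * g⁻¹ * g * f = g * (x * f) := by group
      rw [this, h]; group
    exact h3 _ _ _ _ e
  obtain ⟨b, hb⟩ := (mem_Db R X).1 (hD.conj_mem _ hx
    (QuotientGroup.mk (gA R X ρ : MulAut ↥(D.group F))))
  rw [hb, ← st_eq] at h1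
  have h2 : (QuotientGroup.mk (gA R X ρ' : MulAut ↥(D.group F)) : Cfsg.Out ↥(D.group F)) =
      QuotientGroup.mk (st R X 1 ρ' 1) := by
    rw [st_eq]
    have e1 : (dAut R X 1 : MulAut ↥(D.group F)) = 1 := map_one (dHom R X)
    have e2 : (fAut (1 : F ≃+* F) : MulAut ↥(D.group F)) = 1 := map_one (fHom (D := D) (F := F))
    rw [e1, e2, QuotientGroup.mk_one, one_mul, mul_one]
  rw [h2] at h1
  exact (st_fibre R X h0 (QuotientGroup.eq.1 h1)).2.1.symm

theorem index_sup (Z : Diag X) (FP : FieldProp D F) (h0 : 0 < D.rank) :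
    (Db R X ⊔ Fb (D := D) (F := F)).index = Nat.card (PG R X) := by
  have hD := Db_normal R X Z FP
  have hN := sup_normal R X Z FP
  rw [Subgroup.index]
  refine (Nat.card_congr (Equiv.ofBijective (fun ρ : PG R X =>
    (QuotientGroup.mk (QuotientGroup.mk (gA R X ρ : MulAut ↥(D.group F)) :
      Cfsg.Out ↥(D.group F)) : Cfsg.Out ↥(D.group F) ⧸ (Db R X ⊔ Fb (D := D) (F := F))))
    ⟨?_, ?_⟩)).symm
  · intro ρ ρ' e
    exact gA_inj R X Z FP h0 (QuotientGroup.eq.1 e)
  · intro o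
    obtain ⟨o, rfl⟩ := QuotientGroup.mk_surjective o
    obtain ⟨a, ρ, σ, rfl⟩ := mk_eq_st R X Z FP o
    refine ⟨ρ, ?_⟩
    rw [QuotientGroup.eq, st_eq]
    have h3 : ∀ g d f : Cfsg.Out ↥(D.group F), g⁻¹ * (d * g * f) = (g⁻¹ * d * g⁻¹⁻¹) * f := by
      intro g d f; group
    rw [h3]
    exact mul_mem (Subgroup.mem_sup_left (hD.conj_mem _ ((mem_Db R X).2 ⟨a, rfl⟩) _))
      (Subgroup.mem_sup_right (mem_Fb.2 ⟨σ, rfl⟩))

end outer

end H40.ChevAut
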