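import Cfsg.Agent.Lib.H40.ChevOut5
import Cfsg.Agent.S1098
import Cfsg.Agent.S1099

/-!
The outer automorphism groups of `G₂(q)` and `F₄(q)`.
-/

set_option autoImplicit false

namespace H40.ChevAut

open H22.RGD H22.Coord H22.RCCheck H22.RCComb H22.ChevTri H22.ChevRel H22.ChevSys H22.ChevMain
open H22.ChevStd H40.RGDOpp H40.RGDAut H40.RGDSyl H22.ChevTorus H22.ChevHom
open Cfsg.Lie
open scoped MatrixGroups Matrix

section general

variable {D : ChevalleyDatum} {F : Type*} [Field F] {R : Rel D F} {X : RCX D}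

theorem IsG.exists_phi [Finite F] {g : ↥(D.group F) ≃* ↥(D.group F)} {ρ : Equiv.Perm (Fin D.rank)}
    (h : IsG R X g ρ) : ∃ φ : Fin D.rank → (F ≃+* F), ∀ (i k : Fin D.rank) (t : F), t ≠ 0 →
      φ k t ^ D.cartan i (D.simple k) = φ i t ^ D.cartan (ρ i) (D.simple (ρ k)) := by
  obtain ⟨ρ', f, g', hd⟩ := exists_dat R X h.norm
  have e : ρ' = ρ := by
    ext i
    have h1 := hd.pos i 1
    rw [h.pos, one_pow] at h1
    exact congrArg Fin.val (simple_eq_of R X one_ne_zero h1).symm
  subst e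
  exact ⟨hd.phi, fun i k t ht => hd.phi_rel i k ht⟩

end general

/-- the flip of the diagram of type `F₄` -/
def flipF4 : Equiv.Perm (Fin 4) := ⟨![3, 2, 1, 0], ![3, 2, 1, 0], by decide, by decide⟩

theorem flipF4_ne : flipF4 ≠ 1 := by decide

theorem flipF4_sym : chevF4.IsDiagramSymmetry flipF4 := by
  have h : ∀ i j : Fin 4, i ≠ j → chevF4.bonds (flipF4 i) (flipF4 j) = chevF4.bonds i j := by
    decide +kernel
  exact h

theorem exists_flipF4 {F : Type*} [Field F] [Finite F] [CharP F 2] (R : Rel chevF4 F)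
    (X : RCX chevF4) : ∃ g, IsG R X g flipF4 := by
  have hperf : ∀ x : F, ∃ y : F, y ^ 2 = x := fun x => by
    obtain ⟨y, hy⟩ := FiniteField.isSquare_of_char_two (ringChar.eq F 2) x
    exact ⟨y, by rw [pow_two]; exact hy.symm⟩
  have l0 : chevF4.isLong (chevF4.simple 0) = false := by decide +kernel
  have l1 : chevF4.isLong (chevF4.simple 1) = false := by decide +kernel
  have l2 : chevF4.isLong (chevF4.simple 2) = true := by decide +kernel
  have l3 : chevF4.isLong (chevF4.simple 3) = true := by decide +kernel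
  have hc : ringChar F = 2 := (ringChar.eq F 2)
  obtain ⟨α, hα⟩ := Cfsg.Agent.S1098.result hperf (chevF4, [(3, 2), (2, 2), (1, 1), (0, 1)])
    (by simp)
  have hv : ∀ i : Fin 4, ([(3, 2), (2, 2), (1, 1), (0, 1)].getD (i : ℕ) (0, 1)).1 =
    (flipF4 i : ℕ) := by decide
  have he : ∀ i : Fin 4, ([(3, 2), (2, 2), (1, 1), (0, 1)].getD (i : ℕ) (0, 1)).2 =
      chevF4.graphExp (ringChar F) i (flipF4 i) := by
    intro i
    rw [hc]
    fin_cases i
    · exact (graphExp_of l0 l3 2).symm
    · exact (graphExp_of l1 l2 2).symm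
    · exact (graphExp_of_long l2 2 _).symm
    · exact (graphExp_of_long l3 2 _).symm
  refine ⟨α, flipF4_sym, fun i t => ?_, fun i t => ?_⟩
  · rw [xe_eq_iff]
    have h1 := (hα (xe R ((comb X).simple i) t) i t i.2).1 rfl
    rw [h1, he i]
    show chevF4.x F (chevF4.simple ([(3, 2), (2, 2), (1, 1), (0, 1)].getD (i : ℕ) (0, 1)).1) _ = _
    rw [hv i]; rfl
  · rw [xe_eq_iff]
    have h1 := (hα (xe R ((comb X).neg ((comb X).simple i)) t) i t i.2).2 rfl
    rw [h1, he i]
    show chevF4.x F (chevF4.neg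
      (chevF4.simple ([(3, 2), (2, 2), (1, 1), (0, 1)].getD (i : ℕ) (0, 1)).1)) _ = _
    rw [hv i]; rfl

theorem card_PG_F4 {F : Type*} [Field F] [Finite F] (p : ℕ) [Fact p.Prime] [CharP F p]
    (R : Rel chevF4 F) (X : RCX chevF4) : Nat.card (PG R X) = Nat.gcd 2 p := by
  by_cases hp : p = 2
  · subst hp
    rw [card_PG_two R X (τ := flipF4) flipF4_ne (exists_flipF4 R X)
      (fun ρ g hg => permF4_cases ρ hg.sym)]
    rfl
  · have hg2 : Nat.gcd 2 p = 1 :=
      (Nat.coprime_primes Nat.prime_two (Fact.out : p.Prime)).2 (fun e => hp e.symm)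
    rw [hg2]
    apply card_PG_one
    intro ρ g hg
    rcases permF4_cases ρ hg.sym with h | h
    · exact h
    · exfalso
      subst h
      obtain ⟨φ, hφ⟩ : ∃ φ : Fin 4 → (F ≃+* F), ∀ (i k : Fin 4) (t : F), t ≠ 0 →
        φ k t ^ chevF4.cartan i (chevF4.simple k) =
          φ i t ^ chevF4.cartan (flipF4 i) (chevF4.simple (flipF4 k)) := hg.exists_phi
      have h1 : ringChar F = 2 := char_of_sq (φ := φ 1) (ψ := φ 2) (fun t ht => by
        have h2 := hφ 2 1 t ht
        have a1 : chevF4.cartan 2 (chevF4.simple 1) = -1 := by decide +kernel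
        have a2 : chevF4.cartan 1 (chevF4.simple 2) = -2 := by decide +kernel
        have h3 : φ 1 t ^ chevF4.cartan 2 (chevF4.simple 1) =
          φ 2 t ^ chevF4.cartan 1 (chevF4.simple 2) := h2
        rw [a1, a2, zpow_neg, zpow_neg, inv_inj, zpow_one] at h3
        exact_mod_cast h3)
      rw [ringChar.eq F p] at h1
      exact hp h1

/-- the flip of the diagram of type `G₂` -/
def flipG2 : Equiv.Perm (Fin 2) := Equiv.swap 0 1

theorem flipG2_ne : flipG2 ≠ 1 := by decide

theorem flipG2_sym : chevG2.IsDiagramSymmetry flipG2 := by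
  have h : ∀ i j : Fin 2, i ≠ j → chevG2.bonds (flipG2 i) (flipG2 j) = chevG2.bonds i j := by
    decide +kernel
  exact h

theorem exists_flipG2 {F : Type*} [Field F] [Finite F] [CharP F 3] (R : Rel chevG2 F)
    (X : RCX chevG2) : ∃ g, IsG R X g flipG2 := by
  have : Fact (Nat.Prime 3) := ⟨Nat.prime_three⟩
  have hperf : ∀ x : F, ∃ y : F, y ^ 3 = x := fun x => by
    obtain ⟨y, hy⟩ := (Finite.injective_iff_surjective.1 (frobenius F 3).injective) x
    exact ⟨y, hy⟩
  have l0 : chevG2.isLong (chevG2.simple 0) = false := by decide +kernel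
  have l1 : chevG2.isLong (chevG2.simple 1) = true := by decide +kernel
  have hc : ringChar F = 3 := (ringChar.eq F 3)
  obtain ⟨α, hα⟩ := Cfsg.Agent.S1099.result hperf
  have e0 : ∀ t : F, t ^ chevG2.graphExp (ringChar F) 0 1 = t ^ 3 := fun t => by
    rw [hc, graphExp_of l0 l1]
  have e1 : ∀ t : F, t ^ chevG2.graphExp (ringChar F) 1 0 = t := fun t => by
    rw [graphExp_of_long l1, pow_one]
  refine ⟨α, flipG2_sym, ?_, ?_⟩
  · have key : ∀ i : Fin 2, ∀ t, α (xe R ((comb X).simple i) t) = xe R ((comb X).simple (flipG2 i))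
        (t ^ chevG2.graphExp (ringChar F) i (flipG2 i)) := by
      rw [Fin.forall_fin_two]
      refine ⟨fun t => ?_, fun t => ?_⟩
      · rw [xe_eq_iff]
        have h1 := (hα (xe R ((comb X).simple (0 : Fin 2)) t) t).1 rfl
        rw [h1, ← e0 t]
        rfl
      · rw [xe_eq_iff]
        have h1 := (hα (xe R ((comb X).simple (1 : Fin 2)) t) t).2.1 rfl
        rw [h1]
        conv_lhs => rw [← e1 t]
        rfl
    exact key
  · have key : ∀ i : Fin 2, ∀ t, α (xe R ((comb X).neg ((comb X).simple i)) t) =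
        xe R ((comb X).neg ((comb X).simple (flipG2 i)))
        (t ^ chevG2.graphExp (ringChar F) i (flipG2 i)) := by
      rw [Fin.forall_fin_two]
      refine ⟨fun t => ?_, fun t => ?_⟩
      · rw [xe_eq_iff]
        have h1 := (hα (xe R ((comb X).neg ((comb X).simple (0 : Fin 2))) t) t).2.2.1 rfl
        rw [h1, ← e0 t]
        rfl
      · rw [xe_eq_iff]
        have h1 := (hα (xe R ((comb X).neg ((comb X).simple (1 : Fin 2))) t) t).2.2.2 rfl
        rw [h1]
        conv_lhs => rw [← e1 t]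
        rfl
    exact key

theorem char_of_cube' {F : Type*} [Field F] [Finite F] (p : ℕ) [Fact p.Prime] [CharP F p]
    {φ ψ : F ≃+* F} (h : ∀ t, t ≠ 0 → φ t = ψ t ^ 3) {x : F} (h0 : x ≠ 0) (h1 : x ≠ 1) : p = 3 := by
  have h2 := char_of_cube h
  rw [ringChar.eq F p] at h2
  have h3 : ((6 : ℕ) : F) = 0 := by
    have h4 := h2 2
    have h5 : (2 : F) ^ p = 2 := map_ofNat (frobenius F p) 2
    rw [h5] at h4
    have : ((6 : ℕ) : F) = 2 ^ 3 - 2 := by norm_num
    rw [this, h4, sub_self]
  have h6 : p ∣ 6 := (CharP.cast_eq_zero_iff F p 6).1 h3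
  have hp : p.Prime := Fact.out
  have h7 : p ≤ 6 := Nat.le_of_dvd (by norm_num) h6
  have h8 : p = 2 ∨ p = 3 := by
    interval_cases p <;> revert hp h6 <;> decide
  rcases h8 with rfl | rfl
  · exfalso
    have h9 := h2 x
    have h10 : x ^ 2 * (x - 1) = 0 := by
      have : x ^ 2 * (x - 1) = x ^ 3 - x ^ 2 := by ring
      rw [this, h9, sub_self]
    rcases mul_eq_zero.1 h10 with h11 | h11
    · exact h0 (pow_eq_zero_iff (two_ne_zero) |>.1 h11)
    · exact h1 (sub_eq_zero.1 h11)
  · rfl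

theorem card_PG_G2 {F : Type*} [Field F] [Fintype F] (p : ℕ) [Fact p.Prime] [CharP F p]
    (hq : 3 ≤ Fintype.card F) (R : Rel chevG2 F) (X : RCX chevG2) :
    Nat.card (PG R X) = if p = 3 then 2 else 1 := by
  by_cases hp : p = 3
  · subst hp
    rw [if_pos rfl]
    exact card_PG_two R X (τ := flipG2) flipG2_ne (exists_flipG2 R X)
      (fun ρ g hg => perm2_cases ρ)
  · rw [if_neg hp]
    apply card_PG_one
    intro ρ g hg
    rcases perm2_cases ρ with h | h
    · exact h
    · exfalso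
      subst h
      obtain ⟨φ, hφ⟩ : ∃ φ : Fin 2 → (F ≃+* F), ∀ (i k : Fin 2) (t : F), t ≠ 0 →
        φ k t ^ chevG2.cartan i (chevG2.simple k) =
          φ i t ^ chevG2.cartan (flipG2 i) (chevG2.simple (flipG2 k)) := hg.exists_phi
      obtain ⟨x, hx0, hx1⟩ : ∃ x : F, x ≠ 0 ∧ x ≠ 1 := by
        by_contra hcon
        push Not at hcon
        classical
        have h3 : (Finset.univ : Finset F) ⊆ {0, 1} := by
          intro x _
          rw [Finset.mem_insert, Finset.mem_singleton]
          by_cases hx : x = 0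
          · exact Or.inl hx
          · exact Or.inr (hcon x hx)
        have h4 := Finset.card_le_card h3
        have h5 : ({0, 1} : Finset F).card ≤ 2 := Finset.card_le_two
        rw [Finset.card_univ] at h4
        omega
      refine hp (char_of_cube' p (φ := φ 0) (ψ := φ 1) (fun t ht => ?_) hx0 hx1)
      have a1 : chevG2.cartan 1 (chevG2.simple 0) = -1 := by decide +kernel
      have a2 : chevG2.cartan 0 (chevG2.simple 1) = -3 := by decide +kernel
      have h3 : φ 0 t ^ chevG2.cartan 1 (chevG2.simple 0) =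
        φ 1 t ^ chevG2.cartan 0 (chevG2.simple 1) := hφ 1 0 t ht
      rw [a1, a2, zpow_neg, zpow_neg, inv_inj, zpow_one] at h3
      exact_mod_cast h3

section final

variable {F : Type*} [Field F] [Fintype F]

theorem outG2 (p f : ℕ) [Fact p.Prime] [CharP F p] (hF : Fintype.card F = p ^ f) (hq : 3 ≤ p ^ f) :
    Nat.card (Cfsg.Out ↥(chevG2.group F)) = (if p = 3 then 2 * f else f) := by
  rw [card_out (relG2 F) H22.PoinG2.rcxG2 (by decide) diagG2 (fpG2 F),
    index_TH (relG2 F) H22.PoinG2.rcxG2, H22.ChevTorusCard.kerG2 (q := Fintype.card F) rfl,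
    card_PG_G2 p (by rw [hF]; exact hq) (relG2 F) H22.PoinG2.rcxG2,
    H50.FieldAut.card_ringAut (p := p) (by rw [Nat.card_eq_fintype_card, hF])]
  split_ifs <;> simp

theorem outF4 (p f : ℕ) [Fact p.Prime] [CharP F p] (hF : Fintype.card F = p ^ f) :
    Nat.card (Cfsg.Out ↥(chevF4.group F)) = Nat.gcd 2 p * f := by
  rw [card_out (relF4 F) H22.PoinF4.rcxF4 (by decide) diagF4 (fpF4 F),
    index_TH (relF4 F) H22.PoinF4.rcxF4, H22.ChevTorusCard.kerF4 (q := Fintype.card F) rfl,
    card_PG_F4 p (relF4 F) H22.PoinF4.rcxF4,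
    H50.FieldAut.card_ringAut (p := p) (by rw [Nat.card_eq_fintype_card, hF])]
  simp

end final

end H40.ChevAut
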