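import Cfsg.Agent.Lib.H40.ChevOut5

/-!
Graph automorphisms of types `D₄`, `E₆` on all root elements.
-/

set_option autoImplicit false
set_option maxRecDepth 100000

namespace H40.ChevAut

open H22.RGD H22.Coord H22.RCCheck H22.RCComb H22.ChevTri H22.ChevRel H22.ChevSys H22.ChevMain
open H22.ChevStd H40.RGDOpp H40.RGDAut H40.RGDSyl H22.ChevTorus H22.ChevHom
open Cfsg.Lie
open H23.ChevSym H23.ChevCore
open scoped MatrixGroups Matrix

/-- the coroot table has distinct rows of length the rank -/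
def corOK (D : ChevalleyDatum) : Bool :=
  let L := D.coroot.toList.map Array.toList
  decide L.Nodup && L.all (fun l => decide (l.length = D.rank)) && decide (L.length = D.nroots)

theorem coroot_inj {D : ChevalleyDatum} (h : corOK D = true) {r s : ℕ} (hr : r < D.nroots)
    (hs : s < D.nroots)
    (e : ∀ i < D.rank, (D.coroot.getD r #[]).getD i 0 = (D.coroot.getD s #[]).getD i 0) : r = s := by
  unfold corOK at h
  simp only [Bool.and_eq_true, decide_eq_true_eq] at h
  obtain ⟨⟨h1, h2⟩, h3⟩ := h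
  rw [List.length_map, Array.length_toList] at h3
  have hr' : r < D.coroot.size := by omega
  have hs' : s < D.coroot.size := by omega
  have h4 : ∀ t (ht : t < D.coroot.size), (D.coroot.getD t #[]) = D.coroot[t] := by
    intro t ht; simp [Array.getD, ht]
  rw [List.all_eq_true] at h2
  have h5 : ∀ t (ht : t < D.coroot.size), D.coroot[t].size = D.rank := by
    intro t ht
    have := h2 D.coroot[t].toList (by
      rw [List.mem_map]; exact ⟨D.coroot[t], by simp, rfl⟩)
    simpa using this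
  rw [h4 r hr', h4 s hs'] at e
  have h6 : D.coroot[r] = D.coroot[s] := by
    apply Array.ext
    · rw [h5 r hr', h5 s hs']
    · intro i hi hi'
      have h7 : i < D.rank := by rw [h5 r hr'] at hi; exact hi
      have h8 := e i h7
      simp only [Array.getD, hi, hi'] at h8
      exact h8
  have h9 : (D.coroot.toList.map Array.toList)[r]'(by simpa using hr') =
      (D.coroot.toList.map Array.toList)[s]'(by simpa using hs') := by
    simp [h6]
  exact (List.Nodup.getElem_inj_iff h1).1 h9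

theorem permRoot_eq {D : ChevalleyDatum} (h : corOK D = true) (π : Equiv.Perm (Fin D.rank))
    {r s : ℕ} (hs : s < D.nroots)
    (e : ∀ i : Fin D.rank, (D.coroot.getD s #[]).getD (π i).val 0 = (D.coroot.getD r #[]).getD i.val 0) :
    D.permRoot π r = s := by
  unfold ChevalleyDatum.permRoot
  have hP : ((List.finRange D.rank).all fun i =>
      (D.coroot.getD s #[]).getD (π i).val 0 == (D.coroot.getD r #[]).getD i.val 0) = true := by
    rw [List.all_eq_true]
    intro i _
    rw [beq_iff_eq]; exact e i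
  rcases hf : (List.range D.nroots).find? (fun s => (List.finRange D.rank).all fun i =>
      (D.coroot.getD s #[]).getD (π i).val 0 == (D.coroot.getD r #[]).getD i.val 0) with _ | u
  · rw [List.find?_eq_none] at hf
    exact absurd hP (hf s (List.mem_range.2 hs))
  · have h1 := List.find?_some hf
    have h2 := List.mem_of_find?_eq_some hf
    rw [Option.getD_some]
    apply coroot_inj h (List.mem_range.1 h2) hs
    intro i hi
    rw [List.all_eq_true] at h1
    have h3 := h1 (π.symm ⟨i, hi⟩) (List.mem_finRange _)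
    rw [beq_iff_eq, Equiv.apply_symm_apply] at h3
    have h4 := e (π.symm ⟨i, hi⟩)
    rw [Equiv.apply_symm_apply] at h4
    rw [h3, h4]

theorem perm_all_of_code {D : ChevalleyDatum} {F : Type*} [Field F] (R : Rel D F) (X : RCX D)
    (L : Simply D) (C : Core D) (hcor : corOK D = true) {c : SCode} (h1 : c.easy D = true)
    (h2 : c.rowsS D = true) (h3 : simpOK c D = true) {ρ : Equiv.Perm (Fin D.rank)}
    (hρ : ∀ i : Fin D.rank, c.pi.getD i 0 = ρ i) (hsym : D.IsDiagramSymmetry ρ)
    {φ : ↥(D.group F) ≃* ↥(D.group F)} (hφ : IsG R X φ ρ) {r : ℕ} (hr : r < D.nroots) :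
    ∃ ε : F, (ε = 1 ∨ ε = -1) ∧ ∀ (g : ↥(D.group F)) (t : F),
      ((g : GL D.Idx F) : Matrix D.Idx D.Idx F) = D.x F r t →
        ((φ g : GL D.Idx F) : Matrix D.Idx D.Idx F) = D.x F (D.permRoot ρ r) (ε * t) := by
  obtain ⟨α, -, hα⟩ := (ofCheck C h1 h2).graphAut C F
  have h3' := h3
  unfold simpOK at h3'
  simp only [H23.ChevNSCheck.allB_iff, Bool.and_eq_true, Nat.beq_eq, beq_iff_eq] at h3'
  have hαG : IsG R X α ρ := by
    refine ⟨hsym, fun i t => ?_, fun i t => ?_⟩
    · obtain ⟨h4, h5⟩ := h3' i i.2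
      have e1 : (ofCheck C h1 h2).rho (D.simple i) = D.simple (c.pi.getD i 0) := h4
      have e2 : (ofCheck C h1 h2).ep (D.simple i) = 1 := h5
      rw [xe_eq_iff, graphExp_simply L, pow_one]
      have := hα (xe R ((comb X).simple i) t) _ t (C.simple_lt i i.2) rfl
      rw [e1, e2, hρ] at this
      simpa using this
    · obtain ⟨h4, h5⟩ := h3' i i.2
      have hs := C.simple_lt i i.2
      have e1 : (ofCheck C h1 h2).rho (D.simple i) = D.simple (c.pi.getD i 0) := h4
      have e2 : (ofCheck C h1 h2).ep (D.simple i) = 1 := h5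
      rw [xe_eq_iff, graphExp_simply L, pow_one]
      have := hα (xe R ((comb X).neg ((comb X).simple i)) t) _ t (C.neg_lt _ hs) rfl
      rw [(ofCheck C h1 h2).rho_neg _ hs, (ofCheck C h1 h2).ep_neg _ hs, e1, e2, hρ] at this
      simpa using this
  have hφα : φ = α := hφ.eq hαG
  subst hφα
  have hrho : D.permRoot ρ r = (ofCheck C h1 h2).rho r := by
    apply permRoot_eq hcor ρ ((ofCheck C h1 h2).rho_lt r hr)
    intro i
    have h4 := (ofCheck C h1 h2).co_rho r hr i i.2
    have h5 : (ofCheck C h1 h2).pi i = ρ i := hρ i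
    rw [h5] at h4
    exact h4
  refine ⟨((ofCheck C h1 h2).ep r : F), ?_, fun g t hg => ?_⟩
  · rcases (ofCheck C h1 h2).ep_sq r hr with h | h
    · left; rw [h]; simp
    · right; rw [h]; simp
  · rw [hrho]; exact hα g r t hr hg

theorem perm_one {D : ChevalleyDatum} {F : Type*} [Field F] (R : Rel D F) (X : RCX D)
    (hcor : corOK D = true) {φ : ↥(D.group F) ≃* ↥(D.group F)} (hφ : IsG R X φ 1) {r : ℕ}
    (hr : r < D.nroots) :
    ∃ ε : F, (ε = 1 ∨ ε = -1) ∧ ∀ (g : ↥(D.group F)) (t : F),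
      ((g : GL D.Idx F) : Matrix D.Idx D.Idx F) = D.x F r t →
        ((φ g : GL D.Idx F) : Matrix D.Idx D.Idx F) = D.x F (D.permRoot 1 r) (ε * t) := by
  have h1 : φ = MulEquiv.refl _ := hφ.eq (isG_one R X)
  have h2 : D.permRoot 1 r = r := permRoot_eq hcor 1 hr (fun i => rfl)
  refine ⟨1, Or.inl rfl, fun g t hg => ?_⟩
  rw [h1, h2, one_mul]; exact hg

/-- S2161 -/
theorem s2161 {F : Type*} [Field F] (D : ChevalleyDatum) (hD : D ∈ [chevD4, chevE6])
    (π : Equiv.Perm (Fin D.rank)) (hπ : D.IsDiagramSymmetry π) (φ : ↥(D.group F) ≃* ↥(D.group F))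
    (hφ : ∀ (g : ↥(D.group F)) (i : Fin D.rank) (t : F),
      (((g : GL D.Idx F) : Matrix D.Idx D.Idx F) = D.x F (D.simple i) t →
        ((φ g : GL D.Idx F) : Matrix D.Idx D.Idx F) = D.x F (D.simple (π i)) t) ∧
      (((g : GL D.Idx F) : Matrix D.Idx D.Idx F) = D.x F (D.neg (D.simple i)) t →
        ((φ g : GL D.Idx F) : Matrix D.Idx D.Idx F) = D.x F (D.neg (D.simple (π i))) t))
    (r : ℕ) (hr : r < D.nroots) :
    ∃ ε : F, (ε = 1 ∨ ε = -1) ∧ ∀ (g : ↥(D.group F)) (t : F),
      ((g : GL D.Idx F) : Matrix D.Idx D.Idx F) = D.x F r t →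
        ((φ g : GL D.Idx F) : Matrix D.Idx D.Idx F) = D.x F (D.permRoot π r) (ε * t) := by
  have hG : ∀ (R : Rel D F) (X : RCX D) (L : Simply D), IsG R X φ π := by
    intro R X L
    refine ⟨hπ, fun i t => ?_, fun i t => ?_⟩
    · rw [xe_eq_iff, graphExp_simply L, pow_one]
      exact (hφ _ i t).1 rfl
    · rw [xe_eq_iff, graphExp_simply L, pow_one]
      exact (hφ _ i t).2 rfl
  simp only [List.mem_cons, List.not_mem_nil, or_false] at hD
  rcases hD with rfl | rfl
  · have hg := hG (relD4 F) H22.PoinD4.rcxD4 slD4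
    have hc : corOK chevD4 = true := by decide +kernel
    have hcases : ∀ ρ : Equiv.Perm (Fin 4), ρ 1 = 1 → ρ = 1 ∨
      (∀ i : Fin 4, [2, 1, 3, 0].getD i 0 = (ρ i : ℕ)) ∨
      (∀ i : Fin 4, [3, 1, 0, 2].getD i 0 = (ρ i : ℕ)) ∨
      (∀ i : Fin 4, [2, 1, 0, 3].getD i 0 = (ρ i : ℕ)) ∨
      (∀ i : Fin 4, [3, 1, 2, 0].getD i 0 = (ρ i : ℕ)) ∨
      (∀ i : Fin 4, [0, 1, 3, 2].getD i 0 = (ρ i : ℕ)) := by decide +kernel
    rcases hcases π ((symD4_iff π).1 hπ) with h | h | h | h | h | h
    · subst h; exact perm_one _ _ hc hg hr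
    · exact perm_all_of_code _ _ slD4 H23.ChevCertD4.coreD4 hc symD4a_easy symD4a_rows simp_D4a h hπ hg hr
    · exact perm_all_of_code _ _ slD4 H23.ChevCertD4.coreD4 hc symD4b_easy symD4b_rows simp_D4b h hπ hg hr
    · exact perm_all_of_code _ _ slD4 H23.ChevCertD4.coreD4 hc symD4c_easy symD4c_rows simp_D4c h hπ hg hr
    · exact perm_all_of_code _ _ slD4 H23.ChevCertD4.coreD4 hc symD4d_easy symD4d_rows simp_D4d h hπ hg hr
    · exact perm_all_of_code _ _ slD4 H23.ChevCertD4.coreD4 hc symD4e_easy symD4e_rows simp_D4e h hπ hg hr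
  · have hg := hG (relE6 F) H22.PoinE6.rcxE6 slE6
    have hc : corOK chevE6 = true := by decide +kernel
    rcases symE6' π hπ with h | h
    · subst h; exact perm_one _ _ hc hg hr
    · have h' : ∀ i : Fin 6, [5, 1, 4, 3, 2, 0].getD i 0 = (π i : ℕ) := by rw [h]; decide
      exact perm_all_of_code _ _ slE6 H23.ChevCertE6.coreE6 hc symE6_easy symE6_rows simp_E6 h' hπ hg hr

end H40.ChevAut
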