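import Cfsg.Agent.Lib.H22.StSys

/-!
Groups given by the Steinberg relations (R1) and (R2) only (no multiplicativity of `h̄`), mapping onto
the Chevalley group: adaptation of the files `H22/StBasic`, `StConj`, `StSys` of helper22, where the
relation (R3) is not used.
-/

set_option autoImplicit false
set_option linter.unusedVariables false

namespace H40.StCov

open H22.St
open H22.RGD H22.Coord H22.RCCheck H22.RCComb H22.ChevTri H22.ChevRel H22.ChevSys H22.ChevMain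
open H22.ChevStd H22.ChevSolv H22.ChevUni
open Cfsg.Lie (ChevalleyDatum)
open scoped MatrixGroups Matrix

variable {D : ChevalleyDatum} {F : Type*} [Field F]

/-- A group with generators satisfying (R1) and (R2), mapping onto the Chevalley group. -/
structure Cov (R : Rel D F) (Gb : Type*) [Group Gb] where
  xb : ℕ → F → Gb
  add : ∀ r < D.nroots, ∀ t u : F, xb r t * xb r u = xb r (t + u)
  comm : ∀ r < D.nroots, ∀ s < D.nroots, s ≠ r → s ≠ D.neg r → ∀ t u : F,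
    (xb s u)⁻¹ * (xb r t)⁻¹ * xb s u * xb r t = ((D.commWord F r s t u).map fun p => xb p.1 p.2).prod
  gen : Subgroup.closure {g | ∃ (r : ℕ) (t : F), r < D.nroots ∧ g = xb r t} = ⊤
  θ : Gb →* GL D.Idx F
  θ_x : ∀ r < D.nroots, ∀ t : F, θ (xb r t) = xg R r t

namespace Cov

section

variable {R : Rel D F} {Gb : Type*} [Group Gb] (S : Cov R Gb)

theorem xb_zero {r : ℕ} (hr : r < D.nroots) : S.xb r 0 = 1 := by
  have := S.add r hr 0 0
  rw [add_zero] at this
  exact mul_eq_left.1 this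

theorem xb_inv {r : ℕ} (hr : r < D.nroots) (t : F) : (S.xb r t)⁻¹ = S.xb r (-t) := by
  rw [inv_eq_iff_mul_eq_one, S.add r hr, add_neg_cancel, S.xb_zero hr]

/-- root subgroups -/
def Xb (r : ℕ) : Subgroup Gb := Subgroup.closure {g | ∃ t : F, g = S.xb r t}

theorem xb_mem (r : ℕ) (t : F) : S.xb r t ∈ S.Xb r := Subgroup.subset_closure ⟨t, rfl⟩

theorem mem_Xb {r : ℕ} (hr : r < D.nroots) {g : Gb} : g ∈ S.Xb r ↔ ∃ t, g = S.xb r t := by
  constructor
  · intro h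
    unfold Xb at h
    induction h using Subgroup.closure_induction with
    | mem x hx => exact hx
    | one => exact ⟨0, (S.xb_zero hr).symm⟩
    | mul x y _ _ hx hy =>
      obtain ⟨t, rfl⟩ := hx; obtain ⟨u, rfl⟩ := hy
      exact ⟨t + u, S.add r hr t u⟩
    | inv x _ hx =>
      obtain ⟨t, rfl⟩ := hx
      exact ⟨-t, S.xb_inv hr t⟩
  · rintro ⟨t, rfl⟩; exact S.xb_mem r t

/-- words -/
def wb (w : List (ℕ × F)) : Gb := (w.map fun p => S.xb p.1 p.2).prod

theorem wb_mem {K : Subgroup Gb} (w : List (ℕ × F)) (h : ∀ p ∈ w, S.xb p.1 p.2 ∈ K) : S.wb w ∈ K := by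
  unfold wb
  apply Subgroup.list_prod_mem
  intro x hx
  simp only [List.mem_map] at hx
  obtain ⟨p, hp, rfl⟩ := hx
  exact h p hp

theorem θ_wb (w : List (ℕ × F)) (h : ∀ p ∈ w, p.1 < D.nroots) : S.θ (S.wb w) = wg R w := by
  unfold wb wg
  rw [map_list_prod, List.map_map]
  congr 1
  apply List.map_congr_left
  intro p hp
  exact S.θ_x _ (h p hp) _

/-- `n̄_r(t)` -/
def nb (r : ℕ) (t : F) : Gb := S.wb (D.nWord r t)
/-- `h̄_r(t)` -/
def hb (r : ℕ) (t : F) : Gb := S.wb (D.hWord r t)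

theorem nb_def (r : ℕ) (t : F) : S.nb r t = S.xb r t * S.xb (D.neg r) (-t⁻¹) * S.xb r t := by
  simp [nb, wb, ChevalleyDatum.nWord, mul_assoc]

theorem hb_def (r : ℕ) (t : F) : S.hb r t = S.nb r t * S.nb r (-1) := by
  simp [hb, nb, wb, ChevalleyDatum.hWord]


theorem nb_inv (Q : RC D) {r : ℕ} (hr : r < D.nroots) (t : F) : (S.nb r t)⁻¹ = S.nb r (-t) := by
  rw [nb_def, nb_def, mul_inv_rev, mul_inv_rev, S.xb_inv hr, S.xb_inv (neg_lt Q hr), mul_assoc]
  congr 3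
  rw [inv_neg]

theorem θ_nb (Q : RC D) {r : ℕ} (hr : r < D.nroots) (t : F) : S.θ (S.nb r t) = ng R r t := by
  unfold nb ng
  apply S.θ_wb
  intro p hp
  simp only [ChevalleyDatum.nWord, List.mem_cons, List.not_mem_nil, or_false] at hp
  rcases hp with rfl | rfl | rfl
  · exact hr
  · exact neg_lt Q hr
  · exact hr

theorem θ_hb (Q : RC D) {r : ℕ} (hr : r < D.nroots) (t : F) : S.θ (S.hb r t) = hg R r t := by
  rw [hb_def, hg_def, map_mul, S.θ_nb Q hr, S.θ_nb Q hr]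

theorem conj_eq (r s : ℕ) (hr : r < D.nroots) (hs : s < D.nroots) (h1 : s ≠ r) (h2 : s ≠ D.neg r)
    (t u : F) : S.xb r t * S.xb s u * (S.xb r t)⁻¹ = S.xb s u * S.wb (D.commWord F r s (-t) u) := by
  have h3 := S.comm r hr s hs h1 h2 (-t) u
  have h4 : S.xb r (-t) = (S.xb r t)⁻¹ := (S.xb_inv hr t).symm
  rw [h4, inv_inv] at h3
  unfold wb
  rw [← h3]; simp [mul_assoc]

theorem conj_mem_of_closed (Q : RC D) {K : Subgroup Gb} {r s : ℕ} (hr : r < D.nroots)
    (hs : s < D.nroots) (h1 : s ≠ r) (h2 : s ≠ D.neg r) (hK : ∀ u : F, S.xb s u ∈ K)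
    (hK' : ∀ k < D.nroots, ∀ a b : ℕ, 1 ≤ a → 1 ≤ b →
      (∀ j < D.rank, Q.co k j = a * Q.co r j + b * Q.co s j) → ∀ v : F, S.xb k v ∈ K) (t u : F) :
    S.xb r t * S.xb s u * (S.xb r t)⁻¹ ∈ K := by
  rw [S.conj_eq r s hr hs h1 h2]
  refine K.mul_mem (hK u) (S.wb_mem _ ?_)
  intro p hp
  unfold ChevalleyDatum.commWord at hp
  simp only [List.mem_map] at hp
  obtain ⟨c, hc, rfl⟩ := hp
  obtain ⟨g1, g2, g3, g4⟩ := commTerms_co Q hr hs hc
  exact hK' _ g1 _ _ g2 g3 g4 _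

/-- the subgroup generated by the root elements with roots in `P` -/
def gp (P : ℕ → Prop) : Subgroup Gb :=
  Subgroup.closure {g | ∃ (r : ℕ) (t : F), r < D.nroots ∧ P r ∧ g = S.xb r t}

theorem mem_gp {P : ℕ → Prop} {r : ℕ} (hr : r < D.nroots) (h : P r) (t : F) : S.xb r t ∈ S.gp P :=
  Subgroup.subset_closure ⟨r, t, hr, h, rfl⟩

theorem gp_mono {P P' : ℕ → Prop} (h : ∀ r < D.nroots, P r → P' r) : S.gp P ≤ S.gp P' := by
  unfold gp
  apply Subgroup.closure_mono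
  rintro g ⟨r, t, hr, hP, rfl⟩
  exact ⟨r, t, hr, h r hr hP, rfl⟩

theorem stab_gp (Q : RC D) {P : ℕ → Prop} {r : ℕ} (hr : r < D.nroots)
    (h1 : ∀ s < D.nroots, P s → s ≠ r) (h2 : ∀ s < D.nroots, P s → s ≠ D.neg r)
    (h3 : ∀ s < D.nroots, P s → ∀ k < D.nroots, ∀ a b : ℕ, 1 ≤ a → 1 ≤ b →
      (∀ j < D.rank, Q.co k j = a * Q.co r j + b * Q.co s j) → P k) : S.Xb r ≤ stabSub (S.gp P) := by
  apply stab_of_closure
  rintro a ha _ ⟨s, u, hs, hP, rfl⟩
  obtain ⟨t, rfl⟩ := (S.mem_Xb hr).1 ha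
  exact S.conj_mem_of_closed Q hr hs (h1 s hs hP) (h2 s hs hP) (fun u => S.mem_gp hs hP u)
    (fun k hk a b ha hb hco v => S.mem_gp hk (h3 s hs hP k hk a b ha hb hco) v) t u

theorem θ_gp_le (Q : RC D) (c : ℕ → ℤ) (m : ℕ) :
    (S.gp (fun r => (m : ℤ) ≤ fr Q c r)).map S.θ ≤ Uk F (fn Q c) m := by
  unfold gp
  rw [MonoidHom.map_closure, Subgroup.closure_le]
  rintro _ ⟨_, ⟨r, t, hr, h, rfl⟩, rfl⟩
  rw [SetLike.mem_coe, S.θ_x r hr]
  exact xg_mem_Uk R Q c hr h t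

/-- injectivity of `θ` on the half-space unipotent groups -/
theorem inj_aux {Q : RC D} (Z : Lex Q) (c : Gen Q) : ∀ n m : ℕ, 1 ≤ m →
    (∀ r < D.nroots, fr Q c.c r < m + n) → ∀ g ∈ S.gp (fun r => (m : ℤ) ≤ fr Q c.c r),
      S.θ g = 1 → g = 1 := by
  intro n
  induction n with
  | zero =>
    intro m _ hlt g hg _
    have : S.gp (fun r => (m : ℤ) ≤ fr Q c.c r) = ⊥ := by
      rw [eq_bot_iff]
      unfold gp
      rw [Subgroup.closure_le]
      rintro _ ⟨r, t, hr, h, rfl⟩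
      have := hlt r hr
      push_cast at this
      omega
    rw [this, Subgroup.mem_bot] at hg
    exact hg
  | succ n ih =>
    intro m hm hlt g hg h1
    have ih' := ih (m + 1) (by omega) (fun r hr => by have := hlt r hr; push_cast at this ⊢; omega)
    by_cases hex : ∃ r < D.nroots, fr Q c.c r = m
    · obtain ⟨r, hr, hrm⟩ := hex
      have hle : S.gp (fun r => (m : ℤ) ≤ fr Q c.c r) ≤
          S.gp (fun r => ((m + 1 : ℕ) : ℤ) ≤ fr Q c.c r) ⊔ S.Xb r := by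
        unfold gp
        rw [Subgroup.closure_le]
        rintro _ ⟨s, t, hs, h, rfl⟩
        by_cases hsr : s = r
        · subst hsr; exact Subgroup.mem_sup_right (S.xb_mem _ _)
        · refine Subgroup.mem_sup_left (S.mem_gp hs ?_ t)
          have : fr Q c.c s ≠ fr Q c.c r := fun h => hsr (c.inj s hs r hr h)
          push_cast
          omega
      have hst : S.Xb r ≤ stabSub (S.gp (fun r => ((m + 1 : ℕ) : ℤ) ≤ fr Q c.c r)) := by
        refine S.stab_gp Q hr ?_ ?_ ?_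
        · rintro s hs h rfl
          push_cast at h
          omega
        · rintro s hs h rfl
          rw [fr_neg Q _ hr] at h
          push_cast at h
          omega
        · intro s hs h k hk a b ha hb hco
          rw [fr_lin Q c.c hco, hrm]
          have e1 : 0 < (a : ℤ) * m := mul_pos (by exact_mod_cast ha) (by exact_mod_cast hm)
          have e2 : fr Q c.c s ≤ b * fr Q c.c s := by
            calc fr Q c.c s = 1 * fr Q c.c s := by ring
              _ ≤ b * fr Q c.c s := by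
                apply mul_le_mul_of_nonneg_right (by exact_mod_cast hb)
                push_cast at h; omega
          push_cast at h ⊢
          omega
      obtain ⟨v, hv, x, hx, rfl⟩ := (mem_sup_of_normalizes hst).1 (hle hg)
      obtain ⟨t, rfl⟩ := (S.mem_Xb hr).1 hx
      have h2 : S.θ v = xg R r (-t) := by
        rw [map_mul, S.θ_x r hr] at h1
        rw [eq_inv_of_mul_eq_one_left h1, xg_inv]
      have h3 : xg R r (-t) ∈ Uk F (fn Q c.c) (m + 1) := by
        rw [← h2]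
        exact S.θ_gp_le Q c.c (m + 1) ⟨v, hv, rfl⟩
      have h4 : t = 0 := neg_eq_zero.1 (eq_zero_of_mem_Uk R Z c.c hr hrm h3)
      rw [h4, S.xb_zero hr, mul_one]
      rw [h4, S.xb_zero hr, mul_one] at h1
      exact ih' v hv h1
    · refine ih' g (S.gp_mono ?_ hg) h1
      intro r hr h
      by_contra hcon
      push_cast at hcon
      exact hex ⟨r, hr, by omega⟩

theorem inj_gp {Q : RC D} (Z : Lex Q) (c : Gen Q) {g : Gb} (hg : g ∈ S.gp (fun r => 0 < fr Q c.c r))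
    (h : S.θ g = 1) : g = 1 := by
  have hb : ∃ n : ℕ, ∀ r < D.nroots, fr Q c.c r < 1 + n := by
    refine ⟨∑ r ∈ Finset.range D.nroots, (fr Q c.c r).natAbs, fun r hr => ?_⟩
    have h1 : (fr Q c.c r).natAbs ≤ ∑ r ∈ Finset.range D.nroots, (fr Q c.c r).natAbs :=
      Finset.single_le_sum (f := fun r => (fr Q c.c r).natAbs) (fun _ _ => Nat.zero_le _)
        (Finset.mem_range.2 hr)
    have h2 : fr Q c.c r ≤ (fr Q c.c r).natAbs := Int.le_natAbs
    have h3 : ((fr Q c.c r).natAbs : ℤ) ≤ ((∑ r ∈ Finset.range D.nroots, (fr Q c.c r).natAbs : ℕ) : ℤ) := by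
      exact_mod_cast h1
    omega
  obtain ⟨n, hn⟩ := hb
  refine S.inj_aux Z c n 1 le_rfl (fun r hr => by simpa using hn r hr) g (S.gp_mono ?_ hg) h
  intro r _ h
  simpa using Int.lt_iff_add_one_le.1 h

theorem eq_of_gp {Q : RC D} (Z : Lex Q) (c : Gen Q) {g g' : Gb} (hg : g ∈ S.gp (fun r => 0 < fr Q c.c r))
    (hg' : g' ∈ S.gp (fun r => 0 < fr Q c.c r)) (h : S.θ g = S.θ g') : g = g' := by
  have h1 : g * g'⁻¹ = 1 := S.inj_gp Z c ((S.gp _).mul_mem hg ((S.gp _).inv_mem hg')) (by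
    rw [map_mul, map_inv, h, mul_inv_cancel])
  exact mul_inv_eq_one.1 h1


end

section

variable {R : Rel D F} {Gb : Type*} [Group Gb] (S : Cov R Gb)

theorem nb_mem_sup (r : ℕ) (c : F) : S.nb r c ∈ S.Xb r ⊔ S.Xb (D.neg r) := by
  rw [nb_def]
  exact Subgroup.mul_mem _ (Subgroup.mul_mem _ (Subgroup.mem_sup_left (S.xb_mem _ _))
    (Subgroup.mem_sup_right (S.xb_mem _ _))) (Subgroup.mem_sup_left (S.xb_mem _ _))

/-- `X̄_{±i}` normalises the group of the positive roots other than `α_i` -/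
theorem stab_pos (X : RCX D) (i : Fin D.rank) : S.Xb (D.simple i) ⊔ S.Xb (D.neg (D.simple i)) ≤
    stabSub (S.gp (fun r => X.rc.half ≤ r ∧ r ≠ D.simple i)) := by
  have hi := X.rc.simple_lt i i.2
  have hco : ∀ s < D.nroots, X.rc.half ≤ s ∧ s ≠ D.simple i →
      ∃ j < D.rank, j ≠ i ∧ 0 < X.rc.co s j := by
    rintro s hs ⟨h1, h2⟩
    rcases X.red2 s hs h1 i i.2 with h0 | ⟨j, hj, hji, hjp⟩
    · exact absurd h0 h2
    · exact ⟨j, hj, hji, hjp⟩
  have hz : ∀ r, r = D.simple i ∨ r = D.neg (D.simple i) → ∀ j < D.rank, j ≠ i → X.rc.co r j = 0 := by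
    rintro r (rfl | rfl) j hj hji
    · rw [X.rc.co_simple i i.2 j hj, if_neg hji]
    · rw [co_neg' X.rc hi hj, X.rc.co_simple i i.2 j hj, if_neg hji, neg_zero]
  have key : ∀ r, r = D.simple i ∨ r = D.neg (D.simple i) → S.Xb r ≤
      stabSub (S.gp (fun r => X.rc.half ≤ r ∧ r ≠ D.simple i)) := by
    intro r hr
    have hrl : r < D.nroots := by rcases hr with rfl | rfl; exacts [hi, neg_lt X.rc hi]
    have hnr : D.neg r = D.simple i ∨ D.neg r = D.neg (D.simple i) := by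
      rcases hr with rfl | rfl
      · exact Or.inr rfl
      · exact Or.inl (H22.RCComb.neg_neg X.rc hi)
    refine S.stab_gp X.rc hrl ?_ ?_ ?_
    · rintro s hs hP rfl
      obtain ⟨j, hj, hji, hjp⟩ := hco s hs hP
      rw [hz s hr j hj hji] at hjp; exact absurd hjp (lt_irrefl _)
    · rintro s hs hP rfl
      obtain ⟨j, hj, hji, hjp⟩ := hco _ hs hP
      rw [hz _ hnr j hj hji] at hjp; exact absurd hjp (lt_irrefl _)
    · intro s hs hP k hk a b ha hb hcok
      obtain ⟨j, hj, hji, hjp⟩ := hco s hs hP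
      have e1 : 0 < X.rc.co k j := by
        rw [hcok j hj, hz r hr j hj hji, mul_zero, zero_add]
        exact mul_pos (by exact_mod_cast hb) hjp
      refine ⟨half_le_of_pos X.rc hk hj e1, ?_⟩
      rintro rfl
      rw [hz _ (Or.inl rfl) j hj hji] at e1; exact absurd e1 (lt_irrefl _)
  exact sup_le (key _ (Or.inl rfl)) (key _ (Or.inr rfl))

theorem stab_neg (X : RCX D) (i : Fin D.rank) : S.Xb (D.simple i) ⊔ S.Xb (D.neg (D.simple i)) ≤
    stabSub (S.gp (fun r => ¬ X.rc.half ≤ r ∧ r ≠ D.neg (D.simple i))) := by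
  have hi := X.rc.simple_lt i i.2
  have hco : ∀ s < D.nroots, ¬ X.rc.half ≤ s ∧ s ≠ D.neg (D.simple i) →
      ∃ j < D.rank, j ≠ i ∧ X.rc.co s j < 0 := by
    rintro s hs ⟨h1, h2⟩
    have h3 : X.rc.half ≤ D.neg s := by
      rw [X.rc.neg_eq s hs]; have := X.rc.nroots_eq; omega
    rcases X.red2 _ (neg_lt X.rc hs) h3 i i.2 with h0 | ⟨j, hj, hji, hjp⟩
    · exact absurd (by rw [← h0, H22.RCComb.neg_neg X.rc hs]) h2
    · exact ⟨j, hj, hji, by rw [co_neg' X.rc hs hj] at hjp; omega⟩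
  have hz : ∀ r, r = D.simple i ∨ r = D.neg (D.simple i) → ∀ j < D.rank, j ≠ i → X.rc.co r j = 0 := by
    rintro r (rfl | rfl) j hj hji
    · rw [X.rc.co_simple i i.2 j hj, if_neg hji]
    · rw [co_neg' X.rc hi hj, X.rc.co_simple i i.2 j hj, if_neg hji, neg_zero]
  have key : ∀ r, r = D.simple i ∨ r = D.neg (D.simple i) → S.Xb r ≤
      stabSub (S.gp (fun r => ¬ X.rc.half ≤ r ∧ r ≠ D.neg (D.simple i))) := by
    intro r hr
    have hrl : r < D.nroots := by rcases hr with rfl | rfl; exacts [hi, neg_lt X.rc hi]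
    have hnr : D.neg r = D.simple i ∨ D.neg r = D.neg (D.simple i) := by
      rcases hr with rfl | rfl
      · exact Or.inr rfl
      · exact Or.inl (H22.RCComb.neg_neg X.rc hi)
    refine S.stab_gp X.rc hrl ?_ ?_ ?_
    · rintro s hs hP rfl
      obtain ⟨j, hj, hji, hjp⟩ := hco s hs hP
      rw [hz s hr j hj hji] at hjp; exact absurd hjp (lt_irrefl _)
    · rintro s hs hP rfl
      obtain ⟨j, hj, hji, hjp⟩ := hco _ hs hP
      rw [hz _ hnr j hj hji] at hjp; exact absurd hjp (lt_irrefl _)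
    · intro s hs hP k hk a b ha hb hcok
      obtain ⟨j, hj, hji, hjp⟩ := hco s hs hP
      have e1 : X.rc.co k j < 0 := by
        rw [hcok j hj, hz r hr j hj hji, mul_zero, zero_add]
        exact mul_neg_of_pos_of_neg (by exact_mod_cast hb) hjp
      refine ⟨fun hh => ?_, ?_⟩
      · have := X.rc.co_nonneg k hk hh j hj; omega
      · rintro rfl
        rw [hz _ (Or.inr rfl) j hj hji] at e1; exact absurd e1 (lt_irrefl _)
  exact sup_le (key _ (Or.inl rfl)) (key _ (Or.inr rfl))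

/-- conjugation of `x̄_s` by `n̄_i(c)`, for roots `s ≠ ±α_i` -/
theorem conj_generic (X : RCX D) (Z : Lex X.rc) (i : Fin D.rank) {c : F} {μ : ℕ → F}
    (hμ : ∀ s < D.nroots, ∀ t : F, ng R (D.simple i) c * xg R s t * (ng R (D.simple i) c)⁻¹ =
      xg R (D.reflectRoot i s) (μ s * t)) {s : ℕ} (hs : s < D.nroots) (h1 : s ≠ D.simple i)
    (h2 : s ≠ D.neg (D.simple i)) (t : F) :
    S.nb (D.simple i) c * S.xb s t * (S.nb (D.simple i) c)⁻¹ = S.xb (D.reflectRoot i s) (μ s * t) := by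
  have hi := X.rc.simple_lt i i.2
  have hrs := X.rc.refl_lt i i.2 s hs
  have hnb := S.nb_mem_sup (D.simple i) c
  have hθ : S.θ (S.nb (D.simple i) c * S.xb s t * (S.nb (D.simple i) c)⁻¹) =
      S.θ (S.xb (D.reflectRoot i s) (μ s * t)) := by
    rw [map_mul, map_mul, map_inv, S.θ_nb X.rc hi, S.θ_x s hs, S.θ_x _ hrs, hμ s hs]
  by_cases hp : X.rc.half ≤ s
  · refine S.eq_of_gp Z (Gen.ofLex Z) ?_ ?_ hθ
    · have h3 := conj_mem_of_stabSub (S.stab_pos X i hnb) (S.mem_gp (P := fun r =>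
        X.rc.half ≤ r ∧ r ≠ D.simple i) hs ⟨hp, h1⟩ t)
      refine S.gp_mono ?_ h3
      intro r hr h; exact Z.pos hr h.1
    · refine S.mem_gp hrs ?_ _
      apply Z.pos hrs
      exact (comb X).refl_pos i ⟨s, hs⟩ hp (fun h => h1 (congrArg Fin.val h))
  · have hneg : ∀ r < D.nroots, ¬ X.rc.half ≤ r → 0 < fr X.rc (Gen.ofLex Z).neg.c r := by
      intro r hr h
      show 0 < fr X.rc (fun k => - Z.c k) r
      rw [fr_neg_fun]
      have h3 : X.rc.half ≤ D.neg r := by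
        rw [X.rc.neg_eq r hr]; have := X.rc.nroots_eq; omega
      have h4 := Z.pos (neg_lt X.rc hr) h3
      rwa [fr_neg X.rc _ hr] at h4
    refine S.eq_of_gp Z (Gen.ofLex Z).neg ?_ ?_ hθ
    · have h3 := conj_mem_of_stabSub (S.stab_neg X i hnb) (S.mem_gp (P := fun r =>
        ¬ X.rc.half ≤ r ∧ r ≠ D.neg (D.simple i)) hs ⟨hp, h2⟩ t)
      refine S.gp_mono ?_ h3
      intro r hr h; exact hneg r hr h.1
    · refine S.mem_gp hrs ?_ _
      apply hneg _ hrs
      intro h3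
      -- refl i s positive while s is negative: then refl i (refl i s) = s must be ...
      have h4 : (comb X).pos ((comb X).refl i ⟨s, hs⟩) := h3
      have h5 : (comb X).refl i ⟨s, hs⟩ ≠ (comb X).simple i := by
        intro h6
        rw [(comb X).refl_eq_simple_iff] at h6
        exact h2 (congrArg Fin.val h6)
      have h6 := (comb X).refl_pos i _ h4 h5
      rw [(comb X).refl_refl] at h6
      exact hp h6

/-- conjugation of `x̄_{±α_i}` by `n̄_i(c)` -/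
theorem conj_special (X : RCX D) (Z : Lex X.rc) (i : Fin D.rank) {c : F} {μ : ℕ → F}
    (hμ : ∀ s < D.nroots, ∀ t : F, ng R (D.simple i) c * xg R s t * (ng R (D.simple i) c)⁻¹ =
      xg R (D.reflectRoot i s) (μ s * t)) {k₀ : ℕ} (hk₀ : k₀ < D.nroots)
    (hk₀' : k₀ = D.simple i ∨ k₀ = D.neg (D.simple i)) {p : Bool}
    (hx : ∃ x, GoodAt D X.rc.half i k₀ p x) (t : F) :
    S.nb (D.simple i) c * S.xb k₀ t * (S.nb (D.simple i) c)⁻¹ = S.xb (D.reflectRoot i k₀) (μ k₀ * t) := by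
  obtain ⟨⟨j, r, s, C, m⟩, hj, hr, hs, hsr, hsn, hr1, hr2, hs1, hs2, hfil, hC, hpr, hps⟩ := hx
  simp only at hj hr hs hsr hsn hr1 hr2 hs1 hs2 hfil hC hpr hps
  have hi := X.rc.simple_lt i i.2
  have hrk := X.rc.refl_lt i i.2 k₀ hk₀
  -- the functional
  obtain ⟨f, hf⟩ : ∃ f : Gen X.rc, ∀ r < D.nroots, ((X.rc.half ≤ D.reflectRoot j r) ↔ p = true) →
      0 < fr X.rc f.c r := by
    cases p with
    | true =>
      refine ⟨(Gen.ofLex Z).refl j hj, fun r hr h => ?_⟩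
      have h1 := Z.pos (X.rc.refl_lt j hj r hr) (h.2 rfl)
      rw [← fr_refl X.rc Z.c hj hr] at h1
      exact h1
    | false =>
      refine ⟨((Gen.ofLex Z).refl j hj).neg, fun r hr h => ?_⟩
      show 0 < fr X.rc (fun k => - (Z.c k - X.rc.A j k * Z.c j)) r
      rw [fr_neg_fun, fr_refl X.rc Z.c hj hr]
      have h3 : ¬ X.rc.half ≤ D.reflectRoot j r := by simpa using h
      have hrj := X.rc.refl_lt j hj r hr
      have h4 : X.rc.half ≤ D.neg (D.reflectRoot j r) := by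
        rw [X.rc.neg_eq _ hrj]; have := X.rc.nroots_eq; omega
      have h5 := Z.pos (neg_lt X.rc hrj) h4
      rwa [fr_neg X.rc _ hrj] at h5
  have hir := X.rc.refl_lt i i.2 r hr
  have his := X.rc.refl_lt i i.2 s hs
  have hfr := hf _ hir hpr
  have hfs := hf _ his hps
  -- all terms
  have hterm : ∀ q ∈ D.commTerms r s, q.1 < D.nroots ∧ 0 < fr X.rc f.c (D.reflectRoot i q.1) := by
    intro q hq
    obtain ⟨g1, g2, g3, g4⟩ := commTerms_co X.rc hr hs hq
    refine ⟨g1, ?_⟩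
    rw [fr_lin X.rc f.c (co_refl_lin X.rc i.2 g1 hr hs g4)]
    have e1 := mul_pos (show (0 : ℤ) < (q.2.2.1 : ℤ) by exact_mod_cast g2) hfr
    have e2 := mul_pos (show (0 : ℤ) < (q.2.2.2 : ℤ) by exact_mod_cast g3) hfs
    omega
  have hk₀mem : (k₀, C, m, 1) ∈ D.commTerms r s := by
    have : (k₀, C, m, 1) ∈ (D.commTerms r s).filter (fun q => q.1 == k₀) := by rw [hfil]; simp
    exact (List.mem_filter.1 this).1
  have hfk := (hterm _ hk₀mem).2
  simp only at hfk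
  set g := S.nb (D.simple i) c with hg
  set K : Subgroup Gb := cj g⁻¹ (S.gp (fun r => 0 < fr X.rc f.c r)) with hK
  have hmemK : ∀ y, y ∈ K ↔ g * y * g⁻¹ ∈ S.gp (fun r => 0 < fr X.rc f.c r) := by
    intro y; rw [hK, mem_cj]; simp
  have hgen : ∀ k < D.nroots, k ≠ D.simple i → k ≠ D.neg (D.simple i) →
      0 < fr X.rc f.c (D.reflectRoot i k) → ∀ v : F, S.xb k v ∈ K := by
    intro k hk h1 h2 h3 v
    rw [hmemK, hg, S.conj_generic X Z i hμ hk h1 h2]
    exact S.mem_gp (X.rc.refl_lt i i.2 k hk) h3 _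
  have hrefl : D.reflectRoot i k₀ = D.neg k₀ := by
    have e := (comb X).refl_simple i
    have e' := (comb X).refl_simple_neg i
    rcases hk₀' with rfl | rfl
    · exact congrArg Fin.val e
    · have := congrArg Fin.val e'
      simp only [comb_refl_val, comb_neg_val, comb_simple_val] at this
      rw [this, H22.RCComb.neg_neg X.rc hi]
  have hmain : ∀ v : F, S.xb k₀ v ∈ K := by
    intro v
    -- choose the parameter
    have hC' : (C : F) * C = 1 := by
      rcases hC with h | h <;> rw [h] <;> simp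
    have hw := mem_of_list_prod K (fun q : ℕ × F => S.xb q.1 q.2) (fun q => q.1 == k₀)
      (k₀, (C : F) * (-(-1 : F)) ^ m * (C * v) ^ 1) (D.commWord F r s (-1) (C * v))
      (filter_map_commWord r s k₀ (-1) (C * v) hfil) ?_ ?_
    · have e : (C : F) * (-(-1 : F)) ^ m * (C * v) ^ 1 = v := by
        rw [_root_.neg_neg, one_pow, mul_one, pow_one, ← mul_assoc, hC', one_mul]
      simp only [e] at hw
      exact hw
    · intro q hq hne
      have hq' := hq
      unfold ChevalleyDatum.commWord at hq'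
      simp only [List.mem_map] at hq'
      obtain ⟨q', hq'm, hq'e⟩ := hq'
      have e1 : q.1 = q'.1 := by rw [← hq'e]
      obtain ⟨t1, t2⟩ := hterm _ hq'm
      have hne' : q.1 ≠ k₀ := by simpa using hne
      have hnneg : q.1 ≠ D.neg k₀ := by
        intro h
        rw [← e1, h] at t2
        have e3 : D.reflectRoot i (D.neg k₀) = k₀ := by
          rw [← hrefl, H22.RCComb.refl_refl X.rc i.2 hk₀]
        rw [e3] at t2
        rw [hrefl, fr_neg X.rc _ hk₀] at hfk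
        omega
      have h12 : q.1 ≠ D.simple i ∧ q.1 ≠ D.neg (D.simple i) := by
        rcases hk₀' with rfl | rfl
        · exact ⟨hne', hnneg⟩
        · rw [H22.RCComb.neg_neg X.rc hi] at hnneg; exact ⟨hnneg, hne'⟩
      exact hgen _ (by rw [e1]; exact t1) h12.1 h12.2 (by rw [e1]; exact t2) _
    · rw [← S.comm r hr s hs hsr hsn]
      have a1 := hgen s hs hs1 hs2 hfs (C * v)
      have a2 := hgen r hr hr1 hr2 hfr (-1)
      exact K.mul_mem (K.mul_mem (K.mul_mem (K.inv_mem a1) (K.inv_mem a2)) a1) a2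
  refine S.eq_of_gp Z f ((hmemK _).1 (hmain t)) (S.mem_gp hrk hfk _) ?_
  rw [hg, map_mul, map_mul, map_inv, S.θ_nb X.rc hi, S.θ_x _ hk₀, S.θ_x _ hrk, hμ _ hk₀]

/-- conjugation of root elements by `n̄_i(c)` -/
theorem nb_conj (X : RCX D) (Z : Lex X.rc) (W : StCert D X.rc.half) (i : Fin D.rank) {c : F} {μ : ℕ → F}
    (hμ : ∀ s < D.nroots, ∀ t : F, ng R (D.simple i) c * xg R s t * (ng R (D.simple i) c)⁻¹ =
      xg R (D.reflectRoot i s) (μ s * t)) {s : ℕ} (hs : s < D.nroots) (t : F) :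
    S.nb (D.simple i) c * S.xb s t * (S.nb (D.simple i) c)⁻¹ = S.xb (D.reflectRoot i s) (μ s * t) := by
  by_cases h1 : s = D.simple i
  · exact S.conj_special X Z i hμ hs (Or.inl h1) (by rw [h1]; exact W.pos i i.2) t
  · by_cases h2 : s = D.neg (D.simple i)
    · exact S.conj_special X Z i hμ hs (Or.inr h2) (by rw [h2]; exact W.neg i i.2) t
    · exact S.conj_generic X Z i hμ hs h1 h2 t


end

section

variable {R : Rel D F} {Gb : Type*} [Group Gb] (S : Cov R Gb)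

theorem xb_neg_eq (Q : RC D) {r : ℕ} (hr : r < D.nroots) {t : F} : S.xb (D.neg r) t =
    S.xb r t⁻¹ * S.nb r (-t⁻¹) * S.xb r t⁻¹ := by
  rw [nb_def]
  have h1 : S.xb r t⁻¹ * (S.xb r (-t⁻¹) * S.xb (D.neg r) (-(-t⁻¹)⁻¹) * S.xb r (-t⁻¹)) * S.xb r t⁻¹ =
      (S.xb r t⁻¹ * S.xb r (-t⁻¹)) * S.xb (D.neg r) (-(-t⁻¹)⁻¹) * (S.xb r (-t⁻¹) * S.xb r t⁻¹) := by
    simp only [mul_assoc]
  rw [h1, S.add r hr, S.add r hr, add_neg_cancel, neg_add_cancel, S.xb_zero hr, one_mul, mul_one]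
  congr 1
  rw [inv_neg, inv_inv, _root_.neg_neg]

theorem xb_inj (Q : RC D) {s : ℕ} (hs : s < D.nroots) {t u : F} (h : S.xb s t = S.xb s u) : t = u := by
  apply xg_inj R Q hs
  rw [← S.θ_x s hs, ← S.θ_x s hs, h]

theorem nb_eq (Q : RC D) {r : ℕ} (hr : r < D.nroots) (t : F) : S.nb r t = S.hb r t * S.nb r 1 := by
  rw [hb_def, mul_assoc, ← S.nb_inv Q hr 1]; simp

variable (X : RCX D) (Z : Lex X.rc) (W : StCert D X.rc.half)

include W Z in
/-- conjugation by `h̄_i(c)` -/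
theorem hb_conj {i : ℕ} (hi : i < D.rank) {c : F} (hc : c ≠ 0) {s : ℕ} (hs : s < D.nroots) (t : F) :
    S.hb (D.simple i) c * S.xb s t * (S.hb (D.simple i) c)⁻¹ = S.xb s (c ^ D.cartan i s * t) := by
  have hil := X.rc.simple_lt i hi
  obtain ⟨μ, _, hμ⟩ := ng_conj R X ⟨i, hi⟩ hc
  obtain ⟨ν, _, hν⟩ := ng_conj R X ⟨i, hi⟩ (c := (-1 : F)) (neg_ne_zero.2 one_ne_zero)
  have h1 : S.hb (D.simple i) c * S.xb s t * (S.hb (D.simple i) c)⁻¹ =
      S.xb s (μ (D.reflectRoot i s) * (ν s * t)) := by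
    rw [hb_def]
    have e : S.nb (D.simple i) c * S.nb (D.simple i) (-1) * S.xb s t *
        (S.nb (D.simple i) c * S.nb (D.simple i) (-1))⁻¹ =
        S.nb (D.simple i) c * (S.nb (D.simple i) (-1) * S.xb s t * (S.nb (D.simple i) (-1))⁻¹) *
          (S.nb (D.simple i) c)⁻¹ := by simp [mul_assoc]
    rw [e, S.nb_conj X Z W ⟨i, hi⟩ hν hs, S.nb_conj X Z W ⟨i, hi⟩ hμ (X.rc.refl_lt i hi s hs),
      H22.RCComb.refl_refl X.rc hi hs]
  rw [h1]
  have h2 := congrArg S.θ h1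
  rw [map_mul, map_mul, map_inv, S.θ_hb X.rc hil, S.θ_x s hs, S.θ_x s hs] at h2
  have h3 := hs_conj R hi hc hs X.rc t
  unfold H22.ChevSys.hs at h3
  rw [h3] at h2
  rw [xg_inj R X.rc hs h2]

/-- the torus -/
def Hb : Subgroup Gb := Subgroup.closure {g | ∃ i < D.rank, ∃ c : F, c ≠ 0 ∧ g = S.hb (D.simple i) c}

theorem hb_mem {i : ℕ} (hi : i < D.rank) {c : F} (hc : c ≠ 0) : S.hb (D.simple i) c ∈ S.Hb :=
  Subgroup.subset_closure ⟨i, hi, c, hc, rfl⟩

include Z W in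
theorem hb_nb {i j : ℕ} (hi : i < D.rank) (hj : j < D.rank) {c t : F} (hc : c ≠ 0) :
    S.hb (D.simple j) c * S.nb (D.simple i) t * (S.hb (D.simple j) c)⁻¹ =
      S.nb (D.simple i) (c ^ D.cartan j (D.simple i) * t) := by
  have hil := X.rc.simple_lt i hi
  rw [nb_def, nb_def]
  have h1 := S.hb_conj X Z W hj hc hil t
  have h2 := S.hb_conj X Z W hj hc (neg_lt X.rc hil) (-t⁻¹)
  rw [cartan_neg X.rc hj hil] at h2
  have h3 : c ^ (-D.cartan j (D.simple i)) * -t⁻¹ = -(c ^ D.cartan j (D.simple i) * t)⁻¹ := by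
    rw [mul_inv, zpow_neg]; ring
  rw [h3] at h2
  rw [← h1, ← h2]; simp [mul_assoc]

include Z W in
theorem nb_hb {i j : ℕ} (hi : i < D.rank) (hj : j < D.rank) {c : F} (hc : c ≠ 0) :
    S.nb (D.simple i) 1 * S.hb (D.simple j) c * (S.nb (D.simple i) 1)⁻¹ =
      (S.hb (D.simple i) (c ^ D.cartan j (D.simple i)))⁻¹ * S.hb (D.simple j) c := by
  have hil := X.rc.simple_lt i hi
  have h1 := S.hb_nb X Z W hi hj (c := c) (t := 1) hc
  rw [mul_one, S.nb_eq X.rc hil (c ^ _)] at h1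
  -- h n h⁻¹ = h' n  ⟹ n h n⁻¹ = h'⁻¹ h
  have h2 : S.hb (D.simple j) c * S.nb (D.simple i) 1 =
      S.hb (D.simple i) (c ^ D.cartan j (D.simple i)) * S.nb (D.simple i) 1 * S.hb (D.simple j) c := by
    rw [← h1]; simp
  have h3 : S.nb (D.simple i) 1 * S.hb (D.simple j) c =
      (S.hb (D.simple i) (c ^ D.cartan j (D.simple i)))⁻¹ * (S.hb (D.simple j) c * S.nb (D.simple i) 1) := by
    rw [h2]; simp [mul_assoc]
  rw [h3]; simp [mul_assoc]

theorem nb_sq (Q : RC D) {i : ℕ} (hi : i < D.rank) : S.nb (D.simple i) 1 * S.nb (D.simple i) 1 ∈ S.Hb := by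
  have hil := Q.simple_lt i hi
  have h1 : S.nb (D.simple i) 1 * S.nb (D.simple i) 1 = (S.hb (D.simple i) (-1))⁻¹ := by
    rw [hb_def, mul_inv_rev, S.nb_inv Q hil, _root_.neg_neg]
  rw [h1]
  exact S.Hb.inv_mem (S.hb_mem hi (neg_ne_zero.2 one_ne_zero))

include Z W in
theorem nb_stab {i : ℕ} (hi : i < D.rank) : S.nb (D.simple i) 1 ∈ stabSub S.Hb := by
  have key : cj (S.nb (D.simple i) 1) S.Hb ≤ S.Hb := by
    unfold Hb
    rw [cj, MonoidHom.map_closure, Subgroup.closure_le]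
    rintro _ ⟨_, ⟨j, hj, c, hc, rfl⟩, rfl⟩
    show S.nb (D.simple i) 1 * S.hb (D.simple j) c * (S.nb (D.simple i) 1)⁻¹ ∈ S.Hb
    rw [S.nb_hb X Z W hi hj hc]
    exact S.Hb.mul_mem (S.Hb.inv_mem (S.hb_mem hi (zpow_ne_zero _ hc))) (S.hb_mem hj hc)
  rw [mem_stabSub]
  apply le_antisymm key
  have h2 : cj (S.nb (D.simple i) 1 * S.nb (D.simple i) 1) S.Hb = S.Hb :=
    cj_eq_self_of_mem (S.nb_sq X.rc hi)
  rw [cj_mul] at h2
  calc S.Hb = cj (S.nb (D.simple i) 1) (cj (S.nb (D.simple i) 1) S.Hb) := h2.symm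
    _ ≤ cj (S.nb (D.simple i) 1) S.Hb := cj_mono key

include Z W in
/-- elements of the torus act by characters -/
theorem Hb_char {g : Gb} (hg : g ∈ S.Hb) : ∃ χ : ℕ → F, (∀ s, χ s ≠ 0) ∧
    ∀ s < D.nroots, ∀ t : F, g * S.xb s t * g⁻¹ = S.xb s (χ s * t) := by
  unfold Hb at hg
  induction hg using Subgroup.closure_induction with
  | mem x hx =>
    obtain ⟨i, hi, c, hc, rfl⟩ := hx
    exact ⟨fun s => c ^ D.cartan i s, fun s => zpow_ne_zero _ hc,
      fun s hs' t => S.hb_conj X Z W hi hc hs' t⟩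
  | one => exact ⟨fun _ => 1, fun _ => one_ne_zero, fun s _ t => by simp⟩
  | mul x y _ _ hx hy =>
    obtain ⟨χ, h1, h3⟩ := hx
    obtain ⟨ψ, k1, k3⟩ := hy
    refine ⟨fun s => χ s * ψ s, fun s => mul_ne_zero (h1 s) (k1 s), fun s hs' t => ?_⟩
    calc x * y * S.xb s t * (x * y)⁻¹ = x * (y * S.xb s t * y⁻¹) * x⁻¹ := by simp [mul_assoc]
      _ = S.xb s (χ s * (ψ s * t)) := by rw [k3 s hs', h3 s hs']
      _ = _ := by rw [mul_assoc]
  | inv x _ hx =>
    obtain ⟨χ, h1, h3⟩ := hx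
    refine ⟨fun s => (χ s)⁻¹, fun s => inv_ne_zero (h1 s), fun s hs' t => ?_⟩
    have h4 := h3 s hs' ((χ s)⁻¹ * t)
    rw [← mul_assoc, mul_inv_cancel₀ (h1 s), one_mul] at h4
    rw [← h4]; simp [mul_assoc]

include Z W in
theorem Hb_le_stab {s : ℕ} (hs : s < D.nroots) : S.Hb ≤ stabSub (S.Xb s) := by
  apply le_stabSub_of_conj
  intro a ha x hx
  obtain ⟨t, rfl⟩ := (S.mem_Xb hs).1 hx
  obtain ⟨χ, _, h⟩ := S.Hb_char X Z W ha
  rw [h s hs]; exact S.xb_mem _ _

include Z W in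
theorem cj_nb (i : Fin D.rank) (r : Fin D.nroots) :
    cj (S.nb (D.simple i) 1) (S.Xb r) = S.Xb ((comb X).refl i r : Fin D.nroots) := by
  obtain ⟨μ, h1, h2⟩ := ng_conj R X i (c := (1 : F)) one_ne_zero
  have hrl := ((comb X).refl i r).2
  apply le_antisymm
  · rintro _ ⟨x, hx, rfl⟩
    rw [SetLike.mem_coe, S.mem_Xb r.2] at hx
    obtain ⟨t, rfl⟩ := hx
    show S.nb (D.simple i) 1 * S.xb r t * (S.nb (D.simple i) 1)⁻¹ ∈ _
    rw [S.nb_conj X Z W i h2 r.2]
    exact S.xb_mem _ _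
  · intro x hx
    rw [S.mem_Xb hrl] at hx
    obtain ⟨t, rfl⟩ := hx
    have h3 := S.nb_conj X Z W i h2 r.2 ((μ r)⁻¹ * t)
    rw [← mul_assoc, mul_inv_cancel₀ (h1 r r.2), one_mul] at h3
    have h4 : S.xb ((comb X).refl i r : Fin D.nroots) t = S.xb (D.reflectRoot i r) t := rfl
    rw [h4, ← h3]
    exact conj_mem_cj (S.xb_mem _ _)

theorem gp_eq_iSup (P : ℕ → Prop) (P' : Fin D.nroots → Prop) (h : ∀ r : Fin D.nroots, P' r ↔ P r) :
    (⨆ s : {s // P' s}, S.Xb (s : Fin D.nroots)) = S.gp P := by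
  apply le_antisymm
  · refine iSup_le fun s => ?_
    intro x hx
    obtain ⟨t, rfl⟩ := (S.mem_Xb s.1.2).1 hx
    exact S.mem_gp s.1.2 ((h s).1 s.2) t
  · unfold gp
    rw [Subgroup.closure_le]
    rintro _ ⟨r, t, hr, hP, rfl⟩
    exact (le_iSup (fun s : {s // P' s} => S.Xb (s : Fin D.nroots)) ⟨⟨r, hr⟩, (h ⟨r, hr⟩).2 hP⟩)
      (S.xb_mem r t)

theorem map_Xb {r : ℕ} (hr : r < D.nroots) : (S.Xb r).map S.θ = D.rootSubgroup F r := by
  ext g
  rw [Subgroup.mem_map, mem_rootSubgroup R]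
  constructor
  · rintro ⟨x, hx, rfl⟩
    obtain ⟨t, rfl⟩ := (S.mem_Xb hr).1 hx
    exact ⟨t, S.θ_x r hr t⟩
  · rintro ⟨t, rfl⟩
    exact ⟨S.xb r t, S.xb_mem r t, S.θ_x r hr t⟩

theorem map_iSup_Xb {ι : Sort*} (f : ι → Fin D.nroots) :
    (⨆ i, S.Xb (f i)).map S.θ = ⨆ i, D.rootSubgroup F (f i) := by
  rw [Subgroup.map_iSup]
  exact iSup_congr fun i => S.map_Xb (f i).2

theorem map_Hb (Q : RC D) : S.Hb.map S.θ ≤ Hs R := by
  unfold Hb
  rw [MonoidHom.map_closure, Subgroup.closure_le]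
  rintro _ ⟨_, ⟨i, hi, c, hc, rfl⟩, rfl⟩
  rw [SetLike.mem_coe, S.θ_hb Q (Q.simple_lt i hi)]
  exact hs_mem R hi hc

/-- the root group system -/
def stSys : Sys Gb (comb X) where
  X := fun r => S.Xb r
  H := S.Hb
  n := fun i => S.nb (D.simple i) 1
  H_le := fun r => S.Hb_le_stab X Z W r.2
  cj_n := fun i r => S.cj_nb X Z W i r
  n_stab_H := fun i => S.nb_stab X Z W i.2
  n_sq := fun i => S.nb_sq X.rc i.2
  rank_one := by
    intro i x hx hx1
    have hi := X.rc.simple_lt i i.2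
    obtain ⟨t, rfl⟩ := (S.mem_Xb (neg_lt X.rc hi)).1 hx
    have ht : t ≠ 0 := by rintro rfl; exact hx1 (S.xb_zero (neg_lt X.rc hi))
    have ht' : -t⁻¹ ≠ 0 := neg_ne_zero.2 (inv_ne_zero ht)
    refine ⟨S.xb (D.simple i) t⁻¹, S.xb_mem _ _,
      (S.nb (D.simple i) 1)⁻¹ * S.hb (D.simple i) (-t⁻¹) * S.nb (D.simple i) 1, ?_,
      S.xb (D.simple i) t⁻¹, S.xb_mem _ _, ?_⟩
    · exact inv_conj_mem_of_stabSub (S.nb_stab X Z W i.2) (S.hb_mem i.2 ht')
    · show S.xb (D.neg (D.simple i)) t = _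
      rw [S.xb_neg_eq X.rc hi, S.nb_eq X.rc hi (-t⁻¹)]; simp [mul_assoc]
  simple_le := fun i => by
    rw [S.gp_eq_iSup (fun r => X.rc.half ≤ r ∧ r ≠ D.simple i)]
    · exact le_sup_left.trans (S.stab_pos X i)
    · intro r
      constructor
      · rintro ⟨h1, h2⟩; exact ⟨h1, fun h => h2 (Fin.ext h)⟩
      · rintro ⟨h1, h2⟩; exact ⟨h1, fun h => h2 (congrArg Fin.val h)⟩
  nontriv := fun r h => by
    have h1 := rootSubgroup_ne_bot R X.rc r.2
    apply h1
    rw [← S.map_Xb r.2, h, Subgroup.map_bot]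
  X_inj := fun r s h => by
    apply rootSubgroup_inj R X
    simp only
    rw [← S.map_Xb r.2, ← S.map_Xb s.2]
    exact congrArg _ h
  disj_UH_V := by
    rw [eq_bot_iff]
    rintro g ⟨h1, h2⟩
    rw [Subgroup.mem_bot]
    have hθ : S.θ g = 1 := by
      refine (chevSys R X).eq_one_of_mem_B_V ?_ ?_
      · have h3 : S.θ g ∈ Subgroup.map S.θ ((⨆ s : {s // (comb X).pos s}, S.Xb (s : Fin D.nroots)) ⊔ S.Hb) :=
          ⟨g, h1, rfl⟩
        rw [Subgroup.map_sup, S.map_iSup_Xb] at h3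
        have h4 : Subgroup.map S.θ S.Hb ≤ (chevSys R X).H := by
          refine (S.map_Hb X.rc).trans ?_
          rw [← diagonalSubgroup_eq R X]; exact le_rfl
        exact (sup_le_sup_left h4 _) h3
      · have h3 : S.θ g ∈ Subgroup.map S.θ (⨆ s : {s // ¬ (comb X).pos s}, S.Xb (s : Fin D.nroots)) :=
          ⟨g, h2, rfl⟩
        rw [S.map_iSup_Xb] at h3
        exact h3
    refine S.inj_gp Z (Gen.ofLex Z).neg ?_ hθ
    have h3 : g ∈ (⨆ s : {s // ¬ (comb X).pos s}, S.Xb (s : Fin D.nroots)) := h2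
    rw [S.gp_eq_iSup (fun r => ¬ X.rc.half ≤ r) (fun r => ¬ (comb X).pos r) (fun r => Iff.rfl)] at h3
    refine S.gp_mono ?_ h3
    intro r hr h
    show 0 < fr X.rc (fun k => - Z.c k) r
    rw [fr_neg_fun]
    have h3 : X.rc.half ≤ D.neg r := by
      rw [X.rc.neg_eq r hr]; have := X.rc.nroots_eq; omega
    have h4 := Z.pos (neg_lt X.rc hr) h3
    rwa [fr_neg X.rc _ hr] at h4
  disj_U_H := by
    rw [eq_bot_iff]
    rintro g ⟨h1, h2⟩
    rw [Subgroup.mem_bot]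
    have hθ : S.θ g = 1 := by
      refine (chevSys R X).eq_one_of_mem_U_H ?_ ?_
      · have h3 : S.θ g ∈ Subgroup.map S.θ (⨆ s : {s // (comb X).pos s}, S.Xb (s : Fin D.nroots)) :=
          ⟨g, h1, rfl⟩
        rw [S.map_iSup_Xb] at h3
        exact h3
      · rw [chevSys_H, diagonalSubgroup_eq R X]
        exact S.map_Hb X.rc ⟨g, h2, rfl⟩
    refine S.inj_gp Z (Gen.ofLex Z) ?_ hθ
    have h3 : g ∈ (⨆ s : {s // (comb X).pos s}, S.Xb (s : Fin D.nroots)) := h1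
    rw [S.gp_eq_iSup (fun r => X.rc.half ≤ r) (fun r => (comb X).pos r) (fun r => Iff.rfl)] at h3
    refine S.gp_mono ?_ h3
    intro r hr h
    exact Z.pos hr h

theorem stSys_Γ : (S.stSys X Z W).Γ = ⊤ := by
  rw [eq_top_iff, ← S.gen, Subgroup.closure_le]
  rintro _ ⟨r, t, hr, rfl⟩
  exact (S.stSys X Z W).X_le_Γ (longest X) ⟨r, hr⟩ (S.xb_mem r t)

theorem rep_map {g : Gb} {w : Equiv.Perm (Fin D.nroots)} (h : (S.stSys X Z W).Rep g w) :
    (chevSys R X).Rep (S.θ g) w := by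
  refine ⟨?_, h.2.1, fun r => ?_⟩
  · have h1 : (S.stSys X Z W).N.map S.θ ≤ (chevSys R X).N := by
      have e : (S.stSys X Z W).N = S.Hb ⊔ Subgroup.closure (Set.range fun i : Fin D.rank =>
        S.nb (D.simple i) 1) := rfl
      rw [e, Subgroup.map_sup, MonoidHom.map_closure]
      refine sup_le ?_ ?_
      · refine (S.map_Hb X.rc).trans ?_
        rw [← diagonalSubgroup_eq R X]; exact (chevSys R X).H_le_N
      · rw [Subgroup.closure_le]
        rintro _ ⟨_, ⟨i, rfl⟩, rfl⟩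
        rw [SetLike.mem_coe, S.θ_nb X.rc (X.rc.simple_lt i i.2)]
        exact (chevSys R X).n_mem_N i
    exact h1 ⟨g, h.1, rfl⟩
  · have h1 := h.2.2 r
    have h2 : cj g (S.Xb r) = S.Xb (w r) := h1
    show cj (S.θ g) (D.rootSubgroup F r) = D.rootSubgroup F (w r)
    rw [← S.map_Xb r.2, ← S.map_Xb (w r).2, ← h2, map_cj]

include Z W in
/-- The kernel of `θ` lies in the torus (S1097). -/
theorem ker_le : S.θ.ker ≤ S.Hb := by
  intro k hk
  rw [MonoidHom.mem_ker] at hk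
  have hkΓ : k ∈ (S.stSys X Z W).Γ := by rw [S.stSys_Γ]; exact Subgroup.mem_top _
  obtain ⟨b, hb, g, w, hg, u, hu, rfl⟩ := (S.stSys X Z W).normal_form hkΓ
  have hmapB : ∀ b ∈ (S.stSys X Z W).B, S.θ b ∈ (chevSys R X).B := by
    intro b hb
    have h3 : S.θ b ∈ Subgroup.map S.θ ((⨆ s : {s // (comb X).pos s}, S.Xb (s : Fin D.nroots)) ⊔ S.Hb) :=
      ⟨b, hb, rfl⟩
    rw [Subgroup.map_sup, S.map_iSup_Xb] at h3
    have h4 : Subgroup.map S.θ S.Hb ≤ (chevSys R X).H := by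
      refine (S.map_Hb X.rc).trans ?_
      rw [← diagonalSubgroup_eq R X]; exact le_rfl
    exact (sup_le_sup_left h4 _) h3
  have hmapU : ∀ b ∈ (S.stSys X Z W).U, S.θ b ∈ (chevSys R X).U := by
    intro b hb
    have h3 : S.θ b ∈ Subgroup.map S.θ (⨆ s : {s // (comb X).pos s}, S.Xb (s : Fin D.nroots)) :=
      ⟨b, hb, rfl⟩
    rw [S.map_iSup_Xb] at h3
    exact h3
  have hg' := S.rep_map X Z W hg
  have h1 : S.θ b * S.θ g * S.θ u = 1 * 1 * 1 := by
    rw [← map_mul, ← map_mul, hk]; simp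
  have h2 : (chevSys R X).Rep 1 1 := (chevSys R X).rep_H (chevSys R X).H.one_mem
  have hw : w = 1 := (chevSys R X).normal_form_unique_w hg' h2 (hmapB b hb) (Subgroup.one_mem _)
    (hmapU u ((S.stSys X Z W).Um_le_U _ hu)) (Subgroup.one_mem _) h1
  subst hw
  have hgH : g ∈ (S.stSys X Z W).H := (S.stSys X Z W).mem_H_of_rep_one hg
  rw [(S.stSys X Z W).Um_one, Subgroup.mem_bot] at hu
  subst hu
  rw [mul_one] at hk ⊢
  have hbg : b * g ∈ (S.stSys X Z W).B :=
    (S.stSys X Z W).B.mul_mem hb ((S.stSys X Z W).H_le_B hgH)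
  obtain ⟨v, hv, h, hh, e⟩ := (S.stSys X Z W).mem_B.1 hbg
  rw [e] at hk ⊢
  rw [map_mul] at hk
  have hvθ : S.θ v = 1 := by
    refine (chevSys R X).eq_one_of_mem_U_H (hmapU v hv) ?_
    rw [eq_inv_of_mul_eq_one_left hk]
    apply (chevSys R X).H.inv_mem
    rw [chevSys_H, diagonalSubgroup_eq R X]
    exact S.map_Hb X.rc ⟨h, hh, rfl⟩
  have hv1 : v = 1 := by
    refine S.inj_gp Z (Gen.ofLex Z) ?_ hvθ
    have h3 : v ∈ (⨆ s : {s // (comb X).pos s}, S.Xb (s : Fin D.nroots)) := hv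
    rw [S.gp_eq_iSup (fun r => X.rc.half ≤ r) (fun r => (comb X).pos r) (fun r => Iff.rfl)] at h3
    refine S.gp_mono ?_ h3
    intro r hr h
    exact Z.pos hr h
  rw [hv1, one_mul]; exact hh

theorem range_θ (Q : RC D) : S.θ.range = D.group F := by
  rw [MonoidHom.range_eq_map, ← S.gen, MonoidHom.map_closure, group_eq_closure]
  congr 1
  ext g
  constructor
  · rintro ⟨_, ⟨r, t, hr, rfl⟩, rfl⟩
    exact ⟨r, t, hr, by rw [S.θ_x r hr]; rfl⟩
  · rintro ⟨r, t, hr, h⟩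
    exact ⟨S.xb r t, ⟨r, t, hr, rfl⟩, by rw [S.θ_x r hr, xg_eq R h]⟩

include X Z W in
/-- The kernel of `θ` is the centre (S1077). -/
theorem ker_eq_center : S.θ.ker = Subgroup.center Gb := by
  apply le_antisymm
  · intro k hk
    have hkH := S.ker_le X Z W hk
    rw [MonoidHom.mem_ker] at hk
    obtain ⟨χ, _, hχ⟩ := S.Hb_char X Z W hkH
    have h1 : ∀ s < D.nroots, ∀ t : F, k * S.xb s t * k⁻¹ = S.xb s t := by
      intro s hs t
      rw [hχ s hs]
      have h2 := congrArg S.θ (hχ s hs t)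
      rw [map_mul, map_mul, map_inv, hk, S.θ_x s hs, S.θ_x s hs] at h2
      simp only [one_mul, inv_one, mul_one] at h2
      rw [← xg_inj R X.rc hs h2]
    rw [Subgroup.mem_center_iff]
    intro g
    have hg : g ∈ Subgroup.closure {g | ∃ (r : ℕ) (t : F), r < D.nroots ∧ g = S.xb r t} := by
      rw [S.gen]; exact Subgroup.mem_top _
    induction hg using Subgroup.closure_induction with
    | mem x hx =>
      obtain ⟨r, t, hr, rfl⟩ := hx
      exact (mul_inv_eq_iff_eq_mul.1 (h1 r hr t)).symm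
    | one => simp
    | mul x y _ _ hx hy => rw [mul_assoc, hy, ← mul_assoc, hx, mul_assoc]
    | inv x _ hx =>
      have : Commute x k := hx
      exact this.inv_left
  · intro z hz
    rw [MonoidHom.mem_ker]
    apply center_trivial R X
    · rw [← S.range_θ X.rc]; exact ⟨z, rfl⟩
    · intro g hg
      rw [← S.range_θ X.rc] at hg
      obtain ⟨y, rfl⟩ := hg
      rw [← map_mul, ← map_mul, Subgroup.mem_center_iff.1 hz y]


end

end Cov

end H40.StCov
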