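import Mathlib

/-!
Rank one relations: Steinberg symbols are trivial over finite fields.
-/

set_option autoImplicit false

namespace H40.RankOne

variable {F : Type*} [Field F] {G : Type*} [Group G]

/-- `n(t)` -/
def N (X Y : F → G) (t : F) : G := X t * Y (-t⁻¹) * X t

/-- `h(t)` -/
def H (X Y : F → G) (t : F) : G := N X Y t * N X Y (-1)

/-- rank one relations without multiplicativity -/
structure R1 (X Y : F → G) : Prop where
  X_add : ∀ s t, X s * X t = X (s + t)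
  Y_add : ∀ s t, Y s * Y t = Y (s + t)
  N_X : ∀ u, u ≠ 0 → ∀ a, N X Y u * X a = Y (-(u⁻¹) ^ 2 * a) * N X Y u
  N_Y : ∀ u, u ≠ 0 → ∀ a, N X Y u * Y a = X (-u ^ 2 * a) * N X Y u

namespace R1

variable {X Y : F → G} (R : R1 X Y)

include R

theorem X_zero : X 0 = 1 := by
  have := R.X_add 0 0
  rw [add_zero] at this
  exact mul_eq_left.1 this

theorem Y_zero : Y 0 = 1 := by
  have := R.Y_add 0 0
  rw [add_zero] at this
  exact mul_eq_left.1 this

theorem X_neg (t : F) : X (-t) = (X t)⁻¹ := by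
  rw [eq_inv_iff_mul_eq_one, R.X_add, neg_add_cancel, R.X_zero]

theorem Y_neg (t : F) : Y (-t) = (Y t)⁻¹ := by
  rw [eq_inv_iff_mul_eq_one, R.Y_add, neg_add_cancel, R.Y_zero]

theorem N_neg (t : F) : N X Y (-t) = (N X Y t)⁻¹ := by
  unfold N
  rw [mul_inv_rev, mul_inv_rev, ← R.X_neg, ← R.Y_neg, inv_neg, mul_assoc]

theorem N_neg_X {u : F} (hu : u ≠ 0) (a : F) : X a * N X Y u = N X Y u * Y (-(u⁻¹) ^ 2 * a) := by
  have h := R.N_X (-u) (neg_ne_zero.2 hu) a
  have e : (-u)⁻¹ ^ 2 = u⁻¹ ^ 2 := by rw [inv_neg, neg_sq]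
  rw [R.N_neg, e] at h
  have h2 : N X Y u * ((N X Y u)⁻¹ * X a) * N X Y u =
      N X Y u * (Y (-u⁻¹ ^ 2 * a) * (N X Y u)⁻¹) * N X Y u := by rw [h]
  simpa [mul_assoc] using h2

theorem N_neg_Y {u : F} (hu : u ≠ 0) (a : F) : Y a * N X Y u = N X Y u * X (-u ^ 2 * a) := by
  have h := R.N_Y (-u) (neg_ne_zero.2 hu) a
  have e : (-u) ^ 2 = u ^ 2 := neg_sq u
  rw [R.N_neg, e] at h
  have h2 : N X Y u * ((N X Y u)⁻¹ * Y a) * N X Y u =
      N X Y u * (X (-u ^ 2 * a) * (N X Y u)⁻¹) * N X Y u := by rw [h]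
  simpa [mul_assoc] using h2

theorem Y_eq {t : F} : Y (-t⁻¹) = X (-t) * N X Y t * X (-t) := by
  unfold N
  rw [show X (-t) * (X t * Y (-t⁻¹) * X t) * X (-t) = (X (-t) * X t) * Y (-t⁻¹) * (X t * X (-t)) by
    simp only [mul_assoc], R.X_add, R.X_add, neg_add_cancel, add_neg_cancel, R.X_zero, one_mul,
    mul_one]

/-- the Steinberg relation in terms of `n` -/
theorem N_steinberg {u v : F} (hu : u ≠ 0) (hv : v ≠ 0) (huv : u + v = 1) :
    N X Y u * N X Y (-1) * N X Y v = N X Y (u * v) := by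
  have huv0 : u * v ≠ 0 := mul_ne_zero hu hv
  -- step 2
  have h1 : Y (-u⁻¹) * Y (-v⁻¹) = Y (-(u * v)⁻¹) := by
    rw [R.Y_add]
    congr 1
    field_simp
    linear_combination -huv
  rw [R.Y_eq, R.Y_eq, R.Y_eq] at h1
  have h2 : N X Y u * X (-1) * N X Y v = X (u ^ 2) * N X Y (u * v) * X (v ^ 2) := by
    have e1 : X (-1) = X (-u) * X (-v) := by
      rw [R.X_add]; congr 1; linear_combination huv
    have e2 : X (u ^ 2) = X u * X (-(u * v)) := by
      rw [R.X_add]; congr 1; linear_combination u * huv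
    have e3 : X (v ^ 2) = X (-(u * v)) * X v := by
      rw [R.X_add]; congr 1; linear_combination v * huv
    have h3 : X u * (X (-u) * N X Y u * X (-u) * (X (-v) * N X Y v * X (-v))) * X v =
        X u * (X (-(u * v)) * N X Y (u * v) * X (-(u * v))) * X v := by rw [h1]
    rw [e1, e2, e3]
    have h4 : X u * (X (-u) * N X Y u * X (-u) * (X (-v) * N X Y v * X (-v))) * X v =
        (X u * X (-u)) * (N X Y u * (X (-u) * X (-v)) * N X Y v) * (X (-v) * X v) := by
      simp only [mul_assoc]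
    rw [h4, R.X_add u, R.X_add (-v) v, add_neg_cancel, neg_add_cancel, R.X_zero, one_mul,
      mul_one] at h3
    rw [h3]; simp only [mul_assoc]
  -- step 3
  have h3 : N X Y u * X (-1) = Y ((u⁻¹) ^ 2) * N X Y u := by
    rw [R.N_X u hu]; congr 2; ring
  have h4 : Y ((u⁻¹) ^ 2) = X (u ^ 2) * N X Y (-u ^ 2) * X (u ^ 2) := by
    have := R.Y_eq (t := -u ^ 2)
    have e : -(-u ^ 2)⁻¹ = (u⁻¹) ^ 2 := by rw [inv_neg, neg_neg, inv_pow]
    rw [e, neg_neg] at this
    exact this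
  rw [h3, h4] at h2
  have h5 : N X Y (-u ^ 2) * X (u ^ 2) * N X Y u * N X Y v = N X Y (u * v) * X (v ^ 2) := by
    have h6 : X (u ^ 2) * (N X Y (-u ^ 2) * X (u ^ 2) * N X Y u * N X Y v) =
        X (u ^ 2) * (N X Y (u * v) * X (v ^ 2)) := by
      rw [← mul_assoc (X (u ^ 2)) (N X Y (u * v)), ← h2]; simp only [mul_assoc]
    exact mul_left_cancel h6
  -- step 4
  have h6 : X (u ^ 2) * N X Y u = N X Y u * Y (-1) := by
    rw [R.N_neg_X hu]; congr 2; field_simp
  have h7 : Y (-1) * N X Y v = N X Y v * X (v ^ 2) := by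
    rw [R.N_neg_Y hv]; congr 2; ring
  have h8 : N X Y (-u ^ 2) * N X Y u * N X Y v = N X Y (u * v) := by
    have h9 : N X Y (-u ^ 2) * X (u ^ 2) * N X Y u * N X Y v =
        N X Y (-u ^ 2) * N X Y u * N X Y v * X (v ^ 2) := by
      calc N X Y (-u ^ 2) * X (u ^ 2) * N X Y u * N X Y v =
          N X Y (-u ^ 2) * (X (u ^ 2) * N X Y u) * N X Y v := by simp only [mul_assoc]
        _ = N X Y (-u ^ 2) * N X Y u * (Y (-1) * N X Y v) := by rw [h6]; simp only [mul_assoc]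
        _ = _ := by rw [h7]; simp only [mul_assoc]
    rw [h9] at h5
    exact mul_right_cancel h5
  -- step 5
  have h10 : N X Y (-1) = Y 1 * X (-1) * Y 1 := by
    have h1ne : (-1 : F) ≠ 0 := neg_ne_zero.2 one_ne_zero
    have a1 : N X Y (-1) * X (-1) = Y 1 * N X Y (-1) := by
      rw [R.N_X _ h1ne]; congr 2; rw [inv_neg, inv_one]; ring
    have a2 : N X Y (-1) * Y 1 = X (-1) * N X Y (-1) := by
      rw [R.N_Y _ h1ne]; congr 2; ring
    have a3 : N X Y (-1) * N X Y (-1) = Y 1 * X (-1) * Y 1 * N X Y (-1) := by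
      have e : N X Y (-1) = X (-1) * Y 1 * X (-1) := by
        unfold N; rw [inv_neg, inv_one, neg_neg]
      calc N X Y (-1) * N X Y (-1) = N X Y (-1) * (X (-1) * Y 1 * X (-1)) := by rw [← e]
        _ = (N X Y (-1) * X (-1)) * Y 1 * X (-1) := by simp only [mul_assoc]
        _ = Y 1 * (N X Y (-1) * Y 1) * X (-1) := by rw [a1]; simp only [mul_assoc]
        _ = Y 1 * X (-1) * (N X Y (-1) * X (-1)) := by rw [a2]; simp only [mul_assoc]
        _ = _ := by rw [a1]; simp only [mul_assoc]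
    exact mul_right_cancel a3
  have h11 : N X Y (-u ^ 2) * N X Y u = N X Y u * N X Y (-1) := by
    have e : N X Y (-u ^ 2) = X (-u ^ 2) * Y ((u⁻¹) ^ 2) * X (-u ^ 2) := by
      unfold N
      rw [inv_neg, neg_neg, inv_pow]
    have b1 : X (-u ^ 2) * N X Y u = N X Y u * Y 1 := by
      rw [R.N_neg_X hu]; congr 2; field_simp
    have b2 : Y ((u⁻¹) ^ 2) * N X Y u = N X Y u * X (-1) := by
      rw [R.N_neg_Y hu]; congr 2; field_simp
    rw [e, h10]
    calc X (-u ^ 2) * Y (u⁻¹ ^ 2) * X (-u ^ 2) * N X Y u =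
        X (-u ^ 2) * (Y (u⁻¹ ^ 2) * (X (-u ^ 2) * N X Y u)) := by simp only [mul_assoc]
      _ = X (-u ^ 2) * ((Y (u⁻¹ ^ 2) * N X Y u) * Y 1) := by rw [b1]; simp only [mul_assoc]
      _ = (X (-u ^ 2) * N X Y u) * X (-1) * Y 1 := by rw [b2]; simp only [mul_assoc]
      _ = _ := by rw [b1]; simp only [mul_assoc]
  rw [← h11]; exact h8

theorem H_steinberg {u v : F} (hu : u ≠ 0) (hv : v ≠ 0) (huv : u + v = 1) :
    H X Y u * H X Y v = H X Y (u * v) := by
  unfold H
  rw [← R.N_steinberg hu hv huv]; simp only [mul_assoc]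

theorem H_X {s : F} (hs : s ≠ 0) (a : F) : H X Y s * X a = X (s ^ 2 * a) * H X Y s := by
  unfold H
  have h1ne : (-1 : F) ≠ 0 := neg_ne_zero.2 one_ne_zero
  rw [mul_assoc, R.N_X _ h1ne, ← mul_assoc, R.N_Y s hs, mul_assoc]
  congr 2
  rw [inv_neg, inv_one]; ring

theorem H_Y {s : F} (hs : s ≠ 0) (a : F) : H X Y s * Y a = Y ((s⁻¹) ^ 2 * a) * H X Y s := by
  unfold H
  have h1ne : (-1 : F) ≠ 0 := neg_ne_zero.2 one_ne_zero
  rw [mul_assoc, R.N_Y _ h1ne, ← mul_assoc, R.N_X s hs, mul_assoc]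
  congr 2
  ring

theorem H_N {s : F} (hs : s ≠ 0) (t : F) : H X Y s * N X Y t = N X Y (s ^ 2 * t) * H X Y s := by
  have e : N X Y (s ^ 2 * t) = X (s ^ 2 * t) * Y ((s⁻¹) ^ 2 * -t⁻¹) * X (s ^ 2 * t) := by
    unfold N
    congr 3
    rw [mul_inv, ← inv_pow]; ring
  rw [e]
  unfold N
  calc H X Y s * (X t * Y (-t⁻¹) * X t) = (H X Y s * X t) * Y (-t⁻¹) * X t := by
        simp only [mul_assoc]
    _ = X (s ^ 2 * t) * (H X Y s * Y (-t⁻¹)) * X t := by rw [R.H_X hs]; simp only [mul_assoc]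
    _ = X (s ^ 2 * t) * Y ((s⁻¹) ^ 2 * -t⁻¹) * (H X Y s * X t) := by
        rw [R.H_Y hs]; simp only [mul_assoc]
    _ = _ := by rw [R.H_X hs]; simp only [mul_assoc]

/-- `h(s)h(t)h(s)⁻¹ = h(s²t)h(s²)⁻¹` -/
theorem H_conj {s : F} (hs : s ≠ 0) (t : F) :
    H X Y s * H X Y t * (H X Y s)⁻¹ = H X Y (s ^ 2 * t) * (H X Y (s ^ 2))⁻¹ := by
  have h1 : H X Y s * H X Y t = N X Y (s ^ 2 * t) * N X Y (-s ^ 2) * H X Y s := by
    conv_lhs => rw [show H X Y t = N X Y t * N X Y (-1) from rfl]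
    rw [← mul_assoc, R.H_N hs, mul_assoc, R.H_N hs, ← mul_assoc]
    congr 3
    ring
  rw [h1]
  unfold H
  rw [mul_inv_rev, R.N_neg (s ^ 2)]
  simp [mul_assoc]

theorem H_one : H X Y 1 = 1 := by
  unfold H
  rw [R.N_neg, mul_inv_cancel]

section central

variable (hc : ∀ a b, a ≠ 0 → b ≠ 0 → ∀ g, H X Y a * H X Y b * (H X Y (a * b))⁻¹ * g =
  g * (H X Y a * H X Y b * (H X Y (a * b))⁻¹))

include hc

omit R in
/-- the elements `a` for which `h(a)` commutes with `g` are closed under products -/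
theorem comm_mul {g : G} {a b : F} (ha : a ≠ 0) (hb : b ≠ 0) (h1 : Commute g (H X Y a))
    (h2 : Commute g (H X Y b)) : Commute g (H X Y (a * b)) := by
  have h3 : Commute g (H X Y a * H X Y b * (H X Y (a * b))⁻¹) := (hc a b ha hb g).symm
  have h4 : H X Y (a * b) = (H X Y a * H X Y b * (H X Y (a * b))⁻¹)⁻¹ * (H X Y a * H X Y b) := by
    simp [mul_assoc]
  rw [h4]
  exact h3.inv_right.mul_right (h1.mul_right h2)

theorem comm_pow {g : G} {a : F} (ha : a ≠ 0) (h : Commute g (H X Y a)) (n : ℕ) :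
    Commute g (H X Y (a ^ n)) := by
  induction n with
  | zero => rw [pow_zero, R.H_one]; exact Commute.one_right g
  | succ n ih => rw [pow_succ]; exact comm_mul hc (pow_ne_zero n ha) ha ih h

theorem H_comm [Finite F] {a b : F} (ha : a ≠ 0) (hb : b ≠ 0) :
    Commute (H X Y a) (H X Y b) := by
  obtain ⟨v, hv⟩ := IsCyclic.exists_generator (α := Fˣ)
  have key : ∀ a : F, a ≠ 0 → ∃ n : ℕ, a = (v : F) ^ n := by
    intro a ha
    have h1 := hv (Units.mk0 a ha)
    rw [← mem_powers_iff_mem_zpowers] at h1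
    obtain ⟨n, hn⟩ := h1
    refine ⟨n, ?_⟩
    have := congrArg Units.val hn
    simpa using this.symm
  obtain ⟨n, rfl⟩ := key a ha
  obtain ⟨m, rfl⟩ := key b hb
  have h1 : Commute (H X Y (v : F)) (H X Y ((v : F) ^ n)) :=
    R.comm_pow hc v.ne_zero (Commute.refl _) n
  exact R.comm_pow hc v.ne_zero h1.symm m

theorem H_sq_mul [Finite F] {s t : F} (hs : s ≠ 0) (ht : t ≠ 0) :
    H X Y (s ^ 2) * H X Y t = H X Y (s ^ 2 * t) := by
  have h1 := R.H_conj hs t
  have h2 := R.H_comm hc hs ht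
  rw [h2.eq] at h1
  simp only [mul_assoc, mul_inv_cancel, mul_one] at h1
  have h3 := R.H_comm hc (pow_ne_zero 2 hs) ht
  rw [h3.eq, h1]; simp

omit R hc in
theorem exists_nonsq [Finite F] (h2 : ringChar F ≠ 2) :
    ∃ s t : F, ¬ IsSquare s ∧ ¬ IsSquare t ∧ s + t = 1 := by
  classical
  have := Fintype.ofFinite F
  by_contra hcon
  push Not at hcon
  -- all nonsquares `s` have `1 - s` a square
  set Sq : Finset F := Finset.univ.filter fun x => IsSquare x with hSq
  set Ns : Finset F := Finset.univ.filter fun x => ¬ IsSquare x with hNs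
  obtain ⟨z, hz⟩ := FiniteField.exists_nonsquare (F := F) h2
  have hz0 : z ≠ 0 := by rintro rfl; exact hz (IsSquare.zero)
  -- squares inject into nonsquares except 0
  have c1 : (Sq.erase 0).card ≤ Ns.card := by
    refine Finset.card_le_card_of_injOn (fun x => z * x) ?_ ?_
    · intro x hx
      rw [Finset.mem_coe, Finset.mem_erase, hSq, Finset.mem_filter] at hx
      rw [Finset.mem_coe, hNs, Finset.mem_filter]
      refine ⟨Finset.mem_univ _, fun h => hz ?_⟩
      have : z = (z * x) / x := by field_simp [hx.1]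
      rw [this]
      exact h.div hx.2.2
    · intro x _ y _ h
      exact mul_left_cancel₀ hz0 h
  have c2 : Ns.card ≤ ((Sq.erase 0).erase 1).card := by
    refine Finset.card_le_card_of_injOn (fun x => 1 - x) ?_ ?_
    · intro x hx
      rw [Finset.mem_coe, hNs, Finset.mem_filter] at hx
      rw [Finset.mem_coe, Finset.mem_erase, Finset.mem_erase, hSq, Finset.mem_filter]
      have hx0 : x ≠ 0 := by rintro rfl; exact hx.2 IsSquare.zero
      have hx1 : x ≠ 1 := by rintro rfl; exact hx.2 IsSquare.one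
      refine ⟨fun h => hx0 (by linear_combination -h), sub_ne_zero.2 hx1.symm, Finset.mem_univ _, ?_⟩
      by_contra h
      exact hcon x (1 - x) hx.2 h (by ring)
    · intro x _ y _ h
      have h' : (1 : F) - x = 1 - y := h
      linear_combination -h'
  have c3 : ((Sq.erase 0).erase 1).card < (Sq.erase 0).card := by
    apply Finset.card_erase_lt_of_mem
    rw [Finset.mem_erase, hSq, Finset.mem_filter]
    exact ⟨one_ne_zero, Finset.mem_univ _, IsSquare.one⟩
  omega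

/-- over a finite field `h` is multiplicative -/
theorem H_mul [Finite F] {s t : F} (hs : s ≠ 0) (ht : t ≠ 0) :
    H X Y s * H X Y t = H X Y (s * t) := by
  by_cases hss : IsSquare s
  · obtain ⟨a, rfl⟩ := hss
    have ha : a ≠ 0 := by rintro rfl; simp at hs
    rw [← pow_two]
    exact R.H_sq_mul hc ha ht
  by_cases hst : IsSquare t
  · obtain ⟨a, rfl⟩ := hst
    have ha : a ≠ 0 := by rintro rfl; simp at ht
    rw [← pow_two, (R.H_comm hc hs (pow_ne_zero 2 ha)).eq, mul_comm s]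
    exact R.H_sq_mul hc ha hs
  have h2 : ringChar F ≠ 2 := fun h => hss (FiniteField.isSquare_of_char_two h s)
  obtain ⟨s0, t0, hs0, ht0, hst0⟩ := exists_nonsq h2
  have hs00 : s0 ≠ 0 := by rintro rfl; exact hs0 IsSquare.zero
  have ht00 : t0 ≠ 0 := by rintro rfl; exact ht0 IsSquare.zero
  have hdiv : ∀ x y : F, x ≠ 0 → y ≠ 0 → ¬ IsSquare x → ¬ IsSquare y → ∃ a, a ≠ 0 ∧ y = a ^ 2 * x := by
    intro x y hx hy h1 h3
    have := Fintype.ofFinite F
    have h4 : IsSquare (y * x) := by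
      have q1 := (FiniteField.pow_dichotomy h2 hx).resolve_left
        (fun h => h1 ((FiniteField.isSquare_iff h2 hx).2 h))
      have q2 := (FiniteField.pow_dichotomy h2 hy).resolve_left
        (fun h => h3 ((FiniteField.isSquare_iff h2 hy).2 h))
      rw [FiniteField.isSquare_iff h2 (mul_ne_zero hy hx), mul_pow, q1, q2]; ring
    obtain ⟨b, hb⟩ := h4
    have hb0 : b ≠ 0 := by rintro rfl; rw [mul_zero] at hb; exact mul_ne_zero hy hx hb
    refine ⟨b / x, div_ne_zero hb0 hx, ?_⟩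
    field_simp
    rw [pow_two, ← hb]
  obtain ⟨a, ha, rfl⟩ := hdiv s0 s hs00 hs hs0 hss
  obtain ⟨b, hb, rfl⟩ := hdiv t0 t ht00 ht ht0 hst
  have ha2 := pow_ne_zero 2 ha
  have hb2 := pow_ne_zero 2 hb
  rw [← R.H_sq_mul hc ha hs00, ← R.H_sq_mul hc hb ht00]
  calc H X Y (a ^ 2) * H X Y s0 * (H X Y (b ^ 2) * H X Y t0) =
      H X Y (a ^ 2) * (H X Y s0 * H X Y (b ^ 2)) * H X Y t0 := by simp only [mul_assoc]
    _ = H X Y (a ^ 2) * H X Y (b ^ 2) * (H X Y s0 * H X Y t0) := by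
        rw [(R.H_comm hc hs00 hb2).eq]; simp only [mul_assoc]
    _ = H X Y (a ^ 2 * b ^ 2) * H X Y (s0 * t0) := by
        rw [R.H_sq_mul hc ha hb2, R.H_steinberg hs00 ht00 hst0]
    _ = H X Y ((a * b) ^ 2 * (s0 * t0)) := by
        rw [← mul_pow, R.H_sq_mul hc (mul_ne_zero ha hb) (mul_ne_zero hs00 ht00)]
    _ = _ := by congr 1; ring

end central

end R1

end H40.RankOne
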