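import Cfsg.Agent.Lib.H40.Cov1
import Cfsg.Agent.Lib.H40.RankOne
import Cfsg.Agent.Lib.H22.StThm
import Cfsg.Agent.Lib.H23.ChevH2
import Cfsg.Prelude.Def_SteinbergCover

/-!
The cover given by (R1) and (R2): over a finite field the relations (R3) hold.
-/

set_option autoImplicit false
set_option linter.unusedVariables false

namespace H40.StCov

open H22.St
open H22.RGD H22.Coord H22.RCCheck H22.RCComb H22.ChevTri H22.ChevRel H22.ChevSys H22.ChevMain
open H22.ChevStd H22.ChevSolv H22.ChevUni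
open Cfsg.Lie (ChevalleyDatum)
open H23.ChevCore (Core)
open scoped MatrixGroups Matrix

variable {D : ChevalleyDatum} {F : Type*} [Field F]

theorem xu_eq (R : Rel D F) (C : Core D) {r : ℕ} (hr : r < D.nroots) :
    H23.ChevH2.xu (F := F) C hr = xg R r := by
  funext t
  apply Units.ext
  rw [xg_val]; rfl

theorem sl2rel' (R : Rel D F) (C : Core D) {r : ℕ} (hr : r < D.nroots) :
    H23.SL2Hom.Rel (xg R r) (xg R (D.neg r)) := by
  have h := H23.ChevH2.sl2rel (F := F) C hr
  rwa [xu_eq R C, xu_eq R C] at h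

theorem ng_self (R : Rel D F) (C : Core D) {r : ℕ} (hr : r < D.nroots) (q : F) :
    ng R r 1 * xg R r q * (ng R r 1)⁻¹ = xg R (D.neg r) (-q) := by
  rw [mul_inv_eq_iff_eq_mul, ng_def, inv_one]
  have h := H23.SL2Hom.N_one_X (sl2rel' R C hr) q
  unfold H23.SL2Hom.N at h
  rwa [inv_one] at h

theorem ng_self' (R : Rel D F) (C : Core D) {r : ℕ} (hr : r < D.nroots) (q : F) :
    ng R r 1 * xg R (D.neg r) q * (ng R r 1)⁻¹ = xg R r (-q) := by
  rw [mul_inv_eq_iff_eq_mul, ng_def, inv_one]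
  have h := H23.SL2Hom.n_Y (sl2rel' R C hr) q
  unfold H23.SL2Hom.N at h
  rwa [inv_one] at h

namespace Cov

variable {R : Rel D F} {Gb : Type*} [Group Gb] (S : Cov R Gb) (X : RCX D) (Z : Lex X.rc)
  (W : StCert D X.rc.half)

include Z W in
/-- transfer of conjugation by `n̄_i(1)` -/
theorem nb_transfer (i : Fin D.rank) {s u : ℕ} (hs : s < D.nroots) (hu : u < D.nroots) {t v : F}
    (h : ng R (D.simple i) 1 * xg R s t * (ng R (D.simple i) 1)⁻¹ = xg R u v)
    (hu' : D.reflectRoot i s = u) :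
    S.nb (D.simple i) 1 * S.xb s t * (S.nb (D.simple i) 1)⁻¹ = S.xb u v := by
  obtain ⟨μ, _, hμ⟩ := ng_conj R X i (c := (1 : F)) one_ne_zero
  rw [S.nb_conj X Z W i hμ hs, hu']
  congr 1
  apply xg_inj R X.rc hu
  rw [← h, hμ s hs, hu']

include X in
theorem refl_simple_val (i : Fin D.rank) : D.reflectRoot i (D.simple i) = D.neg (D.simple i) :=
  congrArg Fin.val ((comb X).refl_simple i)

include X in
theorem refl_neg_simple_val (i : Fin D.rank) : D.reflectRoot i (D.neg (D.simple i)) = D.simple i :=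
  congrArg Fin.val ((comb X).refl_simple_neg i)

include Z W in
/-- the rank one relations for simple roots -/
theorem r1 (C : Core D) (i : Fin D.rank) :
    H40.RankOne.R1 (S.xb (D.simple i)) (S.xb (D.neg (D.simple i))) := by
  have hi := X.rc.simple_lt i i.2
  have hni := neg_lt X.rc hi
  have hN : ∀ t, H40.RankOne.N (S.xb (D.simple i)) (S.xb (D.neg (D.simple i))) t =
      S.nb (D.simple i) t := fun t => by rw [nb_def]; rfl
  have a1 : ∀ t, S.nb (D.simple i) 1 * S.xb (D.simple i) t * (S.nb (D.simple i) 1)⁻¹ =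
      S.xb (D.neg (D.simple i)) (-t) := fun t =>
    S.nb_transfer X Z W i hi hni (ng_self R C hi t) (refl_simple_val X i)
  have a2 : ∀ t, S.nb (D.simple i) 1 * S.xb (D.neg (D.simple i)) t * (S.nb (D.simple i) 1)⁻¹ =
      S.xb (D.simple i) (-t) := fun t =>
    S.nb_transfer X Z W i hni hi (ng_self' R C hi t) (refl_neg_simple_val X i)
  have h2 : D.cartan i (D.simple i) = 2 := by
    rw [cartan_simple X.rc i.2 i.2, cartan_self X.rc i.2]
  have h2' : D.cartan i (D.neg (D.simple i)) = -2 := by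
    rw [cartan_neg X.rc i.2 hi, h2]
  refine ⟨S.add _ hi, S.add _ hni, fun u hu a => ?_, fun u hu a => ?_⟩
  · rw [hN, ← mul_inv_eq_iff_eq_mul, S.nb_eq X.rc hi u]
    calc S.hb (D.simple i) u * S.nb (D.simple i) 1 * S.xb (D.simple i) a *
          (S.hb (D.simple i) u * S.nb (D.simple i) 1)⁻¹ =
        S.hb (D.simple i) u * (S.nb (D.simple i) 1 * S.xb (D.simple i) a *
          (S.nb (D.simple i) 1)⁻¹) * (S.hb (D.simple i) u)⁻¹ := by simp [mul_assoc]
      _ = _ := by
        rw [a1, S.hb_conj X Z W i.2 hu hni, h2']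
        congr 1
        rw [zpow_neg, show (2 : ℤ) = ((2 : ℕ) : ℤ) from rfl, zpow_natCast, inv_pow]; ring
  · rw [hN, ← mul_inv_eq_iff_eq_mul, S.nb_eq X.rc hi u]
    calc S.hb (D.simple i) u * S.nb (D.simple i) 1 * S.xb (D.neg (D.simple i)) a *
          (S.hb (D.simple i) u * S.nb (D.simple i) 1)⁻¹ =
        S.hb (D.simple i) u * (S.nb (D.simple i) 1 * S.xb (D.neg (D.simple i)) a *
          (S.nb (D.simple i) 1)⁻¹) * (S.hb (D.simple i) u)⁻¹ := by simp [mul_assoc]
      _ = _ := by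
        rw [a2, S.hb_conj X Z W i.2 hu hi, h2]
        congr 1
        rw [show (2 : ℤ) = ((2 : ℕ) : ℤ) from rfl, zpow_natCast]; ring

theorem hg_mul (R : Rel D F) (C : Core D) {r : ℕ} (hr : r < D.nroots) {c d : F} (hc : c ≠ 0)
    (hd : d ≠ 0) : hg R r c * hg R r d = hg R r (c * d) := by
  apply Units.ext
  rw [Units.val_mul, hg_val, hg_val, hg_val]
  exact H23.ChevH.hMat_mul C hr hc hd

include X Z W in
theorem symbol_central (C : Core D) {r : ℕ} (hr : r < D.nroots) {c d : F} (hc : c ≠ 0)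
    (hd : d ≠ 0) (g : Gb) : S.hb r c * S.hb r d * (S.hb r (c * d))⁻¹ * g =
      g * (S.hb r c * S.hb r d * (S.hb r (c * d))⁻¹) := by
  have h1 : S.hb r c * S.hb r d * (S.hb r (c * d))⁻¹ ∈ S.θ.ker := by
    rw [MonoidHom.mem_ker, map_mul, map_mul, map_inv, S.θ_hb X.rc hr, S.θ_hb X.rc hr,
      S.θ_hb X.rc hr, hg_mul R C hr hc hd, mul_inv_cancel]
  rw [S.ker_eq_center X Z W, Subgroup.mem_center_iff] at h1
  exact (h1 g).symm

include X Z W in
theorem hb_mul_simple [Finite F] (C : Core D) (i : Fin D.rank) {c d : F} (hc : c ≠ 0)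
    (hd : d ≠ 0) : S.hb (D.simple i) c * S.hb (D.simple i) d = S.hb (D.simple i) (c * d) := by
  have hH : ∀ t, H40.RankOne.H (S.xb (D.simple i)) (S.xb (D.neg (D.simple i))) t =
      S.hb (D.simple i) t := fun t => by rw [hb_def, nb_def, nb_def]; rfl
  have h := (S.r1 X Z W C i).H_mul (s := c) (t := d) (by
    intro a b ha hb g
    rw [hH, hH, hH]
    exact S.symbol_central X Z W C (X.rc.simple_lt i i.2) ha hb g) hc hd
  rwa [hH, hH, hH] at h

/-- lifts of words in the simple reflections -/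
def nbw (L : List (Fin D.rank)) : Gb := (L.map fun i => S.nb (D.simple i) 1).prod

include Z W in
theorem nbw_conj (L : List (Fin D.rank)) : ∃ ε : Fin D.nroots → F,
    (∀ s, (ε s = 1 ∨ ε s = -1) ∧ ε ((comb X).neg s) = ε s) ∧ ∀ s : Fin D.nroots, ∀ t : F,
      S.nbw L * S.xb s t * (S.nbw L)⁻¹ = S.xb ((comb X).w L s : Fin D.nroots) (ε s * t) := by
  induction L with
  | nil =>
    refine ⟨fun _ => 1, fun s => ⟨Or.inl rfl, rfl⟩, fun s t => ?_⟩
    simp [nbw]
  | cons i L ih =>
    obtain ⟨ε, h1, h2⟩ := ih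
    obtain ⟨η, h3, h4⟩ := exists_sign R i
    refine ⟨fun s => η ((comb X).w L s) * ε s, fun s => ⟨?_, ?_⟩, fun s t => ?_⟩
    · rcases (h1 s).1 with h | h <;> rcases (h3 _ ((comb X).w L s).2).1 with h' | h' <;>
        simp [h, h']
    · simp only
      rw [(h1 s).2, RootComb.w_neg]
      congr 1
      exact (h3 _ ((comb X).w L s).2).2
    · have e : S.nbw (i :: L) = S.nb (D.simple i) 1 * S.nbw L := by simp [nbw]
      rw [e, mul_inv_rev]
      calc S.nb (D.simple i) 1 * S.nbw L * S.xb s t * ((S.nbw L)⁻¹ * (S.nb (D.simple i) 1)⁻¹) =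
          S.nb (D.simple i) 1 * (S.nbw L * S.xb s t * (S.nbw L)⁻¹) * (S.nb (D.simple i) 1)⁻¹ := by
            simp only [mul_assoc]
        _ = S.nb (D.simple i) 1 * S.xb ((comb X).w L s : Fin D.nroots) (ε s * t) *
            (S.nb (D.simple i) 1)⁻¹ := by rw [h2]
        _ = S.xb (D.reflectRoot i ((comb X).w L s)) (η ((comb X).w L s) * (ε s * t)) :=
            S.nb_conj X Z W i (c := 1) (fun s hs t => h4 s hs t) ((comb X).w L s).2 _
        _ = _ := by
            rw [RootComb.w_cons, Equiv.Perm.mul_apply, comb_refl_val, mul_assoc]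

include Z W in
/-- `h̄_r(t)` is conjugate to a simple one -/
theorem exists_hb_conj (r : Fin D.nroots) : ∃ (g : Gb) (i : Fin D.rank) (ε : F), (ε = 1 ∨ ε = -1) ∧
    (∀ t, S.xb r t = g * S.xb (D.simple i) (ε * t) * g⁻¹) ∧
    (∀ t, S.nb r t = g * S.nb (D.simple i) (ε * t) * g⁻¹) := by
  obtain ⟨L, i, hL⟩ := exists_simple_conj X r
  obtain ⟨ε, h1, h2⟩ := S.nbw_conj X Z W L
  have hsq : ε ((comb X).simple i) * ε ((comb X).simple i) = 1 := by
    rcases (h1 ((comb X).simple i)).1 with h | h <;> rw [h] <;> ring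
  have e1 : ∀ t, S.xb r t = S.nbw L * S.xb (D.simple i) (ε ((comb X).simple i) * t) *
      (S.nbw L)⁻¹ := by
    intro t
    have := h2 ((comb X).simple i) (ε ((comb X).simple i) * t)
    rw [hL, ← mul_assoc, hsq, one_mul] at this
    exact this.symm
  have e2 : ∀ t, S.xb (D.neg r) t = S.nbw L * S.xb (D.neg (D.simple i))
      (ε ((comb X).simple i) * t) * (S.nbw L)⁻¹ := by
    intro t
    have := h2 ((comb X).neg ((comb X).simple i)) (ε ((comb X).simple i) * t)
    rw [(h1 _).2, RootComb.w_neg, hL, ← mul_assoc, hsq, one_mul] at this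
    exact this.symm
  refine ⟨S.nbw L, i, ε ((comb X).simple i), (h1 _).1, e1, fun t => ?_⟩
  rw [nb_def, nb_def, e1, e2]
  have e3 : ε ((comb X).simple i) * -t⁻¹ = -(ε ((comb X).simple i) * t)⁻¹ := by
    rw [mul_inv]
    rcases (h1 ((comb X).simple i)).1 with h | h
    · rw [h]; simp
    · rw [h]
      have : ((-1 : F))⁻¹ = -1 := by rw [inv_neg, inv_one]
      rw [this]; ring
  rw [e3]; simp [mul_assoc]

include X Z W in
/-- over a finite field the relations (R3) hold -/
theorem hb_mul [Finite F] (C : Core D) {r : ℕ} (hr : r < D.nroots) {c d : F} (hc : c ≠ 0)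
    (hd : d ≠ 0) : S.hb r c * S.hb r d = S.hb r (c * d) := by
  obtain ⟨g, i, ε, hε, _, h2⟩ := S.exists_hb_conj X Z W ⟨r, hr⟩
  simp only at h2
  have hi := X.rc.simple_lt i i.2
  have hε0 : ε ≠ 0 := by rcases hε with h | h <;> rw [h] <;> simp
  have key : ∀ c, c ≠ 0 → S.hb r c = g * S.hb (D.simple i) c * g⁻¹ := by
    intro c hc
    rw [hb_def, h2, h2]
    have e : ε * -1 = -ε := by ring
    have h3 : S.hb (D.simple i) (ε * c) = S.hb (D.simple i) c * S.hb (D.simple i) ε := by
      rw [S.hb_mul_simple X Z W C i hc hε0, mul_comm]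
    have h4 : S.hb (D.simple i) c = S.nb (D.simple i) (ε * c) * S.nb (D.simple i) (-ε) := by
      rw [eq_comm, ← mul_inv_eq_iff_eq_mul.2 h3, hb_def, hb_def, mul_inv_rev,
        S.nb_inv X.rc hi ε]
      simp [mul_assoc]
    rw [e, h4]
    simp [mul_assoc]
  rw [key c hc, key d hd, key (c * d) (mul_ne_zero hc hd), ← S.hb_mul_simple X Z W C i hc hd]
  simp [mul_assoc]

/-- over a finite field a cover is a `StG` -/
def toStG [Finite F] (C : Core D) : StG R Gb where
  xb := S.xb
  add := S.add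
  comm := S.comm
  hmul := fun r hr c d hc hd => S.hb_mul X Z W C hr hc hd
  gen := S.gen
  θ := S.θ
  θ_x := S.θ_x

end Cov

/-! ### the presented group -/

section presented

variable {D : ChevalleyDatum} {K : Type*} [Field K] (R : Rel D K)

theorem mkc_stWord (w : List (ℕ × K)) : PresentedGroup.mk (D.steinbergRelsAB K) (D.stWord w) =
    (w.map fun p => D.scGen K p.1 p.2).prod := by
  unfold ChevalleyDatum.stWord
  rw [map_list_prod, List.map_map]
  rfl

/-- relations (R1) and (R2) hold under any assignment satisfying them -/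
theorem relsAB_hold {G : Type*} [Group G] (Q : RC D) (x : ℕ → K → G)
    (add : ∀ r < D.nroots, ∀ t u : K, x r t * x r u = x r (t + u))
    (comm : ∀ r < D.nroots, ∀ s < D.nroots, s ≠ r → s ≠ D.neg r → ∀ t u : K,
      (x s u)⁻¹ * (x r t)⁻¹ * x s u * x r t = ((D.commWord K r s t u).map fun p => x p.1 p.2).prod) :
    ∀ g ∈ D.steinbergRelsAB K, FreeGroup.lift (fun p : Fin D.nroots × K => x p.1 p.2) g = 1 := by
  have hX : ∀ r < D.nroots, ∀ t : K,
      FreeGroup.lift (fun p : Fin D.nroots × K => x p.1 p.2) (D.stX r t) = x r t := by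
    intro r hr t
    unfold ChevalleyDatum.stX
    rw [dif_pos hr, FreeGroup.lift_apply_of]
  have hW : ∀ w : List (ℕ × K), (∀ p ∈ w, p.1 < D.nroots) →
      FreeGroup.lift (fun p : Fin D.nroots × K => x p.1 p.2) (D.stWord w) =
        (w.map fun p => x p.1 p.2).prod := by
    intro w hw
    unfold ChevalleyDatum.stWord
    rw [map_list_prod, List.map_map]
    congr 1
    apply List.map_congr_left
    intro p hp
    exact hX p.1 (hw p hp) p.2
  rintro g (⟨r, t, u, hr, rfl⟩ | ⟨r, s, t, u, hr, hs, h1, h2, rfl⟩)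
  · simp only [map_mul, map_inv, hX _ hr]
    rw [add r hr, mul_inv_cancel]
  · simp only [map_mul, map_inv, hX _ hr, hX _ hs, hW _ (commWord_lt Q hr hs t u)]
    rw [comm r hr s hs h1 h2, mul_inv_cancel]

/-- the homomorphism from the cover -/
noncomputable def fromCover {G : Type*} [Group G] (Q : RC D) (x : ℕ → K → G)
    (add : ∀ r < D.nroots, ∀ t u : K, x r t * x r u = x r (t + u))
    (comm : ∀ r < D.nroots, ∀ s < D.nroots, s ≠ r → s ≠ D.neg r → ∀ t u : K,
      (x s u)⁻¹ * (x r t)⁻¹ * x s u * x r t = ((D.commWord K r s t u).map fun p => x p.1 p.2).prod) :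
    D.SteinbergCover K →* G := PresentedGroup.toGroup (relsAB_hold Q x add comm)

theorem fromCover_gen {G : Type*} [Group G] (Q : RC D) (x : ℕ → K → G)
    (add : ∀ r < D.nroots, ∀ t u : K, x r t * x r u = x r (t + u))
    (comm : ∀ r < D.nroots, ∀ s < D.nroots, s ≠ r → s ≠ D.neg r → ∀ t u : K,
      (x s u)⁻¹ * (x r t)⁻¹ * x s u * x r t = ((D.commWord K r s t u).map fun p => x p.1 p.2).prod)
    {r : ℕ} (hr : r < D.nroots) (t : K) : fromCover Q x add comm (D.scGen K r t) = x r t := by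
  unfold ChevalleyDatum.scGen ChevalleyDatum.stX
  rw [dif_pos hr]
  exact PresentedGroup.toGroup.of (relsAB_hold Q x add comm)

theorem scGen_add {r : ℕ} (hr : r < D.nroots) (t u : K) :
    D.scGen K r t * D.scGen K r u = D.scGen K r (t + u) := by
  have h : PresentedGroup.mk (D.steinbergRelsAB K) (D.stX r t * D.stX r u * (D.stX r (t + u))⁻¹) = 1 :=
    PresentedGroup.one_of_mem (Or.inl ⟨r, t, u, hr, rfl⟩)
  rw [map_mul, map_inv, mul_inv_eq_one, map_mul] at h
  exact h

theorem scGen_comm {r s : ℕ} (hr : r < D.nroots) (hs : s < D.nroots) (h1 : s ≠ r)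
    (h2 : s ≠ D.neg r) (t u : K) :
    (D.scGen K s u)⁻¹ * (D.scGen K r t)⁻¹ * D.scGen K s u * D.scGen K r t =
      ((D.commWord K r s t u).map fun p => D.scGen K p.1 p.2).prod := by
  have h : PresentedGroup.mk (D.steinbergRelsAB K) ((D.stX s u)⁻¹ * (D.stX r t)⁻¹ * D.stX s u * D.stX r t *
      (D.stWord (D.commWord K r s t u))⁻¹) = 1 :=
    PresentedGroup.one_of_mem (Or.inr ⟨r, s, t, u, hr, hs, h1, h2, rfl⟩)
  rw [map_mul, map_inv, mul_inv_eq_one, mkc_stWord, map_mul, map_mul, map_mul, map_inv, map_inv] at h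
  exact h

theorem scGen_closure : Subgroup.closure {g | ∃ (r : ℕ) (t : K), r < D.nroots ∧
    g = D.scGen K r t} = ⊤ := by
  rw [eq_top_iff, ← PresentedGroup.closure_range_of (D.steinbergRelsAB K), Subgroup.closure_le]
  rintro _ ⟨⟨r, t⟩, rfl⟩
  refine Subgroup.subset_closure ⟨r, t, r.2, ?_⟩
  show PresentedGroup.mk _ _ = PresentedGroup.mk _ (D.stX r t)
  unfold ChevalleyDatum.stX
  rw [dif_pos r.2]

/-- the canonical map of the cover onto the Chevalley group -/
noncomputable def θc (Q : RC D) : D.SteinbergCover K →* GL D.Idx K :=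
  fromCover Q (xg R) (fun r _ t u => xg_mul R r t u)
    (fun r hr s hs h1 h2 t u => by
      have := comm_g R hr hs h1 h2 t u
      rw [mul_assoc, this]
      have e : ((D.commWord K r s t u).map fun p => xg R p.1 p.2).prod = wg R (D.commWord K r s t u) := rfl
      rw [e]; simp [mul_assoc])

theorem θc_gen (Q : RC D) {r : ℕ} (hr : r < D.nroots) (t : K) :
    θc R Q (D.scGen K r t) = xg R r t := fromCover_gen Q _ _ _ hr t

/-- the cover as a `Cov` -/
noncomputable def covOf (Q : RC D) : Cov R (D.SteinbergCover K) where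
  xb := fun r t => D.scGen K r t
  add := fun r hr t u => scGen_add hr t u
  comm := fun r hr s hs h1 h2 t u => scGen_comm hr hs h1 h2 t u
  gen := scGen_closure
  θ := θc R Q
  θ_x := fun r hr t => θc_gen R Q hr t

end presented

end H40.StCov
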