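import Cfsg.Agent.Lib.H40.Cov2
import Cfsg.Agent.Lib.H22.ChevSimple

/-!
The covers given by (R1) and (R2) are perfect; S2395, S2396, S2397.
-/

set_option autoImplicit false
set_option linter.unusedVariables false

namespace H40.StCov

open H22.St
open H22.RGD H22.Coord H22.RCCheck H22.RCComb H22.ChevTri H22.ChevRel H22.ChevSys H22.ChevMain
open H22.ChevStd H22.ChevSolv H22.ChevUni
open Cfsg.Lie (ChevalleyDatum)
open H23.ChevCore (Core)
open scoped MatrixGroups Matrix commutatorElement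

variable {D : ChevalleyDatum} {F : Type*} [Field F]

namespace Cov

variable {R : Rel D F} {Gb : Type*} [Group Gb] (S : Cov R Gb) (X : RCX D) (Z : Lex X.rc)
  (W : StCert D X.rc.half)

include S X Z W in
theorem perf_of_simple (h : ∀ i < D.rank, ∀ v : F, S.xb (D.simple i) v ∈ commutator Gb) :
    commutator Gb = ⊤ := by
  rw [eq_top_iff, ← S.gen, Subgroup.closure_le]
  rintro _ ⟨r, t, hr, rfl⟩
  obtain ⟨g, i, ε, _, h1, _⟩ := S.exists_hb_conj X Z W ⟨r, hr⟩
  have h2 := h1 t
  simp only at h2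
  rw [h2, SetLike.mem_coe]
  exact (inferInstance : (commutator Gb).Normal).conj_mem _ (h i i.2 _) g

theorem xb_mem_comm {a b k : ℕ} (ha : a < D.nroots) (hb : b < D.nroots) (h1 : b ≠ a)
    (h2 : b ≠ D.neg a) {m : ℤ} (hm : (m : F) ≠ 0) (ht : D.commTerms a b = [(k, m, 1, 1)]) (v : F) :
    S.xb k v ∈ commutator Gb := by
  have h3 := S.comm a ha b hb h1 h2 (-(v / m)) 1
  have h4 : ((D.commWord F a b (-(v / m)) 1).map fun p => S.xb p.1 p.2).prod = S.xb k v := by
    unfold ChevalleyDatum.commWord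
    rw [ht]
    simp only [List.map_cons, List.map_nil, List.prod_cons, List.prod_nil, mul_one, one_pow,
      pow_one, _root_.neg_neg]
    congr 1
    field_simp
  rw [← h4, ← h3]
  have h5 := Subgroup.commutator_mem_commutator (H₁ := (⊤ : Subgroup Gb)) (H₂ := ⊤)
    (Subgroup.mem_top (S.xb b 1)⁻¹) (Subgroup.mem_top (S.xb a (-(v / m)))⁻¹)
  rw [commutatorElement_def, inv_inv, inv_inv] at h5
  exact h5

include S X Z W in
theorem xb_mem_torus {i s : ℕ} (hi : i < D.rank) (hs' : s < D.nroots) {c : F} (hc : c ≠ 0)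
    (hc1 : c ^ D.cartan i s ≠ 1) (v : F) : S.xb s v ∈ commutator Gb := by
  set z : F := c ^ D.cartan i s with hz
  have h1 : z - 1 ≠ 0 := sub_ne_zero.2 hc1
  have h2 := S.hb_conj X Z W hi hc hs' (v / (z - 1))
  have h3 : S.xb s v = ⁅S.hb (D.simple i) c, S.xb s (v / (z - 1))⁆ := by
    rw [commutatorElement_def, h2, S.xb_inv hs', S.add s hs', ← hz]
    congr 1
    field_simp
    ring
  rw [h3]
  exact Subgroup.commutator_mem_commutator (Subgroup.mem_top _) (Subgroup.mem_top _)

include S X Z W in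
theorem perf_of_table {T : List (ℕ × ℕ × ℤ)} (h : H22.ChevSimple.chkT D T = true) :
    commutator Gb = ⊤ := by
  refine S.perf_of_simple X Z W fun i hi v => ?_
  unfold H22.ChevSimple.chkT at h
  rw [List.all_eq_true] at h
  have h1 := h i (List.mem_range.2 hi)
  revert h1
  generalize T.getD i (0, 0, 0) = p
  obtain ⟨a, b, m⟩ := p
  intro h1
  simp only [Bool.and_eq_true, decide_eq_true_eq, Nat.blt_eq, Bool.not_eq_true', Bool.or_eq_true,
    beq_iff_eq] at h1
  obtain ⟨⟨⟨⟨⟨h1, h2⟩, h3⟩, h4⟩, h5⟩, h6⟩ := h1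
  refine S.xb_mem_comm h2 h3 ?_ ?_ ?_ h1 v
  · intro h7; rw [h7] at h4; simp at h4
  · intro h7; rw [h7] at h5; simp at h5
  · rcases h6 with rfl | rfl <;> simp

end Cov

open H22.ChevSimple H22.ChevLex H22.StTab in
/-- the covers are perfect -/
theorem perfCov (D : ChevalleyDatum) (hD : D ∈ [Cfsg.Lie.chevG2, Cfsg.Lie.chevB2, Cfsg.Lie.chevD4,
    Cfsg.Lie.chevF4, Cfsg.Lie.chevE6, Cfsg.Lie.chevE7, Cfsg.Lie.chevE8])
    (hK : D ∈ [Cfsg.Lie.chevB2, Cfsg.Lie.chevG2] → ∃ x : F, x ≠ 0 ∧ x ≠ 1)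
    (R : Rel D F) {Gb : Type*} [Group Gb] (S : Cov R Gb) : commutator Gb = ⊤ := by
  simp only [List.mem_cons, List.not_mem_nil, or_false] at hD
  rcases hD with rfl | rfl | rfl | rfl | rfl | rfl | rfl
  · obtain ⟨c, hc, hc1⟩ := hK (by simp)
    refine S.perf_of_simple H22.PoinG2.rcxG2 lexG2 certG2 fun i hi v => ?_
    have hi2 : i < 2 := hi
    interval_cases i
    · refine S.xb_mem_torus H22.PoinG2.rcxG2 lexG2 certG2 (i := 1) (by decide) (by decide +kernel) hc ?_ v
      rw [cartanG2, zpow_neg, zpow_one]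
      intro h; exact hc1 (inv_eq_one.1 h)
    · exact S.xb_mem_comm (a := 1) (b := 11) (m := -1) (by decide +kernel) (by decide +kernel) (by decide)
        (by decide +kernel) (by simp) (by decide +kernel) v
  · obtain ⟨c, hc, hc1⟩ := hK (by simp)
    refine S.perf_of_simple H22.PoinB2.rcxB2 lexB2 certB2 fun i hi v => ?_
    have hi2 : i < 2 := hi
    interval_cases i
    · refine S.xb_mem_torus H22.PoinB2.rcxB2 lexB2 certB2 (i := 1) (by decide) (by decide +kernel) hc ?_ v
      rw [cartanB2, zpow_neg, zpow_one]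
      intro h; exact hc1 (inv_eq_one.1 h)
    · by_cases h2 : (2 : F) = 0
      · refine S.xb_mem_torus H22.PoinB2.rcxB2 lexB2 certB2 (i := 1) (by decide) (by decide +kernel) hc ?_ v
        rw [cartanB2']
        intro h
        have h3 : (c - 1) ^ 2 = 0 := by
          have h4 : c ^ 2 = 1 := by exact_mod_cast h
          linear_combination h4 + (1 - c) * h2
        exact hc1 (sub_eq_zero.1 (pow_eq_zero_iff two_ne_zero |>.1 h3))
      · exact S.xb_mem_comm (a := 2) (b := 6) (m := -2) (by decide +kernel) (by decide +kernel) (by decide)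
          (by decide +kernel) (by push_cast; exact neg_ne_zero.2 h2) (by decide +kernel) v
  · exact S.perf_of_table H22.PoinD4.rcxD4 lexD4 certD4 (T := [(6, 22, 1), (1, 23, -1), (3, 22, -1),
      (2, 22, -1)]) (by decide +kernel)
  · exact S.perf_of_table H22.PoinF4.rcxF4 lexF4 certF4 (T := [(7, 44, -1), (8, 40, -1), (2, 46, -1),
      (1, 47, -1)]) (by decide +kernel)
  · exact S.perf_of_table H22.PoinE6.rcxE6 lexE6 certE6 (T := [(16, 66, 1), (1, 71, -1), (5, 69, -1),
      (2, 70, -1), (3, 69, -1), (4, 68, -1)]) (by decide +kernel)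
  · exact S.perf_of_table H22.PoinE7.rcxE7 lexE7 certE7 (T := [(1, 125, -1), (7, 122, -1),
      (2, 124, -1), (3, 123, -1), (4, 122, -1), (5, 121, -1), (6, 120, -1)]) (by decide +kernel)
  · exact S.perf_of_table H22.PoinE8.rcxE8 lexE8 certE8 (T := [(14, 233, -1), (7, 234, -1),
      (6, 234, -1), (5, 235, -1), (4, 236, -1), (3, 237, -1), (2, 238, -1), (1, 239, -1)])
      (by decide +kernel)

section statements

variable {K : Type*} [Field K]

theorem s2395 (D : ChevalleyDatum) (hD : D ∈ [Cfsg.Lie.chevG2, Cfsg.Lie.chevB2, Cfsg.Lie.chevD4,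
    Cfsg.Lie.chevF4, Cfsg.Lie.chevE6, Cfsg.Lie.chevE7, Cfsg.Lie.chevE8])
    (hK : D ∈ [Cfsg.Lie.chevB2, Cfsg.Lie.chevG2] → ∃ x : K, x ≠ 0 ∧ x ≠ 1) :
    commutator (D.SteinbergCover K) = ⊤ := by
  obtain ⟨X, ⟨Z⟩, W⟩ := H22.StTab.exists_all hD
  exact perfCov D hD hK (H22.ChevAll.rel D hD K) (covOf (H22.ChevAll.rel D hD K) X.rc)

theorem s2396 (D : ChevalleyDatum) (hD : D ∈ [Cfsg.Lie.chevG2, Cfsg.Lie.chevB2, Cfsg.Lie.chevD4,
    Cfsg.Lie.chevF4, Cfsg.Lie.chevE6, Cfsg.Lie.chevE7, Cfsg.Lie.chevE8]) :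
    ∃ θ : D.SteinbergCover K →* ↥(D.group K), Function.Surjective θ ∧
      θ.ker ≤ Subgroup.center (D.SteinbergCover K) ∧
      ∀ (r : ℕ) (t : K), r < D.nroots →
        ((θ (D.scGen K r t) : GL D.Idx K) : Matrix D.Idx D.Idx K) = D.x K r t := by
  obtain ⟨X, ⟨Z⟩, W⟩ := H22.StTab.exists_all hD
  have R := H22.ChevAll.rel D hD K
  let S := covOf R X.rc
  have hr : S.θ.range = D.group K := S.range_θ X.rc
  refine ⟨S.θ.codRestrict (D.group K) (fun x => by rw [← hr]; exact ⟨x, rfl⟩), ?_, ?_, ?_⟩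
  · rintro ⟨y, hy⟩
    rw [← hr] at hy
    obtain ⟨x, rfl⟩ := hy
    exact ⟨x, rfl⟩
  · rw [← S.ker_eq_center X Z W]
    intro x hx
    rw [MonoidHom.mem_ker] at hx ⊢
    exact congrArg Subtype.val hx
  · intro r t hr
    show ((S.θ (D.scGen K r t) : GL D.Idx K) : Matrix D.Idx D.Idx K) = _
    have h2 : S.θ (D.scGen K r t) = xg R r t := S.θ_x r hr t
    rw [h2]; rfl

theorem s2397 [Finite K] (D : ChevalleyDatum) (hD : D ∈ [Cfsg.Lie.chevG2, Cfsg.Lie.chevB2,
    Cfsg.Lie.chevD4, Cfsg.Lie.chevF4, Cfsg.Lie.chevE6, Cfsg.Lie.chevE7, Cfsg.Lie.chevE8]) :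
    ∃ e : D.SteinbergCover K ≃* D.SteinbergGroup K, ∀ (r : ℕ) (t : K),
      e (D.scGen K r t) = D.stGen K r t := by
  obtain ⟨X, ⟨Z⟩, W⟩ := H22.StTab.exists_all hD
  have R := H22.ChevAll.rel D hD K
  have C := H23.ChevAll.core D hD
  let S := covOf R X.rc
  have hsub : D.steinbergRelsAB K ⊆ D.steinbergRels K := Set.subset_union_left
  have hf : ∀ g ∈ D.steinbergRelsAB K, (FreeGroup.lift fun p : Fin D.nroots × K =>
      (PresentedGroup.of p : D.SteinbergGroup K)) g = 1 := by
    intro g hg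
    have : (FreeGroup.lift fun p : Fin D.nroots × K => (PresentedGroup.of p : D.SteinbergGroup K)) =
        PresentedGroup.mk (D.steinbergRels K) := by
      ext p; simp [PresentedGroup.of]
    rw [this]
    exact PresentedGroup.one_of_mem (hsub hg)
  have hmk : (FreeGroup.lift fun p : Fin D.nroots × K => (PresentedGroup.of p : D.SteinbergCover K)) =
      PresentedGroup.mk (D.steinbergRelsAB K) := by
    ext p; simp [PresentedGroup.of]
  have hg : ∀ g ∈ D.steinbergRels K, (FreeGroup.lift fun p : Fin D.nroots × K =>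
      (PresentedGroup.of p : D.SteinbergCover K)) g = 1 := by
    intro g hg
    rw [hmk]
    rcases hg with hg | ⟨r, t₁, t₂, hr, h1, h2, rfl⟩
    · exact PresentedGroup.one_of_mem hg
    · rw [map_mul, map_mul, map_inv]
      unfold ChevalleyDatum.stH
      rw [mkc_stWord, mkc_stWord, mkc_stWord, mul_inv_eq_one]
      exact S.hb_mul X Z W C hr h1 h2
  let e1 : D.SteinbergCover K →* D.SteinbergGroup K := PresentedGroup.toGroup hf
  let e2 : D.SteinbergGroup K →* D.SteinbergCover K := PresentedGroup.toGroup hg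
  have h12 : e2.comp e1 = MonoidHom.id _ := by
    apply PresentedGroup.ext
    intro x
    show e2 (e1 (PresentedGroup.of x)) = PresentedGroup.of x
    rw [show e1 (PresentedGroup.of x) = PresentedGroup.of x from PresentedGroup.toGroup.of hf]
    exact PresentedGroup.toGroup.of hg
  have h21 : e1.comp e2 = MonoidHom.id _ := by
    apply PresentedGroup.ext
    intro x
    show e1 (e2 (PresentedGroup.of x)) = PresentedGroup.of x
    rw [show e2 (PresentedGroup.of x) = PresentedGroup.of x from PresentedGroup.toGroup.of hg]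
    exact PresentedGroup.toGroup.of hf
  refine ⟨MonoidHom.toMulEquiv e1 e2 h12 h21, fun r t => ?_⟩
  show e1 (D.scGen K r t) = D.stGen K r t
  unfold ChevalleyDatum.scGen ChevalleyDatum.stGen ChevalleyDatum.stX
  split_ifs with h
  · exact PresentedGroup.toGroup.of hf
  · rw [map_one, map_one, map_one]

end statements

end H40.StCov
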