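import Cfsg.Agent.Lib.H40.Ext1

/-!
Lifting simply laced families of root elements to central extensions: the chain argument.
-/

set_option autoImplicit false

namespace H40.Ext

open scoped commutatorElement

/-- a family of root elements -/
structure RootFam (G F Φ : Type*) [Group G] [Field F] where
  x : Φ → F → G
  add : ∀ r t u, x r t * x r u = x r (t + u)
  inj : ∀ r t u, x r t = x r u → t = u
  /-- proper pairs (for roots: `s ≠ -r`) -/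
  P : Φ → Φ → Prop
  P_symm : ∀ r s, P r s → P s r
  P_self : ∀ r, P r r

namespace RootFam

variable {G E F Φ : Type*} [Group G] [Group E] [Field F] (S : RootFam G F Φ)

theorem x_zero (r : Φ) : S.x r 0 = 1 := by
  have := S.add r 0 0
  rw [add_zero] at this
  exact mul_eq_left.1 this

theorem x_neg (r : Φ) (t : F) : (S.x r t)⁻¹ = S.x r (-t) := by
  rw [inv_eq_iff_mul_eq_one, S.add, add_neg_cancel, S.x_zero]

/-- commuting root groups -/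
def CM (r s : Φ) : Prop := S.P r s ∧ ∀ t u, ⁅S.x r t, S.x s u⁆ = 1

/-- `[x_r(t), x_s(u)] = x_k(±tu)` -/
def Sm (r s k : Φ) : Prop :=
  S.P r s ∧ ∃ c : F, (c = 1 ∨ c = -1) ∧ ∀ t u, ⁅S.x r t, S.x s u⁆ = S.x k (c * t * u)

variable {S}

theorem CM.symm {r s : Φ} (h : S.CM r s) : S.CM s r := ⟨S.P_symm _ _ h.1, fun t u => by
  rw [← commutatorElement_inv, h.2, inv_one]⟩

theorem CM.self (r : Φ) : S.CM r r := ⟨S.P_self r, fun t u => by
  rw [commutatorElement_eq_one_iff_mul_comm, S.add, S.add, add_comm]⟩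

theorem sq_of_sign {c : F} (h : c = 1 ∨ c = -1) : c * c = 1 := by
  rcases h with rfl | rfl <;> ring

theorem sign_mul {c d : F} (h : c = 1 ∨ c = -1) (h' : d = 1 ∨ d = -1) :
    c * d = 1 ∨ c * d = -1 := by
  rcases h with rfl | rfl <;> rcases h' with rfl | rfl <;> simp

theorem Sm.symm {r s k : Φ} (h : S.Sm r s k) : S.Sm s r k := by
  obtain ⟨hP, c, hc, h⟩ := h
  refine ⟨S.P_symm _ _ hP, -c, ?_, fun t u => ?_⟩
  · rcases hc with rfl | rfl <;> simp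
  · rw [← commutatorElement_inv, h, S.x_neg]; congr 1; ring

/-- an element acting on the root elements like a Weyl group element -/
def WAct (S : RootFam G F Φ) (g : G) (w : Equiv.Perm Φ) (ε : Φ → F) : Prop :=
  (∀ r, ε r = 1 ∨ ε r = -1) ∧ (∀ r t, g * S.x r t * g⁻¹ = S.x (w r) (ε r * t)) ∧
    ∀ r s, S.P (w r) (w s) ↔ S.P r s

theorem WAct.inv {g : G} {w : Equiv.Perm Φ} {ε : Φ → F} (h : S.WAct g w ε) :
    S.WAct g⁻¹ w.symm (fun r => ε (w.symm r)) := by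
  refine ⟨fun r => h.1 _, fun r t => ?_, fun r s => ?_⟩
  · have h1 := h.2.1 (w.symm r) (ε (w.symm r) * t)
    rw [← mul_assoc, sq_of_sign (h.1 _), one_mul, Equiv.apply_symm_apply] at h1
    rw [← h1]; simp [mul_assoc]
  · rw [← h.2.2, Equiv.apply_symm_apply, Equiv.apply_symm_apply]

theorem WAct.comm {g : G} {w : Equiv.Perm Φ} {ε : Φ → F} (h : S.WAct g w ε) (r s : Φ) (t u : F) :
    ⁅S.x (w r) t, S.x (w s) u⁆ = g * ⁅S.x r (ε r * t), S.x s (ε s * u)⁆ * g⁻¹ := by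
  have h1 := h.2.1 r (ε r * t)
  have h2 := h.2.1 s (ε s * u)
  rw [← mul_assoc, sq_of_sign (h.1 _), one_mul] at h1 h2
  rw [← h1, ← h2, commutatorElement_def, commutatorElement_def]; simp [mul_assoc]

theorem CM.conj {r s : Φ} (hrs : S.CM r s) {g : G} {w : Equiv.Perm Φ} {ε : Φ → F}
    (h : S.WAct g w ε) : S.CM (w r) (w s) := ⟨(h.2.2 _ _).2 hrs.1, fun t u => by
  rw [h.comm, hrs.2]; simp⟩

theorem Sm.conj {r s k : Φ} (hrs : S.Sm r s k) {g : G} {w : Equiv.Perm Φ} {ε : Φ → F}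
    (h : S.WAct g w ε) : S.Sm (w r) (w s) (w k) := by
  obtain ⟨hP, c, hc, h1⟩ := hrs
  refine ⟨(h.2.2 _ _).2 hP, ε k * (c * (ε r * ε s)),
    sign_mul (h.1 _) (sign_mul hc (sign_mul (h.1 _) (h.1 _))), fun t u => ?_⟩
  rw [h.comm, h1, h.2.1]
  congr 1; ring

variable (S)

/-- adjacency of decompositions of `k` -/
def Adj (k : Φ) (p p' : Φ × Φ) : Prop :=
  ∃ m, S.Sm p'.1 m p.1 ∧ S.Sm m p.2 p'.2 ∧ S.CM p'.1 p.2 ∧ S.CM p.1 p'.2 ∧ S.CM k p'.2 ∧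
    S.Sm p.1 p.2 k ∧ S.Sm p'.1 p'.2 k

/-- all decompositions of `k` are connected -/
def Conn (k : Φ) : Prop := ∃ p₀ : Φ × Φ, S.Sm p₀.1 p₀.2 k ∧ S.CM p₀.1 k ∧
  (∃ p', S.Adj k p₀ p') ∧
  ∀ r s, S.Sm r s k → Relation.EqvGen (S.Adj k) p₀ (r, s)

variable {S}

theorem Adj.conj {k : Φ} {p p' : Φ × Φ} (hp : S.Adj k p p') {g : G} {w : Equiv.Perm Φ} {ε : Φ → F}
    (h : S.WAct g w ε) : S.Adj (w k) (w p.1, w p.2) (w p'.1, w p'.2) := by
  obtain ⟨m, h1, h2, h3, h4, h5, h6, h7⟩ := hp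
  exact ⟨w m, h1.conj h, h2.conj h, h3.conj h, h4.conj h, h5.conj h, h6.conj h, h7.conj h⟩

theorem Conn.conj {k : Φ} (hk : S.Conn k) {g : G} {w : Equiv.Perm Φ} {ε : Φ → F}
    (h : S.WAct g w ε) : S.Conn (w k) := by
  obtain ⟨p₀, h1, h2, ⟨p', h3⟩, h4⟩ := hk
  refine ⟨(w p₀.1, w p₀.2), h1.conj h, h2.conj h, ⟨_, h3.conj h⟩, fun r s hrs => ?_⟩
  have h5 := hrs.conj h.inv
  rw [Equiv.symm_apply_apply] at h5
  have h6 := h4 _ _ h5
  have h7 : ∀ p q : Φ × Φ, Relation.EqvGen (S.Adj k) p q →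
      Relation.EqvGen (S.Adj (w k)) (w p.1, w p.2) (w q.1, w q.2) := by
    intro p q hpq
    induction hpq with
    | rel p q h' => exact Relation.EqvGen.rel _ _ (h'.conj h)
    | refl p => exact Relation.EqvGen.refl _
    | symm p q _ ih => exact Relation.EqvGen.symm _ _ ih
    | trans p q r _ _ ih1 ih2 => exact Relation.EqvGen.trans _ _ _ ih1 ih2
  have h8 := h7 _ _ h6
  simpa using h8

/-! ### in a central extension -/

section ext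

variable (S) {π : E →* G} (hπ : CE π)

/-- commuting lifts -/
def ZC (r s : Φ) : Prop := ∀ t u, hπ.z (S.x r t) (S.x s u) = 1

variable {S}
variable {hπ}

theorem ZC.symm {r s : Φ} (h : S.ZC hπ r s) : S.ZC hπ s r := fun t u => by
  rw [← hπ.z_inv, h, inv_one]

theorem ZC.conj {r s : Φ} (hrs : S.ZC hπ r s) {g : G} {w : Equiv.Perm Φ} {ε : Φ → F}
    (h : S.WAct g w ε) : S.ZC hπ (w r) (w s) := fun t u => by
  obtain ⟨e, rfl⟩ := hπ.surj g
  have h1 := hπ.z_conj e (S.x r (ε r * t)) (S.x s (ε s * u))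
  rw [hrs, h.2.1, h.2.1, ← mul_assoc, ← mul_assoc, sq_of_sign (h.1 _), sq_of_sign (h.1 _), one_mul,
    one_mul] at h1
  rw [← h1]; simp

variable (hπ)

theorem zc_of_sum {r₁ r₂ k s : Φ} (h : S.Sm r₁ r₂ k) (h1 : S.CM s r₁) (h2 : S.CM s r₂) :
    S.ZC hπ s k := by
  obtain ⟨_, c, hc, h⟩ := h
  intro t u
  have e : S.x k u = ⁅S.x r₁ (c * u), S.x r₂ 1⁆ := by
    rw [h, mul_one, ← mul_assoc, sq_of_sign hc, one_mul]
  rw [e]
  exact hπ.z_comm_right (h1.2 _ _) (h2.2 _ _)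

/-- the basic identity for adjacent decompositions -/
theorem adj_z {k : Φ} {p p' : Φ × Φ} (hZ : ∀ r s, S.CM r s → S.ZC hπ r s) (h : S.Adj k p p') :
    ∃ c₁ c₂ : F, (c₁ = 1 ∨ c₁ = -1) ∧ (c₂ = 1 ∨ c₂ = -1) ∧ ∀ t v u,
      hπ.z (S.x p'.1 t) (S.x p'.2 (c₂ * v * u)) = hπ.z (S.x p.1 (c₁ * t * v)) (S.x p.2 u) := by
  obtain ⟨m, ⟨_, c₁, hc₁, h1⟩, ⟨_, c₂, hc₂, h2⟩, h3, h4, h5, ⟨_, c₃, hc₃, h6⟩, h7⟩ := h
  refine ⟨c₁, c₂, hc₁, hc₂, fun t v u => ?_⟩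
  have h8 := hπ.z_adj (a := S.x p'.1 t) (b := S.x m v) (c := S.x p.2 u) (hZ _ _ h3 _ _) (by
    rw [h1, h2]; exact hZ _ _ h4 _ _) (by rw [h1, h2, h6]; exact hZ _ _ h5 _ _)
  rw [h1, h2] at h8
  exact h8

/-- the consistency property -/
def QP (k : Φ) (Y : F → E) (p : Φ × Φ) : Prop :=
  ∀ t u v, ⁅S.x p.1 t, S.x p.2 u⁆ = S.x k v → hπ.z (S.x p.1 t) (S.x p.2 u) = Y v

theorem qp_adj {k : Φ} {p p' : Φ × Φ} (hZ : ∀ r s, S.CM r s → S.ZC hπ r s) (h : S.Adj k p p')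
    (Y : F → E) : S.QP hπ k Y p ↔ S.QP hπ k Y p' := by
  obtain ⟨c₁, c₂, hc₁, hc₂, h1⟩ := adj_z hπ hZ h
  constructor
  · intro hQ t u v hv
    have h2 := h1 t 1 (c₂ * u)
    rw [mul_one, mul_one, ← mul_assoc, sq_of_sign hc₂, one_mul] at h2
    rw [h2]
    apply hQ
    rw [← hπ.π_z, ← h2, hπ.π_z, hv]
  · intro hQ t u v hv
    have h2 := h1 (c₁ * t) 1 u
    rw [mul_one, mul_one, ← mul_assoc, sq_of_sign hc₁, one_mul] at h2
    rw [← h2]
    apply hQ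
    rw [← hπ.π_z, h2, hπ.π_z, hv]

theorem exists_Y {k : Φ} (hZ : ∀ r s, S.CM r s → S.ZC hπ r s) (hk : S.Conn k) :
    ∃ Y : F → E, (∀ t, π (Y t) = S.x k t) ∧ (∀ t u, Y t * Y u = Y (t + u)) ∧
      ∀ r s, S.Sm r s k → S.QP hπ k Y (r, s) := by
  obtain ⟨p₀, ⟨_, c₀, hc₀, h0⟩, h0', ⟨p', hadj⟩, hall⟩ := hk
  set Y : F → E := fun v => hπ.z (S.x p₀.1 (c₀ * v)) (S.x p₀.2 1) with hY
  have hπY : ∀ t, π (Y t) = S.x k t := by
    intro t
    rw [hY]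
    simp only
    rw [hπ.π_z, h0, mul_one, ← mul_assoc, sq_of_sign hc₀, one_mul]
  have hcomm : ∀ t u, Commute (Y t) (Y u) := by
    intro t u
    apply hπ.commute_of_z
    rw [hπY, hπY]
    exact hZ _ _ (CM.self k) _ _
  have hQ0 : S.QP hπ k Y p₀ := by
    obtain ⟨c₁, c₂, hc₁, hc₂, h1⟩ := adj_z hπ hZ hadj
    intro t u v hv
    have e1 := h1 (c₁ * t) 1 u
    have e2 := h1 (c₁ * t) u 1
    rw [mul_one, mul_one, ← mul_assoc, sq_of_sign hc₁, one_mul] at e1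
    rw [mul_one, ← mul_assoc, sq_of_sign hc₁, one_mul] at e2
    rw [← e1, e2]
    rw [h0] at hv
    have h3 := S.inj _ _ _ hv
    rw [hY]
    simp only
    rw [← h3]
    congr 2
    rw [← mul_assoc, ← mul_assoc, sq_of_sign hc₀, one_mul]
  refine ⟨Y, hπY, fun t u => ?_, fun r s hrs => ?_⟩
  · have h1 : Y (t + u) = hπ.z (S.x p₀.1 (c₀ * u) * S.x p₀.1 (c₀ * t)) (S.x p₀.2 1) := by
      rw [S.add, ← mul_add, add_comm u t]
    rw [h1, hπ.z_mul_left' (by rw [h0]; exact hZ _ _ h0' _ _)]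
  · have h1 := hall r s hrs
    have h2 : ∀ p q : Φ × Φ, Relation.EqvGen (S.Adj k) p q → (S.QP hπ k Y p ↔ S.QP hπ k Y q) := by
      intro p q hpq
      induction hpq with
      | rel p q h' => exact qp_adj hπ hZ h' Y
      | refl p => exact Iff.rfl
      | symm p q _ ih => exact ih.symm
      | trans p q r _ _ ih1 ih2 => exact ih1.trans ih2
    exact (h2 _ _ h1).1 hQ0

/-- MAIN THEOREM of the chain argument -/
theorem chain_main (hZ : ∀ r s, S.CM r s → S.ZC hπ r s) (hk : ∀ k, S.Conn k) :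
    ∃ Y : Φ → F → E, (∀ r t, π (Y r t) = S.x r t) ∧ (∀ r t u, Y r t * Y r u = Y r (t + u)) ∧
      (∀ r s, S.CM r s → ∀ t u, ⁅Y r t, Y s u⁆ = 1) ∧
      ∀ r s k, S.Sm r s k → ∀ t u v, ⁅S.x r t, S.x s u⁆ = S.x k v → ⁅Y r t, Y s u⁆ = Y k v := by
  choose Y h1 h2 h3 using fun k => exists_Y hπ hZ (hk k)
  refine ⟨Y, h1, h2, fun r s hrs t u => ?_, fun r s k hrs t u v hv => ?_⟩
  · rw [hπ.z_of (h1 r t) (h1 s u)]
    exact hZ _ _ hrs _ _
  · rw [hπ.z_of (h1 r t) (h1 s u)]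
    exact h3 k r s hrs t u v hv

/-- transport of the hypotheses from one root -/
theorem chain_of_base (k₀ : Φ) (htr : ∀ k, ∃ g w ε, S.WAct g w ε ∧ w k₀ = k)
    (hZ : ∀ s, S.CM k₀ s → S.ZC hπ k₀ s) (hk : S.Conn k₀) :
    ∃ Y : Φ → F → E, (∀ r t, π (Y r t) = S.x r t) ∧ (∀ r t u, Y r t * Y r u = Y r (t + u)) ∧
      (∀ r s, S.CM r s → ∀ t u, ⁅Y r t, Y s u⁆ = 1) ∧
      ∀ r s k, S.Sm r s k → ∀ t u v, ⁅S.x r t, S.x s u⁆ = S.x k v → ⁅Y r t, Y s u⁆ = Y k v := by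
  refine chain_main hπ (fun r s hrs => ?_) (fun k => ?_)
  · obtain ⟨g, w, ε, hw, rfl⟩ := htr r
    have h1 := hrs.conj hw.inv
    rw [Equiv.symm_apply_apply] at h1
    have h2 := (hZ _ h1).conj hw
    rwa [Equiv.apply_symm_apply] at h2
  · obtain ⟨g, w, ε, hw, rfl⟩ := htr k
    exact hk.conj hw

end ext

end RootFam

end H40.Ext
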