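import Cfsg.Agent.Lib.H40.Ext2
import Cfsg.Agent.Lib.H40.Cov3
import Cfsg.Agent.Lib.H40.ChevAut1

/-!
Lifting the root elements of simply laced Chevalley groups to central extensions.
-/

set_option autoImplicit false

namespace H40.Ext

open H22.St
open H22.RGD H22.Coord H22.RCCheck H22.RCComb H22.ChevTri H22.ChevRel H22.ChevSys H22.ChevMain
open H22.ChevStd H22.ChevSolv H22.ChevUni H22.RCPack
open H40.ChevAut
open Cfsg.Lie (ChevalleyDatum)
open H23.ChevCore (Core)
open scoped MatrixGroups Matrix commutatorElement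

variable {D : ChevalleyDatum} {F : Type*} [Field F] (R : Rel D F) (X : RCX D)

theorem comb_neg_ne (r : Fin D.nroots) : (comb X).neg r ≠ r := by
  intro h
  have h1 : D.neg r = r := congrArg Fin.val h
  rw [X.rc.neg_eq r r.2] at h1
  have h2 := X.rc.nroots_eq
  have h3 := r.2
  omega

/-- the family of root elements of a Chevalley group -/
def rf : RootFam ↥(D.group F) F (Fin D.nroots) where
  x := xe R
  add := xe_mul R
  inj := fun r t u h => xe_inj R X h
  P := fun r s => s ≠ (comb X).neg r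
  P_symm := fun r s h h' => h (by rw [h', (comb X).neg_neg])
  P_self := fun r h => comb_neg_ne X r h.symm

theorem xe_comm (r s : Fin D.nroots) (h1 : s ≠ r) (h2 : s ≠ (comb X).neg r) (t u : F) :
    ((⁅xe R r t, xe R s u⁆ : ↥(D.group F)) : GL D.Idx F) = (wg R (D.commWord F r s (-t) (-u)))⁻¹ := by
  have h3 := comm_g R r.2 s.2 (fun h => h1 (Fin.ext h)) (fun h => h2 (Fin.ext h)) (-t) (-u)
  have h4 : wg R (D.commWord F r s (-t) (-u)) =
      (xg R r (-t) * xg R s (-u))⁻¹ * (xg R s (-u) * xg R r (-t)) := by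
    rw [h3]; simp [mul_assoc]
  rw [h4, commutatorElement_def]
  simp only [Subgroup.coe_mul, Subgroup.coe_inv, xe_val]
  rw [← xg_inv, ← xg_inv]
  simp [mul_assoc]

theorem xe_comm_nil {r s : Fin D.nroots} (h2 : s ≠ (comb X).neg r)
    (h : s = r ∨ D.commTerms r s = []) (t u : F) : ⁅xe R r t, xe R s u⁆ = 1 := by
  by_cases h1 : s = r
  · subst h1
    rw [commutatorElement_eq_one_iff_mul_comm, xe_mul, xe_mul, add_comm]
  · have h' := h.resolve_left h1
    apply Subtype.ext
    rw [xe_comm R X r s h1 h2]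
    unfold ChevalleyDatum.commWord
    rw [h']; simp [wg]

theorem xe_comm_single {r s k : Fin D.nroots} (h1 : s ≠ r) (h2 : s ≠ (comb X).neg r) {c : ℤ}
    (h : D.commTerms r s = [((k : ℕ), c, 1, 1)]) (t u : F) :
    ⁅xe R r t, xe R s u⁆ = xe R k (c * t * u) := by
  apply Subtype.ext
  rw [xe_comm R X r s h1 h2]
  unfold ChevalleyDatum.commWord
  rw [h]
  simp only [List.map_cons, List.map_nil, wg, List.prod_cons, List.prod_nil, mul_one, pow_one,
    _root_.neg_neg, xe_val]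
  rw [xg_inv]; congr 1; ring

/-- the data is simply laced: chain entries are single with sign coefficient -/
def slB (D : ChevalleyDatum) : Bool :=
  D.chain.toList.all fun row => row.toList.all fun e =>
    match e.2.toList with
    | [(_, c)] => (c == 1 || c == -1)
    | _ => false

theorem chainEntry_cases (h : slB D = true) (r s : ℕ) : D.chainEntry r s = [] ∨
    ∃ k c, D.chainEntry r s = [(k, c)] ∧ (c = 1 ∨ c = -1) := by
  unfold ChevalleyDatum.chainEntry
  cases hf : (D.chain.getD r #[]).toList.find? (fun e => e.1 = s) with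
  | none => exact Or.inl rfl
  | some e =>
    right
    have h1 : e ∈ (D.chain.getD r #[]).toList := List.mem_of_find?_eq_some hf
    have h2 : (D.chain.getD r #[]) ∈ D.chain.toList := by
      by_cases hr : r < D.chain.size
      · rw [Array.getD_eq_getD_getElem?, Array.getElem?_eq_getElem hr]
        exact Array.mem_toList_iff.2 (Array.getElem_mem hr)
      · exfalso
        rw [Array.getD_eq_getD_getElem?, Array.getElem?_eq_none (by omega)] at h1
        simp at h1
    unfold slB at h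
    rw [List.all_eq_true] at h
    have h3 := h _ h2
    rw [List.all_eq_true] at h3
    have h4 := h3 _ h1
    revert h4
    simp only
    generalize e.2.toList = L
    intro h4
    match L, h4 with
    | [(k, c)], h4 =>
      refine ⟨k, c, rfl, ?_⟩
      simpa using h4

theorem commTerms_cases (h : slB D = true) (r s : ℕ) : D.commTerms r s = [] ∨
    ∃ k c, D.commTerms r s = [(k, c, 1, 1)] ∧ (c = 1 ∨ c = -1) := by
  have h2 : ∀ r s i, 1 < i → D.chainRoot r s i = none := by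
    intro r s i hi
    unfold ChevalleyDatum.chainRoot
    rcases chainEntry_cases h r s with h1 | ⟨k, c, h1, _⟩
    · rw [h1]; simp
    · rw [h1]
      have : ([(k, c)] : List (ℕ × ℤ))[i - 1]? = none := by
        rw [List.getElem?_eq_none]; simp; omega
      rw [this]; rfl
  unfold ChevalleyDatum.commTerms
  simp only [h2 r s 2 (by norm_num), h2 s r 2 (by norm_num), h2 r s 3 (by norm_num),
    h2 s r 3 (by norm_num)]
  rcases chainEntry_cases h r s with h1 | ⟨k, c, h1, hc⟩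
  · left
    have : D.chainRoot r s 1 = none := by unfold ChevalleyDatum.chainRoot; rw [h1]; rfl
    rw [this]; simp
  · right
    refine ⟨k, c, ?_, hc⟩
    have e1 : D.chainRoot r s 1 = some k := by unfold ChevalleyDatum.chainRoot; rw [h1]; rfl
    have e2 : D.chainM r s 1 = c := by unfold ChevalleyDatum.chainM; rw [h1]; rfl
    rw [e1, e2]; simp

/-- table test for commuting pairs -/
def cmB (D : ChevalleyDatum) (r s : ℕ) : Bool :=
  Nat.blt r D.nroots && Nat.blt s D.nroots && (D.commTerms r s).isEmpty && !(Nat.beq s (D.neg r))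

/-- table test for `r + s = k` -/
def smB (D : ChevalleyDatum) (r s k : ℕ) : Bool :=
  Nat.blt r D.nroots && Nat.blt s D.nroots && Nat.blt k D.nroots && !(Nat.beq s r) &&
    !(Nat.beq s (D.neg r)) &&
    match D.commTerms r s with
    | [(k', c, 1, 1)] => Nat.beq k' k && (c == 1 || c == -1)
    | _ => false

theorem cm_of_cmB {r s : ℕ} (h : cmB D r s = true) : ∃ (hr : r < D.nroots) (hs : s < D.nroots),
    (rf R X).CM ⟨r, hr⟩ ⟨s, hs⟩ := by
  unfold cmB at h
  simp only [Bool.and_eq_true, Nat.blt_eq, Bool.not_eq_true', List.isEmpty_iff] at h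
  obtain ⟨⟨⟨hr, hs⟩, h1⟩, h2⟩ := h
  have h3 : (⟨s, hs⟩ : Fin D.nroots) ≠ (comb X).neg ⟨r, hr⟩ := by
    intro h'
    have h4 : s = D.neg r := congrArg Fin.val h'
    rw [h4] at h2; simp at h2
  exact ⟨hr, hs, h3, fun t u => xe_comm_nil R X h3 (Or.inr h1) t u⟩

theorem sm_of_smB {r s k : ℕ} (h : smB D r s k = true) :
    ∃ (hr : r < D.nroots) (hs : s < D.nroots) (hk : k < D.nroots),
      (rf R X).Sm ⟨r, hr⟩ ⟨s, hs⟩ ⟨k, hk⟩ := by
  unfold smB at h
  simp only [Bool.and_eq_true, Nat.blt_eq, Bool.not_eq_true'] at h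
  obtain ⟨⟨⟨⟨⟨hr, hs⟩, hk⟩, h1⟩, h2⟩, h3⟩ := h
  have h4 : (⟨s, hs⟩ : Fin D.nroots) ≠ (comb X).neg ⟨r, hr⟩ := by
    intro h'
    have h5 : s = D.neg r := congrArg Fin.val h'
    rw [h5] at h2; simp at h2
  have h5 : (⟨s, hs⟩ : Fin D.nroots) ≠ ⟨r, hr⟩ := by
    intro h'
    have h6 : s = r := congrArg Fin.val h'
    rw [h6] at h1; simp at h1
  refine ⟨hr, hs, hk, h4, ?_⟩
  revert h3
  generalize hL : D.commTerms r s = L
  intro h3
  match L, hL, h3 with
  | [(k', c, 1, 1)], hL, h3 =>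
    simp only [Bool.and_eq_true, Bool.or_eq_true, beq_iff_eq] at h3
    obtain ⟨h6, h7⟩ := h3
    have h8 := Nat.eq_of_beq_eq_true h6
    subst h8
    refine ⟨(c : F), ?_, fun t u => ?_⟩
    · rcases h7 with rfl | rfl
      · left; simp
      · right; simp
    · exact xe_comm_single R X (k := ⟨k', hk⟩) h5 h4 hL t u

/-- group level to table level, commuting pairs -/
theorem cm_table (hsl : slB D = true) {r s : Fin D.nroots} (h : (rf R X).CM r s) :
    s = r ∨ D.commTerms r s = [] := by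
  by_contra hcon
  push Not at hcon
  obtain ⟨h1, h2⟩ := hcon
  rcases commTerms_cases hsl r s with h3 | ⟨k, c, h3, hc⟩
  · exact h2 h3
  · have hk : k < D.nroots := (commTerms_co X.rc r.2 s.2 (c := (k, c, 1, 1)) (by rw [h3]; simp)).1
    have h4 := xe_comm_single R X (k := ⟨k, hk⟩) h1 h.1 h3 (1 : F) 1
    have h5 := h.2 1 1
    have h6 : xe R ⟨k, hk⟩ ((c : F) * 1 * 1) = 1 := h4.symm.trans h5
    refine xe_ne_one R X (r := ⟨k, hk⟩) (t := (c : F) * 1 * 1) ?_ h6
    rcases hc with rfl | rfl <;> simp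

include X in
theorem xe_eq_root (Z : Lex X.rc) {r s : Fin D.nroots} {t u : F} (ht : t ≠ 0)
    (h : xe R r t = xe R s u) : r = s := by
  by_contra hne
  have h1 : xg R r t = xg R s u := congrArg Subtype.val h
  have hu : u ≠ 0 := by
    rintro rfl
    rw [xe_zero] at h
    exact xe_ne_one R X ht h
  have hXr : xg R r t ∈ (chevSys R X).X r := (mem_rootSubgroup R).2 ⟨t, rfl⟩
  have hXs : xg R s u ∈ (chevSys R X).X s := (mem_rootSubgroup R).2 ⟨u, rfl⟩
  -- same sign: a functional argument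
  have key : ∀ (c : ℕ → ℤ), 0 < fr X.rc c r → 0 < fr X.rc c s → fr X.rc c r ≠ fr X.rc c s →
      False := by
    intro c hr hs hrs
    rcases lt_or_gt_of_ne hrs with hlt | hlt
    · obtain ⟨m, hm⟩ := Int.eq_ofNat_of_zero_le hr.le
      apply ht
      apply eq_zero_of_mem_Uk R Z c r.2 hm
      rw [h1]
      exact xg_mem_Uk R X.rc c s.2 (by push_cast; omega) u
    · obtain ⟨m, hm⟩ := Int.eq_ofNat_of_zero_le hs.le
      apply hu
      apply eq_zero_of_mem_Uk R Z c s.2 hm
      rw [← h1]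
      exact xg_mem_Uk R X.rc c r.2 (by push_cast; omega) t
  have hneg : ∀ r : Fin D.nroots, ¬ X.rc.half ≤ r → fr X.rc Z.c r < 0 := by
    intro r hr
    have h2 : X.rc.half ≤ D.neg r := by
      rw [X.rc.neg_eq r r.2]; have := X.rc.nroots_eq; have := r.2; omega
    have h3 := Z.pos (neg_lt X.rc r.2) h2
    rw [fr_neg X.rc _ r.2] at h3
    omega
  have hZne : fr X.rc Z.c r ≠ fr X.rc Z.c s := fun e =>
    hne (Fin.ext ((Gen.ofLex Z).inj r r.2 s s.2 e))
  have hbot : (chevSys R X).U ⊓ (chevSys R X).V = ⊥ := (chevSys R X).U_inf_V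
  by_cases hr : X.rc.half ≤ r <;> by_cases hs : X.rc.half ≤ s
  · exact key Z.c (Z.pos r.2 hr) (Z.pos s.2 hs) hZne
  · have h2 : xg R r t ∈ (chevSys R X).U ⊓ (chevSys R X).V :=
      ⟨(chevSys R X).X_le_U hr hXr, by rw [h1]; exact (chevSys R X).X_le_V hs hXs⟩
    rw [hbot, Subgroup.mem_bot] at h2
    exact xe_ne_one R X ht (Subtype.ext h2)
  · have h2 : xg R r t ∈ (chevSys R X).U ⊓ (chevSys R X).V :=
      ⟨by rw [h1]; exact (chevSys R X).X_le_U hs hXs, (chevSys R X).X_le_V hr hXr⟩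
    rw [hbot, Subgroup.mem_bot] at h2
    exact xe_ne_one R X ht (Subtype.ext h2)
  · refine key (fun k => - Z.c k) ?_ ?_ ?_
    · rw [fr_neg_fun]; have := hneg r hr; omega
    · rw [fr_neg_fun]; have := hneg s hs; omega
    · rw [fr_neg_fun, fr_neg_fun]; intro e; exact hZne (by omega)

include X in
/-- group level to table level, sums -/
theorem sm_table (Z : Lex X.rc) (hsl : slB D = true) {r s k : Fin D.nroots}
    (h : (rf R X).Sm r s k) :
    ∃ c : ℤ, D.commTerms r s = [((k : ℕ), c, 1, 1)] := by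
  obtain ⟨hP, c, hc, h1⟩ := h
  have h2 : xe R k (c * 1 * 1) ≠ 1 := xe_ne_one R X (by rcases hc with rfl | rfl <;> simp)
  have h3 : ⁅xe R r (1 : F), xe R s 1⁆ = xe R k (c * 1 * 1) := h1 1 1
  by_cases hsr : s = r
  · exfalso; apply h2; rw [← h3]; exact xe_comm_nil R X hP (Or.inl hsr) 1 1
  rcases commTerms_cases hsl r s with h4 | ⟨k', c', h4, hc'⟩
  · exfalso; apply h2; rw [← h3]; exact xe_comm_nil R X hP (Or.inr h4) 1 1
  · have hk : k' < D.nroots := (commTerms_co X.rc r.2 s.2 (c := (k', c', 1, 1)) (by rw [h4]; simp)).1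
    have h5 := xe_comm_single R X (k := ⟨k', hk⟩) hsr hP h4 (1 : F) 1
    rw [h3] at h5
    have h6 : k = ⟨k', hk⟩ := xe_eq_root R X Z (by rcases hc with rfl | rfl <;> simp) h5
    refine ⟨c', ?_⟩
    rw [h4, h6]

/-! ### Weyl group elements -/

include X in
theorem nsw_mem (L : List (Fin D.rank)) : nsw R L ∈ D.group F := by
  rw [nsw_eq_nw R X, ← chevSys_Γ R X]
  exact (chevSys R X).N_le_Γ ((chevSys R X).nw_mem_N L)

theorem exists_wact (L : List (Fin D.rank)) : ∃ g ε, (rf R X).WAct g ((comb X).w L) ε := by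
  obtain ⟨ε, h1, h2⟩ := exists_sign_word R X L
  refine ⟨⟨nsw R L, nsw_mem R X L⟩, ε, fun r => (h1 r).1, fun r t => Subtype.ext (h2 r t), ?_⟩
  intro r s
  show ((comb X).w L s ≠ (comb X).neg ((comb X).w L r)) ↔ s ≠ (comb X).neg r
  rw [← RootComb.w_neg]
  exact not_congr ((comb X).w L).injective.eq_iff

/-- action of a word -/
def wordAct (D : ChevalleyDatum) (L : List ℕ) (r : ℕ) : ℕ := L.foldr (fun i r => D.reflectRoot i r) r

theorem exists_word (L : List ℕ) (hL : L.all (fun i => Nat.blt i D.rank) = true)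
    (r : Fin D.nroots) : ∃ L' : List (Fin D.rank), ((comb X).w L' r : ℕ) = wordAct D L r := by
  induction L with
  | nil => exact ⟨[], rfl⟩
  | cons i L ih =>
    rw [List.all_cons, Bool.and_eq_true] at hL
    obtain ⟨L', h⟩ := ih hL.2
    have hi : i < D.rank := by simpa using hL.1
    refine ⟨⟨i, hi⟩ :: L', ?_⟩
    rw [RootComb.w_cons, Equiv.Perm.mul_apply, comb_refl_val, h]
    rfl

/-- all roots are conjugate to `k₀` -/
theorem trans_of_words (k₀ : Fin D.nroots) (W : List (List ℕ))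
    (hW : (List.range D.rank).all (fun i => (W.getD i []).all (fun i => Nat.blt i D.rank) &&
      Nat.beq (wordAct D (W.getD i []) k₀) (D.simple i)) = true) (k : Fin D.nroots) :
    ∃ g w ε, (rf R X).WAct g w ε ∧ w k₀ = k := by
  obtain ⟨L, i, hL⟩ := exists_simple_conj X k
  rw [List.all_eq_true] at hW
  have h1 := hW i (List.mem_range.2 i.2)
  rw [Bool.and_eq_true] at h1
  obtain ⟨L', h2⟩ := exists_word X _ h1.1 k₀
  have h3 : (comb X).w L' k₀ = (comb X).simple i :=
    Fin.ext (h2.trans (Nat.eq_of_beq_eq_true h1.2))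
  obtain ⟨g, ε, hw⟩ := exists_wact R X (L ++ L')
  refine ⟨g, _, ε, hw, ?_⟩
  have h4 : (comb X).w (L ++ L') k₀ = (comb X).w L ((comb X).w L' k₀) := by
    have : ∀ L : List (Fin D.rank), (comb X).w (L ++ L') k₀ = (comb X).w L ((comb X).w L' k₀) := by
      intro L
      induction L with
      | nil => rfl
      | cons j L ih =>
        rw [List.cons_append, RootComb.w_cons, RootComb.w_cons, Equiv.Perm.mul_apply,
          Equiv.Perm.mul_apply, ih]
    exact this L
  rw [h4, h3, hL]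

/-! ### the certificates -/

/-- every root commuting with `k₀` commutes in every central extension, except for those in `exc` -/
def chk1 (D : ChevalleyDatum) (k₀ : ℕ) (exc : List ℕ) (T : List (ℕ × ℕ)) : Bool :=
  (List.range D.nroots).all fun s =>
    Nat.beq s (D.neg k₀) || exc.contains s || !(Nat.beq s k₀ || (D.commTerms k₀ s).isEmpty) ||
      (match T.getD s (0, 0) with
      | (r₁, r₂) => smB D r₁ r₂ k₀ && (Nat.beq s r₁ || cmB D s r₁) && (Nat.beq s r₂ || cmB D s r₂))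

theorem zc_of_chk1 (hsl : slB D = true) {E : Type*} [Group E] {π : E →* ↥(D.group F)} (hπ : CE π)
    {k₀ : Fin D.nroots} {exc : List ℕ} {T : List (ℕ × ℕ)} (h : chk1 D k₀ exc T = true)
    (hexc : ∀ s : Fin D.nroots, (s : ℕ) ∈ exc → (rf R X).ZC hπ k₀ s)
    (s : Fin D.nroots) (hs : (rf R X).CM k₀ s) : (rf R X).ZC hπ k₀ s := by
  by_cases he : (s : ℕ) ∈ exc
  · exact hexc s he
  unfold chk1 at h
  rw [List.all_eq_true] at h
  have h1 := h s (List.mem_range.2 s.2)
  rw [Bool.or_eq_true, Bool.or_eq_true, Bool.or_eq_true] at h1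
  rcases h1 with ((h1 | h1) | h1) | h1
  · exact absurd (Fin.ext (Nat.eq_of_beq_eq_true h1)) hs.1
  · exact absurd (by simpa using h1) he
  · exfalso
    rw [Bool.not_eq_true', Bool.or_eq_false_iff] at h1
    rcases cm_table R X hsl hs with h2 | h2
    · rw [h2] at h1; simp at h1
    · rw [h2] at h1; simp at h1
  · revert h1
    generalize T.getD s (0, 0) = p
    obtain ⟨r₁, r₂⟩ := p
    intro h1
    simp only [Bool.and_eq_true, Bool.or_eq_true] at h1
    obtain ⟨⟨h2, h3⟩, h4⟩ := h1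
    obtain ⟨hr₁, hr₂, hk, h5⟩ := sm_of_smB R X h2
    have aux : ∀ (r : ℕ) (hr : r < D.nroots), (Nat.beq s r = true ∨ cmB D s r = true) →
        (rf R X).CM s ⟨r, hr⟩ := by
      intro r hr h
      rcases h with h | h
      · have : s = ⟨r, hr⟩ := Fin.ext (Nat.eq_of_beq_eq_true h)
        rw [← this]; exact RootFam.CM.self s
      · obtain ⟨_, _, h6⟩ := cm_of_cmB R X h
        exact h6
    exact (RootFam.zc_of_sum hπ h5 (aux r₁ hr₁ h3) (aux r₂ hr₂ h4)).symm

/-- adjacency check -/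
def adjB (D : ChevalleyDatum) (k : ℕ) (p p' : ℕ × ℕ) (m : ℕ) : Bool :=
  smB D p'.1 m p.1 && smB D m p.2 p'.2 && cmB D p'.1 p.2 && cmB D p.1 p'.2 && cmB D k p'.2 &&
    smB D p.1 p.2 k && smB D p'.1 p'.2 k

theorem adj_of_adjB {k : Fin D.nroots} {p p' : ℕ × ℕ} {m : ℕ} (h : adjB D k p p' m = true) :
    ∃ (h1 : p.1 < D.nroots) (h2 : p.2 < D.nroots) (h3 : p'.1 < D.nroots) (h4 : p'.2 < D.nroots),
      (rf R X).Adj k (⟨p.1, h1⟩, ⟨p.2, h2⟩) (⟨p'.1, h3⟩, ⟨p'.2, h4⟩) := by
  unfold adjB at h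
  simp only [Bool.and_eq_true] at h
  obtain ⟨⟨⟨⟨⟨⟨a1, a2⟩, a3⟩, a4⟩, a5⟩, a6⟩, a7⟩ := h
  obtain ⟨b1, b2, b3, c1⟩ := sm_of_smB R X a1
  obtain ⟨_, _, _, c2⟩ := sm_of_smB R X a2
  obtain ⟨_, _, c3⟩ := cm_of_cmB R X a3
  obtain ⟨_, _, c4⟩ := cm_of_cmB R X a4
  obtain ⟨_, _, c5⟩ := cm_of_cmB R X a5
  obtain ⟨d1, d2, _, c6⟩ := sm_of_smB R X a6
  obtain ⟨d3, d4, _, c7⟩ := sm_of_smB R X a7
  exact ⟨d1, d2, d3, d4, ⟨m, b2⟩, c1, c2, c3, c4, c5, c6, c7⟩

/-- the list of decompositions forms a tree -/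
def treeB (D : ChevalleyDatum) (k : ℕ) (L : List ((ℕ × ℕ) × ℕ × ℕ)) : Bool :=
  (List.range (L.length - 1)).all fun i =>
    match L.getD (i + 1) ((0, 0), 0, 0) with
    | (p, j, m) => Nat.ble j i && adjB D k (L.getD j ((0, 0), 0, 0)).1 p m

/-- the table of values of a functional detects all decompositions -/
def complB (V : List ℕ) (target : ℕ) (L : List (ℕ × ℕ)) : Bool :=
  allIdx (fun r a => allIdx (fun s b => !(Nat.beq (a + b) target) || L.contains (r, s)) 0 V) 0 V

def valB (D : ChevalleyDatum) (Q : RC D) (c : ℕ → ℤ) (sh : ℕ) (V : List ℕ) : Bool :=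
  Nat.beq V.length D.nroots && (List.range D.nroots).all fun r =>
    decide (((V.getD r 0 : ℕ) : ℤ) = (List.range D.rank).foldr (fun k a => c k * Q.co r k + a) 0 + sh)

theorem foldr_eq (Q : RC D) (c : ℕ → ℤ) (r n : ℕ) :
    (List.range n).foldr (fun k a => c k * Q.co r k + a) 0 = ∑ k ∈ Finset.range n, c k * Q.co r k := by
  have : ∀ (l : List ℕ) (a : ℤ), l.foldr (fun k a => c k * Q.co r k + a) a =
      (l.map fun k => c k * Q.co r k).sum + a := by
    intro l
    induction l with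
    | nil => intro a; simp
    | cons x l ih => intro a; rw [List.foldr_cons, ih, List.map_cons, List.sum_cons]; ring
  rw [this, add_zero, Finset.sum_range, ← List.sum_ofFn]
  congr 1
  apply List.ext_getElem
  · simp
  · intro i h1 h2; simp

structure DCert (D : ChevalleyDatum) where
  k₀ : ℕ
  L : List ((ℕ × ℕ) × ℕ × ℕ)
  c : ℕ → ℤ
  sh : ℕ
  V : List ℕ

def DCert.ok (Q : RC D) (C : DCert D) : Bool :=
  treeB D C.k₀ C.L && Nat.blt 1 C.L.length && valB D Q C.c C.sh C.V &&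
    complB C.V (C.V.getD C.k₀ 0 + C.sh) (C.L.map Prod.fst) &&
    cmB D (C.L.getD 0 ((0, 0), 0, 0)).1.1 C.k₀

theorem conn_of_cert (Z : Lex X.rc) (hsl : slB D = true) (C : DCert D) (hC : C.ok X.rc = true)
    (hk : C.k₀ < D.nroots) : (rf R X).Conn ⟨C.k₀, hk⟩ := by
  unfold DCert.ok at hC
  simp only [Bool.and_eq_true, Nat.blt_eq] at hC
  obtain ⟨⟨⟨⟨htree, hlen⟩, hval⟩, hcompl⟩, hbase⟩ := hC
  unfold treeB at htree
  rw [List.all_eq_true] at htree
  have hstep : ∀ i, i + 1 < C.L.length → ∃ j, j ≤ i ∧ ∃ m, adjB D C.k₀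
      (C.L.getD j ((0, 0), 0, 0)).1 (C.L.getD (i + 1) ((0, 0), 0, 0)).1 m = true := by
    intro i hi
    have h1 := htree i (List.mem_range.2 (by omega))
    revert h1
    generalize C.L.getD (i + 1) ((0, 0), 0, 0) = q
    obtain ⟨p, j, m⟩ := q
    intro h1
    simp only [Bool.and_eq_true] at h1
    exact ⟨j, Nat.le_of_ble_eq_true h1.1, m, h1.2⟩
  -- the nodes
  have hlt : ∀ i, i < C.L.length → (C.L.getD i ((0, 0), 0, 0)).1.1 < D.nroots ∧
      (C.L.getD i ((0, 0), 0, 0)).1.2 < D.nroots := by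
    intro i hi
    cases i with
    | zero =>
      obtain ⟨j, hj, m, h1⟩ := hstep 0 (by omega)
      have hj0 : j = 0 := by omega
      subst hj0
      obtain ⟨a, b, _, _, _⟩ := adj_of_adjB R X (k := ⟨C.k₀, hk⟩) h1
      exact ⟨a, b⟩
    | succ i =>
      obtain ⟨j, hj, m, h1⟩ := hstep i hi
      obtain ⟨_, _, a, b, _⟩ := adj_of_adjB R X (k := ⟨C.k₀, hk⟩) h1
      exact ⟨a, b⟩
  set nd : ℕ → Fin D.nroots × Fin D.nroots := fun i =>
    if h : i < C.L.length then (⟨_, (hlt i h).1⟩, ⟨_, (hlt i h).2⟩) else (⟨C.k₀, hk⟩, ⟨C.k₀, hk⟩) with hnd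
  have hnd' : ∀ i (h : i < C.L.length), nd i = (⟨_, (hlt i h).1⟩, ⟨_, (hlt i h).2⟩) := by
    intro i h; rw [hnd]; simp only; rw [dif_pos h]
  have hadj : ∀ i, i + 1 < C.L.length → ∃ j, j ≤ i ∧ (rf R X).Adj ⟨C.k₀, hk⟩ (nd j) (nd (i + 1)) := by
    intro i hi
    obtain ⟨j, hj, m, h1⟩ := hstep i hi
    obtain ⟨_, _, _, _, h2⟩ := adj_of_adjB R X (k := ⟨C.k₀, hk⟩) h1
    refine ⟨j, hj, ?_⟩
    rw [hnd' j (by omega), hnd' (i + 1) hi]
    exact h2
  have hreach : ∀ i, i < C.L.length →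
      Relation.EqvGen ((rf R X).Adj ⟨C.k₀, hk⟩) (nd 0) (nd i) := by
    intro i
    induction i using Nat.strong_induction_on with
    | _ i ih =>
      intro hi
      cases i with
      | zero => exact Relation.EqvGen.refl _
      | succ i =>
        obtain ⟨j, hj, h1⟩ := hadj i hi
        exact Relation.EqvGen.trans _ _ _ (ih j (by omega) (by omega)) (Relation.EqvGen.rel _ _ h1)
  obtain ⟨j, hj, h01⟩ := hadj 0 (by omega)
  have hj0 : j = 0 := by omega
  subst hj0
  refine ⟨nd 0, ?_, ?_, ⟨_, h01⟩, fun r s hrs => ?_⟩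
  · obtain ⟨_, _, _, _, _, _, h, _⟩ := h01
    exact h
  · obtain ⟨_, _, h⟩ := cm_of_cmB R X hbase
    rw [hnd' 0 (by omega)]
    exact h
  · obtain ⟨c, hc⟩ := sm_table R X Z hsl hrs
    have h1 := commTerms_co X.rc r.2 s.2 (c := (C.k₀, c, 1, 1)) (by rw [hc]; simp)
    have h2 := fr_lin X.rc C.c h1.2.2.2
    simp only [Nat.cast_one, one_mul] at h2
    unfold valB at hval
    rw [Bool.and_eq_true, List.all_eq_true] at hval
    have hVlen := Nat.eq_of_beq_eq_true hval.1
    have hv : ∀ r < D.nroots, ((C.V.getD r 0 : ℕ) : ℤ) = fr X.rc C.c r + C.sh := by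
      intro r hr
      have h3 := of_decide_eq_true (hval.2 r (List.mem_range.2 hr))
      rw [h3, foldr_eq]; rfl
    have h3 : C.V.getD r 0 + C.V.getD s 0 = C.V.getD C.k₀ 0 + C.sh := by
      have e1 := hv r r.2
      have e2 := hv s s.2
      have e3 := hv C.k₀ hk
      omega
    unfold complB at hcompl
    have h4 := allIdx_spec hcompl r (by rw [hVlen]; exact r.2)
    have h5 := allIdx_spec h4 s (by rw [hVlen]; exact s.2)
    rw [Bool.or_eq_true, Bool.not_eq_true'] at h5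
    have h6 : Nat.beq (C.V[(r : ℕ)]'(by rw [hVlen]; exact r.2) +
        C.V[(s : ℕ)]'(by rw [hVlen]; exact s.2)) (C.V.getD C.k₀ 0 + C.sh) = true := by
      rw [← h3, List.getD_eq_getElem _ _ (by rw [hVlen]; exact r.2),
        List.getD_eq_getElem _ _ (by rw [hVlen]; exact s.2)]
      exact Nat.beq_refl _
    have h7 : (C.L.map Prod.fst).contains ((0 + r : ℕ), (0 + s : ℕ)) = true := by
      rcases h5 with h5 | h5
      · rw [h6] at h5; exact absurd h5 (by simp)
      · exact h5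
    rw [zero_add, zero_add, List.contains_iff_mem, List.mem_map] at h7
    obtain ⟨q, hq, hq'⟩ := h7
    obtain ⟨i, hi, rfl⟩ := List.mem_iff_getElem.1 hq
    have h8 := hreach i hi
    have h9 : nd i = (r, s) := by
      rw [hnd' i hi]
      have e : (C.L.getD i ((0, 0), 0, 0)) = C.L[i] := List.getD_eq_getElem _ _ hi
      apply Prod.ext
      · apply Fin.ext; show (C.L.getD i ((0, 0), 0, 0)).1.1 = r; rw [e, hq']
      · apply Fin.ext; show (C.L.getD i ((0, 0), 0, 0)).1.2 = s; rw [e, hq']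
    rw [h9] at h8
    exact h8

/-! ### from lifts to covers -/

theorem closure_eq_top_of_perfect {G E : Type*} [Group G] [Group E] {π : E →* G} (hπ : CE π)
    (hperf : commutator E = ⊤) {S : Set E} (hS : Subgroup.closure (π '' S) = ⊤) :
    Subgroup.closure S = ⊤ := by
  set A := Subgroup.closure S with hA
  have h1 : ∀ e : E, ∃ a ∈ A, ∃ z ∈ Subgroup.center E, e = a * z := by
    intro e
    have h2 : π e ∈ A.map π := by rw [hA, MonoidHom.map_closure, hS]; exact Subgroup.mem_top _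
    obtain ⟨a, ha, h3⟩ := h2
    obtain ⟨z, hz, h4⟩ := hπ.exists_central (a := e) (a' := a) h3.symm
    exact ⟨a, ha, z, hz, h4⟩
  rw [eq_top_iff, ← hperf, commutator_def, Subgroup.commutator_le]
  intro x _ y _
  obtain ⟨a, ha, z, hz, rfl⟩ := h1 x
  obtain ⟨b, hb, w, hw, rfl⟩ := h1 y
  rw [CE.comm_mul_central hz hw, commutatorElement_def]
  exact A.mul_mem (A.mul_mem (A.mul_mem ha hb) (A.inv_mem ha)) (A.inv_mem hb)

open H40.StCov in
/-- lifts satisfying the relations give a cover -/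
noncomputable def covOfLift {E : Type*} [Group E] {π : E →* ↥(D.group F)} (hπ : CE π)
    (hperf : commutator E = ⊤) (Y : ℕ → F → E)
    (hY : ∀ (r : Fin D.nroots) (t : F), π (Y r t) = xe R r t)
    (add : ∀ r < D.nroots, ∀ t u : F, Y r t * Y r u = Y r (t + u))
    (comm : ∀ r < D.nroots, ∀ s < D.nroots, s ≠ r → s ≠ D.neg r → ∀ t u : F,
      (Y s u)⁻¹ * (Y r t)⁻¹ * Y s u * Y r t = ((D.commWord F r s t u).map fun p => Y p.1 p.2).prod) :
    Cov R E where
  xb := Y
  add := add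
  comm := comm
  gen := by
    apply closure_eq_top_of_perfect hπ hperf
    rw [eq_top_iff]
    have h1 : Subgroup.closure {g : ↥(D.group F) | ∃ (r : Fin D.nroots) (t : F), g = xe R r t} = ⊤ := by
      apply Subgroup.map_injective (D.group F).subtype_injective
      rw [MonoidHom.map_closure, ← MonoidHom.range_eq_map, Subgroup.range_subtype]
      conv_rhs => rw [group_eq_closure]
      congr 1
      ext g
      constructor
      · rintro ⟨_, ⟨r, t, rfl⟩, rfl⟩
        exact ⟨r, t, r.2, by simp [xg_val]⟩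
      · rintro ⟨r, t, hr, h⟩
        exact ⟨xe R ⟨r, hr⟩ t, ⟨⟨r, hr⟩, t, rfl⟩, by rw [xg_eq R h]; rfl⟩
    rw [← h1]
    apply Subgroup.closure_mono
    rintro _ ⟨r, t, rfl⟩
    exact ⟨Y r t, ⟨r, t, r.2, rfl⟩, hY r t⟩
  θ := (D.group F).subtype.comp π
  θ_x := by
    intro r hr t
    have h := hY ⟨r, hr⟩ t
    simp only at h
    rw [MonoidHom.comp_apply, h]; rfl

open H40.StCov in
/-- MAIN THEOREM for simply laced data -/
theorem exists_cov_sl (Z : Lex X.rc) (hsl : slB D = true) {E : Type*} [Group E]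
    {π : E →* ↥(D.group F)} (hπ : CE π) (hperf : commutator E = ⊤) (C : DCert D)
    (hC : C.ok X.rc = true) (hk : C.k₀ < D.nroots) (W : List (List ℕ))
    (hW : (List.range D.rank).all (fun i => (W.getD i []).all (fun i => Nat.blt i D.rank) &&
      Nat.beq (wordAct D (W.getD i []) C.k₀) (D.simple i)) = true)
    {exc : List ℕ} {T : List (ℕ × ℕ)} (h1 : chk1 D C.k₀ exc T = true)
    (hexc : ∀ s : Fin D.nroots, (s : ℕ) ∈ exc → (rf R X).ZC hπ ⟨C.k₀, hk⟩ s) :
    ∃ S : Cov R E, S.θ = (D.group F).subtype.comp π := by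
  obtain ⟨Y, y1, y2, y3, y4⟩ := RootFam.chain_of_base hπ (⟨C.k₀, hk⟩ : Fin D.nroots)
    (trans_of_words R X ⟨C.k₀, hk⟩ W hW)
    (zc_of_chk1 R X hsl hπ (k₀ := ⟨C.k₀, hk⟩) h1 hexc) (conn_of_cert R X Z hsl C hC hk)
  set Y' : ℕ → F → E := fun r t => if h : r < D.nroots then Y ⟨r, h⟩ t else 1 with hY'
  have hY'' : ∀ r (hr : r < D.nroots) t, Y' r t = Y ⟨r, hr⟩ t := by
    intro r hr t; rw [hY']; simp only; rw [dif_pos hr]
  refine ⟨covOfLift R hπ hperf Y' (fun r t => ?_) (fun r hr t u => ?_)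
    (fun r hr s hs hsr hsn t u => ?_), rfl⟩
  · rw [hY'' r r.2]; exact y1 r t
  · rw [hY'' r hr, hY'' r hr, hY'' r hr]; exact y2 _ _ _
  · have e1 : (Y' s u)⁻¹ * (Y' r t)⁻¹ * Y' s u * Y' r t = ⁅Y ⟨s, hs⟩ (-u), Y ⟨r, hr⟩ (-t)⁆ := by
      have a1 : ∀ r t, (Y r t)⁻¹ = Y r (-t) := by
        intro r t
        have h0 : Y r 0 = 1 := by
          have := y2 r 0 0
          rw [add_zero] at this
          exact mul_eq_left.1 this
        rw [inv_eq_iff_mul_eq_one, y2, add_neg_cancel, h0]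
      rw [hY'' s hs, hY'' r hr, commutatorElement_def, a1, a1, a1, a1,
        _root_.neg_neg, _root_.neg_neg]
    rw [e1]
    have hP : (⟨r, hr⟩ : Fin D.nroots) ≠ (comb X).neg ⟨s, hs⟩ := by
      intro h
      apply hsn
      have h3 : r = D.neg s := congrArg Fin.val h
      rw [h3, H22.RCComb.neg_neg X.rc hs]
    have hP' : (⟨s, hs⟩ : Fin D.nroots) ≠ (comb X).neg ⟨r, hr⟩ := fun h => hsn (congrArg Fin.val h)
    have hne : (⟨s, hs⟩ : Fin D.nroots) ≠ ⟨r, hr⟩ := fun h => hsr (congrArg Fin.val h)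
    rcases commTerms_cases hsl r s with h3 | ⟨k, c, h3, hc⟩
    · have hcm : (rf R X).CM ⟨s, hs⟩ ⟨r, hr⟩ := by
        refine ⟨hP, fun t u => ?_⟩
        have := xe_comm_nil R X hP' (Or.inr h3) u t
        show ⁅xe R ⟨s, hs⟩ t, xe R ⟨r, hr⟩ u⁆ = 1
        rw [← commutatorElement_inv, this, inv_one]
      rw [y3 _ _ hcm]
      unfold ChevalleyDatum.commWord
      rw [h3]; simp
    · have hk' : k < D.nroots := (commTerms_co X.rc hr hs (c := (k, c, 1, 1)) (by rw [h3]; simp)).1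
      have hbr : ∀ t u, ⁅xe R ⟨s, hs⟩ t, xe R ⟨r, hr⟩ u⁆ = xe R ⟨k, hk'⟩ (((-c : ℤ) : F) * t * u) := by
        intro t u
        have := xe_comm_single R X (k := ⟨k, hk'⟩) hne hP' h3 u t
        rw [← commutatorElement_inv, this, xe_inv]
        congr 1; push_cast; ring
      have hsm : (rf R X).Sm ⟨s, hs⟩ ⟨r, hr⟩ ⟨k, hk'⟩ := by
        refine ⟨hP, ((-c : ℤ) : F), ?_, hbr⟩
        rcases hc with rfl | rfl
        · right; simp
        · left; simp
      rw [y4 _ _ _ hsm (-u) (-t) _ (hbr (-u) (-t))]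
      unfold ChevalleyDatum.commWord
      rw [h3]
      simp only [List.map_cons, List.map_nil, List.prod_cons, List.prod_nil, mul_one, pow_one]
      rw [hY'' k hk']
      congr 1; push_cast; ring

end H40.Ext
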