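import Cfsg.Agent.Lib.H40.Ext3
import Cfsg.Agent.Lib.H40.ChevFacts

/-!
Lifting root elements to central extensions: the torus argument.
-/

set_option autoImplicit false
set_option linter.unusedVariables false

namespace H40.Ext

open H22.St
open H22.RGD H22.Coord H22.RCCheck H22.RCComb H22.ChevTri H22.ChevRel H22.ChevSys H22.ChevMain
open H22.ChevStd H22.ChevSolv H22.ChevUni H22.RCPack
open H40.ChevAut
open Cfsg.Lie (ChevalleyDatum)
open H23.ChevCore (Core)
open scoped MatrixGroups Matrix commutatorElement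

variable {D : ChevalleyDatum} {F : Type*} [Field F]

/-! ### generic functionals positive on a pair -/

theorem exists_gen (X : RCX D) (Z : Lex X.rc) {r s : Fin D.nroots} (h1 : s ≠ r)
    (h2 : s ≠ (comb X).neg r) : ∃ c : Gen X.rc, 0 < fr X.rc c.c r ∧ 0 < fr X.rc c.c s := by
  have hneg : ∀ r : Fin D.nroots, ¬ X.rc.half ≤ r → fr X.rc Z.c r < 0 := by
    intro r hr
    have h2 : X.rc.half ≤ D.neg r := by
      rw [X.rc.neg_eq r r.2]; have := X.rc.nroots_eq; have := r.2; omega
    have h3 := Z.pos (neg_lt X.rc r.2) h2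
    rw [fr_neg X.rc _ r.2] at h3
    omega
  -- base case
  have base : ∀ (i : Fin D.rank) (s : Fin D.nroots), s ≠ (comb X).simple i →
      s ≠ (comb X).neg ((comb X).simple i) →
      ∃ c : Gen X.rc, 0 < fr X.rc c.c ((comb X).simple i : Fin D.nroots) ∧ 0 < fr X.rc c.c s := by
    intro i s h1 h2
    have hsi : X.rc.half ≤ ((comb X).simple i : Fin D.nroots) := (comb X).simple_pos i
    by_cases hs : X.rc.half ≤ s
    · exact ⟨Gen.ofLex Z, Z.pos (Fin.is_lt _) hsi, Z.pos s.2 hs⟩
    · refine ⟨((Gen.ofLex Z).refl i i.2).neg, ?_, ?_⟩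
      · show 0 < fr X.rc (fun k => - (Z.c k - X.rc.A i k * Z.c i)) _
        rw [fr_neg_fun, fr_refl X.rc Z.c i.2 (Fin.is_lt _)]
        have e : D.reflectRoot i ((comb X).simple i : Fin D.nroots) =
            D.neg ((comb X).simple i : Fin D.nroots) := congrArg Fin.val ((comb X).refl_simple i)
        rw [e, fr_neg X.rc _ (Fin.is_lt _), _root_.neg_neg]
        exact Z.pos (Fin.is_lt _) hsi
      · show 0 < fr X.rc (fun k => - (Z.c k - X.rc.A i k * Z.c i)) _
        rw [fr_neg_fun, fr_refl X.rc Z.c i.2 s.2]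
        have h3 : ¬ X.rc.half ≤ ((comb X).refl i s : Fin D.nroots) := by
          intro h4
          have h5 : (comb X).refl i s ≠ (comb X).simple i := by
            intro h6
            rw [(comb X).refl_eq_simple_iff] at h6
            exact h2 h6
          have h6 := (comb X).refl_pos i _ h4 h5
          rw [(comb X).refl_refl] at h6
          exact hs h6
        have h4 := hneg _ h3
        rw [comb_refl_val] at h4
        omega
  obtain ⟨L, i, hL⟩ := exists_simple_conj X r
  -- transport along the word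
  have key : ∀ (L : List (Fin D.rank)) (r s : Fin D.nroots),
      (∃ c : Gen X.rc, 0 < fr X.rc c.c r ∧ 0 < fr X.rc c.c s) →
      ∃ c : Gen X.rc, 0 < fr X.rc c.c ((comb X).w L r : Fin D.nroots) ∧
        0 < fr X.rc c.c ((comb X).w L s : Fin D.nroots) := by
    intro L
    induction L with
    | nil => intro r s h; exact h
    | cons j L ih =>
      intro r s h
      obtain ⟨c, c1, c2⟩ := ih r s h
      refine ⟨c.refl j j.2, ?_, ?_⟩
      · show 0 < fr X.rc (fun k => c.c k - X.rc.A j k * c.c j) _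
        rw [RootComb.w_cons, Equiv.Perm.mul_apply, fr_refl X.rc c.c j.2 (Fin.is_lt _),
          comb_refl_val, H22.RCComb.refl_refl X.rc j.2 (Fin.is_lt _)]
        exact c1
      · show 0 < fr X.rc (fun k => c.c k - X.rc.A j k * c.c j) _
        rw [RootComb.w_cons, Equiv.Perm.mul_apply, fr_refl X.rc c.c j.2 (Fin.is_lt _),
          comb_refl_val, H22.RCComb.refl_refl X.rc j.2 (Fin.is_lt _)]
        exact c2
  have h3 := key L ((comb X).simple i) (((comb X).w L).symm s) (base i _ ?_ ?_)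
  · rw [hL, Equiv.apply_symm_apply] at h3
    exact h3
  · intro h4
    apply h1
    rw [Equiv.symm_apply_eq, hL] at h4
    exact h4
  · intro h4
    apply h2
    rw [Equiv.symm_apply_eq, RootComb.w_neg, hL] at h4
    exact h4

/-! ### torus elements -/

/-- torus elements with their characters -/
structure TorEl (R : Rel D F) (h : ↥(D.group F)) (χ : ℕ → F) : Prop where
  diag : (h : GL D.Idx F) ∈ D.diagonalSubgroup F
  ne : ∀ s < D.nroots, χ s ≠ 0
  act : ∀ (s : Fin D.nroots) (t : F), h * xe R s t * h⁻¹ = xe R s (χ s * t)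

section tor

variable (R : Rel D F) (X : RCX D)

include R X in
theorem diag_comm {g h : ↥(D.group F)} (hg : (g : GL D.Idx F) ∈ D.diagonalSubgroup F)
    (hh : (h : GL D.Idx F) ∈ D.diagonalSubgroup F) : g * h = h * g := by
  rw [H22.ChevTorus.diagonalSubgroup_eq_range R X] at hg hh
  obtain ⟨a, ha⟩ := hg
  obtain ⟨b, hb⟩ := hh
  apply Subtype.ext
  rw [Subgroup.coe_mul, Subgroup.coe_mul, ← ha, ← hb, ← map_mul, ← map_mul, mul_comm]

/-- the torus element of a coroot -/
def hE (X : RCX D) (γ : Fin D.nroots) (c : F) : ↥(D.group F) :=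
  ⟨hg R γ c, by
    rw [hg_def, ng_def, ng_def]
    have h1 := fun t => xg_mem_group R γ.2 t
    have h2 := fun t => xg_mem_group R (neg_lt X.rc γ.2) t
    exact Subgroup.mul_mem _ (Subgroup.mul_mem _ (Subgroup.mul_mem _ (h1 _) (h2 _)) (h1 _))
      (Subgroup.mul_mem _ (Subgroup.mul_mem _ (h1 _) (h2 _)) (h1 _))⟩

theorem torEl_hE (C : Core D) (γ : Fin D.nroots) {c : F} (hc : c ≠ 0) :
    TorEl R (hE R X γ c) (fun s => c ^ (H23.ChevCore.pr D γ s)) := by
  refine ⟨?_, fun s _ => zpow_ne_zero _ hc, fun s t => ?_⟩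
  · rw [diagonalSubgroup_eq R X]
    exact hg_mem_Hs R X γ hc
  · apply Subtype.ext
    show hg R γ c * xg R s t * (hg R γ c)⁻¹ = xg R s _
    rw [mul_inv_eq_iff_eq_mul]
    apply Units.ext
    rw [Units.val_mul, Units.val_mul, xg_val, xg_val, hg_val]
    exact H23.ChevH2.h_x C γ.2 s.2 hc t

variable {R}

theorem TorEl.mul {g h : ↥(D.group F)} {χ ψ : ℕ → F} (hg : TorEl R g χ) (hh : TorEl R h ψ) :
    TorEl R (g * h) (fun s => χ s * ψ s) := by
  refine ⟨?_, fun s hs => mul_ne_zero (hg.ne s hs) (hh.ne s hs), fun s t => ?_⟩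
  · exact Subgroup.mul_mem _ hg.diag hh.diag
  · calc g * h * xe R s t * (g * h)⁻¹ = g * (h * xe R s t * h⁻¹) * g⁻¹ := by simp [mul_assoc]
      _ = _ := by rw [hh.act, hg.act, mul_assoc]

variable (R) in
theorem TorEl.one : TorEl R 1 (fun _ => (1 : F)) :=
  ⟨Subgroup.one_mem _, fun _ _ => one_ne_zero, fun s t => by simp⟩

end tor

/-! ### prelifts -/

/-- additive, torus equivariant lifts of the root elements -/
structure Pre (R : Rel D F) {E : Type*} [Group E] (π : E →* ↥(D.group F)) where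
  y : ℕ → F → E
  add : ∀ r < D.nroots, ∀ t u, y r t * y r u = y r (t + u)
  π_y : ∀ (r : Fin D.nroots) (t : F), π (y r t) = xe R r t
  tor : ∀ (e : E) (χ : ℕ → F), TorEl R (π e) χ → ∀ r < D.nroots, ∀ t, e * y r t * e⁻¹ = y r (χ r * t)

namespace Pre

variable {R : Rel D F} {E : Type*} [Group E] {π : E →* ↥(D.group F)} (S : Pre R π)

/-- the map to the linear group -/
def θ (S : Pre R π) : E →* GL D.Idx F := (D.group F).subtype.comp π

theorem θ_y {r : ℕ} (hr : r < D.nroots) (t : F) : S.θ (S.y r t) = xg R r t := by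
  have h := S.π_y ⟨r, hr⟩ t
  simp only at h
  unfold θ
  rw [MonoidHom.comp_apply, h]; rfl

theorem ker_θ {g : E} (h : S.θ g = 1) : g ∈ π.ker := by
  rw [MonoidHom.mem_ker]; exact Subtype.ext h

theorem y_zero {r : ℕ} (hr : r < D.nroots) : S.y r 0 = 1 := by
  have := S.add r hr 0 0
  rw [add_zero] at this
  exact mul_eq_left.1 this

theorem y_inv {r : ℕ} (hr : r < D.nroots) (t : F) : (S.y r t)⁻¹ = S.y r (-t) := by
  rw [inv_eq_iff_mul_eq_one, S.add r hr, add_neg_cancel, S.y_zero hr]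

/-- words -/
def wy (w : List (ℕ × F)) : E := (w.map fun p => S.y p.1 p.2).prod

/-- the lift of the conjugate of `x_s(u)` by `x_r(t)` -/
def rw' (r s : ℕ) (t u : F) : E := S.y s u * S.wy (D.commWord F r s (-t) u)

/-- the commutator relation for a pair of roots -/
def RelH (r s : ℕ) : Prop := ∀ t u, S.y r t * S.y s u * (S.y r t)⁻¹ = S.rw' r s t u

theorem θ_wy (w : List (ℕ × F)) (h : ∀ p ∈ w, p.1 < D.nroots) : S.θ (S.wy w) = wg R w := by
  unfold wy wg
  rw [map_list_prod, List.map_map]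
  congr 1
  apply List.map_congr_left
  intro p hp
  exact S.θ_y (h p hp) _

theorem θ_rw (Q : RC D) {r s : ℕ} (hr : r < D.nroots) (hs : s < D.nroots) (h1 : s ≠ r)
    (h2 : s ≠ D.neg r) (t u : F) :
    S.θ (S.rw' r s t u) = xg R r t * xg R s u * (xg R r t)⁻¹ := by
  unfold rw'
  rw [map_mul, S.θ_y hs, S.θ_wy _ (commWord_lt Q hr hs _ _)]
  have h3 := comm_g R hr hs h1 h2 (-t) u
  have h4 : xg R r (-t) = (xg R r t)⁻¹ := (xg_inv R r t).symm
  rw [h4] at h3
  rw [mul_assoc, h3]; simp [mul_assoc]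

/-- groups generated by root elements -/
def gp (P : ℕ → Prop) : Subgroup E :=
  Subgroup.closure {g | ∃ (r : ℕ) (t : F), r < D.nroots ∧ P r ∧ g = S.y r t}

theorem mem_gp {P : ℕ → Prop} {r : ℕ} (hr : r < D.nroots) (h : P r) (t : F) : S.y r t ∈ S.gp P :=
  Subgroup.subset_closure ⟨r, t, hr, h, rfl⟩

theorem wy_mem {K : Subgroup E} (w : List (ℕ × F)) (h : ∀ p ∈ w, S.y p.1 p.2 ∈ K) : S.wy w ∈ K := by
  unfold wy
  apply Subgroup.list_prod_mem
  intro x hx
  simp only [List.mem_map] at hx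
  obtain ⟨p, hp, rfl⟩ := hx
  exact h p hp

theorem θ_gp_le (Q : RC D) (c : ℕ → ℤ) (m : ℕ) :
    (S.gp (fun r => (m : ℤ) ≤ fr Q c r)).map S.θ ≤ Uk F (fn Q c) m := by
  unfold gp
  rw [MonoidHom.map_closure, Subgroup.closure_le]
  rintro _ ⟨_, ⟨r, t, hr, h, rfl⟩, rfl⟩
  rw [SetLike.mem_coe, S.θ_y hr]
  exact xg_mem_Uk R Q c hr h t

/-- the root group -/
def Xy (r : ℕ) : Subgroup E := Subgroup.closure {g | ∃ t : F, g = S.y r t}

theorem y_mem (r : ℕ) (t : F) : S.y r t ∈ S.Xy r := Subgroup.subset_closure ⟨t, rfl⟩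

theorem mem_Xy {r : ℕ} (hr : r < D.nroots) {g : E} : g ∈ S.Xy r ↔ ∃ t, g = S.y r t := by
  constructor
  · intro h
    unfold Xy at h
    induction h using Subgroup.closure_induction with
    | mem x hx => exact hx
    | one => exact ⟨0, (S.y_zero hr).symm⟩
    | mul x y _ _ hx hy =>
      obtain ⟨t, rfl⟩ := hx; obtain ⟨u, rfl⟩ := hy
      exact ⟨t + u, S.add r hr t u⟩
    | inv x _ hx =>
      obtain ⟨t, rfl⟩ := hx
      exact ⟨-t, S.y_inv hr t⟩
  · rintro ⟨t, rfl⟩; exact S.y_mem r t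

/-- a pair of roots is killed: biadditive torus invariant central functions vanish -/
def Kill (R : Rel D F) {E : Type*} [Group E] (π : E →* ↥(D.group F)) (r s : ℕ) : Prop :=
  ∀ f : F → F → E, (∀ t u, f t u ∈ Subgroup.center E) → (∀ t t' u, f (t + t') u = f t u * f t' u) →
    (∀ t u u', f t (u + u') = f t u * f t u') →
    (∀ (e : E) (χ : ℕ → F), TorEl R (π e) χ → ∀ t u, f (χ r * t) (χ s * u) = f t u) →
    ∀ t u, f t u = 1

variable (hπ : CE π)

/-- one pair in the induction -/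
theorem relH_step (Q : RC D) (c : Gen Q) {m : ℕ} (hm : 1 ≤ m)
    (ihA : ∀ g ∈ S.gp (fun r => ((m + 1 : ℕ) : ℤ) ≤ fr Q c.c r), S.θ g = 1 → g = 1)
    (hπ : CE π) {r s : ℕ} (hr : r < D.nroots) (hs : s < D.nroots) (hrm : fr Q c.c r = m)
    (hsm : (m : ℤ) < fr Q c.c s)
    (ih : ∀ k < D.nroots, fr Q c.c s < fr Q c.c k → S.RelH r k)
    (hK : Kill R π r s) : S.RelH r s := by
  set A := S.gp (fun r => ((m + 1 : ℕ) : ℤ) ≤ fr Q c.c r) with hA
  have hsr : s ≠ r := by rintro rfl; omega
  have hsn : s ≠ D.neg r := by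
    rintro rfl
    rw [fr_neg Q _ hr, hrm] at hsm
    omega
  have inj : ∀ g ∈ A, ∀ g' ∈ A, S.θ g = S.θ g' → g = g' := by
    intro g hg g' hg' h
    have h1 : g * g'⁻¹ = 1 := ihA _ (A.mul_mem hg (A.inv_mem hg')) (by
      rw [map_mul, map_inv, h, mul_inv_cancel])
    exact mul_inv_eq_one.1 h1
  -- terms
  have hterm : ∀ t u, ∀ p ∈ D.commWord F r s t u, p.1 < D.nroots ∧ fr Q c.c s < fr Q c.c p.1 := by
    intro t u p hp
    unfold ChevalleyDatum.commWord at hp
    simp only [List.mem_map] at hp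
    obtain ⟨q, hq, rfl⟩ := hp
    obtain ⟨g1, g2, g3, g4⟩ := commTerms_co Q hr hs hq
    refine ⟨g1, ?_⟩
    simp only
    rw [fr_lin Q c.c g4, hrm]
    have e1 : 0 < (q.2.2.1 : ℤ) * m := mul_pos (by exact_mod_cast g2) (by exact_mod_cast hm)
    have e2 : fr Q c.c s ≤ q.2.2.2 * fr Q c.c s := by
      calc fr Q c.c s = 1 * fr Q c.c s := by ring
        _ ≤ q.2.2.2 * fr Q c.c s := by
          apply mul_le_mul_of_nonneg_right (by exact_mod_cast g3)
          omega
    omega
  have hyA : ∀ k < D.nroots, (m : ℤ) < fr Q c.c k → ∀ v, S.y k v ∈ A := by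
    intro k hk h v
    exact S.mem_gp hk (by push_cast; omega) v
  have hwA : ∀ t u, S.wy (D.commWord F r s t u) ∈ A := fun t u =>
    S.wy_mem _ fun p hp => hyA _ (hterm t u p hp).1 (by have := (hterm t u p hp).2; omega) _
  have hrwA : ∀ t u, S.rw' r s t u ∈ A := fun t u =>
    A.mul_mem (hyA s hs hsm u) (hwA _ _)
  -- the defect
  set f : F → F → E := fun t u => (S.rw' r s t u)⁻¹ * (S.y r t * S.y s u * (S.y r t)⁻¹) with hf
  have hfdef : ∀ t u, S.y r t * S.y s u * (S.y r t)⁻¹ = S.rw' r s t u * f t u := by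
    intro t u; rw [hf]; simp
  have hfθ : ∀ t u, S.θ (f t u) = 1 := by
    intro t u
    rw [hf]
    simp only
    rw [map_mul, map_inv, S.θ_rw Q hr hs hsr hsn, map_mul, map_mul, map_inv, S.θ_y hr, S.θ_y hs,
      inv_mul_cancel]
  have hfc : ∀ t u, f t u ∈ Subgroup.center E := fun t u => hπ.cen (S.ker_θ (hfθ t u))
  have hfcomm : ∀ t u (g : E), g * f t u = f t u * g := fun t u g =>
    Subgroup.mem_center_iff.1 (hfc t u) g
  -- additivity in u
  have hfu : ∀ t u u', f t (u + u') = f t u * f t u' := by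
    intro t u u'
    have h1 : S.rw' r s t (u + u') * f t (u + u') =
        S.rw' r s t u * S.rw' r s t u' * (f t u * f t u') := by
      calc S.rw' r s t (u + u') * f t (u + u') = S.y r t * S.y s (u + u') * (S.y r t)⁻¹ :=
            (hfdef t _).symm
        _ = (S.y r t * S.y s u * (S.y r t)⁻¹) * (S.y r t * S.y s u' * (S.y r t)⁻¹) := by
            rw [← S.add s hs]; simp [mul_assoc]
        _ = S.rw' r s t u * (f t u * S.rw' r s t u') * f t u' := by
            rw [hfdef, hfdef]; simp only [mul_assoc]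
        _ = _ := by rw [← hfcomm]; simp only [mul_assoc]
    have h2 : S.rw' r s t (u + u') = S.rw' r s t u * S.rw' r s t u' := by
      apply inj _ (hrwA _ _) _ (A.mul_mem (hrwA _ _) (hrwA _ _))
      have h3 := congrArg S.θ h1
      rwa [map_mul, map_mul _ (_ * _), map_mul _ (f t u), hfθ, hfθ, hfθ, mul_one, mul_one,
        mul_one] at h3
    rw [h2] at h1
    exact mul_left_cancel h1
  -- additivity in t
  have hft : ∀ t t' u, f (t + t') u = f t u * f t' u := by
    intro t t' u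
    obtain ⟨P, hP, hP'⟩ : ∃ P ∈ A, S.y r t * S.wy (D.commWord F r s (-t') u) * (S.y r t)⁻¹ = P := by
      refine ⟨_, ?_, rfl⟩
      have h1 : ∀ w : List (ℕ × F), (∀ p ∈ w, p.1 < D.nroots ∧ fr Q c.c s < fr Q c.c p.1) →
          S.y r t * S.wy w * (S.y r t)⁻¹ ∈ A := by
        intro w
        induction w with
        | nil => intro _; simp [wy, A.one_mem]
        | cons p w ihw =>
          intro hw
          have h2 := ihw (fun q hq => hw q (by simp [hq]))
          obtain ⟨h3, h4⟩ := hw p (by simp)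
          have h5 : S.y r t * S.wy (p :: w) * (S.y r t)⁻¹ =
              (S.y r t * S.y p.1 p.2 * (S.y r t)⁻¹) * (S.y r t * S.wy w * (S.y r t)⁻¹) := by
            unfold wy; simp [mul_assoc]
          rw [h5]
          refine A.mul_mem ?_ h2
          rw [ih p.1 h3 h4 t p.2]
          refine A.mul_mem (hyA _ h3 (by omega) _) (S.wy_mem _ ?_)
          intro q hq
          unfold ChevalleyDatum.commWord at hq
          simp only [List.mem_map] at hq
          obtain ⟨q', hq', rfl⟩ := hq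
          obtain ⟨g1, g2, g3, g4⟩ := commTerms_co Q hr h3 hq'
          apply hyA _ g1
          rw [fr_lin Q c.c g4, hrm]
          have e1 : 0 < (q'.2.2.1 : ℤ) * m := mul_pos (by exact_mod_cast g2) (by exact_mod_cast hm)
          have e2 : 0 < (q'.2.2.2 : ℤ) * fr Q c.c p.1 := mul_pos (by exact_mod_cast g3) (by omega)
          have e3 : (m : ℤ) ≤ (q'.2.2.1 : ℤ) * m := by
            calc (m : ℤ) = 1 * m := by ring
              _ ≤ _ := mul_le_mul_of_nonneg_right (by exact_mod_cast g2) (by omega)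
          omega
      exact h1 _ (hterm _ _)
    have h1 : S.rw' r s (t + t') u * f (t + t') u = S.rw' r s t u * P * (f t u * f t' u) := by
      calc S.rw' r s (t + t') u * f (t + t') u = S.y r (t + t') * S.y s u * (S.y r (t + t'))⁻¹ :=
            (hfdef _ u).symm
        _ = S.y r t * (S.y r t' * S.y s u * (S.y r t')⁻¹) * (S.y r t)⁻¹ := by
            rw [← S.add r hr]; simp [mul_assoc]
        _ = S.y r t * (S.rw' r s t' u * f t' u) * (S.y r t)⁻¹ := by rw [hfdef]
        _ = (S.y r t * S.y s u * (S.y r t)⁻¹) *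
            (S.y r t * S.wy (D.commWord F r s (-t') u) * (S.y r t)⁻¹) * f t' u := by
            unfold rw'
            have := hfcomm t' u (S.y r t)⁻¹
            simp only [mul_assoc]
            rw [← this]; simp [mul_assoc]
        _ = S.rw' r s t u * (f t u * P) * f t' u := by
            rw [hfdef, hP']; simp only [mul_assoc]
        _ = _ := by rw [← hfcomm]; simp only [mul_assoc]
    have h2 : S.rw' r s (t + t') u = S.rw' r s t u * P := by
      apply inj _ (hrwA _ _) _ (A.mul_mem (hrwA _ _) hP)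
      have h3 := congrArg S.θ h1
      rwa [map_mul, map_mul _ (_ * _), map_mul _ (f t u), hfθ, hfθ, hfθ, mul_one, mul_one,
        mul_one] at h3
    rw [h2] at h1
    exact mul_left_cancel h1
  -- torus invariance
  have hfT : ∀ (e : E) (χ : ℕ → F), TorEl R (π e) χ → ∀ t u, f (χ r * t) (χ s * u) = f t u := by
    intro e χ he t u
    have hwc : ∀ w : List (ℕ × F), (∀ p ∈ w, p.1 < D.nroots) →
        e * S.wy w * e⁻¹ = S.wy (w.map fun p => (p.1, χ p.1 * p.2)) := by
      intro w
      induction w with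
      | nil => intro _; simp [wy]
      | cons p w ihw =>
        intro hw
        have h2 := ihw (fun q hq => hw q (by simp [hq]))
        have h5 : e * S.wy (p :: w) * e⁻¹ = (e * S.y p.1 p.2 * e⁻¹) * (e * S.wy w * e⁻¹) := by
          unfold wy; simp [mul_assoc]
        rw [h5, h2, S.tor e χ he p.1 (hw p (by simp))]
        unfold wy; simp
    have h1 : e * S.rw' r s t u * e⁻¹ ∈ A := by
      have h2 : e * S.rw' r s t u * e⁻¹ = (e * S.y s u * e⁻¹) *
          (e * S.wy (D.commWord F r s (-t) u) * e⁻¹) := by unfold rw'; simp [mul_assoc]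
      rw [h2, S.tor e χ he s hs, hwc _ (fun p hp => (hterm _ _ p hp).1)]
      refine A.mul_mem (hyA _ hs hsm _) (S.wy_mem _ ?_)
      intro p hp
      simp only [List.mem_map] at hp
      obtain ⟨q, hq, rfl⟩ := hp
      obtain ⟨a1, a2⟩ := hterm _ _ q hq
      exact hyA _ a1 (by show (m : ℤ) < fr Q c.c q.1; omega) _
    have h2 : e * (S.y r t * S.y s u * (S.y r t)⁻¹) * e⁻¹ =
        S.y r (χ r * t) * S.y s (χ s * u) * (S.y r (χ r * t))⁻¹ := by
      rw [← S.tor e χ he r hr, ← S.tor e χ he s hs]; simp [mul_assoc]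
    have h3 : S.rw' r s (χ r * t) (χ s * u) * f (χ r * t) (χ s * u) =
        (e * S.rw' r s t u * e⁻¹) * f t u := by
      rw [← hfdef, ← h2, hfdef]
      have := hfcomm t u e⁻¹
      simp only [mul_assoc]
      rw [← this]
    have h4 : S.rw' r s (χ r * t) (χ s * u) = e * S.rw' r s t u * e⁻¹ := by
      apply inj _ (hrwA _ _) _ h1
      have h5 := congrArg S.θ h3
      rwa [map_mul, map_mul _ (_ * _), hfθ, hfθ, mul_one, mul_one] at h5
    rw [h4] at h3
    exact mul_left_cancel h3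
  intro t u
  rw [hfdef, hK f hfc hft hfu hfT, mul_one]

/-- the hypothesis on all pairs of roots -/
def Pairs (S : Pre R π) : Prop := ∀ r < D.nroots, ∀ s < D.nroots, s ≠ r → s ≠ D.neg r →
  Kill R π r s ∨ S.RelH r s

theorem gp_mono {P P' : ℕ → Prop} (h : ∀ r < D.nroots, P r → P' r) : S.gp P ≤ S.gp P' := by
  unfold gp
  apply Subgroup.closure_mono
  rintro g ⟨r, t, hr, hP, rfl⟩
  exact ⟨r, t, hr, h r hr hP, rfl⟩

/-- all relations for a root of height `m` -/
theorem relH_all (Q : RC D) (c : Gen Q) {m : ℕ} (hm : 1 ≤ m)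
    (ihA : ∀ g ∈ S.gp (fun r => ((m + 1 : ℕ) : ℤ) ≤ fr Q c.c r), S.θ g = 1 → g = 1)
    (hπ : CE π) (hP : S.Pairs) {r : ℕ} (hr : r < D.nroots) (hrm : fr Q c.c r = m) :
    ∀ s < D.nroots, (m : ℤ) < fr Q c.c s → S.RelH r s := by
  have hb : ∃ n : ℕ, ∀ r < D.nroots, fr Q c.c r < n := by
    refine ⟨∑ r ∈ Finset.range D.nroots, (fr Q c.c r).natAbs + 1, fun r hr => ?_⟩
    have h1 : (fr Q c.c r).natAbs ≤ ∑ r ∈ Finset.range D.nroots, (fr Q c.c r).natAbs :=
      Finset.single_le_sum (f := fun r => (fr Q c.c r).natAbs) (fun _ _ => Nat.zero_le _)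
        (Finset.mem_range.2 hr)
    have h2 : fr Q c.c r ≤ (fr Q c.c r).natAbs := Int.le_natAbs
    have h3 : ((fr Q c.c r).natAbs : ℤ) ≤ ((∑ r ∈ Finset.range D.nroots, (fr Q c.c r).natAbs : ℕ) : ℤ) := by
      exact_mod_cast h1
    rw [Nat.cast_add, Nat.cast_one]
    omega
  obtain ⟨n, hn⟩ := hb
  have key : ∀ d : ℕ, ∀ s < D.nroots, (m : ℤ) < fr Q c.c s → (n : ℤ) - fr Q c.c s ≤ d →
      S.RelH r s := by
    intro d
    induction d with
    | zero =>
      intro s hs _ h2
      have := hn s hs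
      push_cast at h2
      omega
    | succ d ihd =>
      intro s hs h1 h2
      have hsr : s ≠ r := by rintro rfl; omega
      have hsn : s ≠ D.neg r := by
        rintro rfl
        rw [fr_neg Q _ hr, hrm] at h1
        omega
      rcases hP r hr s hs hsr hsn with hK | hR
      · refine S.relH_step Q c hm ihA hπ hr hs hrm h1 (fun k hk hk' => ?_) hK
        refine ihd k hk (by omega) ?_
        push_cast at h2
        omega
      · exact hR
  intro s hs h1
  obtain ⟨d, hd⟩ := Int.eq_ofNat_of_zero_le (show 0 ≤ (n : ℤ) - fr Q c.c s by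
    have := hn s hs; omega)
  exact key d s hs h1 hd.le

theorem conj_mem_of_rel (Q : RC D) {K : Subgroup E} {r s : ℕ} (hr : r < D.nroots)
    (hs : s < D.nroots) (hrel : S.RelH r s) (hK : ∀ u : F, S.y s u ∈ K)
    (hK' : ∀ k < D.nroots, ∀ a b : ℕ, 1 ≤ a → 1 ≤ b →
      (∀ j < D.rank, Q.co k j = a * Q.co r j + b * Q.co s j) → ∀ v : F, S.y k v ∈ K) (t u : F) :
    S.y r t * S.y s u * (S.y r t)⁻¹ ∈ K := by
  rw [hrel]
  refine K.mul_mem (hK u) (S.wy_mem _ ?_)
  intro p hp
  unfold ChevalleyDatum.commWord at hp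
  simp only [List.mem_map] at hp
  obtain ⟨c, hc, rfl⟩ := hp
  obtain ⟨g1, g2, g3, g4⟩ := commTerms_co Q hr hs hc
  exact hK' _ g1 _ _ g2 g3 g4 _

/-- injectivity of `θ` on the half-space unipotent groups -/
theorem inj_aux {Q : RC D} (Z : Lex Q) (c : Gen Q) (hπ : CE π) (hP : S.Pairs) : ∀ n m : ℕ, 1 ≤ m →
    (∀ r < D.nroots, fr Q c.c r < m + n) → ∀ g ∈ S.gp (fun r => (m : ℤ) ≤ fr Q c.c r),
      S.θ g = 1 → g = 1 := by
  intro n
  induction n with
  | zero =>
    intro m _ hlt g hg _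
    have : S.gp (fun r => (m : ℤ) ≤ fr Q c.c r) = ⊥ := by
      rw [eq_bot_iff]
      unfold gp
      rw [Subgroup.closure_le]
      rintro _ ⟨r, t, hr, h, rfl⟩
      have := hlt r hr
      push_cast at this
      omega
    rw [this, Subgroup.mem_bot] at hg
    exact hg
  | succ n ih =>
    intro m hm hlt g hg h1
    have ih' := ih (m + 1) (by omega) (fun r hr => by have := hlt r hr; push_cast at this ⊢; omega)
    by_cases hex : ∃ r < D.nroots, fr Q c.c r = m
    · obtain ⟨r, hr, hrm⟩ := hex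
      have hle : S.gp (fun r => (m : ℤ) ≤ fr Q c.c r) ≤
          S.gp (fun r => ((m + 1 : ℕ) : ℤ) ≤ fr Q c.c r) ⊔ S.Xy r := by
        unfold gp
        rw [Subgroup.closure_le]
        rintro _ ⟨s, t, hs, h, rfl⟩
        by_cases hsr : s = r
        · subst hsr; exact Subgroup.mem_sup_right (S.y_mem _ _)
        · refine Subgroup.mem_sup_left (S.mem_gp hs ?_ t)
          have : fr Q c.c s ≠ fr Q c.c r := fun h => hsr (c.inj s hs r hr h)
          push_cast
          omega
      have hrel := S.relH_all Q c hm ih' hπ hP hr hrm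
      have hst : S.Xy r ≤ stabSub (S.gp (fun r => ((m + 1 : ℕ) : ℤ) ≤ fr Q c.c r)) := by
        apply stab_of_closure
        rintro a ha _ ⟨s, u, hs, hPs, rfl⟩
        obtain ⟨t, rfl⟩ := (S.mem_Xy hr).1 ha
        refine S.conj_mem_of_rel Q hr hs (hrel s hs (by push_cast at hPs; omega))
          (fun u => S.mem_gp hs hPs u) (fun k hk a b ha hb hco v => S.mem_gp hk ?_ v) t u
        rw [fr_lin Q c.c hco, hrm]
        have e1 : 0 < (a : ℤ) * m := mul_pos (by exact_mod_cast ha) (by exact_mod_cast hm)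
        have e2 : fr Q c.c s ≤ b * fr Q c.c s := by
          calc fr Q c.c s = 1 * fr Q c.c s := by ring
            _ ≤ b * fr Q c.c s := by
              apply mul_le_mul_of_nonneg_right (by exact_mod_cast hb)
              push_cast at hPs; omega
        push_cast at hPs ⊢
        omega
      obtain ⟨v, hv, x, hx, rfl⟩ := (mem_sup_of_normalizes hst).1 (hle hg)
      obtain ⟨t, rfl⟩ := (S.mem_Xy hr).1 hx
      have h2 : S.θ v = xg R r (-t) := by
        rw [map_mul, S.θ_y hr] at h1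
        rw [eq_inv_of_mul_eq_one_left h1, xg_inv]
      have h3 : xg R r (-t) ∈ Uk F (fn Q c.c) (m + 1) := by
        rw [← h2]
        exact S.θ_gp_le Q c.c (m + 1) ⟨v, hv, rfl⟩
      have h4 : t = 0 := neg_eq_zero.1 (eq_zero_of_mem_Uk R Z c.c hr hrm h3)
      rw [h4, S.y_zero hr, mul_one]
      rw [h4, S.y_zero hr, mul_one] at h1
      exact ih' v hv h1
    · refine ih' g (S.gp_mono ?_ hg) h1
      intro r hr h
      by_contra hcon
      push_cast at hcon
      exact hex ⟨r, hr, by omega⟩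

theorem eq_of_gp {Q : RC D} (Z : Lex Q) (c : Gen Q) (hπ : CE π) (hP : S.Pairs) {g g' : E}
    (hg : g ∈ S.gp (fun r => 0 < fr Q c.c r)) (hg' : g' ∈ S.gp (fun r => 0 < fr Q c.c r))
    (h : S.θ g = S.θ g') : g = g' := by
  have h1 : g * g'⁻¹ = 1 := by
    have hb : ∃ n : ℕ, ∀ r < D.nroots, fr Q c.c r < 1 + n := by
      refine ⟨∑ r ∈ Finset.range D.nroots, (fr Q c.c r).natAbs, fun r hr => ?_⟩
      have h1 : (fr Q c.c r).natAbs ≤ ∑ r ∈ Finset.range D.nroots, (fr Q c.c r).natAbs :=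
        Finset.single_le_sum (f := fun r => (fr Q c.c r).natAbs) (fun _ _ => Nat.zero_le _)
          (Finset.mem_range.2 hr)
      have h2 : fr Q c.c r ≤ (fr Q c.c r).natAbs := Int.le_natAbs
      have h3 : ((fr Q c.c r).natAbs : ℤ) ≤ ((∑ r ∈ Finset.range D.nroots, (fr Q c.c r).natAbs : ℕ) : ℤ) := by
        exact_mod_cast h1
      omega
    obtain ⟨n, hn⟩ := hb
    refine S.inj_aux Z c hπ hP n 1 le_rfl (fun r hr => by simpa using hn r hr) _
      (S.gp_mono ?_ ((S.gp _).mul_mem hg ((S.gp _).inv_mem hg'))) (by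
        rw [map_mul, map_inv, h, mul_inv_cancel])
    intro r _ h
    simpa using Int.lt_iff_add_one_le.1 h
  exact mul_inv_eq_one.1 h1

/-- the commutator relations hold -/
theorem comm_rel (X : RCX D) (Z : Lex X.rc) (hπ : CE π) (hP : S.Pairs) :
    ∀ r < D.nroots, ∀ s < D.nroots, s ≠ r → s ≠ D.neg r → ∀ t u : F,
      (S.y s u)⁻¹ * (S.y r t)⁻¹ * S.y s u * S.y r t =
        ((D.commWord F r s t u).map fun p => S.y p.1 p.2).prod := by
  intro r hr s hs hsr hsn t u
  obtain ⟨c, c1, c2⟩ := exists_gen X Z (r := ⟨r, hr⟩) (s := ⟨s, hs⟩)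
    (fun h => hsr (congrArg Fin.val h)) (fun h => hsn (congrArg Fin.val h))
  simp only at c1 c2
  have hm := S.mem_gp (P := fun r => 0 < fr X.rc c.c r) hr c1
  have hm' := S.mem_gp (P := fun r => 0 < fr X.rc c.c r) hs c2
  set A := S.gp (fun r => 0 < fr X.rc c.c r) with hA
  refine S.eq_of_gp Z c hπ hP (A.mul_mem (A.mul_mem (A.mul_mem (A.inv_mem (hm' u)) (A.inv_mem (hm t)))
    (hm' u)) (hm t)) (S.wy_mem _ ?_) ?_
  · intro p hp
    unfold ChevalleyDatum.commWord at hp
    simp only [List.mem_map] at hp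
    obtain ⟨q, hq, rfl⟩ := hp
    obtain ⟨g1, g2, g3, g4⟩ := commTerms_co X.rc hr hs hq
    refine S.mem_gp g1 ?_ _
    rw [fr_lin X.rc c.c g4]
    have e1 : 0 < (q.2.2.1 : ℤ) * fr X.rc c.c r := mul_pos (by exact_mod_cast g2) c1
    have e2 : 0 < (q.2.2.2 : ℤ) * fr X.rc c.c s := mul_pos (by exact_mod_cast g3) c2
    omega
  · have h3 := S.θ_wy (D.commWord F r s t u) (commWord_lt X.rc hr hs t u)
    unfold wy at h3
    rw [h3, map_mul, map_mul, map_mul, map_inv, map_inv, S.θ_y hr, S.θ_y hs]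
    have h4 := comm_g R hr hs hsr hsn t u
    have h5 : (xg R s u)⁻¹ * (xg R r t)⁻¹ * xg R s u * xg R r t =
        (xg R r t * xg R s u)⁻¹ * (xg R s u * xg R r t) := by simp [mul_assoc]
    rw [h5, h4]; simp [mul_assoc]

open H40.StCov in
/-- MAIN THEOREM of the torus argument -/
theorem exists_cov (X : RCX D) (Z : Lex X.rc) (hπ : CE π) (hperf : commutator E = ⊤)
    (hP : S.Pairs) : ∃ T : Cov R E, T.θ = (D.group F).subtype.comp π :=
  ⟨covOfLift R hπ hperf S.y S.π_y S.add (S.comm_rel X Z hπ hP), rfl⟩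

end Pre

end H40.Ext
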