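import Cfsg.Agent.Lib.H40.Ext5

/-!
Lifting root elements to central extensions: torus prelifts and certificates.
-/

set_option autoImplicit false

namespace H40.Ext

open H22.St
open H22.RGD H22.Coord H22.RCCheck H22.RCComb H22.ChevTri H22.ChevRel H22.ChevSys H22.ChevMain
open H22.ChevStd H22.ChevSolv H22.ChevUni H22.RCPack
open H40.ChevAut
open Cfsg.Lie (ChevalleyDatum)
open H23.ChevCore (Core)
open scoped MatrixGroups Matrix commutatorElement

namespace CE

variable {G E : Type*} [Group G] [Group E] {π : E →* G} (hπ : CE π)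

theorem z_mul_right' {a b b' : G} (h : hπ.z b ⁅a, b'⁆ = 1) :
    hπ.z a (b * b') = hπ.z a b * hπ.z a b' := by
  have h2 : hπ.z a (b * b') = ⁅lf hπ a, lf hπ b * lf hπ b'⁆ :=
    (hπ.z_of (hπ.π_lf a) (by simp [π_lf])).symm
  have h3 : ⁅lf hπ a, lf hπ b * lf hπ b'⁆ =
      hπ.z a b * (lf hπ b * hπ.z a b' * (lf hπ b)⁻¹) := by
    unfold z
    rw [commutatorElement_def, commutatorElement_def, commutatorElement_def]; simp [mul_assoc]
  have h4 : ⁅lf hπ b, hπ.z a b'⁆ = 1 := by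
    rw [hπ.z_of (hπ.π_lf b) (hπ.π_z a b')]; exact h
  rw [commutatorElement_eq_one_iff_mul_comm] at h4
  rw [h2, h3, h4, mul_inv_cancel_right]

end CE

variable {D : ChevalleyDatum} {F : Type*} [Field F]

/-! ### self-commuting root elements -/

section self

variable {R : Rel D F} (X : RCX D) {E : Type*} [Group E] {π : E →* ↥(D.group F)} (hπ : CE π)

omit X in
/-- a torus element acts on the commutator pairing -/
theorem zc_tor {h : ↥(D.group F)} {χ : ℕ → F} (hh : TorEl R h χ) (r s : Fin D.nroots)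
    (hc : ∀ t u, ⁅xe R r t, xe R s u⁆ = 1) (t u : F) :
    hπ.z (xe R r (χ r * t)) (xe R s (χ s * u)) = hπ.z (xe R r t) (xe R s u) := by
  obtain ⟨e, rfl⟩ := hπ.surj h
  have h1 := hπ.z_conj e (xe R r t) (xe R s u)
  rw [hh.act, hh.act] at h1
  rw [← h1]
  have h2 := hπ.z_mem_center (hc t u)
  rw [Subgroup.mem_center_iff] at h2
  rw [h2, mul_inv_cancel_right]

/-- biadditive functions with `f (c t) (c u) = f t u` -/
theorem biadd_trivial {M : Type*} [Group M] (f : F → F → M)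
    (h1 : ∀ t t' u, f (t + t') u = f t u * f t' u) (h2 : ∀ t u u', f t (u + u') = f t u * f t u')
    (h3 : ∀ c : F, c ≠ 0 → ∀ t u, f (c * t) (c * u) = f t u)
    (h5 : ∃ s : F, s ≠ 0 ∧ s + 1 ≠ 0 ∧ s ^ 2 + s + 1 ≠ 0) (t u : F) : f t u = 1 := by
  have f0 : ∀ u, f 0 u = 1 := fun u => by
    have := h1 0 0 u
    rw [add_zero] at this
    exact mul_eq_left.1 this.symm
  have f0' : ∀ t, f t 0 = 1 := fun t => by
    have := h2 t 0 0
    rw [add_zero] at this
    exact mul_eq_left.1 this.symm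
  have g1 : ∀ t u, t ≠ 0 → f t u = f 1 (u / t) := by
    intro t u ht
    rw [← h3 t ht 1 (u / t), mul_one, mul_div_cancel₀ _ ht]
  have key : ∀ x y : F, x ≠ 0 → y ≠ 0 → x + y ≠ 0 →
      f 1 (x + y) = f 1 (x * y / (x + y)) := by
    intro x y hx hy hxy
    have e1 : f (1 / x + 1 / y) 1 = f (1 / x) 1 * f (1 / y) 1 := h1 _ _ _
    have hxy' : 1 / x + 1 / y ≠ 0 := by
      rw [div_add_div _ _ hx hy]
      exact div_ne_zero (by rw [one_mul, mul_one, add_comm]; exact hxy) (mul_ne_zero hx hy)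
    rw [g1 _ _ hxy', g1 _ _ (one_div_ne_zero hx), g1 _ _ (one_div_ne_zero hy), one_div_one_div,
      one_div_one_div, ← h2] at e1
    rw [← e1]
    congr 1
    have e3 : 1 / x + 1 / y = (x + y) / (x * y) := by field_simp; ring
    rw [e3, one_div_div]
  obtain ⟨s, hs0, hs1, hs2⟩ := h5
  have key2 : ∀ w : F, f 1 w = 1 := by
    intro w
    by_cases hw : w = 0
    · rw [hw, f0']
    -- y (s^2+s+1)/(s+1) = w
    set y := w * (s + 1) / (s ^ 2 + s + 1) with hy
    have hy0 : y ≠ 0 := div_ne_zero (mul_ne_zero hw hs1) hs2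
    have k1 := key (s * y) y (mul_ne_zero hs0 hy0) hy0 (by
      have : s * y + y = (s + 1) * y := by ring
      rw [this]; exact mul_ne_zero hs1 hy0)
    have e2 : s * y + y = w + s * y * y / (s * y + y) := by
      have : s * y + y = (s + 1) * y := by ring
      rw [this]
      have h6 : s * y * y / ((s + 1) * y) = s * y / (s + 1) := by
        field_simp
      rw [h6]
      have h7 : w = y * (s ^ 2 + s + 1) / (s + 1) := by
        rw [eq_div_iff hs1, hy, div_mul_cancel₀ _ hs2]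
      rw [h7, ← add_div, eq_div_iff hs1]
      ring
    have k2 : f 1 (w + s * y * y / (s * y + y)) = f 1 w * f 1 (s * y * y / (s * y + y)) := h2 _ _ _
    rw [← e2, k1] at k2
    exact mul_eq_right.1 k2.symm
  by_cases ht : t = 0
  · rw [ht, f0]
  · rw [g1 t u ht, key2]

include X in
theorem zc_self_of_char (r : Fin D.nroots)
    (hchar : ∀ c : F, c ≠ 0 → ∃ h χ, TorEl R h χ ∧ χ r = c)
    (h5 : ∃ s : F, s ≠ 0 ∧ s + 1 ≠ 0 ∧ s ^ 2 + s + 1 ≠ 0) : (rf R X).ZC hπ r r := by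
  have hc : ∀ t u, ⁅xe R r t, xe R r u⁆ = 1 := fun t u => by
    rw [commutatorElement_eq_one_iff_mul_comm, xe_mul, xe_mul, add_comm]
  refine biadd_trivial (fun t u => hπ.z (xe R r t) (xe R r u)) ?_ ?_ ?_ h5
  · intro t t' u
    rw [← xe_mul, hπ.z_mul_left (hc _ _)]
  · intro t u u'
    rw [← xe_mul, hπ.z_mul_right (hc _ _)]
  · intro c hc0 t u
    obtain ⟨h, χ, hh, rfl⟩ := hchar c hc0
    exact zc_tor hπ hh r r hc t u

/-- orthogonality by a torus element with character trivial on one root -/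
theorem zc_of_char {r s : Fin D.nroots} (hc : ∀ t u, ⁅xe R r t, xe R s u⁆ = 1)
    {h : ↥(D.group F)} {χ : ℕ → F} (hh : TorEl R h χ) (h1 : χ r = 1) (h2 : χ s ≠ 1) :
    (rf R X).ZC hπ r s := by
  intro t u
  show hπ.z (xe R r t) (xe R s u) = 1
  have h2' : χ s - 1 ≠ 0 := sub_ne_zero.2 h2
  set v := u / (χ s - 1) with hv
  have h3 := zc_tor hπ hh r s hc t v
  rw [h1, one_mul] at h3
  have h4 : χ s * v = u + v := by rw [hv]; field_simp; ring
  rw [h4, ← xe_mul, hπ.z_mul_right (hc _ _)] at h3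
  exact mul_eq_right.1 h3

end self

/-! ### torus prelifts -/

/-- prelifts from torus elements -/
theorem exists_pre {R : Rel D F} (X : RCX D) {E : Type*} [Group E] {π : E →* ↥(D.group F)}
    (hπ : CE π) (h1 : ∀ r : Fin D.nroots, ∃ h χ, TorEl R h χ ∧ χ r ≠ 1)
    (h2 : ∀ r : Fin D.nroots, (rf R X).ZC hπ r r) : Nonempty (Pre R π) := by
  choose τ χ hτ hχ using h1
  set Y : ℕ → F → E := fun r t =>
    if h : r < D.nroots then hπ.z (τ ⟨r, h⟩) (xe R ⟨r, h⟩ (t / (χ ⟨r, h⟩ r - 1))) else 1 with hY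
  have hY' : ∀ (r : ℕ) (h : r < D.nroots) t,
      Y r t = hπ.z (τ ⟨r, h⟩) (xe R ⟨r, h⟩ (t / (χ ⟨r, h⟩ r - 1))) := by
    intro r h t; rw [hY]; simp only; rw [dif_pos h]
  have hcomm : ∀ (r : Fin D.nroots) (t : F), ⁅τ r, xe R r t⁆ = xe R r ((χ r r - 1) * t) := by
    intro r t
    rw [commutatorElement_def, (hτ r).act, xe_inv, xe_mul]
    congr 1; ring
  refine ⟨⟨Y, ?_, ?_, ?_⟩⟩
  · intro r hr t u
    rw [hY' r hr, hY' r hr, hY' r hr, add_div, ← xe_mul, hπ.z_mul_right' ?_]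
    rw [hcomm]
    exact h2 ⟨r, hr⟩ _ _
  · intro r t
    have h3 : χ r r - 1 ≠ 0 := sub_ne_zero.2 (hχ r)
    rw [hY' r r.2, hπ.π_z, hcomm, mul_div_cancel₀ _ h3]
  · intro e ψ hψ r hr t
    rw [hY' r hr, hY' r hr, hπ.z_conj, hψ.act ⟨r, hr⟩, diag_comm R X hψ.diag (hτ ⟨r, hr⟩).diag,
      mul_inv_cancel_right]
    congr 2
    simp only
    ring

/-! ### killing pairs of roots -/

theorem kill_of_char {R : Rel D F} {E : Type*} [Group E] {π : E →* ↥(D.group F)} (hπ : CE π)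
    {r s : ℕ} {h : ↥(D.group F)} {χ : ℕ → F} (hh : TorEl R h χ)
    (h1 : (χ r = 1 ∧ χ s ≠ 1) ∨ (χ s = 1 ∧ χ r ≠ 1)) : Pre.Kill R π r s := by
  intro f _ fl fr' fT t u
  obtain ⟨e, rfl⟩ := hπ.surj h
  rcases h1 with ⟨h1, h2⟩ | ⟨h1, h2⟩
  · have h2' : χ s - 1 ≠ 0 := sub_ne_zero.2 h2
    set v := u / (χ s - 1) with hv
    have h3 := fT e χ hh t v
    rw [h1, one_mul] at h3
    have h4 : χ s * v = u + v := by rw [hv]; field_simp; ring
    rw [h4, fr'] at h3
    exact mul_eq_right.1 h3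
  · have h2' : χ r - 1 ≠ 0 := sub_ne_zero.2 h2
    set v := t / (χ r - 1) with hv
    have h3 := fT e χ hh v u
    rw [h1, one_mul] at h3
    have h4 : χ r * v = t + v := by rw [hv]; field_simp; ring
    rw [h4, fl] at h3
    exact mul_eq_right.1 h3

/-- commuting pairs from the commutator pairing -/
theorem relH_of_zc {R : Rel D F} (X : RCX D) {E : Type*} [Group E] {π : E →* ↥(D.group F)}
    (hπ : CE π) (S : Pre R π) {r s : Fin D.nroots} (h : D.commTerms r s = [])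
    (hz : (rf R X).ZC hπ r s) : S.RelH r s := by
  intro t u
  unfold Pre.rw'
  have h1 : D.commWord F r s (-t) u = [] := by
    unfold ChevalleyDatum.commWord; rw [h]; rfl
  rw [h1]
  have h2 : Commute (S.y r t) (S.y s u) := by
    apply hπ.commute_of_z
    rw [S.π_y, S.π_y]
    exact hz t u
  unfold Pre.wy
  rw [h2.eq]; simp

/-! ### certificates -/

/-- computable pairing -/
def prq (D : ChevalleyDatum) (r s : ℕ) : ℤ :=
  (List.range D.rank).foldr (fun k a => H23.ChevOp.co D r k * D.cartan k s + a) 0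

theorem prq_eq (D : ChevalleyDatum) (r s : ℕ) : prq D r s = H23.ChevCore.pr D r s := by
  unfold prq H23.ChevCore.pr
  have : ∀ (l : List ℕ) (a : ℤ), l.foldr (fun k a => H23.ChevOp.co D r k * D.cartan k s + a) a =
      (l.map fun k => H23.ChevOp.co D r k * D.cartan k s).sum + a := by
    intro l
    induction l with
    | nil => intro a; simp
    | cons x l ih => intro a; rw [List.foldr_cons, ih, List.map_cons, List.sum_cons]; ring
  rw [this, add_zero, Finset.sum_range, ← List.sum_ofFn]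
  congr 1
  apply List.ext_getElem
  · simp
  · intro i h1 h2; simp

/-- certificate for pairs: the coroot `γ` has value `0` on one root and a value in `bs` on the other -/
def pairB (D : ChevalleyDatum) (bs : List ℤ) (γ r s : ℕ) : Bool :=
  Nat.blt γ D.nroots && ((prq D γ r == 0 && bs.contains (prq D γ s)) ||
    (prq D γ s == 0 && bs.contains (prq D γ r)))

def pairsB (D : ChevalleyDatum) (bs : List ℤ) (exc : List (ℕ × ℕ)) (T : List (List ℕ)) : Bool :=
  allIdx (fun r row => allIdx (fun s γ => Nat.beq s r || Nat.beq s (D.neg r) ||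
    pairB D bs γ r s || exc.contains (r, s)) 0 row && Nat.beq row.length D.nroots) 0 T &&
    Nat.beq T.length D.nroots

theorem kill_of_pairB (R : Rel D F) (X : RCX D) (C : Core D) {E : Type*} [Group E]
    {π : E →* ↥(D.group F)} (hπ : CE π) {bs : List ℤ} (hbs : ∀ b ∈ bs, ∃ c : F, c ≠ 0 ∧ c ^ b ≠ 1)
    {γ r s : ℕ} (h : pairB D bs γ r s = true) : Pre.Kill R π r s := by
  unfold pairB at h
  rw [Bool.and_eq_true, Bool.or_eq_true, Bool.and_eq_true, Bool.and_eq_true, Nat.blt_eq,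
    beq_iff_eq, beq_iff_eq, prq_eq, prq_eq, List.contains_iff_mem, List.contains_iff_mem] at h
  obtain ⟨hγ, h⟩ := h
  rcases h with ⟨h1, h2⟩ | ⟨h1, h2⟩
  · obtain ⟨c, hc, hcb⟩ := hbs _ h2
    refine kill_of_char hπ (torEl_hE R X C ⟨γ, hγ⟩ hc) (Or.inl ⟨?_, ?_⟩)
    · simp only; rw [h1, zpow_zero]
    · exact hcb
  · obtain ⟨c, hc, hcb⟩ := hbs _ h2
    refine kill_of_char hπ (torEl_hE R X C ⟨γ, hγ⟩ hc) (Or.inr ⟨?_, ?_⟩)
    · simp only; rw [h1, zpow_zero]
    · exact hcb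

theorem pairs_of_cert {R : Rel D F} (X : RCX D) (C : Core D) {E : Type*} [Group E]
    {π : E →* ↥(D.group F)} (hπ : CE π) (S : Pre R π) {bs : List ℤ}
    (hbs : ∀ b ∈ bs, ∃ c : F, c ≠ 0 ∧ c ^ b ≠ 1) {exc : List (ℕ × ℕ)} {T : List (List ℕ)}
    (h : pairsB D bs exc T = true)
    (hexc : ∀ p ∈ exc, p.1 < D.nroots → p.2 < D.nroots → Pre.Kill R π p.1 p.2 ∨ S.RelH p.1 p.2) :
    S.Pairs := by
  intro r hr s hs hsr hsn
  unfold pairsB at h
  rw [Bool.and_eq_true] at h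
  have hT := Nat.eq_of_beq_eq_true h.2
  have h1 := allIdx_spec h.1 r (by rw [hT]; exact hr)
  rw [Bool.and_eq_true] at h1
  have hrow := Nat.eq_of_beq_eq_true h1.2
  have h2 := allIdx_spec h1.1 s (by rw [hrow]; exact hs)
  rw [zero_add, zero_add, Bool.or_eq_true, Bool.or_eq_true, Bool.or_eq_true] at h2
  rcases h2 with ((h2 | h2) | h2) | h2
  · exact absurd (Nat.eq_of_beq_eq_true h2) hsr
  · exact absurd (Nat.eq_of_beq_eq_true h2) hsn
  · exact Or.inl (kill_of_pairB R X C hπ hbs h2)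
  · rw [List.contains_iff_mem] at h2
    exact hexc _ h2 hr hs

/-- every root has a coroot with value `±1` -/
def oneB (D : ChevalleyDatum) (T : List ℕ) : Bool :=
  allIdx (fun r γ => Nat.blt γ D.nroots && (prq D γ r == 1 || prq D γ r == -1)) 0 T &&
    Nat.beq T.length D.nroots

theorem oneB_spec {T : List ℕ} (h : oneB D T = true) (r : Fin D.nroots) :
    ∃ γ : Fin D.nroots, H23.ChevCore.pr D γ r = 1 ∨ H23.ChevCore.pr D γ r = -1 := by
  unfold oneB at h
  rw [Bool.and_eq_true] at h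
  have hT := Nat.eq_of_beq_eq_true h.2
  have h1 := allIdx_spec h.1 r (by rw [hT]; exact r.2)
  rw [zero_add, Bool.and_eq_true, Bool.or_eq_true, beq_iff_eq, beq_iff_eq, prq_eq, Nat.blt_eq] at h1
  exact ⟨⟨_, h1.1⟩, h1.2⟩

theorem char_of_one (R : Rel D F) (X : RCX D) (C : Core D) {γ r : Fin D.nroots}
    (h : H23.ChevCore.pr D γ r = 1 ∨ H23.ChevCore.pr D γ r = -1) (c : F) (hc : c ≠ 0) :
    ∃ h χ, TorEl R h χ ∧ χ r = c := by
  rcases h with h | h
  · refine ⟨_, _, torEl_hE R X C γ hc, ?_⟩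
    rw [h, zpow_one]
  · refine ⟨_, _, torEl_hE R X C γ (inv_ne_zero hc), ?_⟩
    rw [h, zpow_neg, zpow_one, inv_inv]

/-- every root is a sum of two roots commuting with it -/
def selfB (D : ChevalleyDatum) (T : List (ℕ × ℕ)) : Bool :=
  allIdx (fun r p => smB D p.1 p.2 r && cmB D r p.1 && cmB D r p.2) 0 T && Nat.beq T.length D.nroots

theorem zc_self_of_selfB (R : Rel D F) (X : RCX D) {E : Type*} [Group E] {π : E →* ↥(D.group F)}
    (hπ : CE π) {T : List (ℕ × ℕ)} (h : selfB D T = true) (r : Fin D.nroots) :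
    (rf R X).ZC hπ r r := by
  unfold selfB at h
  rw [Bool.and_eq_true] at h
  have hT := Nat.eq_of_beq_eq_true h.2
  have h1 := allIdx_spec h.1 r (by rw [hT]; exact r.2)
  rw [zero_add, Bool.and_eq_true, Bool.and_eq_true] at h1
  obtain ⟨⟨h2, h3⟩, h4⟩ := h1
  obtain ⟨a1, a2, a3, h5⟩ := sm_of_smB R X h2
  obtain ⟨_, _, h6⟩ := cm_of_cmB R X h3
  obtain ⟨_, _, h7⟩ := cm_of_cmB R X h4
  exact RootFam.zc_of_sum hπ h5 h6 h7

/-- table test for `[x_r(t), x_s(u)] = x_k(±2tu)` -/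
def sm2B (D : ChevalleyDatum) (r s k : ℕ) : Bool :=
  Nat.blt r D.nroots && Nat.blt s D.nroots && Nat.blt k D.nroots && !(Nat.beq s r) &&
    !(Nat.beq s (D.neg r)) &&
    match D.commTerms r s with
    | [(k', c, 1, 1)] => Nat.beq k' k && (c == 2 || c == -2)
    | _ => false

/-- `[x_r(t), x_s(u)] = x_k(ctu)` with a unit `c` -/
theorem comm_of_sm2B (R : Rel D F) (X : RCX D) {r s k : ℕ} (h : sm2B D r s k = true) :
    ∃ (hr : r < D.nroots) (hs : s < D.nroots) (hk : k < D.nroots) (c : ℤ), (c = 2 ∨ c = -2) ∧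
      ∀ t u : F, ⁅xe R ⟨r, hr⟩ t, xe R ⟨s, hs⟩ u⁆ = xe R ⟨k, hk⟩ (c * t * u) := by
  unfold sm2B at h
  simp only [Bool.and_eq_true, Nat.blt_eq, Bool.not_eq_true'] at h
  obtain ⟨⟨⟨⟨⟨hr, hs⟩, hk⟩, h1⟩, h2⟩, h3⟩ := h
  have h4 : (⟨s, hs⟩ : Fin D.nroots) ≠ (comb X).neg ⟨r, hr⟩ := by
    intro h'
    have h5 : s = D.neg r := congrArg Fin.val h'
    rw [h5] at h2; simp at h2
  have h5 : (⟨s, hs⟩ : Fin D.nroots) ≠ ⟨r, hr⟩ := by
    intro h'
    have h6 : s = r := congrArg Fin.val h'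
    rw [h6] at h1; simp at h1
  revert h3
  generalize hL : D.commTerms r s = L
  intro h3
  match L, hL, h3 with
  | [(k', c, 1, 1)], hL, h3 =>
    simp only [Bool.and_eq_true, Bool.or_eq_true, beq_iff_eq] at h3
    obtain ⟨h6, h7⟩ := h3
    have h8 := Nat.eq_of_beq_eq_true h6
    subst h8
    exact ⟨hr, hs, hk, c, h7, fun t u => xe_comm_single R X (k := ⟨k', hk⟩) h5 h4 hL t u⟩

/-- exceptional orthogonal long roots: `s = a + b` with `a, b` short commuting with `r` -/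
def orthB (D : ChevalleyDatum) (r s a b : ℕ) : Bool :=
  cmB D r s && sm2B D a b s && cmB D r a && cmB D r b

theorem relH_of_orthB {R : Rel D F} (X : RCX D) {E : Type*} [Group E] {π : E →* ↥(D.group F)}
    (hπ : CE π) (S : Pre R π) (h2 : (2 : F) ≠ 0) {r s a b : ℕ} (h : orthB D r s a b = true) :
    S.RelH r s := by
  unfold orthB at h
  rw [Bool.and_eq_true, Bool.and_eq_true, Bool.and_eq_true] at h
  obtain ⟨⟨⟨g1, g2⟩, g3⟩, g4⟩ := h
  obtain ⟨ha, hb, hs, c, hc, h5⟩ := comm_of_sm2B R X g2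
  obtain ⟨hr, _, h6⟩ := cm_of_cmB R X g3
  obtain ⟨_, _, h7⟩ := cm_of_cmB R X g4
  have hz : (rf R X).ZC hπ ⟨r, hr⟩ ⟨s, hs⟩ := by
    intro t u
    have hc0 : (c : F) ≠ 0 := by
      rcases hc with rfl | rfl
      · push_cast; exact h2
      · push_cast; exact neg_ne_zero.2 h2
    have e : xe R ⟨s, hs⟩ u = ⁅xe R ⟨a, ha⟩ (u / c), xe R ⟨b, hb⟩ 1⁆ := by
      rw [h5, mul_one, mul_div_cancel₀ _ hc0]
    show hπ.z (xe R ⟨r, hr⟩ t) (xe R ⟨s, hs⟩ u) = 1
    rw [e]
    exact hπ.z_comm_right (h6.2 _ _) (h7.2 _ _)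
  refine relH_of_zc X hπ S (r := ⟨r, hr⟩) (s := ⟨s, hs⟩) ?_ hz
  unfold cmB at g1
  simp only [Bool.and_eq_true, List.isEmpty_iff] at g1
  exact g1.1.2

end H40.Ext
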