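import Cfsg.Agent.Lib.H40.Ext4
import Cfsg.Agent.Lib.H40.StemFinish
import Cfsg.Agent.Lib.H40.ChevFacts
import Cfsg.Prelude.Def_KGroupFacts

/-!
Schur multipliers of Chevalley groups: upper bounds from covers, `E₈(q)`.
-/

set_option autoImplicit false

universe u v

namespace H40.Mult

open H22.St
open H22.RGD H22.Coord H22.RCCheck H22.RCComb H22.ChevTri H22.ChevRel H22.ChevSys H22.ChevMain
open H22.ChevStd H22.ChevSolv H22.ChevUni H22.ChevTorus
open H40.ChevAut H40.Ext H40.StCov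
open Cfsg.Lie
open H23.ChevCore (Core)
open scoped MatrixGroups Matrix commutatorElement

theorem ce_of_stem {Γ : Type u} {G : Type v} [Group Γ] [Group G] {σ : Γ →* G}
    (hσ : Cfsg.IsStemExtension σ) : CE σ := ⟨hσ.1, hσ.2.1⟩

theorem perfect_of_stem {Γ : Type u} {G : Type v} [Group Γ] [Group G] {σ : Γ →* G}
    (hσ : Cfsg.IsStemExtension σ) (hG : commutator G = ⊤) : commutator Γ = ⊤ := by
  rw [eq_top_iff]
  intro g _
  have h1 : (commutator Γ).map σ = ⊤ := by
    rw [commutator_def, Subgroup.map_commutator, ← MonoidHom.range_eq_map,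
      MonoidHom.range_eq_top.2 hσ.1, ← commutator_def, hG]
  have h2 : σ g ∈ (commutator Γ).map σ := by rw [h1]; exact Subgroup.mem_top _
  obtain ⟨c, hc, h3⟩ := h2
  have h4 : c⁻¹ * g ∈ σ.ker := by rw [MonoidHom.mem_ker, map_mul, map_inv, h3, inv_mul_cancel]
  have h5 := (commutator Γ).mul_mem hc (hσ.2.2 h4)
  simpa using h5

variable {D : ChevalleyDatum} {F : Type u} [Field F]

/-- the kernel of a stem extension with a cover structure is an image of the kernel of `χ` -/
theorem exists_surj_of_cov [Finite F] {R : Rel D F} (X : RCX D) (Z : Lex X.rc)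
    (W : StCert D X.rc.half) (C : Core D) {Γ : Type v} [Group Γ] {σ : Γ →* ↥(D.group F)}
    (S : Cov R Γ) (hS : S.θ = (D.group F).subtype.comp σ) :
    ∃ φ : (chi D F).ker →* σ.ker, Function.Surjective φ := by
  let T := S.toStG X Z W C
  have hT : T.θ = (D.group F).subtype.comp σ := hS
  have hk : σ.ker = T.θ.ker := by
    ext x
    rw [MonoidHom.mem_ker, MonoidHom.mem_ker, hT, MonoidHom.comp_apply]
    constructor
    · intro h; rw [h]; rfl
    · intro h; exact Subtype.ext h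
  have hc := T.center_eq X Z W
  rw [← T.ker_eq_center X Z W, ← hk] at hc
  refine ⟨((T.psi X Z W).comp (chi D F).ker.subtype).codRestrict σ.ker (fun x => ?_), ?_⟩
  · rw [hc]; exact ⟨x, x.2, rfl⟩
  · rintro ⟨y, hy⟩
    have hy' := hy
    rw [hc] at hy'
    obtain ⟨x, hx, rfl⟩ := hy'
    exact ⟨⟨x, hx⟩, rfl⟩

theorem ker_one_of_cov [Finite F] {R : Rel D F} (X : RCX D) (Z : Lex X.rc)
    (W : StCert D X.rc.half) (C : Core D) {Γ : Type v} [Group Γ] {σ : Γ →* ↥(D.group F)}
    (S : Cov R Γ) (hS : S.θ = (D.group F).subtype.comp σ) (h1 : Nat.card (chi D F).ker = 1) :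
    ∀ z ∈ σ.ker, z = 1 := by
  intro z hz
  obtain ⟨φ, hφ⟩ := exists_surj_of_cov X Z W C S hS
  obtain ⟨x, hx⟩ := hφ ⟨z, hz⟩
  have hsub : Subsingleton (chi D F).ker := (Nat.card_eq_one_iff_unique.1 h1).1
  have h2 : x = 1 := Subsingleton.elim _ _
  rw [h2, map_one] at hx
  exact (congrArg Subtype.val hx).symm

/-- covers of `E₆`, `E₇`, `E₈` -/
theorem covE6 (R : Rel chevE6 F) {E : Type v} [Group E] {π : E →* ↥(chevE6.group F)} (hπ : CE π)
    (hperf : commutator E = ⊤) : ∃ S : Cov R E, S.θ = (chevE6.group F).subtype.comp π :=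
  exists_cov_sl R H22.PoinE6.rcxE6 H22.ChevLex.lexE6 slE6B hπ hperf dcE6 okE6
    (by decide) wdE6 wordsE6 chkE6 (fun s hs => by simp [exE6] at hs)

theorem covE7 (R : Rel chevE7 F) {E : Type v} [Group E] {π : E →* ↥(chevE7.group F)} (hπ : CE π)
    (hperf : commutator E = ⊤) : ∃ S : Cov R E, S.θ = (chevE7.group F).subtype.comp π :=
  exists_cov_sl R H22.PoinE7.rcxE7 H22.ChevLex.lexE7 slE7B hπ hperf dcE7 okE7
    (by decide) wdE7 wordsE7 chkE7 (fun s hs => by simp [exE7] at hs)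

theorem covE8 (R : Rel chevE8 F) {E : Type v} [Group E] {π : E →* ↥(chevE8.group F)} (hπ : CE π)
    (hperf : commutator E = ⊤) : ∃ S : Cov R E, S.θ = (chevE8.group F).subtype.comp π :=
  exists_cov_sl R H22.PoinE8.rcxE8 H22.ChevLex.lexE8 slE8B hπ hperf dcE8 okE8
    (by decide) wdE8 wordsE8 chkE8 (fun s hs => by simp [exE8] at hs)

theorem multE8 [Fintype F] : Cfsg.HasCyclicSchurMultiplier ↥(chevE8.group F) 1 := by
  refine H40.StemFinish.hasCyclic_one_of_ker ?_
  intro Γ _ _ σ hσ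
  have R := relE8 F
  obtain ⟨S, hS⟩ := covE8 R (ce_of_stem hσ) (perfect_of_stem hσ (H22.ChevSimple.perfE8 R))
  exact ker_one_of_cov H22.PoinE8.rcxE8 H22.ChevLex.lexE8 H22.StTab.certE8
    (H23.ChevAll.core _ (by simp)) S hS (H22.ChevTorusCard.kerE8 rfl)

end H40.Mult
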