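import Cfsg.Agent.Lib.H40.Ext6
import Cfsg.Agent.Lib.H40.Mult1

/-!
Covers of the groups of type `G₂`, `F₄`, `B₂`.
-/

set_option autoImplicit false

universe u v

namespace H40.Ext

open H22.St
open H22.RGD H22.Coord H22.RCCheck H22.RCComb H22.ChevTri H22.ChevRel H22.ChevSys H22.ChevMain
open H22.ChevStd H22.ChevSolv H22.ChevUni H22.RCPack
open H40.ChevAut
open Cfsg.Lie
open H23.ChevCore (Core)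
open scoped MatrixGroups Matrix commutatorElement

/-! ### facts on fields -/

theorem exists_eval_ne {F : Type*} [Field F] {n : ℕ} (h : ∃ s : Finset F, n < s.card)
    (p : Polynomial F) (hp : p ≠ 0) (hd : p.natDegree ≤ n) : ∃ x, p.eval x ≠ 0 := by
  by_contra hcon
  push Not at hcon
  obtain ⟨s, hs⟩ := h
  exact hp (Polynomial.eq_zero_of_natDegree_lt_card_of_eval_eq_zero' p s (fun i _ => hcon i)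
    (by omega))

theorem exists_pow_ne {F : Type*} [Field F] {n : ℕ} (h : ∃ s : Finset F, n < s.card) {b : ℕ}
    (hb : 1 ≤ b) (hn : b + 1 ≤ n) : ∃ c : F, c ≠ 0 ∧ c ^ b ≠ 1 := by
  open Polynomial in
  have hne : (X * (X ^ b - 1) : F[X]) ≠ 0 := by
    apply mul_ne_zero X_ne_zero
    exact (X_pow_sub_C_ne_zero (by omega) (1 : F))
  open Polynomial in
  have hdeg : (X * (X ^ b - 1) : F[X]).natDegree ≤ n := by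
    refine (natDegree_mul_le).trans ?_
    have h1 : (X : F[X]).natDegree = 1 := natDegree_X
    have h2 : (X ^ b - 1 : F[X]).natDegree = b := natDegree_X_pow_sub_C (r := (1 : F))
    rw [h1, h2]
    omega
  obtain ⟨x, hx⟩ := exists_eval_ne h _ hne hdeg
  rw [Polynomial.eval_mul, Polynomial.eval_X, Polynomial.eval_sub, Polynomial.eval_pow,
    Polynomial.eval_X, Polynomial.eval_one] at hx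
  exact ⟨x, left_ne_zero_of_mul hx, sub_ne_zero.1 (right_ne_zero_of_mul hx)⟩

theorem exists_zpow_ne {F : Type*} [Field F] {n : ℕ} (h : ∃ s : Finset F, n < s.card) {b : ℤ}
    (hb : b ≠ 0) (hn : b.natAbs + 1 ≤ n) : ∃ c : F, c ≠ 0 ∧ c ^ b ≠ 1 := by
  obtain ⟨c, hc, hc'⟩ := exists_pow_ne h (b := b.natAbs) (by omega) hn
  refine ⟨c, hc, fun h1 => hc' ?_⟩
  rcases Int.natAbs_eq b with h2 | h2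
  · rw [h2, zpow_natCast] at h1; exact h1
  · rw [h2, zpow_neg, zpow_natCast, inv_eq_one] at h1; exact h1

theorem exists_quad_ne {F : Type*} [Field F] (h : ∃ s : Finset F, 4 < s.card) :
    ∃ s : F, s ≠ 0 ∧ s + 1 ≠ 0 ∧ s ^ 2 + s + 1 ≠ 0 := by
  open Polynomial in
  have hdeg : (X * (X + C 1) * (X ^ 2 + X + C 1) : F[X]).natDegree ≤ 4 := by compute_degree
  open Polynomial in
  have hne : (X * (X + C 1) * (X ^ 2 + X + C 1) : F[X]) ≠ 0 := by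
    refine mul_ne_zero (mul_ne_zero X_ne_zero (X_add_C_ne_zero _)) ?_
    intro h0
    have h1 : (X ^ 2 + X + C 1 : F[X]).coeff 2 = 1 := by
      simp [coeff_X, coeff_one]
    rw [h0] at h1; simp at h1
  obtain ⟨x, hx⟩ := exists_eval_ne h _ hne hdeg
  simp only [Polynomial.eval_mul, Polynomial.eval_add, Polynomial.eval_X, Polynomial.eval_pow,
    Polynomial.eval_C] at hx
  exact ⟨x, left_ne_zero_of_mul (left_ne_zero_of_mul hx),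
    right_ne_zero_of_mul (left_ne_zero_of_mul hx), right_ne_zero_of_mul hx⟩

/-! ### tables -/

def tG2 : List (List ℕ) := [[0, 3, 4, 1, 0, 2, 2, 0, 1, 4, 3, 0], [3, 0, 3, 1, 0, 2, 2, 0, 1, 3,
  0, 3], [4, 3, 0, 1, 0, 2, 2, 0, 1, 0, 3, 4], [1, 1, 1, 0, 0, 1, 1, 0, 0, 1, 1, 1], [0, 0, 0, 0,
  0, 0, 0, 0, 0, 0, 0, 0], [2, 2, 2, 1, 0, 0, 0, 0, 1, 2, 2, 2], [2, 2, 2, 1, 0, 0, 0, 0, 1, 2, 2,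
  2], [0, 0, 0, 0, 0, 0, 0, 0, 0, 0, 0, 0], [1, 1, 1, 0, 0, 1, 1, 0, 0, 1, 1, 1], [4, 3, 0, 1, 0,
  2, 2, 0, 1, 0, 3, 4], [3, 0, 3, 1, 0, 2, 2, 0, 1, 3, 0, 3], [0, 3, 4, 1, 0, 2, 2, 0, 1, 4, 3,
  0]]

def oneG2 : List ℕ := [1, 0, 0, 0, 1, 0, 0, 1, 0, 0, 0, 1]

def tB2 : List (List ℕ) := [[0, 2, 1, 0, 0, 1, 2, 0], [2, 0, 1, 0, 0, 1, 0, 2], [1, 1, 0, 0, 0, 0,
  1, 1], [0, 0, 0, 0, 0, 0, 0, 0], [0, 0, 0, 0, 0, 0, 0, 0], [1, 1, 0, 0, 0, 0, 1, 1], [2, 0, 1,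
  0, 0, 1, 0, 2], [0, 2, 1, 0, 0, 1, 2, 0]]

def tB2t : List (List ℕ) := [[0, 3, 3, 0, 0, 3, 3, 0], [3, 0, 0, 0, 0, 0, 0, 3], [3, 0, 0, 0, 0,
  0, 0, 3], [0, 0, 0, 0, 0, 0, 0, 0], [0, 0, 0, 0, 0, 0, 0, 0], [3, 0, 0, 0, 0, 0, 0, 3], [3, 0,
  0, 0, 0, 0, 0, 3], [0, 3, 3, 0, 0, 3, 3, 0]]

def exB2 : List (ℕ × ℕ) := [(0, 3), (0, 4), (1, 2), (1, 5), (2, 1), (2, 6), (3, 0), (3, 7), (4,
  0), (4, 7), (5, 1), (5, 6), (6, 2), (6, 5), (7, 3), (7, 4)]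

def tF4 : List (List ℕ) := [[0, 5, 4, 6, 2, 1, 0, 4, 2, 1, 4, 1, 2, 1, 1, 2, 1, 0, 1, 2, 1, 1, 0,
  2, 2, 0, 1, 1, 2, 1, 0, 1, 2, 1, 1, 2, 1, 4, 1, 2, 4, 0, 1, 2, 6, 4, 5, 0], [5, 0, 4, 5, 2, 0,
  0, 4, 2, 4, 0, 2, 0, 0, 0, 2, 0, 0, 2, 0, 0, 0, 0, 2, 2, 0, 0, 0, 0, 2, 0, 0, 2, 0, 0, 0, 2, 0,
  4, 2, 4, 0, 0, 2, 5, 4, 0, 5], [4, 4, 0, 4, 0, 1, 0, 5, 4, 1, 0, 1, 0, 0, 0, 0, 1, 0, 1, 0, 0,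
  1, 0, 0, 0, 0, 1, 0, 0, 1, 0, 1, 0, 0, 0, 0, 1, 0, 1, 4, 5, 0, 1, 0, 4, 0, 4, 4], [6, 5, 4, 0,
  2, 1, 0, 4, 2, 1, 0, 1, 0, 0, 0, 2, 1, 0, 1, 0, 0, 1, 0, 2, 2, 0, 1, 0, 0, 1, 0, 1, 2, 0, 0, 0,
  1, 0, 1, 2, 4, 0, 1, 2, 0, 4, 5, 6], [2, 2, 0, 2, 0, 1, 0, 2, 5, 1, 0, 1, 0, 0, 0, 0, 1, 0, 1,
  0, 0, 1, 0, 0, 0, 0, 1, 0, 0, 1, 0, 1, 0, 0, 0, 0, 1, 0, 1, 5, 2, 0, 1, 0, 2, 0, 2, 2], [1, 0,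
  1, 1, 1, 0, 0, 1, 1, 4, 0, 2, 0, 0, 0, 1, 0, 0, 2, 0, 0, 0, 0, 1, 1, 0, 0, 0, 0, 2, 0, 0, 1, 0,
  0, 0, 2, 0, 4, 1, 1, 0, 0, 1, 1, 1, 0, 1], [0, 0, 0, 0, 0, 0, 0, 0, 0, 0, 4, 0, 2, 1, 1, 0, 0,
  0, 0, 2, 1, 0, 0, 0, 0, 0, 0, 1, 2, 0, 0, 0, 0, 1, 1, 2, 0, 4, 0, 0, 0, 0, 0, 0, 0, 0, 0, 0],
  [4, 4, 5, 4, 2, 1, 0, 0, 2, 1, 0, 1, 0, 0, 0, 2, 1, 0, 1, 0, 0, 1, 0, 2, 2, 0, 1, 0, 0, 1, 0, 1,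
  2, 0, 0, 0, 1, 0, 1, 2, 0, 0, 1, 2, 4, 5, 4, 4], [2, 2, 4, 2, 5, 1, 0, 2, 0, 1, 0, 1, 0, 0, 0,
  3, 1, 0, 1, 0, 0, 1, 0, 3, 3, 0, 1, 0, 0, 1, 0, 1, 3, 0, 0, 0, 1, 0, 1, 0, 2, 0, 1, 5, 2, 4, 2,
  2], [1, 4, 1, 1, 1, 4, 0, 1, 1, 0, 0, 2, 0, 0, 0, 1, 3, 0, 2, 0, 0, 3, 0, 1, 1, 0, 3, 0, 0, 2,
  0, 3, 1, 0, 0, 0, 2, 0, 0, 1, 1, 0, 4, 1, 1, 1, 4, 1], [4, 0, 0, 0, 0, 0, 4, 0, 0, 0, 0, 0, 2,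
  1, 1, 0, 0, 3, 0, 2, 1, 0, 3, 0, 0, 3, 0, 1, 2, 0, 3, 0, 0, 1, 1, 2, 0, 0, 0, 0, 0, 4, 0, 0, 0,
  0, 0, 4], [1, 2, 1, 1, 1, 2, 0, 1, 1, 2, 0, 0, 0, 0, 0, 1, 2, 0, 3, 0, 0, 2, 0, 1, 1, 0, 2, 0,
  0, 3, 0, 2, 1, 0, 0, 0, 0, 0, 2, 1, 1, 0, 2, 1, 1, 1, 2, 1], [2, 0, 0, 0, 0, 0, 2, 0, 0, 0, 2,
  0, 0, 1, 1, 0, 0, 2, 0, 3, 1, 0, 2, 0, 0, 2, 0, 1, 3, 0, 2, 0, 0, 1, 1, 0, 0, 2, 0, 0, 0, 2, 0,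
  0, 0, 0, 0, 2], [1, 0, 0, 0, 0, 0, 1, 0, 0, 0, 1, 0, 1, 0, 2, 0, 0, 1, 0, 1, 3, 0, 1, 0, 0, 1,
  0, 3, 1, 0, 1, 0, 0, 2, 0, 1, 0, 1, 0, 0, 0, 1, 0, 0, 0, 0, 0, 1], [1, 0, 0, 0, 0, 0, 1, 0, 0,
  0, 1, 0, 1, 2, 0, 0, 0, 1, 0, 1, 2, 0, 1, 0, 0, 1, 0, 2, 1, 0, 1, 0, 0, 0, 2, 1, 0, 1, 0, 0, 0,
  1, 0, 0, 0, 0, 0, 1], [2, 2, 0, 2, 0, 1, 0, 2, 3, 1, 0, 1, 0, 0, 0, 0, 1, 0, 1, 0, 0, 1, 0, 0,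
  0, 0, 1, 0, 0, 1, 0, 1, 0, 0, 0, 0, 1, 0, 1, 3, 2, 0, 1, 0, 2, 0, 2, 2], [1, 0, 1, 1, 1, 0, 0,
  1, 1, 3, 0, 2, 0, 0, 0, 1, 0, 0, 2, 0, 0, 0, 0, 1, 1, 0, 0, 0, 0, 2, 0, 0, 1, 0, 0, 0, 2, 0, 3,
  1, 1, 0, 0, 1, 1, 1, 0, 1], [0, 0, 0, 0, 0, 0, 0, 0, 0, 0, 3, 0, 2, 1, 1, 0, 0, 0, 0, 2, 1, 0,
  0, 0, 0, 0, 0, 1, 2, 0, 0, 0, 0, 1, 1, 2, 0, 3, 0, 0, 0, 0, 0, 0, 0, 0, 0, 0], [1, 2, 1, 1, 1,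
  2, 0, 1, 1, 2, 0, 3, 0, 0, 0, 1, 2, 0, 0, 0, 0, 2, 0, 1, 1, 0, 2, 0, 0, 0, 0, 2, 1, 0, 0, 0, 3,
  0, 2, 1, 1, 0, 2, 1, 1, 1, 2, 1], [2, 0, 0, 0, 0, 0, 2, 0, 0, 0, 2, 0, 3, 1, 1, 0, 0, 2, 0, 0,
  1, 0, 2, 0, 0, 2, 0, 1, 0, 0, 2, 0, 0, 1, 1, 3, 0, 2, 0, 0, 0, 2, 0, 0, 0, 0, 0, 2], [1, 0, 0,
  0, 0, 0, 1, 0, 0, 0, 1, 0, 1, 3, 2, 0, 0, 1, 0, 1, 0, 0, 1, 0, 0, 1, 0, 0, 1, 0, 1, 0, 0, 2, 3,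
  1, 0, 1, 0, 0, 0, 1, 0, 0, 0, 0, 0, 1], [1, 0, 1, 1, 1, 0, 0, 1, 1, 3, 0, 2, 0, 0, 0, 1, 0, 0,
  2, 0, 0, 0, 0, 1, 1, 0, 0, 0, 0, 2, 0, 0, 1, 0, 0, 0, 2, 0, 3, 1, 1, 0, 0, 1, 1, 1, 0, 1], [0,
  0, 0, 0, 0, 0, 0, 0, 0, 0, 3, 0, 2, 1, 1, 0, 0, 0, 0, 2, 1, 0, 0, 0, 0, 0, 0, 1, 2, 0, 0, 0, 0,
  1, 1, 2, 0, 3, 0, 0, 0, 0, 0, 0, 0, 0, 0, 0], [2, 2, 0, 2, 0, 1, 0, 2, 3, 1, 0, 1, 0, 0, 0, 0,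
  1, 0, 1, 0, 0, 1, 0, 0, 0, 0, 1, 0, 0, 1, 0, 1, 0, 0, 0, 0, 1, 0, 1, 3, 2, 0, 1, 0, 2, 0, 2, 2],
  [2, 2, 0, 2, 0, 1, 0, 2, 3, 1, 0, 1, 0, 0, 0, 0, 1, 0, 1, 0, 0, 1, 0, 0, 0, 0, 1, 0, 0, 1, 0, 1,
  0, 0, 0, 0, 1, 0, 1, 3, 2, 0, 1, 0, 2, 0, 2, 2], [0, 0, 0, 0, 0, 0, 0, 0, 0, 0, 3, 0, 2, 1, 1,
  0, 0, 0, 0, 2, 1, 0, 0, 0, 0, 0, 0, 1, 2, 0, 0, 0, 0, 1, 1, 2, 0, 3, 0, 0, 0, 0, 0, 0, 0, 0, 0,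
  0], [1, 0, 1, 1, 1, 0, 0, 1, 1, 3, 0, 2, 0, 0, 0, 1, 0, 0, 2, 0, 0, 0, 0, 1, 1, 0, 0, 0, 0, 2,
  0, 0, 1, 0, 0, 0, 2, 0, 3, 1, 1, 0, 0, 1, 1, 1, 0, 1], [1, 0, 0, 0, 0, 0, 1, 0, 0, 0, 1, 0, 1,
  3, 2, 0, 0, 1, 0, 1, 0, 0, 1, 0, 0, 1, 0, 0, 1, 0, 1, 0, 0, 2, 3, 1, 0, 1, 0, 0, 0, 1, 0, 0, 0,
  0, 0, 1], [2, 0, 0, 0, 0, 0, 2, 0, 0, 0, 2, 0, 3, 1, 1, 0, 0, 2, 0, 0, 1, 0, 2, 0, 0, 2, 0, 1,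
  0, 0, 2, 0, 0, 1, 1, 3, 0, 2, 0, 0, 0, 2, 0, 0, 0, 0, 0, 2], [1, 2, 1, 1, 1, 2, 0, 1, 1, 2, 0,
  3, 0, 0, 0, 1, 2, 0, 0, 0, 0, 2, 0, 1, 1, 0, 2, 0, 0, 0, 0, 2, 1, 0, 0, 0, 3, 0, 2, 1, 1, 0, 2,
  1, 1, 1, 2, 1], [0, 0, 0, 0, 0, 0, 0, 0, 0, 0, 3, 0, 2, 1, 1, 0, 0, 0, 0, 2, 1, 0, 0, 0, 0, 0,
  0, 1, 2, 0, 0, 0, 0, 1, 1, 2, 0, 3, 0, 0, 0, 0, 0, 0, 0, 0, 0, 0], [1, 0, 1, 1, 1, 0, 0, 1, 1,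
  3, 0, 2, 0, 0, 0, 1, 0, 0, 2, 0, 0, 0, 0, 1, 1, 0, 0, 0, 0, 2, 0, 0, 1, 0, 0, 0, 2, 0, 3, 1, 1,
  0, 0, 1, 1, 1, 0, 1], [2, 2, 0, 2, 0, 1, 0, 2, 3, 1, 0, 1, 0, 0, 0, 0, 1, 0, 1, 0, 0, 1, 0, 0,
  0, 0, 1, 0, 0, 1, 0, 1, 0, 0, 0, 0, 1, 0, 1, 3, 2, 0, 1, 0, 2, 0, 2, 2], [1, 0, 0, 0, 0, 0, 1,
  0, 0, 0, 1, 0, 1, 2, 0, 0, 0, 1, 0, 1, 2, 0, 1, 0, 0, 1, 0, 2, 1, 0, 1, 0, 0, 0, 2, 1, 0, 1, 0,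
  0, 0, 1, 0, 0, 0, 0, 0, 1], [1, 0, 0, 0, 0, 0, 1, 0, 0, 0, 1, 0, 1, 0, 2, 0, 0, 1, 0, 1, 3, 0,
  1, 0, 0, 1, 0, 3, 1, 0, 1, 0, 0, 2, 0, 1, 0, 1, 0, 0, 0, 1, 0, 0, 0, 0, 0, 1], [2, 0, 0, 0, 0,
  0, 2, 0, 0, 0, 2, 0, 0, 1, 1, 0, 0, 2, 0, 3, 1, 0, 2, 0, 0, 2, 0, 1, 3, 0, 2, 0, 0, 1, 1, 0, 0,
  2, 0, 0, 0, 2, 0, 0, 0, 0, 0, 2], [1, 2, 1, 1, 1, 2, 0, 1, 1, 2, 0, 0, 0, 0, 0, 1, 2, 0, 3, 0,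
  0, 2, 0, 1, 1, 0, 2, 0, 0, 3, 0, 2, 1, 0, 0, 0, 0, 0, 2, 1, 1, 0, 2, 1, 1, 1, 2, 1], [4, 0, 0,
  0, 0, 0, 4, 0, 0, 0, 0, 0, 2, 1, 1, 0, 0, 3, 0, 2, 1, 0, 3, 0, 0, 3, 0, 1, 2, 0, 3, 0, 0, 1, 1,
  2, 0, 0, 0, 0, 0, 4, 0, 0, 0, 0, 0, 4], [1, 4, 1, 1, 1, 4, 0, 1, 1, 0, 0, 2, 0, 0, 0, 1, 3, 0,
  2, 0, 0, 3, 0, 1, 1, 0, 3, 0, 0, 2, 0, 3, 1, 0, 0, 0, 2, 0, 0, 1, 1, 0, 4, 1, 1, 1, 4, 1], [2,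
  2, 4, 2, 5, 1, 0, 2, 0, 1, 0, 1, 0, 0, 0, 3, 1, 0, 1, 0, 0, 1, 0, 3, 3, 0, 1, 0, 0, 1, 0, 1, 3,
  0, 0, 0, 1, 0, 1, 0, 2, 0, 1, 5, 2, 4, 2, 2], [4, 4, 5, 4, 2, 1, 0, 0, 2, 1, 0, 1, 0, 0, 0, 2,
  1, 0, 1, 0, 0, 1, 0, 2, 2, 0, 1, 0, 0, 1, 0, 1, 2, 0, 0, 0, 1, 0, 1, 2, 0, 0, 1, 2, 4, 5, 4, 4],
  [0, 0, 0, 0, 0, 0, 0, 0, 0, 0, 4, 0, 2, 1, 1, 0, 0, 0, 0, 2, 1, 0, 0, 0, 0, 0, 0, 1, 2, 0, 0, 0,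
  0, 1, 1, 2, 0, 4, 0, 0, 0, 0, 0, 0, 0, 0, 0, 0], [1, 0, 1, 1, 1, 0, 0, 1, 1, 4, 0, 2, 0, 0, 0,
  1, 0, 0, 2, 0, 0, 0, 0, 1, 1, 0, 0, 0, 0, 2, 0, 0, 1, 0, 0, 0, 2, 0, 4, 1, 1, 0, 0, 1, 1, 1, 0,
  1], [2, 2, 0, 2, 0, 1, 0, 2, 5, 1, 0, 1, 0, 0, 0, 0, 1, 0, 1, 0, 0, 1, 0, 0, 0, 0, 1, 0, 0, 1,
  0, 1, 0, 0, 0, 0, 1, 0, 1, 5, 2, 0, 1, 0, 2, 0, 2, 2], [6, 5, 4, 0, 2, 1, 0, 4, 2, 1, 0, 1, 0,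
  0, 0, 2, 1, 0, 1, 0, 0, 1, 0, 2, 2, 0, 1, 0, 0, 1, 0, 1, 2, 0, 0, 0, 1, 0, 1, 2, 4, 0, 1, 2, 0,
  4, 5, 6], [4, 4, 0, 4, 0, 1, 0, 5, 4, 1, 0, 1, 0, 0, 0, 0, 1, 0, 1, 0, 0, 1, 0, 0, 0, 0, 1, 0,
  0, 1, 0, 1, 0, 0, 0, 0, 1, 0, 1, 4, 5, 0, 1, 0, 4, 0, 4, 4], [5, 0, 4, 5, 2, 0, 0, 4, 2, 4, 0,
  2, 0, 0, 0, 2, 0, 0, 2, 0, 0, 0, 0, 2, 2, 0, 0, 0, 0, 2, 0, 0, 2, 0, 0, 0, 2, 0, 4, 2, 4, 0, 0,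
  2, 5, 4, 0, 5], [0, 5, 4, 6, 2, 1, 0, 4, 2, 1, 4, 1, 2, 1, 1, 2, 1, 0, 1, 2, 1, 1, 0, 2, 2, 0,
  1, 1, 2, 1, 0, 1, 2, 1, 1, 2, 1, 4, 1, 2, 4, 0, 1, 2, 6, 4, 5, 0]]

def exF4 : List (ℕ × ℕ) := [(0, 6), (0, 17), (0, 22), (0, 25), (0, 30), (0, 41), (1, 5), (1, 16),
  (1, 21), (1, 26), (1, 31), (1, 42), (2, 4), (2, 15), (2, 23), (2, 24), (2, 32), (2, 43), (4, 2),
  (4, 15), (4, 23), (4, 24), (4, 32), (4, 45), (5, 1), (5, 16), (5, 21), (5, 26), (5, 31), (5,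
  46), (6, 0), (6, 17), (6, 22), (6, 25), (6, 30), (6, 47), (15, 2), (15, 4), (15, 23), (15, 24),
  (15, 43), (15, 45), (16, 1), (16, 5), (16, 21), (16, 26), (16, 42), (16, 46), (17, 0), (17, 6),
  (17, 22), (17, 25), (17, 41), (17, 47), (21, 1), (21, 5), (21, 16), (21, 31), (21, 42), (21,
  46), (22, 0), (22, 6), (22, 17), (22, 30), (22, 41), (22, 47), (23, 2), (23, 4), (23, 15), (23,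
  32), (23, 43), (23, 45), (24, 2), (24, 4), (24, 15), (24, 32), (24, 43), (24, 45), (25, 0), (25,
  6), (25, 17), (25, 30), (25, 41), (25, 47), (26, 1), (26, 5), (26, 16), (26, 31), (26, 42), (26,
  46), (30, 0), (30, 6), (30, 22), (30, 25), (30, 41), (30, 47), (31, 1), (31, 5), (31, 21), (31,
  26), (31, 42), (31, 46), (32, 2), (32, 4), (32, 23), (32, 24), (32, 43), (32, 45), (41, 0), (41,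
  17), (41, 22), (41, 25), (41, 30), (41, 47), (42, 1), (42, 16), (42, 21), (42, 26), (42, 31),
  (42, 46), (43, 2), (43, 15), (43, 23), (43, 24), (43, 32), (43, 45), (45, 4), (45, 15), (45,
  23), (45, 24), (45, 32), (45, 43), (46, 5), (46, 16), (46, 21), (46, 26), (46, 31), (46, 42),
  (47, 6), (47, 17), (47, 22), (47, 25), (47, 30), (47, 41)]

def oneF4 : List ℕ := [1, 0, 0, 0, 0, 0, 1, 0, 0, 0, 1, 0, 1, 2, 3, 0, 0, 1, 0, 1, 2, 0, 1, 0, 0,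
  1, 0, 2, 1, 0, 1, 0, 0, 3, 2, 1, 0, 1, 0, 0, 0, 1, 0, 0, 0, 0, 0, 1]

def selfF4 : List (ℕ × ℕ) := [(1, 23), (0, 24), (0, 26), (7, 14), (0, 31), (0, 32), (1, 32), (3,
  33), (3, 34), (3, 35), (3, 36), (3, 37), (3, 38), (3, 39), (3, 40), (0, 42), (0, 43), (1, 43),
  (7, 37), (7, 38), (7, 39), (0, 45), (1, 45), (0, 46), (1, 47), (2, 46), (2, 47), (8, 40), (9,
  40), (10, 40), (4, 46), (4, 47), (5, 47), (7, 44), (8, 44), (9, 44), (10, 44), (11, 44), (12,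
  44), (13, 44), (14, 44), (15, 46), (15, 47), (16, 47), (33, 40), (21, 47), (23, 47), (24, 46)]

def orthF4 : List ((ℕ × ℕ) × ℕ × ℕ × ℕ) := [((0, 6), 10, 14, 0), ((0, 17), 10, 33, 0), ((0, 22),
  12, 34, 0), ((0, 25), 13, 35, 0), ((0, 30), 14, 37, 0), ((0, 41), 33, 37, 0), ((1, 5), 9, 14,
  1), ((1, 16), 9, 33, 1), ((1, 21), 11, 34, 1), ((1, 26), 13, 36, 1), ((1, 31), 14, 38, 1), ((1,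
  42), 33, 38, 1), ((2, 4), 8, 14, 2), ((2, 15), 8, 33, 2), ((2, 23), 11, 35, 2), ((2, 24), 12,
  36, 2), ((2, 32), 14, 39, 2), ((2, 43), 33, 39, 2), ((4, 2), 7, 13, 2), ((4, 15), 7, 34, 3),
  ((4, 23), 9, 37, 3), ((4, 24), 10, 38, 3), ((4, 32), 13, 40, 3), ((4, 45), 34, 40, 2), ((5, 1),
  7, 12, 1), ((5, 16), 7, 35, 3), ((5, 21), 8, 37, 3), ((5, 26), 10, 39, 3), ((5, 31), 12, 40, 3),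
  ((5, 46), 35, 40, 1), ((6, 0), 7, 11, 0), ((6, 17), 7, 36, 3), ((6, 22), 8, 38, 3), ((6, 25), 9,
  39, 3), ((6, 30), 11, 40, 3), ((6, 47), 36, 40, 0), ((15, 2), 3, 20, 2), ((15, 4), 3, 27, 3),
  ((15, 23), 9, 37, 7), ((15, 24), 10, 38, 7), ((15, 43), 20, 44, 3), ((15, 45), 27, 44, 2), ((16,
  1), 3, 19, 1), ((16, 5), 3, 28, 3), ((16, 21), 8, 37, 7), ((16, 26), 10, 39, 7), ((16, 42), 19,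
  44, 3), ((16, 46), 28, 44, 1), ((17, 0), 3, 18, 0), ((17, 6), 3, 29, 3), ((17, 22), 8, 38, 7),
  ((17, 25), 9, 39, 7), ((17, 41), 18, 44, 3), ((17, 47), 29, 44, 0), ((21, 1), 3, 19, 1), ((21,
  5), 3, 28, 3), ((21, 16), 7, 35, 7), ((21, 31), 12, 40, 7), ((21, 42), 19, 44, 3), ((21, 46),
  28, 44, 1), ((22, 0), 3, 18, 0), ((22, 6), 3, 29, 3), ((22, 17), 7, 36, 7), ((22, 30), 11, 40,
  7), ((22, 41), 18, 44, 3), ((22, 47), 29, 44, 0), ((23, 2), 3, 20, 2), ((23, 4), 3, 27, 3),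
  ((23, 15), 7, 34, 7), ((23, 32), 13, 40, 7), ((23, 43), 20, 44, 3), ((23, 45), 27, 44, 2), ((24,
  2), 3, 20, 2), ((24, 4), 3, 27, 3), ((24, 15), 7, 34, 7), ((24, 32), 13, 40, 7), ((24, 43), 20,
  44, 3), ((24, 45), 27, 44, 2), ((25, 0), 3, 18, 0), ((25, 6), 3, 29, 3), ((25, 17), 7, 36, 7),
  ((25, 30), 11, 40, 7), ((25, 41), 18, 44, 3), ((25, 47), 29, 44, 0), ((26, 1), 3, 19, 1), ((26,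
  5), 3, 28, 3), ((26, 16), 7, 35, 7), ((26, 31), 12, 40, 7), ((26, 42), 19, 44, 3), ((26, 46),
  28, 44, 1), ((30, 0), 3, 18, 0), ((30, 6), 3, 29, 3), ((30, 22), 8, 38, 7), ((30, 25), 9, 39,
  7), ((30, 41), 18, 44, 3), ((30, 47), 29, 44, 0), ((31, 1), 3, 19, 1), ((31, 5), 3, 28, 3),
  ((31, 21), 8, 37, 7), ((31, 26), 10, 39, 7), ((31, 42), 19, 44, 3), ((31, 46), 28, 44, 1), ((32,
  2), 3, 20, 2), ((32, 4), 3, 27, 3), ((32, 23), 9, 37, 7), ((32, 24), 10, 38, 7), ((32, 43), 20,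
  44, 3), ((32, 45), 27, 44, 2), ((41, 0), 7, 11, 0), ((41, 17), 7, 36, 3), ((41, 22), 8, 38, 3),
  ((41, 25), 9, 39, 3), ((41, 30), 11, 40, 3), ((41, 47), 36, 40, 0), ((42, 1), 7, 12, 1), ((42,
  16), 7, 35, 3), ((42, 21), 8, 37, 3), ((42, 26), 10, 39, 3), ((42, 31), 12, 40, 3), ((42, 46),
  35, 40, 1), ((43, 2), 7, 13, 2), ((43, 15), 7, 34, 3), ((43, 23), 9, 37, 3), ((43, 24), 10, 38,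
  3), ((43, 32), 13, 40, 3), ((43, 45), 34, 40, 2), ((45, 4), 8, 14, 2), ((45, 15), 8, 33, 2),
  ((45, 23), 11, 35, 2), ((45, 24), 12, 36, 2), ((45, 32), 14, 39, 2), ((45, 43), 33, 39, 2),
  ((46, 5), 9, 14, 1), ((46, 16), 9, 33, 1), ((46, 21), 11, 34, 1), ((46, 26), 13, 36, 1), ((46,
  31), 14, 38, 1), ((46, 42), 33, 38, 1), ((47, 6), 10, 14, 0), ((47, 17), 10, 33, 0), ((47, 22),
  12, 34, 0), ((47, 25), 13, 35, 0), ((47, 30), 14, 37, 0), ((47, 41), 33, 37, 0)]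

theorem tG2_ok : pairsB chevG2 [1, -1, 2, -2, 3, -3] [] tG2 = true := by decide +kernel
theorem oneG2_ok : oneB chevG2 oneG2 = true := by decide +kernel
theorem tB2_ok : pairsB chevB2 [1, -1, 2, -2] [] tB2 = true := by decide +kernel
theorem tB2t_ok : pairsB chevB2 [1, -1] exB2 tB2t = true := by decide +kernel
theorem tF4_ok : pairsB chevF4 [1, -1] exF4 tF4 = true := by decide +kernel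
theorem oneF4_ok : oneB chevF4 oneF4 = true := by decide +kernel
theorem selfF4_ok : selfB chevF4 selfF4 = true := by decide +kernel

theorem orthF4_ok : (exF4.all fun p => orthF4.any fun q => (q.1 == p)) = true := by decide +kernel

theorem orthF4_ok' : (orthF4.all fun q => orthB chevF4 q.1.1 q.1.2 q.2.1 q.2.2.1 &&
    pairB chevF4 [2, -2] q.2.2.2 q.1.1 q.1.2) = true := by decide +kernel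

/-! ### the covers -/

section

variable {F : Type u} [Field F]

open H40.StCov in
/-- covers of `G₂`, more than four elements -/
theorem covG2 (h5 : ∃ s : Finset F, 4 < s.card) (R : Rel chevG2 F) {E : Type v} [Group E]
    {π : E →* ↥(chevG2.group F)} (hπ : CE π) (hperf : commutator E = ⊤) :
    ∃ S : Cov R E, S.θ = (chevG2.group F).subtype.comp π := by
  have C : Core chevG2 := H23.ChevAll.core _ (by simp)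
  have hbs : ∀ b ∈ ([1, -1, 2, -2, 3, -3] : List ℤ), ∃ c : F, c ≠ 0 ∧ c ^ b ≠ 1 := by
    intro b hb
    simp only [List.mem_cons, List.not_mem_nil, or_false] at hb
    apply exists_zpow_ne h5
    · rcases hb with rfl | rfl | rfl | rfl | rfl | rfl <;> decide
    · rcases hb with rfl | rfl | rfl | rfl | rfl | rfl <;> decide
  have hchar : ∀ r : Fin chevG2.nroots, ∀ c : F, c ≠ 0 → ∃ h χ, TorEl R h χ ∧ χ r = c := by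
    intro r c hc
    obtain ⟨γ, hγ⟩ := oneB_spec oneG2_ok r
    exact char_of_one R H22.PoinG2.rcxG2 C hγ c hc
  obtain ⟨S⟩ := exists_pre (R := R) H22.PoinG2.rcxG2 hπ (fun r => by
    obtain ⟨c, hc, hc1⟩ := hbs 1 (by simp)
    obtain ⟨h, χ, h1, h2⟩ := hchar r c hc
    exact ⟨h, χ, h1, by rw [h2]; simpa using hc1⟩)
    (fun r => zc_self_of_char H22.PoinG2.rcxG2 hπ r (hchar r) (exists_quad_ne h5))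
  exact S.exists_cov H22.PoinG2.rcxG2 H22.ChevLex.lexG2 hπ hperf
    (pairs_of_cert H22.PoinG2.rcxG2 C hπ S hbs tG2_ok (fun p hp => by simp at hp))

open H40.StCov in
/-- covers of `F₄`, more than two elements -/
theorem covF4 (h3 : ∃ s : Finset F, 2 < s.card) (R : Rel chevF4 F) {E : Type v} [Group E]
    {π : E →* ↥(chevF4.group F)} (hπ : CE π) (hperf : commutator E = ⊤) :
    ∃ S : Cov R E, S.θ = (chevF4.group F).subtype.comp π := by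
  have C : Core chevF4 := H23.ChevAll.core _ (by simp)
  have hbs : ∀ b ∈ ([1, -1] : List ℤ), ∃ c : F, c ≠ 0 ∧ c ^ b ≠ 1 := by
    intro b hb
    simp only [List.mem_cons, List.not_mem_nil, or_false] at hb
    apply exists_zpow_ne h3
    · rcases hb with rfl | rfl <;> decide
    · rcases hb with rfl | rfl <;> decide
  obtain ⟨S⟩ := exists_pre (R := R) H22.PoinF4.rcxF4 hπ (fun r => by
    obtain ⟨c, hc, hc1⟩ := hbs 1 (by simp)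
    obtain ⟨γ, hγ⟩ := oneB_spec oneF4_ok r
    obtain ⟨h, χ, h1, h2⟩ := char_of_one R H22.PoinF4.rcxF4 C hγ c hc
    exact ⟨h, χ, h1, by rw [h2]; simpa using hc1⟩)
    (fun r => zc_self_of_selfB R H22.PoinF4.rcxF4 hπ selfF4_ok r)
  refine S.exists_cov H22.PoinF4.rcxF4 H22.ChevLex.lexF4 hπ hperf
    (pairs_of_cert H22.PoinF4.rcxF4 C hπ S hbs tF4_ok (fun p hp _ _ => ?_))
  have h1 := orthF4_ok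
  rw [List.all_eq_true] at h1
  have h2 := h1 p hp
  rw [List.any_eq_true] at h2
  obtain ⟨q, hq, hqp⟩ := h2
  rw [beq_iff_eq] at hqp
  have h4 := orthF4_ok'
  rw [List.all_eq_true] at h4
  have h5 := h4 q hq
  rw [Bool.and_eq_true, hqp] at h5
  by_cases h6 : (2 : F) = 0
  · left
    refine kill_of_pairB R H22.PoinF4.rcxF4 C hπ (bs := [2, -2]) ?_ h5.2
    -- characteristic 2: a third nonzero element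
    obtain ⟨c, hc, hc1⟩ := hbs 1 (by simp)
    rw [zpow_one] at hc1
    have h7 : c ^ 2 ≠ 1 := by
      intro h8
      have h9 : (c - 1) ^ 2 = 0 := by
        have : (c - 1) ^ 2 = c ^ 2 - 1 - 2 * (c - 1) := by ring
        rw [this, h8, h6]; ring
      exact hc1 (sub_eq_zero.1 (pow_eq_zero_iff (two_ne_zero) |>.1 h9))
    intro b hb
    simp only [List.mem_cons, List.not_mem_nil, or_false] at hb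
    refine ⟨c, hc, ?_⟩
    rcases hb with rfl | rfl
    · exact_mod_cast h7
    · rw [zpow_neg, Ne, inv_eq_one]; exact_mod_cast h7
  · right
    exact relH_of_orthB H22.PoinF4.rcxF4 hπ S h6 h5.1

/-- two-term commutator relations -/
theorem xe_comm_two {D : ChevalleyDatum} (R : Rel D F) (X : RCX D) {r s c k : Fin D.nroots}
    (h1 : s ≠ r) (h2 : s ≠ (comb X).neg r) {e₁ e₂ : ℤ} {i₁ j₁ i₂ j₂ : ℕ}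
    (h : D.commTerms r s = [((c : ℕ), e₁, i₁, j₁), ((k : ℕ), e₂, i₂, j₂)]) (t u : F) :
    ⁅xe R s u, xe R r t⁆ = xe R c (e₁ * t ^ i₁ * (-u) ^ j₁) * xe R k (e₂ * t ^ i₂ * (-u) ^ j₂) := by
  apply Subtype.ext
  rw [← commutatorElement_inv, Subgroup.coe_inv, xe_comm R X r s h1 h2, inv_inv]
  unfold ChevalleyDatum.commWord
  rw [h]
  simp only [List.map_cons, List.map_nil, wg, List.prod_cons, List.prod_nil, mul_one,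
    Subgroup.coe_mul, xe_val, _root_.neg_neg]

/-- self-commuting root elements from simple roots -/
theorem zc_self_of_simple {D : ChevalleyDatum} {R : Rel D F} (X : RCX D) {E : Type*} [Group E]
    {π : E →* ↥(D.group F)} (hπ : CE π)
    (h : ∀ i, (rf R X).ZC hπ ((comb X).simple i) ((comb X).simple i)) (k : Fin D.nroots) :
    (rf R X).ZC hπ k k := by
  obtain ⟨L, i, hL⟩ := exists_simple_conj X k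
  obtain ⟨g, ε, hw⟩ := exists_wact R X L
  rw [← hL]
  exact (h i).conj hw

end

end H40.Ext
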