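import Cfsg.Agent.Lib.H40.Ext6
import Cfsg.Agent.Lib.H23.LiftApp
import Cfsg.Agent.Lib.H69.SchurUniv
import Cfsg.Agent.Lib.H69.SchurPerfect

/-!
Extensions whose centre has no `p`-torsion; projective representations of Chevalley groups in the defining characteristic.
-/

set_option autoImplicit false

namespace H40.Ext

open H22.St
open H22.RGD H22.Coord H22.RCCheck H22.RCComb H22.ChevTri H22.ChevRel H22.ChevSys H22.ChevMain
open H22.ChevStd H22.ChevSolv H22.ChevUni H22.RCPack
open H40.ChevAut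
open Cfsg.Lie (ChevalleyDatum)
open H23.ChevCore (Core)
open scoped MatrixGroups Matrix commutatorElement

variable {D : ChevalleyDatum} {F : Type*} [Field F]

/-- lifts of elements of order `p` are unique -/
theorem lift_unique {G E : Type*} [Group G] [Group E] {π : E →* G} (hπ : CE π) {p : ℕ}
    (htor : ∀ z ∈ Subgroup.center E, z ^ p = 1 → z = 1) {a b : E} (h : π a = π b) (ha : a ^ p = 1)
    (hb : b ^ p = 1) : a = b := by
  obtain ⟨z, hz, rfl⟩ := hπ.exists_central h
  have h1 : Commute b z := Subgroup.mem_center_iff.1 hz b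
  rw [h1.mul_pow, hb, one_mul] at ha
  rw [htor z hz ha, mul_one]

/-- prelifts when the centre has no `p`-torsion -/
theorem exists_pre_p {R : Rel D F} {E : Type*} [Group E] {π : E →* ↥(D.group F)}
    (hπ : CE π) {p : ℕ} (htor : ∀ z ∈ Subgroup.center E, z ^ p = 1 → z = 1)
    (hl : ∀ (r : Fin D.nroots) (t : F), ∃ y : E, π y = xe R r t ∧ y ^ p = 1) : Nonempty (Pre R π) := by
  choose y hy hyp using hl
  set Y : ℕ → F → E := fun r t => if h : r < D.nroots then y ⟨r, h⟩ t else 1 with hY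
  have hY' : ∀ (r : ℕ) (h : r < D.nroots) t, Y r t = y ⟨r, h⟩ t := by
    intro r h t; rw [hY]; simp only; rw [dif_pos h]
  have hconj : ∀ (e : E) (r : Fin D.nroots) (t u : F), π e * xe R r t * (π e)⁻¹ = xe R r u →
      e * y r t * e⁻¹ = y r u := by
    intro e r t u h
    apply lift_unique hπ htor
    · rw [map_mul, map_mul, map_inv, hy, hy, h]
    · rw [conj_pow, hyp, mul_one, mul_inv_cancel]
    · exact hyp _ _
  refine ⟨⟨Y, ?_, ?_, ?_⟩⟩
  · intro r hr t u
    rw [hY' r hr, hY' r hr, hY' r hr]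
    have h1 : Commute (y ⟨r, hr⟩ t) (y ⟨r, hr⟩ u) := by
      have h2 := hconj (y ⟨r, hr⟩ t) ⟨r, hr⟩ u u (by
        rw [hy, xe_mul, xe_inv, xe_mul]; congr 1; ring)
      rw [mul_inv_eq_iff_eq_mul] at h2
      exact h2
    apply lift_unique hπ htor
    · rw [map_mul, hy, hy, hy, xe_mul]
    · rw [h1.mul_pow, hyp, hyp, mul_one]
    · exact hyp _ _
  · intro r t; rw [hY' r r.2]; exact hy _ _
  · intro e ψ hψ r hr t
    rw [hY' r hr, hY' r hr]
    exact hconj e _ _ _ (hψ.act _ _)

theorem pairs_p {R : Rel D F} {E : Type*} [Group E] {π : E →* ↥(D.group F)} (S : Pre R π) {p : ℕ}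
    [CharP F p] (htor : ∀ z ∈ Subgroup.center E, z ^ p = 1 → z = 1) : S.Pairs := by
  intro r _ s _ _ _
  left
  intro f hf fl fr' _ t u
  have f0 : f t 0 = 1 := by
    have := fr' t 0 0
    rw [add_zero] at this
    exact mul_eq_left.1 this.symm
  have h1 : ∀ n : ℕ, f t (n * u) = f t u ^ n := by
    intro n
    induction n with
    | zero => rw [Nat.cast_zero, zero_mul, f0, pow_zero]
    | succ n ih => rw [Nat.cast_succ, add_mul, one_mul, fr', ih, pow_succ]
  apply htor _ (hf t u)
  rw [← h1, CharP.cast_eq_zero, zero_mul, f0]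

/-- lifts of the root elements when the kernel is finite without `p`-torsion -/
theorem exists_lift_p {G E : Type*} [Group G] [Group E] [Finite E] {π : E →* G} (hπ : CE π) {p : ℕ}
    (hp : p.Prime) (htor : ∀ z ∈ Subgroup.center E, z ^ p = 1 → z = 1) {x : G} (hx : x ^ p = 1) :
    ∃ y : E, π y = x ∧ y ^ p = 1 := by
  obtain ⟨e, rfl⟩ := hπ.surj x
  have hz : e ^ p ∈ Subgroup.center E := hπ.cen (by rw [MonoidHom.mem_ker, map_pow, hx])
  have hcop : (orderOf (e ^ p)).Coprime p := by
    rw [Nat.coprime_comm, hp.coprime_iff_not_dvd]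
    intro hdvd
    obtain ⟨m, hm⟩ := hdvd
    have hpos : 0 < orderOf (e ^ p) := orderOf_pos _
    have h1 : (e ^ p) ^ m = 1 := htor _ (Subgroup.pow_mem _ hz _) (by
      rw [← pow_mul, mul_comm m p, ← hm, pow_orderOf_eq_one])
    have h2 : orderOf (e ^ p) ∣ m := orderOf_dvd_of_pow_eq_one h1
    have h3 : 0 < m := by
      rcases Nat.eq_zero_or_pos m with h | h
      · rw [h, mul_zero] at hm; omega
      · exact h
    have h4 := Nat.le_of_dvd h3 h2
    have h5 := hp.two_le
    nlinarith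
  -- Bezout
  obtain ⟨k, hk⟩ : ∃ k : ℤ, (e ^ p) ^ ((p : ℤ) * k) = e ^ p := by
    have h1 := Nat.gcd_eq_gcd_ab p (orderOf (e ^ p))
    rw [Nat.coprime_comm.1 hcop] at h1
    refine ⟨Nat.gcdA p (orderOf (e ^ p)), ?_⟩
    have h2 : (p : ℤ) * Nat.gcdA p (orderOf (e ^ p)) =
        1 - (orderOf (e ^ p) : ℤ) * Nat.gcdB p (orderOf (e ^ p)) := by
      rw [eq_sub_iff_add_eq]; exact_mod_cast h1.symm
    rw [h2, zpow_sub, zpow_one, zpow_mul, zpow_natCast, pow_orderOf_eq_one, one_zpow, inv_one,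
      mul_one]
  refine ⟨e * ((e ^ p) ^ k)⁻¹, ?_, ?_⟩
  · rw [map_mul, map_inv, map_zpow, map_pow, hx, one_zpow, inv_one, mul_one]
  · have h1 : Commute e ((e ^ p) ^ k)⁻¹ :=
      ((Commute.refl e).pow_right p |>.zpow_right k).inv_right
    rw [h1.mul_pow, inv_pow, ← zpow_natCast ((e ^ p) ^ k) p, ← zpow_mul, mul_comm k, hk,
      mul_inv_cancel]

/-- homomorphisms from a perfect group agreeing modulo the centre are equal -/
theorem hom_eq_of_perf {A B : Type*} [Group A] [Group B] (hA : commutator A = ⊤) {f g : A →* B}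
    (h : ∀ a, (g a)⁻¹ * f a ∈ Subgroup.center B) : f = g := by
  have h1 : ∀ a, ∃ z ∈ Subgroup.center B, f a = g a * z := fun a => ⟨_, h a, by simp⟩
  have h2 : commutator A ≤ f.eqLocus g := by
    rw [commutator_def, Subgroup.commutator_le]
    intro a _ b _
    show f ⁅a, b⁆ = g ⁅a, b⁆
    obtain ⟨z, hz, h3⟩ := h1 a
    obtain ⟨w, hw, h4⟩ := h1 b
    rw [map_commutatorElement, map_commutatorElement, h3, h4, CE.comm_mul_central hz hw]
  ext a
  have : a ∈ commutator A := by rw [hA]; exact Subgroup.mem_top a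
  exact h2 this

/-- a perfect central extension contained in the pullback, with its lifts, over small fields -/
theorem lift_small [Finite F] {D : ChevalleyDatum} (hD : D ∈ [Cfsg.Lie.chevG2, Cfsg.Lie.chevB2,
    Cfsg.Lie.chevD4, Cfsg.Lie.chevF4, Cfsg.Lie.chevE6, Cfsg.Lie.chevE7, Cfsg.Lie.chevE8])
    (hperf : commutator ↥(D.group F) = ⊤) {E : Type*} [Group E] {π : E →* ↥(D.group F)} (hπ : CE π)
    {p : ℕ} (hp : p.Prime) [CharP F p] (htor : ∀ z ∈ π.ker, z ^ p = 1 → z = 1)
    (hcen : ∀ z ∈ Subgroup.center ↥(D.group F), z = 1) (R : Rel D F) :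
    ∃ φ : D.SteinbergCover F →* E, ∀ r < D.nroots, ∀ t,
      ((π (φ (D.scGen F r t)) : ↥(D.group F)) : GL D.Idx F) = xg R r t := by
  obtain ⟨X, ⟨Z⟩, W⟩ := H22.StTab.exists_all hD
  have hfin : Finite (commutator E) := H69.SchurUniv.finite_commutator π hπ.cen
  set Γ := commutator E with hΓ
  let ρ : ↥Γ →* ↥(D.group F) := π.comp Γ.subtype
  have hsurj : Function.Surjective ρ := by
    rw [← MonoidHom.range_eq_top]
    have h1 : ρ.range = Γ.map π := by
      rw [MonoidHom.range_comp, Subgroup.range_subtype]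
    rw [h1, hΓ, commutator_def, Subgroup.map_commutator, ← MonoidHom.range_eq_map,
      MonoidHom.range_eq_top.2 hπ.surj, ← commutator_def, hperf]
  have hcenρ : ρ.ker ≤ Subgroup.center ↥Γ := by
    intro z hz
    have h1 : (z : E) ∈ Subgroup.center E := hπ.cen hz
    rw [Subgroup.mem_center_iff] at h1 ⊢
    intro g
    exact Subtype.ext (h1 g)
  have hρ : CE ρ := ⟨hsurj, hcenρ⟩
  have hΓperf : commutator ↥Γ = ⊤ := by
    have h0 : Group.IsPerfect ↥(D.group F) := ⟨hperf⟩
    have := H69.SchurPerfect.perfect_commutator h0 π hπ.surj hπ.cen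
    exact this.1
  have htor' : ∀ z ∈ Subgroup.center ↥Γ, z ^ p = 1 → z = 1 := by
    intro z hz hzp
    have h1 : ρ z ∈ Subgroup.center ↥(D.group F) := by
      rw [Subgroup.mem_center_iff] at hz ⊢
      intro g
      obtain ⟨g, rfl⟩ := hsurj g
      rw [← map_mul, hz, map_mul]
    have h2 : π z = 1 := hcen _ h1
    apply Subtype.ext
    apply htor z h2
    rw [← Subgroup.coe_pow, hzp]; rfl
  obtain ⟨S⟩ := exists_pre_p (R := R) hρ (p := p) htor' (fun r t => by
    apply exists_lift_p hρ hp htor'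
    have h1 : ∀ n : ℕ, (xe R r t) ^ n = xe R r (n * t) := by
      intro n
      induction n with
      | zero => rw [pow_zero, Nat.cast_zero, zero_mul, xe_zero]
      | succ n ih => rw [pow_succ, ih, xe_mul]; congr 1; push_cast; ring
    rw [h1, CharP.cast_eq_zero, zero_mul, xe_zero])
  have hP := pairs_p S htor'
  have hcomm := S.comm_rel X Z hρ hP
  refine ⟨Γ.subtype.comp (H40.StCov.fromCover X.rc S.y S.add hcomm), fun r hr t => ?_⟩
  have h3 := H40.StCov.fromCover_gen X.rc S.y S.add hcomm hr t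
  rw [MonoidHom.comp_apply, h3]
  have h4 := S.π_y ⟨r, hr⟩ t
  show ((ρ (S.y r t) : ↥(D.group F)) : GL D.Idx F) = _
  rw [h4]; rfl

theorem scalar_entry {L : Type*} [Field L] {n : ℕ} (u : Lˣ) (i : Fin n) :
    ((Matrix.GeneralLinearGroup.scalar (Fin n) u : GL (Fin n) L) : Matrix (Fin n) (Fin n) L) i i = u := by
  show Matrix.scalar (Fin n) (u : L) i i = u
  simp

theorem s2399 {K : Type*} [Field K] (D : Cfsg.Lie.ChevalleyDatum) (hD : D ∈ [Cfsg.Lie.chevG2,
    Cfsg.Lie.chevB2, Cfsg.Lie.chevD4, Cfsg.Lie.chevF4, Cfsg.Lie.chevE6, Cfsg.Lie.chevE7, Cfsg.Lie.chevE8])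
    (hK : D ∈ [Cfsg.Lie.chevB2, Cfsg.Lie.chevG2] → ∃ x : K, x ≠ 0 ∧ x ≠ 1)
    (θ : D.SteinbergCover K →* ↥(D.group K))
    (hθ : ∀ (r : ℕ) (t : K), r < D.nroots → ((θ (D.scGen K r t) : GL D.Idx K) : Matrix D.Idx D.Idx K) = D.x K r t)
    {L : Type*} [Field L] (hL : ringChar L = ringChar K) {n : ℕ}
    (φ : ↥(D.group K) →* GL (Fin n) L ⧸ Subgroup.center (GL (Fin n) L)) :
    ∃! ψ : D.SteinbergCover K →* GL (Fin n) L,
      (QuotientGroup.mk' (Subgroup.center (GL (Fin n) L))).comp ψ = φ.comp θ := by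
  have hsurj := QuotientGroup.mk'_surjective (Subgroup.center (GL (Fin n) L))
  have hker : (QuotientGroup.mk' (Subgroup.center (GL (Fin n) L))).ker ≤
      Subgroup.center (GL (Fin n) L) := by rw [QuotientGroup.ker_mk']
  by_cases hK5 : ∃ s : Finset K, 4 < s.card
  · exact H23.LiftApp.s2398 hK5 hD _ hsurj hker (φ.comp θ)
  -- small fields
  have hfin : Finite K := by
    by_contra hinf
    rw [not_finite_iff_infinite] at hinf
    obtain ⟨s, hs⟩ := Infinite.exists_subset_card_eq K 5
    exact hK5 ⟨s, by omega⟩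
  have hp : (ringChar K).Prime := by
    have := CharP.char_is_prime_or_zero K (ringChar K)
    rcases this with h | h
    · exact h
    · exact absurd h (CharP.ringChar_ne_zero_of_finite K)
  set p := ringChar K with hpdef
  have R : Rel D K := H22.ChevAll.rel D hD K
  obtain ⟨X, ⟨Z⟩, W⟩ := H22.StTab.exists_all hD
  have hstperf := H40.StCov.s2395 (K := K) D hD hK
  have hperf : commutator ↥(D.group K) = ⊤ := by
    obtain ⟨θ', h1, -, -⟩ := H40.StCov.s2396 (K := K) D hD
    have h2 : (commutator (D.SteinbergCover K)).map θ' = ⊤ := by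
      rw [hstperf, ← MonoidHom.range_eq_map, MonoidHom.range_eq_top.2 h1]
    rw [commutator_def, Subgroup.map_commutator, ← MonoidHom.range_eq_map,
      MonoidHom.range_eq_top.2 h1, ← commutator_def] at h2
    exact h2
  let P := H23.LiftApp.pb (QuotientGroup.mk' (Subgroup.center (GL (Fin n) L))) φ
  let π : ↥P →* ↥(D.group K) := (MonoidHom.snd _ _).comp P.subtype
  have hce := H23.LiftApp.ce_pb (QuotientGroup.mk' (Subgroup.center (GL (Fin n) L))) φ ⟨hsurj, hker⟩
  have hπ : CE π := ⟨hce.surj, hce.central⟩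
  have htor : ∀ z ∈ π.ker, z ^ p = 1 → z = 1 := by
    rintro ⟨⟨g, h⟩, hz⟩ hk hzp
    have hh : h = 1 := hk
    subst hh
    have h1 : g ∈ Subgroup.center (GL (Fin n) L) := by
      have h2 : QuotientGroup.mk' (Subgroup.center (GL (Fin n) L)) g = φ 1 := hz
      rw [map_one, ← MonoidHom.mem_ker, QuotientGroup.ker_mk'] at h2
      exact h2
    have h2 : g ^ p = 1 := congrArg (fun z : ↥P => (z : GL (Fin n) L × ↥(D.group K)).1) hzp
    have h3 : g = 1 := by
      rcases isEmpty_or_nonempty (Fin n) with he | ⟨⟨i⟩⟩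
      · apply Units.ext; ext i; exact (he.false i).elim
      have : Nonempty (Fin n) := ⟨i⟩
      have : CharP L p := by rw [← hL]; exact ringChar.charP L
      have : Fact p.Prime := ⟨hp⟩
      rw [Matrix.GeneralLinearGroup.center_eq_range_scalar] at h1
      obtain ⟨c, rfl⟩ := h1
      have h4 : c ^ p = 1 := by
        rw [← map_pow] at h2
        have h5 : ((Matrix.GeneralLinearGroup.scalar (Fin n) (c ^ p) : GL (Fin n) L) :
              Matrix (Fin n) (Fin n) L) i i = (1 : Matrix (Fin n) (Fin n) L) i i := by rw [h2]; rfl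
        have h6 : ((c ^ p : Lˣ) : L) = 1 := by
          rw [scalar_entry, Matrix.one_apply_eq] at h5
          exact h5
        exact Units.ext h6
      have h5 : ((c : L) - 1) ^ p = 0 := by
        rw [sub_pow_char, one_pow, ← Units.val_pow_eq_pow_val, h4, Units.val_one, sub_self]
      have h6 : c = 1 := Units.ext (sub_eq_zero.1 (pow_eq_zero_iff hp.ne_zero |>.1 h5))
      rw [h6, map_one]
    subst h3
    rfl
  have hcen : ∀ z ∈ Subgroup.center ↥(D.group K), z = 1 := by
    intro z hz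
    rw [Subgroup.mem_center_iff] at hz
    apply Subtype.ext
    apply center_trivial R X z.2
    intro g hg
    exact (congrArg Subtype.val (hz ⟨g, hg⟩)).symm
  obtain ⟨τ, hτ⟩ := lift_small hD hperf hπ hp htor hcen R
  let ψ : D.SteinbergCover K →* GL (Fin n) L := (MonoidHom.fst _ _).comp (P.subtype.comp τ)
  have hψ : (QuotientGroup.mk' (Subgroup.center (GL (Fin n) L))).comp ψ = φ.comp θ := by
    apply PresentedGroup.ext
    rintro ⟨r, t⟩
    have h1 : (PresentedGroup.of (r, t) : D.SteinbergCover K) = D.scGen K r t := by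
      show PresentedGroup.mk _ _ = PresentedGroup.mk _ (D.stX r t)
      unfold ChevalleyDatum.stX
      rw [dif_pos r.2]
    rw [h1]
    have h2 : QuotientGroup.mk' (Subgroup.center (GL (Fin n) L))
        ((τ (D.scGen K r t) : ↥P) : GL (Fin n) L × ↥(D.group K)).1 =
        φ ((τ (D.scGen K r t) : ↥P) : GL (Fin n) L × ↥(D.group K)).2 := (τ (D.scGen K r t)).2
    have h3 : ((τ (D.scGen K r t) : ↥P) : GL (Fin n) L × ↥(D.group K)).2 = θ (D.scGen K r t) := by
      apply Subtype.ext
      apply Units.ext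
      have h4 := hτ r r.2 t
      rw [hθ r t r.2]
      have h5 := congrArg (fun g : GL D.Idx K => (g : Matrix D.Idx D.Idx K)) h4
      simp only [xg_val] at h5
      exact h5
    show _ = φ (θ (D.scGen K r t))
    rw [← h3]
    exact h2
  refine ⟨ψ, hψ, fun ψ' hψ' => ?_⟩
  apply hom_eq_of_perf hstperf
  intro a
  apply hker
  rw [MonoidHom.mem_ker, map_mul, map_inv, ← MonoidHom.comp_apply, ← MonoidHom.comp_apply, hψ, hψ',
    inv_mul_cancel]

end H40.Ext
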