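import Cfsg.Agent.Lib.H40.CE
import Cfsg.Agent.Lib.H40.CL1

/-!
# Extensions of a group with an index two subgroup, central over the subgroup: exact copies of centralisers
-/

set_option autoImplicit false
set_option linter.all false

namespace H40.F24A

open Subgroup H40.CL
open scoped commutatorElement

/-- base data -/
structure Base {G : Type} [Group G] (D : Subgroup G) (l : G) : Prop where
  idx : D.index = 2
  odd : l ∉ D
  sq : l * l = 1
  perf : ⁅centralizer {l} ⊓ D, centralizer {l} ⊓ D⁆ = centralizer {l} ⊓ D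
  mult : ∀ (X : Type) [Group X] (σ : X →* ↥(centralizer {l} ⊓ D)), Cfsg.IsStemExtension σ → ∀ z ∈ σ.ker, z = 1

/-- extension data -/
structure Ext {Γ G : Type} [Group Γ] [Group G] (D : Subgroup G) (l : G) (ρ : Γ →* G) (t : Γ) : Prop where
  surj : Function.Surjective ρ
  cm : ∀ m, ρ m = 1 → ∀ x, ρ x ∈ D → m * x = x * m
  perf : ∀ x, ρ x ∈ D → x ∈ ⁅D.comap ρ, D.comap ρ⁆
  sq : t * t = 1
  im : ρ t = l

/-- an exact copy of the centraliser of the image of `x` -/
structure Exact {Γ G : Type} [Group Γ] [Group G] (ρ : Γ →* G) (x : Γ) (K : Subgroup Γ) : Prop where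
  mem : x ∈ K
  comm : ∀ k ∈ K, k * x = x * k
  inj : ∀ k ∈ K, ρ k = 1 → k = 1
  surj : ∀ c, c * ρ x = ρ x * c → ∃ k ∈ K, ρ k = c

variable {Γ G : Type} [Group Γ] [Group G] {D : Subgroup G} {l : G} {ρ : Γ →* G} {t : Γ}

theorem Base.two_odd (hB : Base D l) {g h : G} (hg : g ∉ D) (hh : h ∉ D) : g * h ∈ D := by
  rw [Subgroup.mul_mem_iff_of_index_two hB.idx]
  exact ⟨fun h1 => absurd h1 hg, fun h1 => absurd h1 hh⟩

theorem Base.normal (hB : Base D l) : D.Normal := Subgroup.normal_of_index_eq_two hB.idx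

theorem Exact.eq {x : Γ} {K : Subgroup Γ} (h : Exact ρ x K) {k k' : Γ} (hk : k ∈ K) (hk' : k' ∈ K)
    (e : ρ k = ρ k') : k = k' := by
  have h1 : ρ (k * k'⁻¹) = 1 := by rw [map_mul, map_inv, e, mul_inv_cancel]
  have h2 := h.inj _ (K.mul_mem hk (K.inv_mem hk')) h1
  exact mul_inv_eq_one.1 h2

theorem Exact.conj {x : Γ} {K : Subgroup Γ} (h : Exact ρ x K) (γ : Γ) :
    Exact ρ (γ * x * γ⁻¹) (K.map (MulAut.conj γ : Γ →* Γ)) := by
  refine ⟨⟨x, h.mem, rfl⟩, ?_, ?_, ?_⟩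
  · rintro _ ⟨k, hk, rfl⟩
    change γ * k * γ⁻¹ * (γ * x * γ⁻¹) = γ * x * γ⁻¹ * (γ * k * γ⁻¹)
    have := h.comm k hk
    calc γ * k * γ⁻¹ * (γ * x * γ⁻¹) = γ * (k * x) * γ⁻¹ := by group
      _ = γ * (x * k) * γ⁻¹ := by rw [this]
      _ = _ := by group
  · rintro _ ⟨k, hk, rfl⟩ h1
    change ρ (γ * k * γ⁻¹) = 1 at h1
    change γ * k * γ⁻¹ = 1
    have h2 : ρ k = 1 := by
      rw [map_mul, map_mul, map_inv] at h1
      calc ρ k = (ρ γ)⁻¹ * (ρ γ * ρ k * (ρ γ)⁻¹) * ρ γ := by group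
        _ = 1 := by rw [h1]; group
    rw [h.inj k hk h2]; group
  · intro c hc
    have h1 : (ρ γ)⁻¹ * c * ρ γ * ρ x = ρ x * ((ρ γ)⁻¹ * c * ρ γ) := by
      rw [map_mul, map_mul, map_inv] at hc
      calc (ρ γ)⁻¹ * c * ρ γ * ρ x = (ρ γ)⁻¹ * (c * (ρ γ * ρ x * (ρ γ)⁻¹)) * ρ γ := by group
        _ = (ρ γ)⁻¹ * (ρ γ * ρ x * (ρ γ)⁻¹ * c) * ρ γ := by rw [hc]
        _ = _ := by group
    obtain ⟨k, hk, hk2⟩ := h.surj _ h1
    refine ⟨γ * k * γ⁻¹, ⟨k, hk, rfl⟩, ?_⟩
    rw [map_mul, map_mul, map_inv, hk2]; group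

theorem Ext.quot (h : Ext D l ρ t) (N : Subgroup Γ) [N.Normal] (hN : ∀ x ∈ N, ρ x = 1) :
    Ext D l (QuotientGroup.lift N ρ hN) (QuotientGroup.mk' N t) := by
  refine ⟨?_, ?_, ?_, ?_, ?_⟩
  · intro y
    obtain ⟨x, rfl⟩ := h.surj y
    exact ⟨QuotientGroup.mk' N x, rfl⟩
  · intro m hm x hx
    obtain ⟨m, rfl⟩ := QuotientGroup.mk'_surjective N m
    obtain ⟨x, rfl⟩ := QuotientGroup.mk'_surjective N x
    rw [← map_mul, ← map_mul, h.cm m hm x hx]
  · intro x hx
    obtain ⟨x, rfl⟩ := QuotientGroup.mk'_surjective N x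
    have h1 := h.perf x hx
    have h2 : QuotientGroup.mk' N x ∈ (⁅D.comap ρ, D.comap ρ⁆).map (QuotientGroup.mk' N) := ⟨x, h1, rfl⟩
    rw [Subgroup.map_commutator] at h2
    refine Subgroup.commutator_mono ?_ ?_ h2
    · rintro _ ⟨y, hy, rfl⟩; exact hy
    · rintro _ ⟨y, hy, rfl⟩; exact hy
  · rw [← map_mul, h.sq, map_one]
  · exact h.im

/-- the copy of the centraliser -/
theorem exists_exact (hB : Base D l) (hρ : Ext D l ρ t) (h : ∀ c, ρ c * l = l * ρ c → c * t = t * c) :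
    ∃ K, Exact ρ t K := by
  let S := centralizer {l} ⊓ D
  let C := S.comap ρ
  let σ : C →* S := ρ.subgroupComap S
  have hσ : ∀ c : C, (σ c : G) = ρ c := fun c => rfl
  have hs : Function.Surjective σ := by
    rintro ⟨y, hy⟩
    obtain ⟨x, rfl⟩ := hρ.surj y
    exact ⟨⟨x, hy⟩, rfl⟩
  have hcen : σ.ker ≤ center C := by
    intro m hm
    have h1 : ρ (m : Γ) = 1 := congrArg Subtype.val (MonoidHom.mem_ker.1 hm)
    rw [mem_center_iff]
    intro x
    exact Subtype.ext (hρ.cm _ h1 x.1 x.2.2).symm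
  have hQ : commutator S = ⊤ := by
    apply Subgroup.map_injective S.subtype_injective
    have h1 := Subgroup.map_subtype_commutator S
    rw [h1, ← MonoidHom.range_eq_map, Subgroup.range_subtype]
    exact hB.perf
  have hst := CE.stem σ hs hcen hQ
  have hk := hB.mult _ _ hst
  let F : Subgroup Γ := (commutator C).map C.subtype
  have hFC : ∀ x ∈ F, x ∈ C := by
    rintro _ ⟨y, _, rfl⟩
    exact y.2
  have hFt : ∀ x ∈ F, x * t = t * x := fun x hx => h x (mem_centralizer_singleton_iff.1 (hFC x hx).1)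
  have hFi : ∀ x ∈ F, ρ x = 1 → x = 1 := by
    rintro _ ⟨y, hy, rfl⟩ h1
    have h2 := hk ⟨y, hy⟩ (MonoidHom.mem_ker.2 (Subtype.ext h1))
    have h3 : y = 1 := congrArg Subtype.val h2
    rw [h3]; rfl
  have hFs : ∀ y ∈ S, ∃ x ∈ F, ρ x = y := by
    intro y hy
    obtain ⟨x, hx⟩ := hst.1 ⟨y, hy⟩
    exact ⟨x.1.1, ⟨x.1, x.2, rfl⟩, congrArg Subtype.val hx⟩
  let K : Subgroup Γ :=
    { carrier := {k | k ∈ F ∨ k * t ∈ F}
      one_mem' := Or.inl F.one_mem
      mul_mem' := by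
        rintro a b (ha | ha) (hb | hb)
        · exact Or.inl (F.mul_mem ha hb)
        · right; rw [mul_assoc]; exact F.mul_mem ha hb
        · right
          have : a * b * t = a * t * b := by rw [mul_assoc, hFt b hb, mul_assoc]
          rw [this]; exact F.mul_mem ha hb
        · left
          have h1 : b = t * (b * t) := by
            rw [← hFt _ hb, mul_assoc, hρ.sq, mul_one]
          have : a * b = a * t * (b * t) := by
            conv_lhs => rw [h1]
            rw [mul_assoc]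
          rw [this]; exact F.mul_mem ha hb
      inv_mem' := by
        rintro a (ha | ha)
        · exact Or.inl (F.inv_mem ha)
        · right
          have h1 := F.inv_mem ha
          have h2 := hFt _ h1
          have ht : t⁻¹ = t := inv_eq_of_mul_eq_one_left hρ.sq
          have : a⁻¹ * t = (a * t)⁻¹ := by
            rw [mul_inv_rev, ht]
            rw [mul_inv_rev, ht] at h2
            calc a⁻¹ * t = t * (t * a⁻¹ * t) := by
                  rw [mul_assoc t a⁻¹ t, ← mul_assoc t t, hρ.sq, one_mul]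
              _ = t * (t * (t * a⁻¹)) := by rw [h2]
              _ = t * a⁻¹ := by rw [← mul_assoc t t, hρ.sq, one_mul]
          rw [this]; exact h1 }
  refine ⟨K, Or.inr (by rw [hρ.sq]; exact F.one_mem), ?_, ?_, ?_⟩
  · rintro k (hk | hk)
    · exact hFt k hk
    · have h1 := hFt _ hk
      exact mul_right_cancel (b := t) (by rw [h1, mul_assoc])
  · rintro k (hk | hk) h1
    · exact hFi k hk h1
    · exfalso
      have h2 := (hFC _ hk).2
      rw [map_mul, h1, one_mul, hρ.im] at h2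
      exact hB.odd h2
  · intro c hc
    rw [hρ.im] at hc
    by_cases hD : c ∈ D
    · obtain ⟨x, hx, hx2⟩ := hFs c ⟨mem_centralizer_singleton_iff.2 hc, hD⟩
      exact ⟨x, Or.inl hx, hx2⟩
    · have h1 : c * l ∈ S := ⟨mem_centralizer_singleton_iff.2 (by rw [hc, mul_assoc, hc]), hB.two_odd hD hB.odd⟩
      obtain ⟨x, hx, hx2⟩ := hFs _ h1
      refine ⟨x * t, Or.inr (by rw [mul_assoc, hρ.sq, mul_one]; exact hx), ?_⟩
      rw [map_mul, hx2, hρ.im, mul_assoc, hB.sq, mul_one]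

section central

/-- everything lying over a perfect subgroup centralising `t` commutes with the lifts of `t` -/
theorem comm_of_perfect' (hσ : Function.Surjective ρ) (hc : ∀ m, ρ m = 1 → ∀ x, x * m = m * x)
    {C : Subgroup G} (hC : C ≤ centralizer {l}) (hp : ⁅C, C⁆ = C) (ht : ρ t = l)
    {c : Γ} (h : ρ c ∈ C) : c * t = t * c := by
  have key : ∀ d : Γ, ρ d ∈ C → ∃ a, ρ a = 1 ∧ d * t = t * d * a := by
    intro d hd
    have h1 : ρ (d * t) = ρ (t * d) := by
      rw [map_mul, map_mul, ht]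
      exact (mem_centralizer_singleton_iff.mp (hC hd))
    exact exists_ker h1
  have h1 : ⁅C.comap ρ, C.comap ρ⁆ ≤ centralizer {t} := by
    rw [commutator_le]
    intro c hc' d hd
    obtain ⟨a, ha, hca⟩ := key c hc'
    obtain ⟨b, hb, hdb⟩ := key d hd
    rw [mem_centralizer_singleton_iff]
    have ha' := hc a ha
    have hb' := hc b hb
    have e1 : c * d * t = t * (c * d) * (a * b) := by
      rw [mul_assoc, hdb]
      calc c * (t * d * b) = c * t * d * b := by group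
        _ = t * c * a * d * b := by rw [hca]
        _ = t * c * (a * d) * b := by group
        _ = t * c * (d * a) * b := by rw [ha' d]
        _ = _ := by group
    have e2 : d * c * t = t * (d * c) * (a * b) := by
      rw [mul_assoc, hca]
      calc d * (t * c * a) = d * t * c * a := by group
        _ = t * d * b * c * a := by rw [hdb]
        _ = t * d * (b * c) * a := by group
        _ = t * d * (c * b) * a := by rw [hb' c]
        _ = t * (d * c) * (b * a) := by group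
        _ = t * (d * c) * (a * b) := by rw [ha' b]
    have hab : ∀ y, y * (a * b) = (a * b) * y := fun y => by
      calc y * (a * b) = (y * a) * b := by group
        _ = a * (y * b) := by rw [ha' y]; group
        _ = a * b * y := by rw [hb' y]; group
    have e3 : (d * c)⁻¹ * t = t * (d * c)⁻¹ * (a * b)⁻¹ := by
      have e4 : t = (d * c)⁻¹ * t * (d * c) * (a * b) := by
        rw [show (d * c)⁻¹ * t * (d * c) * (a * b) = (d * c)⁻¹ * (t * (d * c) * (a * b)) by group, ← e2]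
        group
      calc (d * c)⁻¹ * t = ((d * c)⁻¹ * t * (d * c) * (a * b)) * ((a * b)⁻¹ * (d * c)⁻¹) := by group
        _ = t * ((a * b)⁻¹ * (d * c)⁻¹) := by rw [← e4]
        _ = t * (d * c)⁻¹ * (a * b)⁻¹ := by
          have : (a * b)⁻¹ * (d * c)⁻¹ = (d * c)⁻¹ * (a * b)⁻¹ := by
            rw [← mul_inv_rev, ← mul_inv_rev, hab]
          rw [this]; group
    rw [show ⁅c, d⁆ = (c * d) * (d * c)⁻¹ by rw [commutatorElement_def]; group]
    calc c * d * (d * c)⁻¹ * t = c * d * ((d * c)⁻¹ * t) := by group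
      _ = c * d * t * ((d * c)⁻¹ * (a * b)⁻¹) := by rw [e3]; group
      _ = t * (c * d) * (a * b) * ((d * c)⁻¹ * (a * b)⁻¹) := by rw [e1]
      _ = t * (c * d * (d * c)⁻¹) := by
        have := hab ((d * c)⁻¹)
        calc t * (c * d) * (a * b) * ((d * c)⁻¹ * (a * b)⁻¹)
            = t * (c * d) * ((a * b) * (d * c)⁻¹) * (a * b)⁻¹ := by group
          _ = t * (c * d) * ((d * c)⁻¹ * (a * b)) * (a * b)⁻¹ := by rw [← this]
          _ = _ := by group
  have h2 : (⁅C.comap ρ, C.comap ρ⁆).map ρ = C := by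
    rw [map_commutator, map_comap_eq_self_of_surjective hσ]
    exact hp
  have h3 : ρ c ∈ (⁅C.comap ρ, C.comap ρ⁆).map ρ := by rw [h2]; exact h
  obtain ⟨n, hn, hnc⟩ := h3
  obtain ⟨z, hz, hcz⟩ := exists_ker (σ := ρ) (x := c) (y := n) hnc.symm
  have h4 := mem_centralizer_singleton_iff.mp (h1 hn)
  rw [hcz]
  calc n * z * t = n * (z * t) := by group
    _ = n * (t * z) := by rw [hc z hz t]
    _ = n * t * z := by group
    _ = t * n * z := by rw [h4]
    _ = _ := by group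

/-- with a central kernel everything which commutes with `l` modulo the kernel commutes with `t` -/
theorem comm_t (hB : Base D l) (hρ : Ext D l ρ t) (hc : ∀ m, ρ m = 1 → ∀ x, x * m = m * x)
    (c : Γ) (h : ρ c * l = l * ρ c) : c * t = t * c := by
  by_cases hD : ρ c ∈ D
  · exact comm_of_perfect' (C := centralizer {l} ⊓ D) hρ.surj hc inf_le_left hB.perf hρ.im
      ⟨mem_centralizer_singleton_iff.2 h, hD⟩
  · have h1 : ρ (c * t) ∈ centralizer {l} ⊓ D := by
      rw [map_mul, hρ.im]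
      exact ⟨mem_centralizer_singleton_iff.2 (by rw [h, mul_assoc, h]), hB.two_odd hD hB.odd⟩
    have h2 := comm_of_perfect' (C := centralizer {l} ⊓ D) hρ.surj hc inf_le_left hB.perf hρ.im h1
    exact mul_right_cancel (b := t) (by rw [h2, mul_assoc])

/-- canonical lifts -/
theorem exists_clift' (hσ : Function.Surjective ρ) (ht : ρ t = l)
    (hcm : ∀ c, ρ c * l = l * ρ c → c * t = t * c) :
    ∃ L : G → Γ, CLift ρ l L ∧ L l = t := by
  classical
  have hex : ∀ g : G, ∃ γ : Γ, ρ γ = g := fun g => hσ g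
  have huniq : ∀ γ δ : Γ, ρ γ * l * (ρ γ)⁻¹ = ρ δ * l * (ρ δ)⁻¹ → γ * t * γ⁻¹ = δ * t * δ⁻¹ := by
    intro γ δ h
    have h1 : ρ (δ⁻¹ * γ) * l = l * ρ (δ⁻¹ * γ) := by
      rw [map_mul, map_inv]
      calc (ρ δ)⁻¹ * ρ γ * l = (ρ δ)⁻¹ * (ρ γ * l * (ρ γ)⁻¹) * ρ γ := by group
        _ = (ρ δ)⁻¹ * (ρ δ * l * (ρ δ)⁻¹) * ρ γ := by rw [h]
        _ = _ := by group
    have h2 := hcm _ h1
    calc γ * t * γ⁻¹ = δ * ((δ⁻¹ * γ) * t) * γ⁻¹ := by group
      _ = δ * (t * (δ⁻¹ * γ)) * γ⁻¹ := by rw [h2]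
      _ = _ := by group
  let L : G → Γ := fun x => if h : ∃ γ : Γ, ρ γ * l * (ρ γ)⁻¹ = x then h.choose * t * h.choose⁻¹ else 1
  have hL : ∀ γ : Γ, L (ρ γ * l * (ρ γ)⁻¹) = γ * t * γ⁻¹ := by
    intro γ
    have h : ∃ δ : Γ, ρ δ * l * (ρ δ)⁻¹ = ρ γ * l * (ρ γ)⁻¹ := ⟨γ, rfl⟩
    have : L (ρ γ * l * (ρ γ)⁻¹) = h.choose * t * h.choose⁻¹ := dif_pos h
    rw [this]
    exact huniq _ _ h.choose_spec
  refine ⟨L, ⟨?_, ?_⟩, ?_⟩
  · intro g
    obtain ⟨γ, rfl⟩ := hex g
    rw [hL, map_mul, map_mul, map_inv, ht]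
  · intro γ g
    obtain ⟨δ, rfl⟩ := hex g
    rw [hL, show ρ γ * (ρ δ * l * (ρ δ)⁻¹) * (ρ γ)⁻¹ = ρ (γ * δ) * l * (ρ (γ * δ))⁻¹ by
      rw [map_mul]; group, hL]
    group
  · have := hL 1
    rw [map_one] at this
    simpa using this

/-- the deviation of the exact lifts from the canonical lifts is constant along braids -/
theorem nu_step {L : G → Γ} (hL : CLift ρ l L) {x : Γ} {K : Subgroup Γ} (hK : Exact ρ x K) {y z : G}
    (hy : y ∈ CLift.D l) (hy2 : y * y = 1) (hz2 : z * z = 1) (hyz : (y * z) ^ 3 = 1)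
    {κ μ ν : Γ} (hκ : κ ∈ K) (hμ : μ ∈ K) (h1 : ρ κ = y) (h2 : ρ μ = z)
    (hν : ∀ k, k * ν = ν * k) (h : κ = ν * L y) : μ = ν * L z := by
  have e : (y * z) * y * (y * z)⁻¹ = z := by
    have h3 : y * z * (y * z) * (y * z) = 1 := by rw [← hyz, pow_succ, pow_two]
    have h4 : (y * z)⁻¹ = z * y := by
      rw [mul_inv_rev, inv_eq_of_mul_eq_one_left hy2, inv_eq_of_mul_eq_one_left hz2]
    rw [h4]
    calc y * z * y * (z * y) = y * z * (y * z) * (y * z) * z⁻¹ := by group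
      _ = z⁻¹ := by rw [h3, one_mul]
      _ = z := inv_eq_of_mul_eq_one_left hz2
  have h5 : μ = (κ * μ) * κ * (κ * μ)⁻¹ := by
    refine hK.eq hμ (K.mul_mem (K.mul_mem (K.mul_mem hκ hμ) hκ) (K.inv_mem (K.mul_mem hκ hμ))) ?_
    rw [map_mul, map_mul, map_mul, map_inv, map_mul, h1, h2, e]
  have h6 := hL.conj' (κ * μ) hy
  rw [map_mul, h1, h2, e] at h6
  calc μ = (κ * μ) * κ * (κ * μ)⁻¹ := h5
    _ = (κ * μ) * (ν * L y) * (κ * μ)⁻¹ := by nth_rw 2 [h]
    _ = ((κ * μ) * ν) * L y * (κ * μ)⁻¹ := by group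
    _ = ν * ((κ * μ) * L y * (κ * μ)⁻¹) := by rw [hν]; group
    _ = ν * L z := by rw [h6]

end central

end H40.F24A
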