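import Cfsg.Agent.Lib.H40.F24A1
import Cfsg.Agent.Lib.H40.CL3
import Cfsg.Agent.Lib.H40.TCF24G

/-!
# Extensions of Fi24-like groups with central kernel are trivial
-/

set_option autoImplicit false
set_option linter.all false
set_option maxRecDepth 10000

namespace H40.F24A

open Subgroup H40.CL H40.TCF24G
open scoped commutatorElement

/-- the seven letters -/
def w7 : List Lt := [.a, .b, .c, .d, .e, .f, .h]

/-- the spider word -/
def wS : List Lt := [.d, .c, .b, .d, .e, .f, .d, .h, .i]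

/-- first part of the palindromic word -/
def t1u : List Lt := [.a, .b, .c, .d, .h, .i, .e, .d, .h, .f, .g, .e, .f, .c, .d, .e, .b, .c, .d, .h, .i, .f, .d, .e,
  .b, .c, .d, .h, .j, .g, .f, .e, .d, .c, .b]

/-- the palindromic word -/
def t1 : List Lt := t1u ++ [.a] ++ t1u.reverse

/-- data on the letters in the base group -/
structure Letters {G : Type} [Group G] (l : G) (g : Lt → G) : Prop where
  l_eq : g .l = l
  gen : closure (Set.range g) = ⊤
  hp : ∀ x y, (g x * g y) ^ mm x y = 1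
  lrel : g .l = (ev g w7) ^ 9
  spid : (ev g wS) ^ 10 = 1
  t1k : ev g t1 * g .k = g .k * ev g t1
  t1b : (g .b * ev g t1) ^ 3 = 1
  cls : ∀ x, g x ∈ CLift.D l
  card : Nat.card G = Nat.card (centralizer {l} : Subgroup G) * 306936

theorem word_l {K L : Type} [Group K] (g : L → K) (hi : ∀ x, (g x)⁻¹ = g x) (l : L) (w : List L)
    (h : g l = ((w.map g).prod) ^ 9) :
    (([l] ++ w.reverse ++ w.reverse ++ w.reverse ++ w.reverse ++ w.reverse ++ w.reverse ++ w.reverse ++ w.reverse ++ w.reverse).map g).prod = 1 := by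
  have h1 : (w.reverse.map g).prod = ((w.map g).prod)⁻¹ := by
    rw [List.prod_inv_reverse, List.map_reverse]
    congr 2
    rw [List.map_map]
    apply List.map_congr_left
    intro x _
    exact (hi x).symm
  simp only [List.map_append, List.prod_append, h1, List.map_cons, List.map_nil, List.prod_cons, List.prod_nil, mul_one]
  rw [h]
  group

/-- the relations of the certificate -/
structure Rels {K : Type} [Group K] (g : Lt → K) : Prop where
  hp : ∀ x y, (g x * g y) ^ mm x y = 1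
  lrel : g .l = (ev g w7) ^ 9
  spid : (ev g wS) ^ 10 = 1
  t1k : (g .k * ev g t1) ^ 2 = 1

theorem mm_self (x : Lt) : mm x x = 1 := by cases x <;> rfl

theorem Rels.idx {K : Type} [Group K] {g : Lt → K} (h : Rels g) {H : Subgroup K} (hH : ∀ x, x ≠ .k → g x ∈ H) :
    H.relIndex (closure (Set.range g)) ≤ 306936 ∧ H.relIndex (closure (Set.range g)) ≠ 0 := by
  have hs : ∀ x, g x * g x = 1 := by
    intro x
    have := h.hp x x
    rwa [mm_self, pow_one] at this
  have hi : ∀ x, (g x)⁻¹ = g x := fun x => inv_eq_of_mul_eq_one_left (hs x)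
  refine TCF24G.main (g := g) (H := H) ?_ h.hp ?_ ?_
  · intro x
    rw [hi]
    cases x <;> rfl
  · intro p hp
    simp only [TCF24G.extra, List.mem_cons, List.mem_nil_iff, or_false] at hp
    rcases hp with rfl | rfl | rfl
    · rw [pow_one]
      exact word_l g hi .l w7 h.lrel
    · exact h.spid
    · have h1 := h.t1k
      rw [← ev_cons] at h1
      exact h1
  · intro r hr
    simp only [TCF24G.subs, List.mem_cons, List.mem_nil_iff, or_false] at hr
    rcases hr with rfl | rfl | rfl | rfl | rfl | rfl | rfl | rfl | rfl | rfl | rfl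
    all_goals
      simp only [List.map_cons, List.map_nil, List.prod_cons, List.prod_nil, mul_one]
      exact hH _ (by decide)

variable {Γ G : Type} [Group Γ] [Group G] {D : Subgroup G} {l : G} {ρ : Γ →* G} {t : Γ} {g : Lt → G}

/-- conclusion from the certificate -/
theorem concl [Finite Γ] (hB : Base D l) (hG : Letters l g) (hρ : Ext D l ρ t) {L : Lt → Γ}
    (hL : ∀ x, ρ (L x) = g x) (hr : Rels L) {K : Subgroup Γ} (hK1 : ∀ k ∈ K, ρ k = 1 → k = 1)
    (hK2 : ∀ k ∈ K, ρ k ∈ centralizer {l}) (hK3 : ∀ x, x ≠ .k → L x ∈ K) : ∀ m, ρ m = 1 → m = 1 := by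
  have hfG : Finite G := Finite.of_surjective ρ hρ.surj
  set Δ : Subgroup Γ := closure (Set.range L) with hΔ
  have h1 := hr.idx hK3
  -- the order of `Δ`
  have hcK : Nat.card K ≤ Nat.card (centralizer {l} : Subgroup G) := by
    let f : K → (centralizer {l} : Subgroup G) := fun k => ⟨ρ k, hK2 k k.2⟩
    refine Nat.card_le_card_of_injective f ?_
    intro a b hab
    have h2 : ρ (a : Γ) = ρ (b : Γ) := congrArg Subtype.val hab
    have h3 : ρ ((a : Γ) * (b : Γ)⁻¹) = 1 := by rw [map_mul, map_inv, h2, mul_inv_cancel]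
    exact Subtype.ext (mul_inv_eq_one.1 (hK1 _ (K.mul_mem a.2 (K.inv_mem b.2)) h3))
  have hcKΔ : Nat.card (K.subgroupOf Δ) ≤ Nat.card K := by
    let f : K.subgroupOf Δ → K := fun k => ⟨k.1.1, k.2⟩
    refine Nat.card_le_card_of_injective f ?_
    intro a b hab
    exact Subtype.ext (Subtype.ext (congrArg (fun x : K => (x : Γ)) hab))
  have hcΔ : Nat.card Δ ≤ Nat.card G := by
    rw [hG.card, ← Subgroup.card_mul_index (K.subgroupOf Δ)]
    exact Nat.mul_le_mul (hcKΔ.trans hcK) h1.1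
  -- `Δ` maps isomorphically
  let f : Δ →* G := ρ.comp Δ.subtype
  have hf : Function.Surjective f := by
    rw [← MonoidHom.range_eq_top, eq_top_iff, ← hG.gen, closure_le]
    rintro _ ⟨x, rfl⟩
    exact ⟨⟨L x, subset_closure ⟨x, rfl⟩⟩, hL x⟩
  have hfi : Function.Injective f := by
    have hb : Function.Bijective f := by
      refine (Nat.bijective_iff_surjective_and_card f).2 ⟨hf, ?_⟩
      exact le_antisymm hcΔ (Nat.card_le_card_of_surjective f hf)
    exact hb.1
  -- the even part lies in `Δ`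
  have hE : ⁅D.comap ρ, D.comap ρ⁆ ≤ Δ := by
    rw [commutator_le]
    intro x hx y hy
    obtain ⟨x', hx'⟩ := hf (ρ x)
    obtain ⟨y', hy'⟩ := hf (ρ y)
    have hx' : ρ (x' : Γ) = ρ x := hx'
    have hy' : ρ (y' : Γ) = ρ y := hy'
    obtain ⟨a, ha, hxa⟩ := exists_ker (σ := ρ) hx'.symm
    obtain ⟨b, hb, hyb⟩ := exists_ker (σ := ρ) hy'.symm
    have hxD : ρ (x' : Γ) ∈ D := by rw [hx']; exact hx
    have hyD : ρ (y' : Γ) ∈ D := by rw [hy']; exact hy
    have h1D : (1 : G) ∈ D := D.one_mem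
    have c1 := hρ.cm a ha _ hyD
    have c2 := hρ.cm b hb (x' : Γ)⁻¹ (by rw [map_inv]; exact D.inv_mem hxD)
    have c3 := hρ.cm a ha b (by rw [hb]; exact h1D)
    have c4 : a * b⁻¹ = b⁻¹ * a := hρ.cm a ha b⁻¹ (by rw [map_inv, hb, inv_one]; exact h1D)
    rw [hxa, hyb]
    have : ⁅(x' : Γ) * a, (y' : Γ) * b⁆ = ⁅(x' : Γ), (y' : Γ)⁆ := by
      rw [commutatorElement_def, commutatorElement_def]
      calc (x' : Γ) * a * ((y' : Γ) * b) * ((x' : Γ) * a)⁻¹ * ((y' : Γ) * b)⁻¹
          = x' * (a * y') * b * a⁻¹ * (x' : Γ)⁻¹ * b⁻¹ * (y' : Γ)⁻¹ := by group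
        _ = x' * y' * (a * b) * a⁻¹ * (x' : Γ)⁻¹ * b⁻¹ * (y' : Γ)⁻¹ := by rw [c1]; group
        _ = x' * y' * (b * (x' : Γ)⁻¹) * b⁻¹ * (y' : Γ)⁻¹ := by rw [c3]; group
        _ = x' * y' * (x' : Γ)⁻¹ * (y' : Γ)⁻¹ := by rw [c2]; group
    rw [this, commutatorElement_def]
    exact Δ.mul_mem (Δ.mul_mem (Δ.mul_mem x'.2 y'.2) (Δ.inv_mem x'.2)) (Δ.inv_mem y'.2)
  intro m hm
  have h2 : m ∈ Δ := hE (hρ.perf m (by rw [hm]; exact D.one_mem))
  have h3 : (⟨m, h2⟩ : Δ) = 1 := hfi (by rw [map_one]; exact hm)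
  exact congrArg Subtype.val h3

end H40.F24A
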