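import Cfsg.Agent.Lib.H40.F24A2

/-!
# Extensions of Fi24-like groups with central kernel are trivial: the central case
-/

set_option autoImplicit false
set_option linter.all false
set_option maxRecDepth 10000

namespace H40.F24A

open Subgroup H40.CL H40.TCF24G
open scoped commutatorElement

variable {Γ G : Type} [Group Γ] [Group G] {D : Subgroup G} {l : G} {ρ : Γ →* G} {t : Γ} {g : Lt → G}

theorem Letters.sq (hG : Letters l g) (x : Lt) : g x * g x = 1 := by
  have := hG.hp x x
  rwa [mm_self, pow_one] at this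

/-- letters commuting in the base group -/
theorem Letters.comm (hG : Letters l g) {x y : Lt} (h : mm x y = 2) : g x * g y = g y * g x := by
  have h3 := hG.hp x y
  rw [h] at h3
  have e : (g x * g y)⁻¹ = g x * g y := inv_eq_of_mul_eq_one_left (by rw [← pow_two]; exact h3)
  rw [← e, mul_inv_rev, inv_eq_of_mul_eq_one_left (hG.sq x), inv_eq_of_mul_eq_one_left (hG.sq y)]

theorem mm_cases (x y : Lt) : mm x y = 1 ∧ x = y ∨ mm x y = 2 ∨ mm x y = 3 := by
  cases x <;> cases y <;> decide

theorem mem_D_of (hG : Letters l g) : ∀ x ∈ CLift.D l, x * x = 1 := by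
  rintro x ⟨c, rfl⟩
  have h := hG.sq .l
  rw [hG.l_eq] at h
  calc c * l * c⁻¹ * (c * l * c⁻¹) = c * (l * l) * c⁻¹ := by group
    _ = 1 := by rw [h]; group

theorem ev_mem {K : Type} [Group K] {H : Subgroup K} {F : Lt → K} (w : List Lt) (h : ∀ x ∈ w, F x ∈ H) :
    ev F w ∈ H := by
  rw [ev]
  apply Subgroup.list_prod_mem
  intro y hy
  obtain ⟨x, hx, rfl⟩ := List.mem_map.1 hy
  exact h x hx

/-- product of letters scaled by a central element -/
theorem ev_smul {K : Type} [Group K] {F F' : Lt → K} {ν : K} (hν : ∀ y, y * ν = ν * y) (w : List Lt)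
    (h : ∀ x ∈ w, F' x = ν * F x) : ev F' w = ν ^ w.length * ev F w := by
  induction w with
  | nil => simp [ev]
  | cons x w ih =>
    rw [ev_cons, ev_cons, ih (fun y hy => h y (List.mem_cons_of_mem _ hy)), h x List.mem_cons_self, List.length_cons,
      pow_succ']
    have h1 : Commute (F x) (ν ^ w.length) := (show Commute (F x) ν from hν _).pow_right _
    calc ν * F x * (ν ^ w.length * ev F w) = ν * (F x * ν ^ w.length) * ev F w := by group
      _ = _ := by rw [h1.eq]; group

theorem central_case [Finite Γ] (hB : Base D l) (hG : Letters l g) (hρ : Ext D l ρ t)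
    (hc : ∀ m, ρ m = 1 → ∀ x, x * m = m * x) : ∀ m, ρ m = 1 → m = 1 := by
  have hct := comm_t hB hρ hc
  obtain ⟨Lc, hL, hLt⟩ := exists_clift' hρ.surj hρ.im hct
  obtain ⟨K, hK⟩ := exists_exact hB hρ hct
  set L : Lt → Γ := fun x => Lc (g x) with hLd
  have hLg : ∀ x, ρ (L x) = g x := fun x => hL.map' (hG.cls x)
  have hl : L .l = t := by
    change Lc (g .l) = t
    rw [hG.l_eq, hLt]
  have hsqt : ∀ x ∈ CLift.D l, Lc x * Lc x = 1 := by
    rintro x ⟨c, rfl⟩
    obtain ⟨γ, rfl⟩ := hρ.surj c
    have h1 := hL.conj γ 1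
    rw [one_mul, inv_one, mul_one, hLt] at h1
    rw [← h1]
    calc γ * t * γ⁻¹ * (γ * t * γ⁻¹) = γ * (t * t) * γ⁻¹ := by group
      _ = 1 := by rw [hρ.sq]; group
  have hs : ∀ x, L x * L x = 1 := fun x => hsqt _ (hG.cls x)
  have hDsq := mem_D_of hG
  -- the copy for `j`
  obtain ⟨c, hcj⟩ := hG.cls .j
  obtain ⟨γ, hγ⟩ := hρ.surj c
  have hLj : γ * t * γ⁻¹ = L .j := by
    have h1 := hL.conj γ 1
    rw [one_mul, inv_one, mul_one, hLt, hγ] at h1
    change _ = Lc (g .j)
    rw [h1, hcj]
  have hKj := hK.conj γ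
  rw [hLj] at hKj
  set Kj := K.map (MulAut.conj γ : Γ →* Γ) with hKjd
  -- general comparison
  have hcmp : ∀ (z : Lt) (K' : Subgroup Γ), Exact ρ (L z) K' → ∀ (κ : Lt → Γ) (ν : Γ), (∀ y, y * ν = ν * y) →
      ∀ x y, mm x z = 2 → mm y z = 2 → mm x y = 3 → κ x ∈ K' → κ y ∈ K' → ρ (κ x) = g x → ρ (κ y) = g y →
      κ x = ν * L x → κ y = ν * L y := by
    intro z K' hK' κ ν hν x y _ _ hxy hx hy h1 h2 h
    have h3 := hG.hp x y
    rw [hxy] at h3
    exact nu_step hL hK' (hG.cls x) (hG.sq x) (hG.sq y) h3 hx hy h1 h2 hν h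
  -- the first comparison
  have hrel1 : L .l = (ev L w7) ^ 9 := by
    have hex : ∀ x, ∃ k, mm x .j = 2 → k ∈ Kj ∧ ρ k = g x := by
      intro x
      by_cases h : mm x .j = 2
      · obtain ⟨k, hk, hk2⟩ := hKj.surj (g x) (by rw [hLg]; exact hG.comm h)
        exact ⟨k, fun _ => ⟨hk, hk2⟩⟩
      · exact ⟨1, fun h' => absurd h' h⟩
    choose κ hκ using hex
    set ν := κ .l * (L .l)⁻¹ with hν
    have hν1 : ρ ν = 1 := by
      rw [hν, map_mul, map_inv, (hκ .l rfl).2, hLg, mul_inv_cancel]
    have hνc := hc ν hν1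
    have e_l : κ .l = ν * L .l := by rw [hν, inv_mul_cancel_right]
    have hcm := hcmp .j Kj hKj κ ν hνc
    have step : ∀ x y, mm x .j = 2 → mm y .j = 2 → mm x y = 3 → κ x = ν * L x → κ y = ν * L y :=
      fun x y hx hy hxy h => hcm x y hx hy hxy (hκ x hx).1 (hκ y hy).1 (hκ x hx).2 (hκ y hy).2 h
    have e_k := step .l .k rfl rfl rfl e_l
    have e_a := step .k .a rfl rfl rfl e_k
    have e_b := step .a .b rfl rfl rfl e_a
    have e_c := step .b .c rfl rfl rfl e_b
    have e_d := step .c .d rfl rfl rfl e_c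
    have e_e := step .d .e rfl rfl rfl e_d
    have e_f := step .e .f rfl rfl rfl e_e
    have e_h := step .d .h rfl rfl rfl e_d
    have hev := ev_smul (F := L) (F' := κ) hνc w7 (by
      intro x hx
      simp only [w7, List.mem_cons, List.mem_nil_iff, or_false] at hx
      rcases hx with rfl | rfl | rfl | rfl | rfl | rfl | rfl <;> assumption)
    have hkl : κ .l = (ev κ w7) ^ 9 := by
      have hmem : ev κ w7 ∈ Kj := ev_mem _ (by
        intro x hx
        simp only [w7, List.mem_cons, List.mem_nil_iff, or_false] at hx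
        rcases hx with rfl | rfl | rfl | rfl | rfl | rfl | rfl <;> exact (hκ _ rfl).1)
      refine hKj.eq (hκ .l rfl).1 (Kj.pow_mem hmem 9) ?_
      rw [map_pow, (hκ .l rfl).2, hG.lrel]
      congr 1
      have h2 : ∀ x ∈ w7, ρ (κ x) = g x := by
        intro x hx
        simp only [w7, List.mem_cons, List.mem_nil_iff, or_false] at hx
        rcases hx with rfl | rfl | rfl | rfl | rfl | rfl | rfl <;> exact (hκ _ rfl).2
      rw [ev, ev, map_list_prod, List.map_map]
      congr 1
      apply List.map_congr_left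
      intro x hx
      exact (h2 x hx).symm
    have hνν : ν * ν = 1 := by
      have h1 : κ .l * κ .l = 1 := hKj.inj _ (Kj.mul_mem (hκ .l rfl).1 (hκ .l rfl).1) (by
        rw [map_mul, (hκ .l rfl).2, hG.sq])
      rw [e_l] at h1
      calc ν * ν = ν * (ν * 1) := by group
        _ = ν * (ν * (L .l * L .l)) := by rw [hs]
        _ = ν * (ν * L .l) * L .l := by group
        _ = ν * (L .l * ν) * L .l := by rw [hνc]
        _ = ν * L .l * (ν * L .l) := by group
        _ = 1 := h1
    rw [e_l, hev] at hkl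
    have hw : (ν ^ w7.length * ev L w7) ^ 9 = ν * (ev L w7) ^ 9 := by
      have h1 : Commute (ν ^ w7.length) (ev L w7) := ((show Commute (ev L w7) ν from hνc _).pow_right _).symm
      rw [h1.mul_pow, ← pow_mul]
      have h2 : ν ^ (w7.length * 9) = ν := by
        have : w7.length * 9 = 2 * 31 + 1 := rfl
        rw [this, pow_succ, pow_mul, pow_two, hνν, one_pow, one_mul]
      rw [h2]
    rw [hw] at hkl
    exact mul_left_cancel hkl
  -- the second comparison: all letters commuting with `l` have canonical lifts in `K`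
  have hKl : Exact ρ (L .l) K := by rw [hl]; exact hK
  have hmemK : ∀ x, x ≠ .k → L x ∈ K := by
    have hex : ∀ x, ∃ k, mm x .l = 2 → k ∈ K ∧ ρ k = g x := by
      intro x
      by_cases h : mm x .l = 2
      · obtain ⟨k, hk, hk2⟩ := hKl.surj (g x) (by rw [hLg]; exact hG.comm h)
        exact ⟨k, fun _ => ⟨hk, hk2⟩⟩
      · exact ⟨1, fun h' => absurd h' h⟩
    choose κ hκ using hex
    set ν := κ .a * (L .a)⁻¹ with hν
    have hν1 : ρ ν = 1 := by
      rw [hν, map_mul, map_inv, (hκ .a rfl).2, hLg, mul_inv_cancel]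
    have hνc := hc ν hν1
    have e_a : κ .a = ν * L .a := by rw [hν, inv_mul_cancel_right]
    have hcm := hcmp .l K hKl κ ν hνc
    have step : ∀ x y, mm x .l = 2 → mm y .l = 2 → mm x y = 3 → κ x = ν * L x → κ y = ν * L y :=
      fun x y hx hy hxy h => hcm x y hx hy hxy (hκ x hx).1 (hκ y hy).1 (hκ x hx).2 (hκ y hy).2 h
    have e_b := step .a .b rfl rfl rfl e_a
    have e_c := step .b .c rfl rfl rfl e_b
    have e_d := step .c .d rfl rfl rfl e_c
    have e_e := step .d .e rfl rfl rfl e_d
    have e_f := step .e .f rfl rfl rfl e_e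
    have e_g := step .f .g rfl rfl rfl e_f
    have e_j := step .g .j rfl rfl rfl e_g
    have e_h := step .d .h rfl rfl rfl e_d
    have e_i := step .h .i rfl rfl rfl e_h
    have hev := ev_smul (F := L) (F' := κ) hνc w7 (by
      intro x hx
      simp only [w7, List.mem_cons, List.mem_nil_iff, or_false] at hx
      rcases hx with rfl | rfl | rfl | rfl | rfl | rfl | rfl <;> assumption)
    have hkl : L .l = (ev κ w7) ^ 9 := by
      have hmem : ev κ w7 ∈ K := ev_mem _ (by
        intro x hx
        simp only [w7, List.mem_cons, List.mem_nil_iff, or_false] at hx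
        rcases hx with rfl | rfl | rfl | rfl | rfl | rfl | rfl <;> exact (hκ _ rfl).1)
      refine hK.eq hKl.mem (K.pow_mem hmem 9) ?_
      rw [map_pow, hLg, hG.lrel]
      congr 1
      have h2 : ∀ x ∈ w7, ρ (κ x) = g x := by
        intro x hx
        simp only [w7, List.mem_cons, List.mem_nil_iff, or_false] at hx
        rcases hx with rfl | rfl | rfl | rfl | rfl | rfl | rfl <;> exact (hκ _ rfl).2
      rw [ev, ev, map_list_prod, List.map_map]
      congr 1
      apply List.map_congr_left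
      intro x hx
      exact (h2 x hx).symm
    have hνν : ν * ν = 1 := by
      have h1 : κ .a * κ .a = 1 := hK.inj _ (K.mul_mem (hκ .a rfl).1 (hκ .a rfl).1) (by
        rw [map_mul, (hκ .a rfl).2, hG.sq])
      rw [e_a] at h1
      calc ν * ν = ν * (ν * 1) := by group
        _ = ν * (ν * (L .a * L .a)) := by rw [hs]
        _ = ν * (ν * L .a) * L .a := by group
        _ = ν * (L .a * ν) * L .a := by rw [hνc]
        _ = ν * L .a * (ν * L .a) := by group
        _ = 1 := h1
    rw [hev] at hkl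
    have hw : (ν ^ w7.length * ev L w7) ^ 9 = ν * (ev L w7) ^ 9 := by
      have h1 : Commute (ν ^ w7.length) (ev L w7) := ((show Commute (ev L w7) ν from hνc _).pow_right _).symm
      rw [h1.mul_pow, ← pow_mul]
      have h2 : ν ^ (w7.length * 9) = ν := by
        have : w7.length * 9 = 2 * 31 + 1 := rfl
        rw [this, pow_succ, pow_mul, pow_two, hνν, one_pow, one_mul]
      rw [h2]
    rw [hw, ← hrel1] at hkl
    have hν0 : ν = 1 := (mul_eq_right.1 hkl.symm)
    rw [hν0] at e_a e_b e_c e_d e_e e_f e_g e_j e_h e_i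
    rw [one_mul] at e_a e_b e_c e_d e_e e_f e_g e_j e_h e_i
    intro x hx
    cases x
    · exact hKl.mem
    · exact absurd rfl hx
    · rw [← e_a]; exact (hκ _ rfl).1
    · rw [← e_b]; exact (hκ _ rfl).1
    · rw [← e_c]; exact (hκ _ rfl).1
    · rw [← e_d]; exact (hκ _ rfl).1
    · rw [← e_e]; exact (hκ _ rfl).1
    · rw [← e_f]; exact (hκ _ rfl).1
    · rw [← e_g]; exact (hκ _ rfl).1
    · rw [← e_j]; exact (hκ _ rfl).1
    · rw [← e_h]; exact (hκ _ rfl).1
    · rw [← e_i]; exact (hκ _ rfl).1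
  -- conclusion
  refine concl hB hG hρ hLg ⟨?_, hrel1, ?_, ?_⟩ (K := K) hK.inj ?_ hmemK
  · intro x y
    refine cox_lift hL hsqt hDsq (hG.cls x) (hG.cls y) ?_ (hG.hp x y)
    rcases mm_cases x y with ⟨h, e⟩ | h | h
    · exact Or.inl ⟨h, by rw [e]⟩
    · exact Or.inr (Or.inl h)
    · exact Or.inr (Or.inr h)
  · refine hK.inj _ (K.pow_mem (ev_mem _ ?_) 10) ?_
    · intro x hx
      refine hmemK x ?_
      simp only [wS, List.mem_cons, List.mem_nil_iff, or_false] at hx
      rcases hx with rfl | rfl | rfl | rfl | rfl | rfl | rfl | rfl | rfl <;> decide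
    · rw [map_pow, ev_map hLg, hG.spid]
  · have h1 : L .k * ev L t1 = ev L t1 * L .k := by
      refine comm_pal hL hG.cls hs hG.sq t1u .a ?_
      rw [hLg]
      exact hG.t1k.symm
    have h2 : ev L t1 * ev L t1 = 1 := by
      have h3 : t1.reverse = t1 := by rw [t1]; simp
      have h4 := ev_reverse L hs t1
      rw [h3] at h4
      nth_rw 1 [h4]
      rw [inv_mul_cancel]
    calc (L .k * ev L t1) ^ 2 = L .k * (ev L t1 * L .k) * ev L t1 := by rw [pow_two]; group
      _ = (L .k * L .k) * (ev L t1 * ev L t1) := by rw [← h1]; group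
      _ = 1 := by rw [hs, h2, one_mul]
  · intro k hk
    have h1 := hK.comm k hk
    rw [mem_centralizer_singleton_iff, ← hρ.im, ← map_mul, h1, map_mul]

end H40.F24A
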