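import Cfsg.Agent.Lib.H40.F24A3

/-!
# Extensions of Fi24-like groups: the inverting case and the upper bound
-/

set_option autoImplicit false
set_option linter.all false
set_option maxRecDepth 10000

namespace H40.F24A

open Subgroup H40.CL H40.TCF24G
open scoped commutatorElement

variable {Γ G : Type} [Group Γ] [Group G] {D : Subgroup G} {l : G} {ρ : Γ →* G} {t : Γ} {g : Lt → G}

section inv

variable (hB : Base D l) (hG : Letters l g) (hρ : Ext D l ρ t)
  (hi : ∀ m, ρ m = 1 → t * m = m⁻¹ * t) (hsq : ∀ m, ρ m = 1 → ∃ n, ρ n = 1 ∧ n * n = m)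

include hB hρ hi in
/-- odd elements invert the kernel -/
theorem odd_inv {x : Γ} (hx : ρ x ∉ D) {m : Γ} (hm : ρ m = 1) : x * m = m⁻¹ * x := by
  have h1 : ρ (x * t) ∈ D := by rw [map_mul, hρ.im]; exact hB.two_odd hx hB.odd
  have hm' : ρ m⁻¹ = 1 := by rw [map_inv, hm, inv_one]
  have h2 := hρ.cm _ hm' _ h1
  have ht : t⁻¹ = t := inv_eq_of_mul_eq_one_left hρ.sq
  have h3 := hi m⁻¹ hm'
  rw [inv_inv] at h3
  calc x * m = x * m * (t * t) := by rw [hρ.sq, mul_one]
    _ = x * (m * t) * t := by group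
    _ = x * (t * m⁻¹) * t := by rw [← h3]
    _ = (x * t * m⁻¹) * t := by group
    _ = (m⁻¹ * (x * t)) * t := by rw [← h2]
    _ = m⁻¹ * x * (t * t) := by group
    _ = m⁻¹ * x := by rw [hρ.sq, mul_one]

include hB hρ hi in
/-- all lifts of transpositions are involutions -/
theorem lift_sq {x : Γ} (hx : ρ x ∈ CLift.D l) : x * x = 1 := by
  obtain ⟨c, hc⟩ := hx
  obtain ⟨γ, rfl⟩ := hρ.surj c
  have h1 : ρ x = ρ (γ * t * γ⁻¹) := by rw [hc, map_mul, map_mul, map_inv, hρ.im]
  obtain ⟨m, hm, rfl⟩ := exists_ker (σ := ρ) h1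
  have hodd : ρ (γ * t * γ⁻¹) ∉ D := by
    intro h
    rw [map_mul, map_mul, map_inv, hρ.im] at h
    have := hB.normal
    have h2 := this.conj_mem _ h (ρ γ)⁻¹
    apply hB.odd
    convert h2 using 1
    group
  have h2 := odd_inv hB hρ hi hodd hm
  calc γ * t * γ⁻¹ * m * (γ * t * γ⁻¹ * m) = (γ * t * γ⁻¹ * m) * (γ * t * γ⁻¹) * m := by group
    _ = (m⁻¹ * (γ * t * γ⁻¹)) * (γ * t * γ⁻¹) * m := by rw [h2]
    _ = m⁻¹ * γ * (t * t) * γ⁻¹ * m := by group
    _ = 1 := by rw [hρ.sq]; group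

include hρ hB hsq in
theorem sq_one [Finite Γ] : ∀ m, ρ m = 1 → m * m = 1 → m = 1 := by
  intro m hm hmm
  let f : ρ.ker → ρ.ker := fun x => ⟨x.1 * x.1, ρ.ker.mul_mem x.2 x.2⟩
  have hf : Function.Surjective f := by
    rintro ⟨y, hy⟩
    obtain ⟨n, hn, hn2⟩ := hsq y hy
    exact ⟨⟨n, hn⟩, Subtype.ext hn2⟩
  have hfi := Finite.injective_iff_surjective.2 hf
  have h1 : f ⟨m, hm⟩ = f 1 := Subtype.ext (by
    change m * m = 1 * 1
    rw [hmm, one_mul])
  exact congrArg Subtype.val (hfi h1)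

include hB hρ hi hsq in
/-- the centraliser of a lift of a transposition is an exact copy -/
theorem exact_cent [Finite Γ] {x : Γ} (hx : ρ x ∈ CLift.D l) : Exact ρ x (centralizer {x}) := by
  have hodd : ρ x ∉ D := by
    intro h
    obtain ⟨c, hc⟩ := hx
    rw [hc] at h
    have := hB.normal
    have h2 := this.conj_mem _ h c⁻¹
    apply hB.odd
    convert h2 using 1
    group
  refine ⟨mem_centralizer_singleton_iff.2 rfl, fun k hk => mem_centralizer_singleton_iff.1 hk, ?_, ?_⟩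
  · intro k hk h1
    have h2 := mem_centralizer_singleton_iff.1 hk
    have h3 := odd_inv hB hρ hi hodd h1
    rw [← h2] at h3
    have h4 : k = k⁻¹ := mul_right_cancel h3
    refine sq_one hB hρ hsq k h1 ?_
    nth_rw 2 [h4]
    rw [mul_inv_cancel]
  · intro c hc
    obtain ⟨γ, rfl⟩ := hρ.surj c
    have h1 : ρ (γ * x * γ⁻¹) = ρ x := by rw [map_mul, map_mul, map_inv, hc]; group
    obtain ⟨m, hm, h2⟩ := exists_ker (σ := ρ) h1
    obtain ⟨n, hn, h3⟩ := hsq m⁻¹ (by rw [map_inv, hm, inv_one])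
    have h4 := odd_inv hB hρ hi hodd hn
    have hn' : ρ n⁻¹ = 1 := by rw [map_inv, hn, inv_one]
    have h4' := odd_inv hB hρ hi hodd hn'
    rw [inv_inv] at h4'
    -- `γ x γ⁻¹ = x m`, `n x n⁻¹ = x n⁻² = x m`
    have h5 : n * x * n⁻¹ = x * m := by
      rw [← h4', mul_assoc, ← mul_inv_rev, h3, inv_inv]
    refine ⟨n⁻¹ * γ, ?_, by rw [map_mul, hn', one_mul]⟩
    rw [mem_centralizer_singleton_iff]
    have h6 : γ * x = x * m * γ := by rw [← h2]; group
    calc n⁻¹ * γ * x = n⁻¹ * (γ * x) := by group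
      _ = n⁻¹ * (x * m) * γ := by rw [h6]; group
      _ = n⁻¹ * (n * x * n⁻¹) * γ := by rw [h5]
      _ = x * (n⁻¹ * γ) := by group

end inv

theorem pow_swap {K : Type} [Group K] {a b : K} {n : ℕ} (h : (a * b) ^ n = 1) : (b * a) ^ n = 1 := by
  have h1 : b * a = a⁻¹ * (a * b) * a⁻¹⁻¹ := by group
  rw [h1, conj_pow, h, mul_one, mul_inv_cancel]

theorem mm_symm (x y : Lt) : mm x y = mm y x := by cases x <;> cases y <;> rfl

theorem inv_case [Finite Γ] (hB : Base D l) (hG : Letters l g) (hρ : Ext D l ρ t)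
    (hi : ∀ m, ρ m = 1 → t * m = m⁻¹ * t) (hsq : ∀ m, ρ m = 1 → ∃ n, ρ n = 1 ∧ n * n = m) :
    ∃ v, v ^ 3 = 1 ∧ ∀ m, ρ m = 1 → m ∈ zpowers v := by
  have hlD : l ∈ CLift.D l := ⟨1, by group⟩
  have hKt := exact_cent hB hρ hi hsq (x := t) (by rw [hρ.im]; exact hlD)
  have hex : ∀ x, ∃ k, x ≠ .k → k ∈ centralizer {t} ∧ ρ k = g x := by
    intro x
    by_cases h : x = .k
    · exact ⟨1, fun h' => absurd h h'⟩
    · have h1 : g x * l = l * g x := by
        rw [← hG.l_eq]
        by_cases h2 : x = .l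
        · rw [h2]
        · exact hG.comm (by revert h h2; cases x <;> decide)
      obtain ⟨k, hk, hk2⟩ := hKt.surj (g x) (by rw [hρ.im]; exact h1)
      exact ⟨k, fun _ => ⟨hk, hk2⟩⟩
  choose κ hκ using hex
  have hKb := exact_cent hB hρ hi hsq (x := κ .b) (by rw [(hκ .b (by decide)).2]; exact hG.cls _)
  have hKf := exact_cent hB hρ hi hsq (x := κ .f) (by rw [(hκ .f (by decide)).2]; exact hG.cls _)
  obtain ⟨Lk, hLk, hLk2⟩ := hKb.surj (g .k) (by rw [(hκ .b (by decide)).2]; exact hG.comm rfl)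
  set L : Lt → Γ := fun x => if x = .k then Lk else κ x with hL
  have hLκ : ∀ x, x ≠ .k → L x = κ x := fun x hx => if_neg hx
  have hLkk : L .k = Lk := if_pos rfl
  have hLt : ∀ x, x ≠ .k → L x ∈ centralizer {t} := fun x hx => by rw [hLκ x hx]; exact (hκ x hx).1
  have hLg : ∀ x, ρ (L x) = g x := by
    intro x
    by_cases h : x = .k
    · rw [h, hLkk, hLk2]
    · rw [hLκ x h, (hκ x h).2]
  have hs : ∀ x, L x * L x = 1 := fun x => lift_sq hB hρ hi (by rw [hLg]; exact hG.cls x)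
  have hLb : κ .b = L .b := (hLκ .b (by decide)).symm
  have hLf : κ .f = L .f := (hLκ .f (by decide)).symm
  rw [hLb] at hKb hLk
  rw [hLf] at hKf
  rw [← hLkk] at hLk
  -- commuting letters of the centraliser of `t`
  have hcomm : ∀ x y, x ≠ .k → y ≠ .k → g x * g y = g y * g x → L x * L y = L y * L x := by
    intro x y hx hy h
    refine hKt.eq (mul_mem (hLt x hx) (hLt y hy)) (mul_mem (hLt y hy) (hLt x hx)) ?_
    rw [map_mul, map_mul, hLg, hLg, h]
  have hmb : ∀ y, y ≠ .k → (mm y .b = 2 ∨ y = .b) → L y ∈ centralizer {L .b} := by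
    intro y hy h
    rw [mem_centralizer_singleton_iff]
    rcases h with h | rfl
    · exact hcomm y .b hy (by decide) (hG.comm h)
    · rfl
  have hmf : ∀ y, y ≠ .k → (mm y .f = 2 ∨ y = .f) → L y ∈ centralizer {L .f} := by
    intro y hy h
    rw [mem_centralizer_singleton_iff]
    rcases h with h | rfl
    · exact hcomm y .f hy (by decide) (hG.comm h)
    · rfl
  have hkb : ∀ y, L y ∈ centralizer {L .b} → (L .k * L y) ^ mm .k y = 1 := by
    intro y hy
    refine hKb.inj _ (pow_mem (mul_mem hLk hy) _) ?_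
    rw [map_pow, map_mul, hLg, hLg]
    exact hG.hp _ _
  have hkf' : L .k ∈ centralizer {L .f} := by
    rw [mem_centralizer_singleton_iff]
    have hf := hmb .f (by decide) (Or.inl rfl)
    refine hKb.eq (mul_mem hLk hf) (mul_mem hf hLk) ?_
    rw [map_mul, map_mul, hLg, hLg]
    exact hG.comm rfl
  have hkf : ∀ y, L y ∈ centralizer {L .f} → (L .k * L y) ^ mm .k y = 1 := by
    intro y hy
    refine hKf.inj _ (pow_mem (mul_mem hkf' hy) _) ?_
    rw [map_pow, map_mul, hLg, hLg]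
    exact hG.hp _ _
  have hk : ∀ y, (L .k * L y) ^ mm .k y = 1 := by
    intro y
    cases y
    · exact hkb _ (hmb _ (by decide) (Or.inl rfl))
    · exact hkb _ hLk
    · exact hkf _ (hmf _ (by decide) (Or.inl rfl))
    · exact hkb _ (hmb _ (by decide) (Or.inr rfl))
    · exact hkf _ (hmf _ (by decide) (Or.inl rfl))
    · exact hkb _ (hmb _ (by decide) (Or.inl rfl))
    · exact hkb _ (hmb _ (by decide) (Or.inl rfl))
    · exact hkb _ (hmb _ (by decide) (Or.inl rfl))
    · exact hkb _ (hmb _ (by decide) (Or.inl rfl))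
    · exact hkb _ (hmb _ (by decide) (Or.inl rfl))
    · exact hkb _ (hmb _ (by decide) (Or.inl rfl))
    · exact hkb _ (hmb _ (by decide) (Or.inl rfl))
  have hpair : ∀ x y, (L x * L y) ^ mm x y = 1 := by
    intro x y
    by_cases hx : x = .k
    · rw [hx]; exact hk y
    · by_cases hy : y = .k
      · rw [hy, mm_symm]; exact pow_swap (hk x)
      · refine hKt.inj _ (pow_mem (mul_mem (hLt x hx) (hLt y hy)) _) ?_
        rw [map_pow, map_mul, hLg, hLg]
        exact hG.hp _ _
  have hw7 : ev L w7 ∈ centralizer {t} := ev_mem _ (by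
    intro x hx
    refine hLt x ?_
    simp only [w7, List.mem_cons, List.mem_nil_iff, or_false] at hx
    rcases hx with rfl | rfl | rfl | rfl | rfl | rfl | rfl <;> decide)
  have hlrel : L .l = (ev L w7) ^ 9 := by
    refine hKt.eq (hLt .l (by decide)) (pow_mem hw7 9) ?_
    rw [map_pow, ev_map hLg, hLg, hG.lrel]
  have hspid : (ev L wS) ^ 10 = 1 := by
    refine hKt.inj _ (pow_mem (ev_mem _ ?_) 10) ?_
    · intro x hx
      refine hLt x ?_
      simp only [wS, List.mem_cons, List.mem_nil_iff, or_false] at hx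
      rcases hx with rfl | rfl | rfl | rfl | rfl | rfl | rfl | rfl | rfl <;> decide
    · rw [map_pow, ev_map hLg, hG.spid]
  -- the word `t1`
  set T := ev L t1 with hT
  have hTt : T ∈ centralizer {t} := ev_mem _ (by
    intro x hx
    refine hLt x ?_
    rintro rfl
    revert hx
    decide)
  have hTg : ρ T = ev g t1 := ev_map hLg _
  have hTT : T * T = 1 := by
    have h3 : t1.reverse = t1 := by rw [t1]; simp
    have h4 := ev_reverse L hs t1
    rw [h3] at h4
    rw [hT]
    nth_rw 1 [h4]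
    rw [inv_mul_cancel]
  have hb3 : (L .b * T) ^ 3 = 1 := by
    refine hKt.inj _ (pow_mem (mul_mem (hLt .b (by decide)) hTt) 3) ?_
    rw [map_pow, map_mul, hLg, hTg]
    exact hG.t1b
  have hkB : L .k * L .b = L .b * L .k := mem_centralizer_singleton_iff.1 hLk
  set v := (L .k * T) ^ 2 with hv
  have hvk : ρ v = 1 := by
    rw [hv, map_pow, map_mul, hLg, hTg, pow_two]
    have h5 : ev g t1 * ev g t1 = 1 := by rw [← hTg, ← map_mul, hTT, map_one]
    calc g .k * ev g t1 * (g .k * ev g t1) = g .k * (ev g t1 * g .k) * ev g t1 := by group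
      _ = g .k * g .k * (ev g t1 * ev g t1) := by rw [hG.t1k]; group
      _ = 1 := by rw [h5, hG.sq, one_mul]
  have hTinv : T⁻¹ = T := inv_eq_of_mul_eq_one_left hTT
  have hkinv : (L .k)⁻¹ = L .k := inv_eq_of_mul_eq_one_left (hs _)
  have hbinv : (L .b)⁻¹ = L .b := inv_eq_of_mul_eq_one_left (hs _)
  set γ := L .b * T with hγ
  have hγD : ρ γ ∈ D := by
    have hTD : ρ T ∉ D := by
      rw [hTg, t1, ev_append, ev_append, ev_reverse _ hG.sq, ev_single]
      intro h
      have h6 := hB.normal.conj_mem _ h (ev g t1u)⁻¹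
      obtain ⟨c, hc⟩ := hG.cls .a
      rw [hc] at h6
      have h7 := hB.normal.conj_mem _ h6 c⁻¹
      apply hB.odd
      convert h7 using 1
      group
    have hbD : ρ (L .b) ∉ D := by
      rw [hLg]
      intro h
      obtain ⟨c, hc⟩ := hG.cls .b
      rw [hc] at h
      have h7 := hB.normal.conj_mem _ h c⁻¹
      apply hB.odd
      convert h7 using 1
      group
    rw [hγ, map_mul]
    exact hB.two_odd hbD hTD
  have hstep : γ⁻¹ * L .k * γ = L .k * v := by
    rw [hγ, mul_inv_rev, hTinv, hbinv, hv]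
    calc T * L .b * L .k * (L .b * T) = T * (L .b * L .k) * L .b * T := by group
      _ = T * (L .k * L .b) * L .b * T := by rw [hkB]
      _ = T * L .k * (L .b * L .b) * T := by group
      _ = T * L .k * T := by rw [hs]; group
      _ = (L .k * L .k) * T * L .k * T := by rw [hs]; group
      _ = L .k * (L .k * T) ^ 2 := by rw [pow_two]; group
  have hvγ : v * γ = γ * v := hρ.cm v hvk γ hγD
  have hv3 : v ^ 3 = 1 := by
    have h8 : γ ^ 3 = 1 := hb3
    have hvg : γ⁻¹ * v * γ = v := by rw [mul_assoc, hvγ]; group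
    have h9 : γ⁻¹ * (γ⁻¹ * (γ⁻¹ * L .k * γ) * γ) * γ = L .k := by
      calc γ⁻¹ * (γ⁻¹ * (γ⁻¹ * L .k * γ) * γ) * γ = (γ ^ 3)⁻¹ * L .k * γ ^ 3 := by rw [pow_succ, pow_two]; group
        _ = L .k := by rw [h8]; group
    have h10 : γ⁻¹ * (γ⁻¹ * (γ⁻¹ * L .k * γ) * γ) * γ = L .k * v ^ 3 := by
      rw [hstep]
      calc γ⁻¹ * (γ⁻¹ * (L .k * v) * γ) * γ
          = γ⁻¹ * ((γ⁻¹ * L .k * γ) * (γ⁻¹ * v * γ)) * γ := by group
        _ = γ⁻¹ * (L .k * v * v) * γ := by rw [hstep, hvg]
        _ = (γ⁻¹ * L .k * γ) * (γ⁻¹ * v * γ) * (γ⁻¹ * v * γ) := by group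
        _ = L .k * v * v * v := by rw [hstep, hvg]
        _ = L .k * v ^ 3 := by rw [pow_succ, pow_two]; group
    rw [h9] at h10
    exact mul_left_cancel (a := L .k) (by rw [← h10, mul_one])
  -- the quotient by `v`
  have hzk : ∀ x ∈ zpowers v, ρ x = 1 := by
    intro x hx
    obtain ⟨n, rfl⟩ := mem_zpowers_iff.1 hx
    rw [map_zpow, hvk, one_zpow]
  have hN : (zpowers v).Normal := by
    constructor
    intro n hn γ
    have h11 := hzk n hn
    by_cases hD : ρ γ ∈ D
    · rw [← hρ.cm n h11 γ hD, mul_inv_cancel_right]; exact hn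
    · rw [odd_inv hB hρ hi hD h11, mul_inv_cancel_right]; exact inv_mem hn
  refine ⟨v, hv3, ?_⟩
  let q := QuotientGroup.mk' (zpowers v)
  let ρ' := QuotientGroup.lift (zpowers v) ρ hzk
  have hq : ∀ x, ρ' (q x) = ρ x := fun x => rfl
  have hE : Ext D l ρ' (q t) := hρ.quot (zpowers v) hzk
  have hev : ∀ w, ev (fun x => q (L x)) w = q (ev L w) := fun w => (ev_map (σ := q) (fun x => rfl) w).symm
  have hfin := concl (ρ := ρ') (t := q t) (L := fun x => q (L x)) hB hG hE (fun x => hLg x) ⟨?_, ?_, ?_, ?_⟩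
    (K := (centralizer {t}).map q) ?_ ?_ ?_
  · intro m hm
    have h12 := hfin (q m) hm
    exact (QuotientGroup.eq_one_iff m).1 h12
  · intro x y
    rw [← map_mul, ← map_pow, hpair, map_one]
  · rw [hev, ← map_pow, ← hlrel]
  · rw [hev, ← map_pow, hspid, map_one]
  · rw [hev, ← map_mul, ← map_pow]
    exact (QuotientGroup.eq_one_iff _).2 (mem_zpowers v)
  · rintro _ ⟨k, hk, rfl⟩ h1
    rw [hKt.inj k hk h1, map_one]
  · rintro _ ⟨k, hk, rfl⟩
    change ρ k ∈ _
    have h1 := hKt.comm k hk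
    rw [mem_centralizer_singleton_iff, ← hρ.im, ← map_mul, h1, map_mul]
  · intro x hx
    exact ⟨L x, hLt x hx, rfl⟩

/-- **upper bound** -/
theorem bound [Finite Γ] (hB : Base D l) (hG : Letters l g) (hρ : Ext D l ρ t) : Nat.card ρ.ker ∣ 3 := by
  have h1D : (1 : G) ∈ D := D.one_mem
  have hab : ∀ m n, ρ m = 1 → ρ n = 1 → m * n = n * m := fun m n hm hn => hρ.cm m hm n (by rw [hn]; exact h1D)
  have ht : t⁻¹ = t := inv_eq_of_mul_eq_one_left hρ.sq
  have hkt : ∀ m, ρ m = 1 → ρ (t * m * t) = 1 := by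
    intro m hm
    rw [map_mul, map_mul, hm, mul_one, ← map_mul, hρ.sq, map_one]
  -- the subgroup `[ker, t]`
  let N : Subgroup Γ :=
    { carrier := {n | ∃ m, ρ m = 1 ∧ n = m * (t * m * t)⁻¹}
      one_mem' := ⟨1, map_one ρ, by rw [mul_one, hρ.sq]; group⟩
      mul_mem' := by
        rintro _ _ ⟨m, hm, rfl⟩ ⟨n, hn, rfl⟩
        refine ⟨m * n, by rw [map_mul, hm, hn, one_mul], ?_⟩
        have h1 := hab (t * m * t)⁻¹ n (by rw [map_inv, hkt m hm, inv_one]) hn
        have h2 := hab (t * m * t) (t * n * t) (hkt m hm) (hkt n hn)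
        have h3 : t * (m * n) * t = (t * m * t) * (t * n * t) := by
          calc t * (m * n) * t = t * m * (t * t) * n * t := by rw [hρ.sq]; group
            _ = _ := by group
        calc m * (t * m * t)⁻¹ * (n * (t * n * t)⁻¹) = m * ((t * m * t)⁻¹ * n) * (t * n * t)⁻¹ := by group
          _ = m * (n * (t * m * t)⁻¹) * (t * n * t)⁻¹ := by rw [h1]
          _ = m * n * ((t * n * t) * (t * m * t))⁻¹ := by group
          _ = m * n * (t * (m * n) * t)⁻¹ := by rw [h3, h2]
      inv_mem' := by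
        rintro _ ⟨m, hm, rfl⟩
        refine ⟨m⁻¹, by rw [map_inv, hm, inv_one], ?_⟩
        have h1 := hab (t * m * t) m⁻¹ (hkt m hm) (by rw [map_inv, hm, inv_one])
        have h3 : (t * m⁻¹ * t)⁻¹ = t * m * t := by
          rw [mul_inv_rev, mul_inv_rev, inv_inv, ht, mul_assoc]
        rw [h3, mul_inv_rev, inv_inv, h1] }
  have hNk : ∀ x ∈ N, ρ x = 1 := by
    rintro _ ⟨m, hm, rfl⟩
    rw [map_mul, map_inv, hkt m hm, hm, inv_one, one_mul]
  have hNt : ∀ x ∈ N, t * x * t = x⁻¹ := by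
    rintro _ ⟨m, hm, rfl⟩
    calc t * (m * (t * m * t)⁻¹) * t = t * m * t⁻¹ * m⁻¹ := by group
      _ = (t * m * t) * m⁻¹ := by rw [ht]
      _ = (m * (t * m * t)⁻¹)⁻¹ := by group
  have hN : N.Normal := by
    constructor
    intro n hn x
    by_cases hD : ρ x ∈ D
    · rw [← hρ.cm n (hNk n hn) x hD, mul_inv_cancel_right]; exact hn
    · have h1 : ρ (x * t) ∈ D := by rw [map_mul, hρ.im]; exact hB.two_odd hD hB.odd
      have h2 : x * n * x⁻¹ = n⁻¹ := by
        have h3 : ρ n⁻¹ = 1 := by rw [map_inv, hNk n hn, inv_one]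
        have h4 := hρ.cm _ h3 _ h1
        calc x * n * x⁻¹ = x * (t * t) * n * (t * t) * x⁻¹ := by rw [hρ.sq]; group
          _ = (x * t) * (t * n * t) * t * x⁻¹ := by group
          _ = (x * t) * n⁻¹ * t * x⁻¹ := by rw [hNt n hn]
          _ = n⁻¹ * (x * t) * t * x⁻¹ := by rw [← h4]
          _ = n⁻¹ * x * (t * t) * x⁻¹ := by group
          _ = n⁻¹ := by rw [hρ.sq]; group
      rw [h2]; exact N.inv_mem hn
  -- the central quotient
  have hker : ∀ m, ρ m = 1 → m ∈ N := by
    let q := QuotientGroup.mk' N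
    let ρ' := QuotientGroup.lift N ρ hNk
    have hE : Ext D l ρ' (q t) := hρ.quot N hNk
    have hqt : ∀ m, ρ m = 1 → q t * q m = q m * q t := by
      intro m hm
      have h1 : m * (t * m * t)⁻¹ ∈ N := ⟨m, hm, rfl⟩
      have h2 : q (m * (t * m * t)⁻¹) = 1 := (QuotientGroup.eq_one_iff _).2 h1
      rw [map_mul, map_inv] at h2
      have h3 := mul_inv_eq_one.1 h2
      have h4 : q t * q t = 1 := by rw [← map_mul, hρ.sq, map_one]
      have h5 : q (t * m * t) = q t * q m * q t := by rw [map_mul, map_mul]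
      rw [h5] at h3
      calc q t * q m = q t * (q t * q m * q t) := by rw [← h3]
        _ = (q t * q t) * q m * q t := by group
        _ = q m * q t := by rw [h4, one_mul]
    have hcc : ∀ m, ρ' m = 1 → ∀ x, x * m = m * x := by
      intro m hm x
      obtain ⟨m, rfl⟩ := QuotientGroup.mk'_surjective N m
      obtain ⟨x, rfl⟩ := QuotientGroup.mk'_surjective N x
      have hm : ρ m = 1 := hm
      change q x * q m = q m * q x
      by_cases hD : ρ x ∈ D
      · rw [← map_mul, ← map_mul, hρ.cm m hm x hD]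
      · have h1 : ρ (x * t) ∈ D := by rw [map_mul, hρ.im]; exact hB.two_odd hD hB.odd
        have h2 : q (x * t) * q m = q m * q (x * t) := by rw [← map_mul, ← map_mul, hρ.cm m hm _ h1]
        have h3 := hqt m hm
        rw [map_mul] at h2
        refine mul_right_cancel (b := q t) ?_
        calc q x * q m * q t = q x * (q m * q t) := by group
          _ = q x * (q t * q m) := by rw [h3]
          _ = (q x * q t) * q m := by group
          _ = q m * (q x * q t) := by rw [h2]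
          _ = q m * q x * q t := by group
    intro m hm
    have h1 := central_case hB hG hE hcc (q m) hm
    exact (QuotientGroup.eq_one_iff m).1 h1
  have hi : ∀ m, ρ m = 1 → t * m = m⁻¹ * t := by
    intro m hm
    have h1 := hNt m (hker m hm)
    calc t * m = t * m * (t * t) := by rw [hρ.sq, mul_one]
      _ = (t * m * t) * t := by group
      _ = m⁻¹ * t := by rw [h1]
  have hsq : ∀ m, ρ m = 1 → ∃ n, ρ n = 1 ∧ n * n = m := by
    intro m hm
    obtain ⟨n, hn, rfl⟩ := hker m hm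
    refine ⟨n, hn, ?_⟩
    have h1 := hNt n (hker n hn)
    rw [h1, inv_inv]
  obtain ⟨v, hv3, hv⟩ := inv_case hB hG hρ hi hsq
  have h1 : ρ.ker ≤ zpowers v := fun m hm => hv m hm
  have h2 : Nat.card ρ.ker ∣ Nat.card (zpowers v) := Subgroup.card_dvd_of_le h1
  rw [Nat.card_zpowers] at h2
  exact h2.trans (orderOf_dvd_of_pow_eq_one hv3)

end H40.F24A
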