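import Cfsg.Agent.Lib.H40.F24A4

/-!
# The upper bound for stem extensions of the index two subgroup
-/

set_option autoImplicit false
set_option linter.all false
set_option maxRecDepth 10000

namespace H40.F24A

open Subgroup H40.CL H40.TCF24G
open scoped commutatorElement

/-- the homomorphism from the group of order two given by an involution -/
def uh {M : Type} [Group M] (x : M) (hx : x * x = 1) : ℤˣ →* M where
  toFun u := if u = 1 then 1 else x
  map_one' := if_pos rfl
  map_mul' u v := by
    rcases Int.units_eq_one_or u with rfl | rfl <;> rcases Int.units_eq_one_or v with rfl | rfl <;> simp [hx]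

theorem uh_neg {M : Type} [Group M] (x : M) (hx : x * x = 1) : uh x hx (-1) = x := by simp [uh]

variable {G : Type} [Group G] {D : Subgroup G} {l : G} {g : Lt → G}

theorem stem_bound (hB : Base D l) (hG : Letters l g) (hDp : commutator D = ⊤) {X : Type} [Group X] [Finite X]
    {σ : X →* D} (hσ : Cfsg.IsStemExtension σ) : Nat.card σ.ker ∣ 3 := by
  have hN := hB.normal
  let θ : MulAut D := MulAut.conjNormal l
  have hθ1 : ∀ q : D, ((θ q : D) : G) = l * q * l⁻¹ := fun q => MulAut.conjNormal_apply l q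
  have hl : l⁻¹ = l := inv_eq_of_mul_eq_one_left hB.sq
  have hθ : ∀ q, θ (θ q) = q := by
    intro q
    apply Subtype.ext
    rw [hθ1, hθ1, hl]
    calc l * (l * (q : G) * l) * l = (l * l) * q * (l * l) := by group
      _ = q := by rw [hB.sq, one_mul, mul_one]
  obtain ⟨E, _, _, s, τ, hs, hE, hττ, hsτ, hdvd⟩ := CE.double hσ hDp θ hθ
  have hτ : τ * τ = 1 := by ext e; exact hττ e
  let φ : ℤˣ →* MulAut E := uh τ hτ
  let ψ : ℤˣ →* G := uh l hB.sq
  have hcompat : ∀ u : ℤˣ, (D.subtype.comp s).comp (φ u).toMonoidHom =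
      (MulAut.conj (ψ u)).toMonoidHom.comp (D.subtype.comp s) := by
    intro u
    rcases Int.units_eq_one_or u with rfl | rfl
    · rw [map_one, map_one, map_one]; rfl
    · ext e
      change ((s (φ (-1) e) : D) : G) = ψ (-1) * (s e : G) * (ψ (-1))⁻¹
      have h1 : φ (-1) = τ := uh_neg τ hτ
      have h2 : ψ (-1) = l := uh_neg l hB.sq
      rw [h1, h2, hsτ, hθ1]
  let ρ : E ⋊[φ] ℤˣ →* G := SemidirectProduct.lift (D.subtype.comp s) ψ hcompat
  have hρ : ∀ x : E ⋊[φ] ℤˣ, ρ x = (s x.left : G) * ψ x.right := fun x => rfl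
  have hfin : Finite (E ⋊[φ] ℤˣ) := Finite.of_equiv (E × ℤˣ) SemidirectProduct.equivProd.symm
  have hψ1 : ψ 1 = 1 := map_one ψ
  have hψ2 : ψ (-1) = l := uh_neg l hB.sq
  -- elements over `D`
  have hD : ∀ x : E ⋊[φ] ℤˣ, ρ x ∈ D → x = SemidirectProduct.inl x.left := by
    intro x hx
    rw [hρ] at hx
    rcases Int.units_eq_one_or x.right with h | h
    · apply SemidirectProduct.ext
      · rfl
      · exact h
    · exfalso
      rw [h, hψ2] at hx
      exact hB.odd ((Subgroup.mul_mem_cancel_left D (s x.left).2).1 hx)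
  have hExt : Ext D l ρ (SemidirectProduct.inr (-1)) := by
    refine ⟨?_, ?_, ?_, ?_, ?_⟩
    · intro y
      by_cases hy : y ∈ D
      · obtain ⟨e, he⟩ := hs.1 ⟨y, hy⟩
        refine ⟨SemidirectProduct.inl e, ?_⟩
        rw [hρ]
        change (s e : G) * ψ 1 = y
        rw [he, hψ1, mul_one]
      · obtain ⟨e, he⟩ := hs.1 ⟨y * l, hB.two_odd hy hB.odd⟩
        refine ⟨⟨e, -1⟩, ?_⟩
        rw [hρ]
        change (s e : G) * ψ (-1) = y
        rw [he, hψ2]
        change y * l * l = y
        rw [mul_assoc, hB.sq, mul_one]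
    · intro m hm x hx
      have h1 := hD m (by rw [hm]; exact D.one_mem)
      have h2 := hD x hx
      have h3 : s m.left = 1 := by
        rw [h1, hρ] at hm
        have h4 : (s m.left : G) * ψ 1 = 1 := hm
        rw [hψ1, mul_one] at h4
        exact Subtype.ext h4
      have h4 := mem_center_iff.1 (hs.2.1 (MonoidHom.mem_ker.2 h3)) x.left
      rw [h1, h2, ← map_mul, ← map_mul]
      congr 1
      exact h4.symm
    · intro x hx
      have h1 := hD x hx
      rw [h1]
      have h2 : x.left ∈ commutator E := by rw [hE]; trivial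
      have h3 : SemidirectProduct.inl x.left ∈ (commutator E).map (SemidirectProduct.inl : E →* E ⋊[φ] ℤˣ) :=
        ⟨_, h2, rfl⟩
      rw [_root_.commutator_def, Subgroup.map_commutator] at h3
      refine Subgroup.commutator_mono ?_ ?_ h3
      · rintro _ ⟨e, _, rfl⟩
        change (s e : G) * ψ 1 ∈ D
        rw [hψ1, mul_one]; exact (s e).2
      · rintro _ ⟨e, _, rfl⟩
        change (s e : G) * ψ 1 ∈ D
        rw [hψ1, mul_one]; exact (s e).2
    · rw [← map_mul, show (-1 : ℤˣ) * -1 = 1 by decide, map_one]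
    · rw [hρ]
      change ((s 1 : D) : G) * ψ (-1) = l
      rw [map_one, hψ2]
      change (1 : G) * l = l
      rw [one_mul]
  have h1 := bound hB hG hExt
  have h2 : s.ker.map (SemidirectProduct.inl : E →* E ⋊[φ] ℤˣ) ≤ ρ.ker := by
    rintro _ ⟨e, he, rfl⟩
    rw [MonoidHom.mem_ker, hρ]
    change (s e : G) * ψ 1 = 1
    rw [MonoidHom.mem_ker.1 he, hψ1, mul_one]
    rfl
  have h3 := Subgroup.card_dvd_of_le h2
  rw [Subgroup.card_map_of_injective SemidirectProduct.inl_injective] at h3
  exact (hdvd.trans h3).trans h1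

end H40.F24A
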