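import Cfsg.Agent.Lib.H40.F24A3
import Cfsg.Agent.Lib.H35.CentralUb
import Cfsg.Agent.Lib.H35.Fi23Ub

/-!
# The triple cover from a group with an inverted element of order three
-/

set_option autoImplicit false
set_option linter.all false
set_option maxRecDepth 10000

namespace H40.F24E

open Subgroup H40.CL H40.TCF24G H40.F24A H35 H35.Net H35.TC
open scoped commutatorElement

/-- the letters of the subgroup -/
inductive L1 | a | b | c | d | e | f | g | j | h | i | l

/-- letters -/
def i1 : L1 → Lt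
  | .a => .a
  | .b => .b
  | .c => .c
  | .d => .d
  | .e => .e
  | .f => .f
  | .g => .g
  | .j => .j
  | .h => .h
  | .i => .i
  | .l => .l

/-- letters of Fi23 -/
def i23 : H35.TCFi23A.Lt → L1
  | .a => .a
  | .b => .b
  | .c => .c
  | .d => .d
  | .e => .e
  | .f => .f
  | .g => .g
  | .j => .j
  | .h => .h
  | .i => .i

section sub

variable {K : Type} [Group K] {g : Lt → K}

/-- the subgroup `⟨a, …, j, l⟩` -/
def H1 (g : Lt → K) : Subgroup K := closure (Set.range fun x => g (i1 x))

/-- generators of `H1` -/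
def p1 (g : Lt → K) (x : L1) : H1 g := ⟨g (i1 x), subset_closure ⟨x, rfl⟩⟩

theorem gen1 (g : Lt → K) : closure (Set.range (p1 g)) = ⊤ := by
  have h : map (H1 g).subtype (closure (Set.range (p1 g))) = map (H1 g).subtype ⊤ := by
    rw [MonoidHom.map_closure, ← Set.range_comp]
    have e1 : map (H1 g).subtype ⊤ = H1 g := by
      rw [← MonoidHom.range_eq_map, Subgroup.range_subtype]
    rw [e1]
    rfl
  exact Subgroup.map_injective (H1 g).subtype_injective h

theorem sqR (hr : Rels g) (x : Lt) : g x * g x = 1 := by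
  have := hr.hp x x
  rwa [mm_self, pow_one] at this

theorem commR (hr : Rels g) {x y : Lt} (h : mm x y = 2) : g x * g y = g y * g x := by
  have h3 := hr.hp x y
  rw [h] at h3
  have e : (g x * g y)⁻¹ = g x * g y := inv_eq_of_mul_eq_one_left (by rw [← pow_two]; exact h3)
  rw [← e, mul_inv_rev, inv_eq_of_mul_eq_one_left (sqR hr x), inv_eq_of_mul_eq_one_left (sqR hr y)]

theorem l_comm (hr : Rels g) (x : L1) : g (i1 x) * g .l = g .l * g (i1 x) := by
  cases x
  case l => rfl
  all_goals exact commR hr rfl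

theorem l_central (hr : Rels g) (x : H1 g) : x * p1 g .l = p1 g .l * x := by
  have hx : x ∈ closure (Set.range (p1 g)) := by rw [gen1]; trivial
  induction hx using closure_induction with
  | mem y hy =>
    obtain ⟨z, rfl⟩ := hy
    exact Subtype.ext (l_comm hr z)
  | one => rw [one_mul, mul_one]
  | mul x y _ _ hx hy => rw [mul_assoc, hy, ← mul_assoc, hx, mul_assoc]
  | inv x _ hx =>
    have h1 : Commute x (p1 g .l) := hx
    exact h1.inv_left.eq

theorem H1_ub (hr : Rels g) : Nat.card (H1 g) ≤ 4089470473293004800 * 2 ∧ Nat.card (H1 g) ≠ 0 := by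
  refine (CentralUb.card_le_of_central (fun x => p1 g (i23 x)) (p1 g .l) (Subtype.ext (sqR hr .l)) (l_central hr)
    ?_ ?_ ?_ Fi23Ub.ub).1
  · rw [eq_top_iff, ← gen1, closure_le]
    rintro _ ⟨x, rfl⟩
    cases x
    · exact subset_closure (Or.inr ⟨.a, rfl⟩)
    · exact subset_closure (Or.inr ⟨.b, rfl⟩)
    · exact subset_closure (Or.inr ⟨.c, rfl⟩)
    · exact subset_closure (Or.inr ⟨.d, rfl⟩)
    · exact subset_closure (Or.inr ⟨.e, rfl⟩)
    · exact subset_closure (Or.inr ⟨.f, rfl⟩)
    · exact subset_closure (Or.inr ⟨.g, rfl⟩)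
    · exact subset_closure (Or.inr ⟨.j, rfl⟩)
    · exact subset_closure (Or.inr ⟨.h, rfl⟩)
    · exact subset_closure (Or.inr ⟨.i, rfl⟩)
    · exact subset_closure (Or.inl rfl)
  · intro x y
    have h := transfer_hp (mm' := TCFi23A.mm) hr.hp (fun x => i1 (i23 x)) (by intro x y; cases x <;> cases y <;> decide) x y
    apply Subtype.ext
    rw [Subgroup.coe_pow]
    exact h
  · intro e he
    simp only [TCFi23A.extra, List.mem_cons, List.mem_nil_iff, or_false] at he
    rcases he with rfl | rfl
    · right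
      exact Subtype.ext hr.lrel.symm
    · left
      exact Subtype.ext hr.spid

/-- the order of a group generated by elements satisfying the relations -/
theorem card_ub (hr : Rels g) : Nat.card (closure (Set.range g)) ≤ 4089470473293004800 * 2 * 306936 ∧
    Nat.card (closure (Set.range g)) ≠ 0 := by
  have h1 := hr.idx (H := H1 g) (by
    intro x hx
    cases x
    · exact subset_closure ⟨.l, rfl⟩
    · exact absurd rfl hx
    · exact subset_closure ⟨.a, rfl⟩
    · exact subset_closure ⟨.b, rfl⟩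
    · exact subset_closure ⟨.c, rfl⟩
    · exact subset_closure ⟨.d, rfl⟩
    · exact subset_closure ⟨.e, rfl⟩
    · exact subset_closure ⟨.f, rfl⟩
    · exact subset_closure ⟨.g, rfl⟩
    · exact subset_closure ⟨.j, rfl⟩
    · exact subset_closure ⟨.h, rfl⟩
    · exact subset_closure ⟨.i, rfl⟩)
  have h2 := H1_ub hr
  set Δ := closure (Set.range g) with hΔ
  have h3 := Subgroup.card_mul_index ((H1 g).subgroupOf Δ)
  have hle : H1 g ≤ Δ := by
    rw [H1, closure_le]
    rintro _ ⟨x, rfl⟩
    exact subset_closure ⟨_, rfl⟩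
  have h4 : Nat.card ((H1 g).subgroupOf Δ) = Nat.card (H1 g) :=
    Nat.card_congr (Subgroup.subgroupOfEquivOfLe hle).toEquiv
  rw [h4] at h3
  rw [← h3]
  exact ⟨Nat.mul_le_mul h2.1 h1.1, Nat.mul_ne_zero h2.2 h1.2⟩

end sub

variable {G : Type} [Group G] {D : Subgroup G} {l : G} {g : Lt → G}

theorem letter_odd (hB : Base D l) (hG : Letters l g) (x : Lt) : g x ∉ D := by
  intro h
  obtain ⟨c, hc⟩ := hG.cls x
  rw [hc] at h
  have h7 := hB.normal.conj_mem _ h c⁻¹
  apply hB.odd
  convert h7 using 1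
  group

theorem exists_cover (hB : Base D l) (hG : Letters l g) (hDp : commutator D = ⊤)
    (hcard : Nat.card G = 4089470473293004800 * 2 * 306936) {P : Type} [Group P] (f : Lt → P)
    (hp : ∀ x y, (f x * f y) ^ mm x y = 1) (hlrel : f .l = (ev f w7) ^ 9) (hspid : (ev f wS) ^ 10 = 1)
    (hv1 : (f .k * ev f t1) ^ 2 ≠ 1) (hv3 : ((f .k * ev f t1) ^ 2) ^ 3 = 1)
    (hvi : ∀ x, f x * (f .k * ev f t1) ^ 2 = ((f .k * ev f t1) ^ 2)⁻¹ * f x) :
    ∃ (X : Type) (_ : Group X) (_ : Finite X) (τ : X →* D), Cfsg.IsStemExtension τ ∧ Nat.card τ.ker = 3 := by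
  have hfG : Finite G := Nat.finite_of_card_ne_zero (by rw [hcard]; norm_num)
  let R : Subgroup (P × G) := closure (Set.range fun x => (f x, g x))
  let r : Lt → R := fun x => ⟨(f x, g x), subset_closure ⟨x, rfl⟩⟩
  let π1 : R →* P := (MonoidHom.fst P G).comp R.subtype
  let σ : R →* G := (MonoidHom.snd P G).comp R.subtype
  have hπr : ∀ x, π1 (r x) = f x := fun x => rfl
  have hσr : ∀ x, σ (r x) = g x := fun x => rfl
  have hext : ∀ x y : R, π1 x = π1 y → σ x = σ y → x = y := fun x y h1 h2 => Subtype.ext (Prod.ext h1 h2)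
  have hgen : closure (Set.range r) = ⊤ := by
    have h : map R.subtype (closure (Set.range r)) = map R.subtype ⊤ := by
      rw [MonoidHom.map_closure, ← Set.range_comp]
      have e1 : map R.subtype ⊤ = R := by
        rw [← MonoidHom.range_eq_map, Subgroup.range_subtype]
      rw [e1]
      rfl
    exact Subgroup.map_injective R.subtype_injective h
  have hrp : ∀ x y, (r x * r y) ^ mm x y = 1 := fun x y =>
    hext _ _ (by rw [map_pow, map_mul, map_one]; exact hp x y) (by rw [map_pow, map_mul, map_one]; exact hG.hp x y)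
  have hrl : r .l = (ev r w7) ^ 9 :=
    hext _ _ (by rw [map_pow, ev_map hπr]; exact hlrel) (by rw [map_pow, ev_map hσr]; exact hG.lrel)
  have hrs : (ev r wS) ^ 10 = 1 :=
    hext _ _ (by rw [map_pow, ev_map hπr, map_one]; exact hspid) (by rw [map_pow, ev_map hσr, map_one]; exact hG.spid)
  have hrsq : ∀ x, r x * r x = 1 := by
    intro x
    have := hrp x x
    rwa [mm_self, pow_one] at this
  set v : R := (r .k * ev r t1) ^ 2 with hv
  have hπv : π1 v = (f .k * ev f t1) ^ 2 := by rw [hv, map_pow, map_mul, ev_map hπr, hπr]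
  have hσv : σ v = 1 := by
    rw [hv, map_pow, map_mul, ev_map hσr, hσr, pow_two]
    have h2 : ev g t1 * ev g t1 = 1 := by
      have h3 : t1.reverse = t1 := by rw [t1]; simp
      have h4 := ev_reverse g hG.sq t1
      rw [h3] at h4
      nth_rw 1 [h4]
      rw [inv_mul_cancel]
    calc g .k * ev g t1 * (g .k * ev g t1) = g .k * (ev g t1 * g .k) * ev g t1 := by group
      _ = g .k * g .k * (ev g t1 * ev g t1) := by rw [hG.t1k]; group
      _ = 1 := by rw [h2, hG.sq, one_mul]
  have hv3' : v ^ 3 = 1 := hext _ _ (by rw [map_pow, hπv, map_one]; exact hv3) (by rw [map_pow, hσv, map_one, one_pow])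
  have hv1' : v ≠ 1 := by
    intro h
    apply hv1
    rw [← hπv, h, map_one]
  have hrv : ∀ x, r x * v = v⁻¹ * r x := fun x =>
    hext _ _ (by rw [map_mul, map_mul, map_inv, hπv]; exact hvi x)
      (by rw [map_mul, map_mul, map_inv, hσv, inv_one, one_mul, mul_one])
  have hvord : orderOf v = 3 := by
    have : Fact (Nat.Prime 3) := ⟨Nat.prime_three⟩
    exact orderOf_eq_prime hv3' hv1'
  -- parity
  have hpar : ∀ x : R, (σ x ∈ D ∧ x * v = v * x) ∨ (σ x ∉ D ∧ x * v = v⁻¹ * x) := by
    intro x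
    have hx : x ∈ closure (Set.range r) := by rw [hgen]; trivial
    have hinv' : ∀ y : R, y * v = v⁻¹ * y → y * v⁻¹ = v * y := by
      intro y hy
      calc y * v⁻¹ = v * (v⁻¹ * y) * v⁻¹ := by group
        _ = v * (y * v) * v⁻¹ := by rw [hy]
        _ = v * y := by group
    induction hx using closure_induction with
    | mem y hy =>
      obtain ⟨z, rfl⟩ := hy
      exact Or.inr ⟨letter_odd hB hG z, hrv z⟩
    | one => exact Or.inl ⟨by rw [map_one]; exact D.one_mem, by rw [one_mul, mul_one]⟩
    | mul x y _ _ hx hy =>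
      rcases hx with ⟨h1, h2⟩ | ⟨h1, h2⟩ <;> rcases hy with ⟨h3, h4⟩ | ⟨h3, h4⟩
      · exact Or.inl ⟨by rw [map_mul]; exact D.mul_mem h1 h3, by rw [mul_assoc, h4, ← mul_assoc, h2, mul_assoc]⟩
      · refine Or.inr ⟨?_, ?_⟩
        · rw [map_mul]
          intro h5
          exact h3 ((D.mul_mem_cancel_left h1).1 h5)
        · have h5 : x * v⁻¹ = v⁻¹ * x := by
            calc x * v⁻¹ = v⁻¹ * (v * x) * v⁻¹ := by group
              _ = v⁻¹ * (x * v) * v⁻¹ := by rw [h2]
              _ = v⁻¹ * x := by group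
          rw [mul_assoc, h4, ← mul_assoc, h5, mul_assoc]
      · refine Or.inr ⟨?_, ?_⟩
        · rw [map_mul]
          intro h5
          exact h1 ((D.mul_mem_cancel_right h3).1 h5)
        · rw [mul_assoc, h4, ← mul_assoc, h2, mul_assoc]
      · exact Or.inl ⟨by rw [map_mul]; exact hB.two_odd h1 h3, by
          rw [mul_assoc, h4, ← mul_assoc, hinv' x h2, mul_assoc]⟩
    | inv x _ hx =>
      rcases hx with ⟨h1, h2⟩ | ⟨h1, h2⟩
      · refine Or.inl ⟨by rw [map_inv]; exact D.inv_mem h1, ?_⟩
        calc x⁻¹ * v = x⁻¹ * (v * x) * x⁻¹ := by group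
          _ = x⁻¹ * (x * v) * x⁻¹ := by rw [h2]
          _ = v * x⁻¹ := by group
      · refine Or.inr ⟨?_, ?_⟩
        · rw [map_inv]
          intro h5
          exact h1 (inv_mem_iff.1 h5)
        · calc x⁻¹ * v = x⁻¹ * (v * x) * x⁻¹ := by group
            _ = x⁻¹ * (x * v⁻¹) * x⁻¹ := by rw [hinv' x h2]
            _ = v⁻¹ * x⁻¹ := by group
  -- the normal subgroup `⟨v⟩`
  let N : Subgroup R := zpowers v
  have hNσ : ∀ x ∈ N, σ x = 1 := by
    intro x hx
    obtain ⟨n, rfl⟩ := mem_zpowers_iff.1 hx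
    rw [map_zpow, hσv, one_zpow]
  have hN : N.Normal := by
    constructor
    intro n hn x
    obtain ⟨k, rfl⟩ := mem_zpowers_iff.1 hn
    rw [← conj_zpow]
    refine zpow_mem ?_ _
    rcases hpar x with ⟨_, h⟩ | ⟨_, h⟩
    · rw [h, mul_inv_cancel_right]; exact mem_zpowers v
    · rw [h, mul_inv_cancel_right]; exact inv_mem (mem_zpowers v)
  let q : R →* R ⧸ N := QuotientGroup.mk' N
  have hev : ∀ w, ev (fun x => q (r x)) w = q (ev r w) := fun w => (ev_map (σ := q) (fun x => rfl) w).symm
  have hrels : Rels (fun x => q (r x)) := by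
    refine ⟨?_, ?_, ?_, ?_⟩
    · intro x y
      rw [← map_mul, ← map_pow, hrp, map_one]
    · rw [hev, ← map_pow, ← hrl]
    · rw [hev, ← map_pow, hrs, map_one]
    · rw [hev, ← map_mul, ← map_pow]
      exact (QuotientGroup.eq_one_iff _).2 (mem_zpowers v)
  have hcl : closure (Set.range fun x => q (r x)) = ⊤ := by
    have h1 : map q (closure (Set.range r)) = ⊤ := by
      rw [hgen]
      exact Subgroup.map_top_of_surjective _ (QuotientGroup.mk'_surjective _)
    rw [MonoidHom.map_closure, ← Set.range_comp] at h1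
    exact h1
  have hub := card_ub hrels
  rw [hcl, Nat.card_congr (Subgroup.topEquiv (G := R ⧸ N)).toEquiv] at hub
  have hcR := Subgroup.card_eq_card_quotient_mul_card_subgroup N
  have hcN : Nat.card N = 3 := by
    change Nat.card (zpowers v) = 3
    rw [Nat.card_zpowers, hvord]
  rw [hcN] at hcR
  have hfR : Finite R := Nat.finite_of_card_ne_zero (by rw [hcR]; exact Nat.mul_ne_zero hub.2 (by norm_num))
  -- surjectivity and the kernel
  have hσs : Function.Surjective σ := by
    rw [← MonoidHom.range_eq_top, eq_top_iff, ← hG.gen, closure_le]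
    rintro _ ⟨x, rfl⟩
    exact ⟨r x, rfl⟩
  have hkcard : Nat.card σ.ker * Nat.card G = Nat.card R := by
    rw [← Subgroup.card_mul_index σ.ker]
    congr 1
    rw [Subgroup.index_ker, MonoidHom.range_eq_top.2 hσs]
    exact (Nat.card_congr (Subgroup.topEquiv (G := G)).toEquiv).symm
  have hker : σ.ker = N := by
    symm
    refine Subgroup.eq_of_le_of_card_ge (fun x hx => hNσ x hx) ?_
    rw [hcN]
    have h5 : Nat.card σ.ker * Nat.card G ≤ 3 * Nat.card G := by
      rw [hkcard, hcR, hcard, mul_comm]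
      exact Nat.mul_le_mul_left 3 hub.1
    exact Nat.le_of_mul_le_mul_right h5 (by rw [hcard]; norm_num)
  have hkv : ∀ x, σ x = 1 → x ^ 3 = 1 := by
    intro x hx
    have h1 : x ∈ N := by rw [← hker]; exact hx
    obtain ⟨n, rfl⟩ := mem_zpowers_iff.1 h1
    rw [← zpow_natCast, ← zpow_mul, mul_comm, zpow_mul, zpow_natCast, hv3', one_zpow]
  -- the even part
  let E : Subgroup R := D.comap σ
  let τ : E →* D := σ.subgroupComap D
  have hτ : ∀ x : E, ((τ x : D) : G) = σ x := fun x => rfl
  have hτs : Function.Surjective τ := by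
    rintro ⟨y, hy⟩
    obtain ⟨x, rfl⟩ := hσs y
    exact ⟨⟨x, hy⟩, rfl⟩
  have hkτ : ∀ x : E, τ x = 1 ↔ σ x = 1 := fun x => ⟨fun h => congrArg Subtype.val h, fun h => Subtype.ext h⟩
  have hcen : τ.ker ≤ center E := by
    intro x hx
    have h1 : σ (x : R) = 1 := (hkτ x).1 hx
    have h2 : (x : R) ∈ N := by rw [← hker]; exact h1
    obtain ⟨n, hn⟩ := mem_zpowers_iff.1 h2
    rw [mem_center_iff]
    intro y
    apply Subtype.ext
    change (y : R) * x = x * y
    rw [← hn]
    rcases hpar y with ⟨_, h⟩ | ⟨h, _⟩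
    · exact (show Commute (y : R) v from h).zpow_right n
    · exact absurd y.2 h
  -- the element `v` is in the commutator subgroup of the even part
  let C : Subgroup R := ⁅E, E⁆
  have hDn := hB.normal
  have hEn : E.Normal := inferInstance
  have hCn : C.Normal := inferInstance
  let p : R →* R ⧸ C := QuotientGroup.mk' C
  have hp3 : ∀ x ∈ E, (p x) ^ 3 = 1 := by
    intro x hx
    obtain ⟨x', hx', z, hz, h⟩ := CE.exists_split τ hτs hDp ⟨x, hx⟩
    have h1 : (x' : R) ∈ C := by
      have h2 : (x' : R) ∈ (commutator E).map E.subtype := ⟨x', hx', rfl⟩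
      rw [Subgroup.map_subtype_commutator] at h2
      exact h2
    have h2 : x = (x' : R) * (z : R) := congrArg Subtype.val h
    have h3 : p (x' : R) = 1 := (QuotientGroup.eq_one_iff _).2 h1
    rw [h2, map_mul, h3, one_mul, ← map_pow, hkv _ ((hkτ z).1 hz), map_one]
  have hps : ∀ x, p (r x) * p (r x) = 1 := by
    intro x
    rw [← map_mul, hrsq, map_one]
  have hpc : ∀ x y, mm x y = 2 → p (r x) = p (r y) := by
    intro x y h
    have h1 := hrp x y
    rw [h] at h1
    have h2 : (p (r x * r y)) ^ 2 = 1 := by rw [← map_pow, h1, map_one]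
    have h3 : (p (r x * r y)) ^ 3 = 1 := hp3 _ (by
      change σ (r x * r y) ∈ D
      rw [map_mul]
      exact hB.two_odd (letter_odd hB hG x) (letter_odd hB hG y))
    rw [pow_succ, h2, one_mul, map_mul] at h3
    have h4 := hps y
    exact mul_right_cancel (b := p (r y)) (by rw [h3, h4])
  have hpl : ∀ x, p (r x) = p (r .l) := by
    intro x
    cases x
    · rfl
    · exact (hpc .k .b rfl).trans (hpc .b .l rfl)
    all_goals exact hpc _ .l rfl
  have hpv : p v = 1 := by
    rw [hv, ← ev_cons, map_pow, ev_map (g := fun _ => p (r .l)) hpl]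
    have h1 : ev (fun _ : Lt => p (r .l)) (.k :: t1) = (p (r .l)) ^ 72 := by
      rw [ev, List.map_const', List.prod_replicate]
      rfl
    rw [h1, ← pow_mul, show 72 * 2 = 2 * 72 by norm_num, pow_mul, pow_two, hps, one_pow]
  have hvC : v ∈ C := (QuotientGroup.eq_one_iff _).1 hpv
  have hstem : τ.ker ≤ commutator E := by
    intro x hx
    have h1 : σ (x : R) = 1 := (hkτ x).1 hx
    have h2 : (x : R) ∈ N := by rw [← hker]; exact h1
    have h3 : (x : R) ∈ C := by
      obtain ⟨n, hn⟩ := mem_zpowers_iff.1 h2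
      rw [← hn]
      exact zpow_mem hvC n
    have h4 : (x : R) ∈ (commutator E).map E.subtype := by
      rw [Subgroup.map_subtype_commutator]
      exact h3
    obtain ⟨y, hy, hy2⟩ := h4
    have h5 : y = x := Subtype.ext hy2
    rw [← h5]
    exact hy
  refine ⟨E, inferInstance, inferInstance, τ, ⟨hτs, hcen, hstem⟩, ?_⟩
  have h6 : τ.ker.map E.subtype = N := by
    ext x
    constructor
    · rintro ⟨y, hy, rfl⟩
      rw [← hker]
      exact (hkτ y).1 hy
    · intro hx
      have h1 : σ x = 1 := hNσ x hx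
      exact ⟨⟨x, by change σ x ∈ D; rw [h1]; exact D.one_mem⟩, Subtype.ext h1, rfl⟩
  rw [← hcN, ← h6, Subgroup.card_map_of_injective E.subtype_injective]

end H40.F24E
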