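import Cfsg.Agent.Lib.H40.F24A2
import Cfsg.Agent.Lib.H40.CF24.P0
import Cfsg.Agent.Lib.H40.CF24.P1
import Cfsg.Agent.Lib.H40.CF24.P2
import Cfsg.Agent.Lib.H40.CF24.P3
import Cfsg.Agent.Lib.H40.CF24.W_l
import Cfsg.Agent.Lib.H40.CF24.W_s
import Cfsg.Agent.Lib.H40.CF24.W_t

/-!
# The permutations of `306936 * 3` points satisfy the relations of the triple cover
-/

set_option autoImplicit false
set_option linter.all false
set_option maxRecDepth 100000

namespace H40.F24E

open H35.TC H35.Net H40.CocNet H40.CL H40.CF24 H40.F24A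
open H35.TCF24A (Lt)

/-- the permutation of a letter -/
noncomputable def F (x : Lt) : Equiv.Perm (ℕ × ZMod 3) := CocNet.F H35.NF24.π e1 e2 x

theorem one_of_rep {w : List Lt} (hπ : (w.map H35.NF24.π).prod = 1) (h : Rep H35.NF24.π e1 e2 w true 0 0) :
    (w.map F).prod = 1 :=
  word_one _ _ _ hπ (by simpa using h.sgn) (fun b => by rw [h.ev]; simp [val])

theorem sg_rep (m : ℕ) (x y : Lt) : sg ((List.replicate m [x, y]).flatten) = 1 := by
  induction m with
  | zero => rfl
  | succ m ih => rw [List.replicate_succ, List.flatten_cons, sg_append, ih]; simp [sg]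

theorem pair_of {m : ℕ} {x y : Lt} (hπ : (H35.NF24.π x * H35.NF24.π y) ^ m = 1)
    (h : seg nl e1 e2 ((List.replicate m [x, y]).flatten) true 0 0 0 0 = true) : (F x * F y) ^ m = 1 := by
  have h1 := seg_spec (s' := true) bp dj Rep.nil h (by simpa using sg_rep m x y)
  have h2 := one_of_rep (w := (List.replicate m [x, y]).flatten) (by
    have h3 := ev_rep H35.NF24.π m [x, y]
    rw [ev] at h3
    rw [h3, ev_cons, ev_single]; exact hπ) h1
  have h3 := ev_rep F m [x, y]
  rw [ev_cons, ev_single] at h3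
  rw [← h3]
  exact h2

/-- rank of a letter -/
def rk : Lt → ℕ
  | .l => 0
  | .k => 1
  | .a => 2
  | .b => 3
  | .c => 4
  | .d => 5
  | .e => 6
  | .f => 7
  | .g => 8
  | .j => 9
  | .h => 10
  | .i => 11

theorem segs : ∀ x y : Lt, rk x ≤ rk y →
    seg nl e1 e2 ((List.replicate (H35.TCF24A.mm x y) [x, y]).flatten) true 0 0 0 0 = true
  | .l, .l, _ => p_l_l
  | .l, .k, _ => p_l_k
  | .l, .a, _ => p_l_a
  | .l, .b, _ => p_l_b
  | .l, .c, _ => p_l_c
  | .l, .d, _ => p_l_d
  | .l, .e, _ => p_l_e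
  | .l, .f, _ => p_l_f
  | .l, .g, _ => p_l_g
  | .l, .j, _ => p_l_j
  | .l, .h, _ => p_l_h
  | .l, .i, _ => p_l_i
  | .k, .l, h => absurd h (by decide)
  | .k, .k, _ => p_k_k
  | .k, .a, _ => p_k_a
  | .k, .b, _ => p_k_b
  | .k, .c, _ => p_k_c
  | .k, .d, _ => p_k_d
  | .k, .e, _ => p_k_e
  | .k, .f, _ => p_k_f
  | .k, .g, _ => p_k_g
  | .k, .j, _ => p_k_j
  | .k, .h, _ => p_k_h
  | .k, .i, _ => p_k_i
  | .a, .l, h => absurd h (by decide)
  | .a, .k, h => absurd h (by decide)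
  | .a, .a, _ => p_a_a
  | .a, .b, _ => p_a_b
  | .a, .c, _ => p_a_c
  | .a, .d, _ => p_a_d
  | .a, .e, _ => p_a_e
  | .a, .f, _ => p_a_f
  | .a, .g, _ => p_a_g
  | .a, .j, _ => p_a_j
  | .a, .h, _ => p_a_h
  | .a, .i, _ => p_a_i
  | .b, .l, h => absurd h (by decide)
  | .b, .k, h => absurd h (by decide)
  | .b, .a, h => absurd h (by decide)
  | .b, .b, _ => p_b_b
  | .b, .c, _ => p_b_c
  | .b, .d, _ => p_b_d
  | .b, .e, _ => p_b_e
  | .b, .f, _ => p_b_f
  | .b, .g, _ => p_b_g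
  | .b, .j, _ => p_b_j
  | .b, .h, _ => p_b_h
  | .b, .i, _ => p_b_i
  | .c, .l, h => absurd h (by decide)
  | .c, .k, h => absurd h (by decide)
  | .c, .a, h => absurd h (by decide)
  | .c, .b, h => absurd h (by decide)
  | .c, .c, _ => p_c_c
  | .c, .d, _ => p_c_d
  | .c, .e, _ => p_c_e
  | .c, .f, _ => p_c_f
  | .c, .g, _ => p_c_g
  | .c, .j, _ => p_c_j
  | .c, .h, _ => p_c_h
  | .c, .i, _ => p_c_i
  | .d, .l, h => absurd h (by decide)
  | .d, .k, h => absurd h (by decide)
  | .d, .a, h => absurd h (by decide)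
  | .d, .b, h => absurd h (by decide)
  | .d, .c, h => absurd h (by decide)
  | .d, .d, _ => p_d_d
  | .d, .e, _ => p_d_e
  | .d, .f, _ => p_d_f
  | .d, .g, _ => p_d_g
  | .d, .j, _ => p_d_j
  | .d, .h, _ => p_d_h
  | .d, .i, _ => p_d_i
  | .e, .l, h => absurd h (by decide)
  | .e, .k, h => absurd h (by decide)
  | .e, .a, h => absurd h (by decide)
  | .e, .b, h => absurd h (by decide)
  | .e, .c, h => absurd h (by decide)
  | .e, .d, h => absurd h (by decide)
  | .e, .e, _ => p_e_e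
  | .e, .f, _ => p_e_f
  | .e, .g, _ => p_e_g
  | .e, .j, _ => p_e_j
  | .e, .h, _ => p_e_h
  | .e, .i, _ => p_e_i
  | .f, .l, h => absurd h (by decide)
  | .f, .k, h => absurd h (by decide)
  | .f, .a, h => absurd h (by decide)
  | .f, .b, h => absurd h (by decide)
  | .f, .c, h => absurd h (by decide)
  | .f, .d, h => absurd h (by decide)
  | .f, .e, h => absurd h (by decide)
  | .f, .f, _ => p_f_f
  | .f, .g, _ => p_f_g
  | .f, .j, _ => p_f_j
  | .f, .h, _ => p_f_h
  | .f, .i, _ => p_f_i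
  | .g, .l, h => absurd h (by decide)
  | .g, .k, h => absurd h (by decide)
  | .g, .a, h => absurd h (by decide)
  | .g, .b, h => absurd h (by decide)
  | .g, .c, h => absurd h (by decide)
  | .g, .d, h => absurd h (by decide)
  | .g, .e, h => absurd h (by decide)
  | .g, .f, h => absurd h (by decide)
  | .g, .g, _ => p_g_g
  | .g, .j, _ => p_g_j
  | .g, .h, _ => p_g_h
  | .g, .i, _ => p_g_i
  | .j, .l, h => absurd h (by decide)
  | .j, .k, h => absurd h (by decide)
  | .j, .a, h => absurd h (by decide)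
  | .j, .b, h => absurd h (by decide)
  | .j, .c, h => absurd h (by decide)
  | .j, .d, h => absurd h (by decide)
  | .j, .e, h => absurd h (by decide)
  | .j, .f, h => absurd h (by decide)
  | .j, .g, h => absurd h (by decide)
  | .j, .j, _ => p_j_j
  | .j, .h, _ => p_j_h
  | .j, .i, _ => p_j_i
  | .h, .l, h => absurd h (by decide)
  | .h, .k, h => absurd h (by decide)
  | .h, .a, h => absurd h (by decide)
  | .h, .b, h => absurd h (by decide)
  | .h, .c, h => absurd h (by decide)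
  | .h, .d, h => absurd h (by decide)
  | .h, .e, h => absurd h (by decide)
  | .h, .f, h => absurd h (by decide)
  | .h, .g, h => absurd h (by decide)
  | .h, .j, h => absurd h (by decide)
  | .h, .h, _ => p_h_h
  | .h, .i, _ => p_h_i
  | .i, .l, h => absurd h (by decide)
  | .i, .k, h => absurd h (by decide)
  | .i, .a, h => absurd h (by decide)
  | .i, .b, h => absurd h (by decide)
  | .i, .c, h => absurd h (by decide)
  | .i, .d, h => absurd h (by decide)
  | .i, .e, h => absurd h (by decide)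
  | .i, .f, h => absurd h (by decide)
  | .i, .g, h => absurd h (by decide)
  | .i, .j, h => absurd h (by decide)
  | .i, .h, h => absurd h (by decide)
  | .i, .i, _ => p_i_i

theorem mm_symm' (x y : Lt) : H35.TCF24A.mm x y = H35.TCF24A.mm y x := by cases x <;> cases y <;> rfl

theorem pow_swap' {K : Type} [Group K] {a b : K} {n : ℕ} (h : (a * b) ^ n = 1) : (b * a) ^ n = 1 := by
  have h1 : b * a = a⁻¹ * (a * b) * a⁻¹⁻¹ := by group
  rw [h1, conj_pow, h, mul_one, mul_inv_cancel]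

theorem hpF (hπ : ∀ x y, (H35.NF24.π x * H35.NF24.π y) ^ H35.TCF24A.mm x y = 1) (x y : Lt) :
    (F x * F y) ^ H35.TCF24A.mm x y = 1 := by
  rcases le_total (rk x) (rk y) with h | h
  · exact pair_of (hπ x y) (segs x y h)
  · rw [mm_symm']
    exact pow_swap' (pair_of (hπ y x) (segs y x h))

theorem sg_len (w : List Lt) : sg w = if w.length % 2 = 0 then 1 else -1 := by
  induction w with
  | nil => simp [sg]
  | cons x w ih =>
    rw [sg, ih, List.length_cons]
    rcases Nat.mod_two_eq_zero_or_one w.length with h | h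
    · have : (w.length + 1) % 2 = 1 := by omega
      simp [h, this]
    · have : (w.length + 1) % 2 = 0 := by omega
      simp [h, this]

theorem sg_even {w : List Lt} (h : w.length % 2 = 0) : sg w = if true then 1 else -1 := by
  rw [sg_len, if_pos h, if_pos rfl]

/-- part of the word -/
def u_l_0 : List Lt := [.l, .h, .f, .e, .d, .c, .b, .a, .h, .f, .e, .d, .c, .b, .a, .h]
/-- part of the word -/
def u_l_1 : List Lt := [.f, .e, .d, .c, .b, .a, .h, .f, .e, .d, .c, .b, .a, .h, .f, .e]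
/-- part of the word -/
def u_l_2 : List Lt := [.d, .c, .b, .a, .h, .f, .e, .d, .c, .b, .a, .h, .f, .e, .d, .c]
/-- part of the word -/
def u_l_3 : List Lt := [.b, .a, .h, .f, .e, .d, .c, .b, .a, .h, .f, .e, .d, .c, .b, .a]
/-- the word -/
def w_l : List Lt := [] ++ u_l_0 ++ u_l_1 ++ u_l_2 ++ u_l_3
theorem rep_l : Rep H35.NF24.π e1 e2 w_l true 0 0 := by
  have h0 := seg_spec (w := u_l_0) (s' := true) bp dj Rep.nil g_l_0 (sg_even (by rfl))
  have h1 := seg_spec (w := u_l_1) (s' := true) bp dj h0 g_l_1 (sg_even (by rfl))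
  have h2 := seg_spec (w := u_l_2) (s' := true) bp dj h1 g_l_2 (sg_even (by rfl))
  have h3 := seg_spec (w := u_l_3) (s' := true) bp dj h2 g_l_3 (sg_even (by rfl))
  exact h3

/-- part of the word -/
def u_s_0 : List Lt := [.d, .c, .b, .d, .e, .f, .d, .h, .i, .d, .c, .b, .d, .e, .f, .d]
/-- part of the word -/
def u_s_1 : List Lt := [.h, .i, .d, .c, .b, .d, .e, .f, .d, .h, .i, .d, .c, .b, .d, .e]
/-- part of the word -/
def u_s_2 : List Lt := [.f, .d, .h, .i, .d, .c, .b, .d, .e, .f, .d, .h, .i, .d, .c, .b]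
/-- part of the word -/
def u_s_3 : List Lt := [.d, .e, .f, .d, .h, .i, .d, .c, .b, .d, .e, .f, .d, .h, .i, .d]
/-- part of the word -/
def u_s_4 : List Lt := [.c, .b, .d, .e, .f, .d, .h, .i, .d, .c, .b, .d, .e, .f, .d, .h]
/-- part of the word -/
def u_s_5 : List Lt := [.i, .d, .c, .b, .d, .e, .f, .d, .h, .i]
/-- the word -/
def w_s : List Lt := [] ++ u_s_0 ++ u_s_1 ++ u_s_2 ++ u_s_3 ++ u_s_4 ++ u_s_5
theorem rep_s : Rep H35.NF24.π e1 e2 w_s true 0 0 := by
  have h0 := seg_spec (w := u_s_0) (s' := true) bp dj Rep.nil g_s_0 (sg_even (by rfl))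
  have h1 := seg_spec (w := u_s_1) (s' := true) bp dj h0 g_s_1 (sg_even (by rfl))
  have h2 := seg_spec (w := u_s_2) (s' := true) bp dj h1 g_s_2 (sg_even (by rfl))
  have h3 := seg_spec (w := u_s_3) (s' := true) bp dj h2 g_s_3 (sg_even (by rfl))
  have h4 := seg_spec (w := u_s_4) (s' := true) bp dj h3 g_s_4 (sg_even (by rfl))
  have h5 := seg_spec (w := u_s_5) (s' := true) bp dj h4 g_s_5 (sg_even (by rfl))
  exact h5

/-- part of the word -/
def u_t_0 : List Lt := [.k, .a, .b, .c, .d, .h, .i, .e, .d, .h, .f, .g, .e, .f, .c, .d]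
/-- part of the word -/
def u_t_1 : List Lt := [.e, .b, .c, .d, .h, .i, .f, .d, .e, .b, .c, .d, .h, .j, .g, .f]
/-- part of the word -/
def u_t_2 : List Lt := [.e, .d, .c, .b, .a, .b, .c, .d, .e, .f, .g, .j, .h, .d, .c, .b]
/-- part of the word -/
def u_t_3 : List Lt := [.e, .d, .f, .i, .h, .d, .c, .b, .e, .d, .c, .f, .e, .g, .f, .h]
/-- part of the word -/
def u_t_4 : List Lt := [.d, .e, .i, .h, .d, .c, .b, .a, .k, .a, .b, .c, .d, .h, .i, .e]
/-- part of the word -/
def u_t_5 : List Lt := [.d, .h, .f, .g, .e, .f, .c, .d, .e, .b, .c, .d, .h, .i, .f, .d]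
/-- part of the word -/
def u_t_6 : List Lt := [.e, .b, .c, .d, .h, .j, .g, .f, .e, .d, .c, .b, .a, .b, .c, .d]
/-- part of the word -/
def u_t_7 : List Lt := [.e, .f, .g, .j, .h, .d, .c, .b, .e, .d, .f, .i, .h, .d, .c, .b]
/-- part of the word -/
def u_t_8 : List Lt := [.e, .d, .c, .f, .e, .g, .f, .h, .d, .e, .i, .h, .d, .c, .b, .a]
/-- the word -/
def w_t : List Lt := [] ++ u_t_0 ++ u_t_1 ++ u_t_2 ++ u_t_3 ++ u_t_4 ++ u_t_5 ++ u_t_6 ++ u_t_7 ++ u_t_8
theorem rep_t : Rep H35.NF24.π e1 e2 w_t true (Nat.sub (Nat.pow 2 306936) 1) 0 := by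
  have h0 := seg_spec (w := u_t_0) (s' := true) bp dj Rep.nil g_t_0 (sg_even (by rfl))
  have h1 := seg_spec (w := u_t_1) (s' := true) bp dj h0 g_t_1 (sg_even (by rfl))
  have h2 := seg_spec (w := u_t_2) (s' := true) bp dj h1 g_t_2 (sg_even (by rfl))
  have h3 := seg_spec (w := u_t_3) (s' := true) bp dj h2 g_t_3 (sg_even (by rfl))
  have h4 := seg_spec (w := u_t_4) (s' := true) bp dj h3 g_t_4 (sg_even (by rfl))
  have h5 := seg_spec (w := u_t_5) (s' := true) bp dj h4 g_t_5 (sg_even (by rfl))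
  have h6 := seg_spec (w := u_t_6) (s' := true) bp dj h5 g_t_6 (sg_even (by rfl))
  have h7 := seg_spec (w := u_t_7) (s' := true) bp dj h6 g_t_7 (sg_even (by rfl))
  have h8 := seg_spec (w := u_t_8) (s' := true) bp dj h7 g_t_8 (sg_even (by rfl))
  exact h8

end H40.F24E
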