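import Cfsg.Agent.Lib.H40.F24E2

/-!
# The relations of the triple cover in the group of permutations of `306936 * 3` points
-/

set_option autoImplicit false
set_option linter.all false
set_option maxRecDepth 100000

namespace H40.F24E

open H35.TC H35.Net H40.CocNet H40.CL H40.CF24 H40.F24A
open H35.TCF24A (Lt)

/-- conversion of letters -/
def cv : H40.TCF24G.Lt → Lt
  | .l => .l
  | .k => .k
  | .a => .a
  | .b => .b
  | .c => .c
  | .d => .d
  | .e => .e
  | .f => .f
  | .g => .g
  | .j => .j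
  | .h => .h
  | .i => .i

theorem mm_cv (x y : H40.TCF24G.Lt) : H40.TCF24G.mm x y = H35.TCF24A.mm (cv x) (cv y) := by
  cases x <;> cases y <;> rfl

theorem ev_cv {K : Type} [Group K] (g : Lt → K) (w : List H40.TCF24G.Lt) :
    ev (fun x => g (cv x)) w = ev g (w.map cv) := by
  rw [ev, ev, List.map_map]
  rfl

theorem l_of_word {G L : Type} [Group G] (g : L → G) (hi : ∀ x, (g x)⁻¹ = g x) (l : L) (w : List L)
    (h : (([l] ++ w.reverse ++ w.reverse ++ w.reverse ++ w.reverse ++ w.reverse ++ w.reverse ++ w.reverse ++ w.reverse ++ w.reverse).map g).prod = 1) :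
    g l = ((w.map g).prod) ^ 9 := by
  have h1 : (w.reverse.map g).prod = ((w.map g).prod)⁻¹ := by
    rw [List.prod_inv_reverse, List.map_reverse]
    congr 2
    rw [List.map_map]
    apply List.map_congr_left
    intro x _
    exact (hi x).symm
  simp only [List.map_append, List.prod_append, h1, List.map_cons, List.map_nil, List.prod_cons, List.prod_nil, mul_one] at h
  have h2 : g l * (((w.map g).prod) ^ 9)⁻¹ = 1 := by rw [← h]; group
  exact mul_inv_eq_one.1 h2

theorem mmA_self (x : Lt) : H35.TCF24A.mm x x = 1 := by cases x <;> rfl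

theorem wl_eq : w_l = [Lt.l] ++ (w7.map cv).reverse ++ (w7.map cv).reverse ++ (w7.map cv).reverse ++
    (w7.map cv).reverse ++ (w7.map cv).reverse ++ (w7.map cv).reverse ++ (w7.map cv).reverse ++
    (w7.map cv).reverse ++ (w7.map cv).reverse := by decide

theorem ws_eq : w_s = (List.replicate 10 (wS.map cv)).flatten := by decide

theorem wt_eq : w_t = (List.replicate 2 (.k :: t1.map cv)).flatten := by decide

theorem testBit_full (N i : ℕ) : (Nat.sub (Nat.pow 2 N) 1).testBit i = decide (i < N) :=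
  Nat.testBit_two_pow_sub_one N i

theorem exists_perm (hπ : ∀ x y, (H35.NF24.π x * H35.NF24.π y) ^ H35.TCF24A.mm x y = 1)
    (hl : H35.NF24.π .l = (ev H35.NF24.π (w7.map cv)) ^ 9) (hs : (ev H35.NF24.π (wS.map cv)) ^ 10 = 1)
    (ht : (H35.NF24.π .k * ev H35.NF24.π (t1.map cv)) ^ 2 = 1)
    (pres : ∀ x b, H35.NF24.π x b < 306936 ↔ b < 306936) :
    ∃ f : H40.TCF24G.Lt → Equiv.Perm (ℕ × ZMod 3), (∀ x y, (f x * f y) ^ H40.TCF24G.mm x y = 1) ∧
      f .l = (ev f w7) ^ 9 ∧ (ev f wS) ^ 10 = 1 ∧ (f .k * ev f t1) ^ 2 ≠ 1 ∧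
      ((f .k * ev f t1) ^ 2) ^ 3 = 1 ∧
      ∀ x, f x * (f .k * ev f t1) ^ 2 = ((f .k * ev f t1) ^ 2)⁻¹ * f x := by
  have hF := hpF hπ
  have hFs : ∀ x, F x * F x = 1 := by
    intro x
    have := hF x x
    rwa [mmA_self, pow_one] at this
  have hFi : ∀ x, (F x)⁻¹ = F x := fun x => inv_eq_of_mul_eq_one_left (hFs x)
  have hπs : ∀ x, H35.NF24.π x * H35.NF24.π x = 1 := by
    intro x
    have := hπ x x
    rwa [mmA_self, pow_one] at this
  have hπi : ∀ x, (H35.NF24.π x)⁻¹ = H35.NF24.π x := fun x => inv_eq_of_mul_eq_one_left (hπs x)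
  have e_l : F .l = (ev F (w7.map cv)) ^ 9 := by
    refine l_of_word F hFi .l (w7.map cv) ?_
    rw [← wl_eq]
    refine one_of_rep ?_ rep_l
    rw [wl_eq]
    exact word_l H35.NF24.π hπi .l (w7.map cv) hl
  have e_s : (ev F (wS.map cv)) ^ 10 = 1 := by
    have h1 := one_of_rep (w := w_s) (by
      rw [ws_eq]
      have h3 := ev_rep H35.NF24.π 10 (wS.map cv)
      rw [ev] at h3
      rw [h3]; exact hs) rep_s
    rw [ws_eq] at h1
    rw [← ev_rep]
    exact h1
  -- the element `v`
  have hw : (F .k * ev F (t1.map cv)) ^ 2 = (w_t.map F).prod := by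
    have h3 := ev_rep F 2 (.k :: t1.map cv)
    rw [ev_cons] at h3
    rw [wt_eq, ← h3]
    rfl
  have hwπ : (w_t.map H35.NF24.π).prod = 1 := by
    have h3 := ev_rep H35.NF24.π 2 (.k :: t1.map cv)
    rw [ev_cons] at h3
    rw [wt_eq]
    rw [ht] at h3
    exact h3
  set V := (F .k * ev F (t1.map cv)) ^ 2 with hV
  have hsg : sg w_t = 1 := by
    have := rep_t.sgn
    simpa using this
  have hVa : ∀ b s, V (b, s) = (b, s + if b < 306936 then 1 else 0) := by
    intro b s
    rw [hw]
    have h1 := word_apply H35.NF24.π e1 e2 w_t b s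
    have h2 := rep_t.ev b
    rw [val, testBit_full] at h2
    have h3 : (if (decide (b < 306936)) = true then (1 : ZMod 3) else if (0 : ℕ).testBit b = true then 2 else 0) =
        if b < 306936 then 1 else 0 := by
      by_cases h : b < 306936
      · simp [h]
      · simp [h]
    rw [h3] at h2
    rw [hsg, h2, hwπ, one_mul] at h1
    exact h1
  refine ⟨fun x => F (cv x), ?_, ?_, ?_, ?_, ?_, ?_⟩
  · intro x y
    rw [mm_cv]; exact hF _ _
  · rw [ev_cv]; exact e_l
  · rw [ev_cv]; exact e_s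
  · rw [ev_cv]
    change V ≠ 1
    intro h
    have h1 := hVa 0 0
    rw [h, if_pos (by norm_num)] at h1
    have h2 := congrArg Prod.snd h1
    simp at h2
  · rw [ev_cv]
    change V ^ 3 = 1
    ext ⟨b, s⟩ : 1
    rw [pow_succ, pow_two, Equiv.Perm.mul_apply, Equiv.Perm.mul_apply, hVa, hVa, hVa, Equiv.Perm.one_apply]
    refine Prod.ext rfl ?_
    change s + _ + _ + _ = s
    have h3 : ∀ c : ZMod 3, c + c + c = 0 := by decide
    rw [add_assoc, add_assoc, ← add_assoc (ite _ _ _), h3, add_zero]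
  · intro x
    rw [ev_cv]
    change F (cv x) * V = V⁻¹ * F (cv x)
    have h1 : V * (F (cv x) * V) = F (cv x) := by
      ext ⟨b, s⟩ : 1
      have h0 : F (cv x) (V (b, s)) = (H35.NF24.π (cv x) b,
          val (e1 (cv x)) (e2 (cv x)) b - (s + if b < 306936 then 1 else 0)) := by
        rw [hVa]; rfl
      rw [Equiv.Perm.mul_apply, Equiv.Perm.mul_apply, h0, hVa]
      change _ = (H35.NF24.π (cv x) b, val (e1 (cv x)) (e2 (cv x)) b - s)
      refine Prod.ext rfl ?_
      have h2 := pres (cv x) b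
      by_cases h : b < 306936
      · have h3 := h2.2 h
        rw [if_pos h, if_pos h3]
        change _ - (s + 1) + 1 = _
        ring
      · have h3 : ¬ (H35.NF24.π (cv x) b < 306936) := fun h' => h (h2.1 h')
        rw [if_neg h, if_neg h3]
        change _ - (s + 0) + 0 = _
        ring
    calc F (cv x) * V = V⁻¹ * (V * (F (cv x) * V)) := by group
      _ = V⁻¹ * F (cv x) := by rw [h1]

end H40.F24E
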