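import Cfsg.Agent.Lib.H40.F24E3

/-!
# Point evaluations on the net of Fi24
-/

set_option autoImplicit false
set_option linter.all false
set_option maxRecDepth 100000

namespace H40.F24U

open H35.TC H35.Net H40.CL H40.F24A H40.F24E
open H35.TCF24A (Lt)

/-- the word `(lk)⁻¹ t₁ (lk)` -/
def wk : List Lt := [.k, .l] ++ t1.map cv ++ [.l, .k]

/-- the word conjugating `l` to `b` -/
def wcb : List Lt := [.a, .b, .k, .a, .l, .k]

/-- the word `w⁻¹ t₁ w` with `b = w l w⁻¹` -/
def wb : List Lt := wcb.reverse ++ t1.map cv ++ wcb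

theorem chk_k : chkFixF H35.NF24.net [wk] [0] = true := by decide +kernel

theorem fix_k : (wk.map H35.NF24.π).prod 0 = 0 := prod_fix H35.NF24.hbp chk_k wk (by simp) 0 (by simp)

theorem chk_b : Nat.beq (Nat.land (appF H35.NF24.net wb 1) 1) 0 = true := by decide +kernel

theorem nfix_b : (wb.map H35.NF24.π).prod 0 ≠ 0 := by
  intro h
  have h1 := (app_BP H35.NF24.hbp wb).bit 1 0
  rw [h, ← appF_eq] at h1
  have h2 : Nat.land (appF H35.NF24.net wb 1) 1 = 0 := eqOfBeq chk_b
  have h3 : (Nat.land (appF H35.NF24.net wb 1) 1).testBit 0 = false := by rw [h2]; simp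
  have h4 : ((appF H35.NF24.net wb 1) &&& 1).testBit 0 = false := h3
  rw [Nat.testBit_and, h1] at h4
  exact absurd h4 (by decide)

end H40.F24U
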