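import Cfsg.Agent.Lib.H40.F24U0
import Cfsg.Agent.Lib.H40.F24U1
import Cfsg.Agent.Lib.H40.F24A5
import Cfsg.Agent.Lib.H40.F24E1

/-!
# The Schur multiplier of the commutator subgroup of the presented group Fi24
-/

set_option autoImplicit false
set_option linter.all false
set_option maxRecDepth 10000

namespace H40.F24F

open Subgroup H35 H35.TC H35.Net Cfsg.Spor H35.Fi24Base H35.Fi24Main H35.Fi24Simple H40.CL H40.F24A H40.F24E H40.F24U
open scoped commutatorElement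

/-- the letters -/
def gG (x : H40.TCF24G.Lt) : Cfsg.Spor.Fi24 := gP (cv x)

theorem S_map : S.map D.subtype = centralizer {gP .l} ⊓ D := by
  rw [FiClass24.centralizer_l]
  ext x
  constructor
  · rintro ⟨y, hy, rfl⟩
    exact ⟨hy, y.2⟩
  · rintro ⟨h1, h2⟩
    exact ⟨⟨x, h2⟩, h1, rfl⟩

theorem S_iso : Nonempty (S ≃* ↥(centralizer {gP .l} ⊓ D)) :=
  ⟨(S.equivMapOfInjective D.subtype D.subtype_injective).trans (MulEquiv.subgroupCongr S_map)⟩

theorem base : Base D (gP .l) := by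
  refine ⟨idx2, odd .l, sqP .l, ?_, ?_⟩
  · have h := S'_perfect
    rw [FiClass24.centralizer_l]
    exact h
  · intro X _ σ hσ
    obtain ⟨e⟩ := S_iso
    obtain ⟨h1, h2⟩ := stem_iso e hσ
    rw [← h2]
    exact S_ker_bot h1

theorem ev_gG (w : List H40.TCF24G.Lt) : ev gG w = ev gP (w.map cv) := ev_cv gP w

theorem phi_ev (w : List LA) : φ (ev gP w) = ev NF24.π w := ev_map hφ w

/-- conjugates of `t₁` and the point `0` -/
theorem phi_conj (W : List LA) : φ ((ev gP W)⁻¹ * ev gG t1 * ev gP W) =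
    ((W.reverse ++ t1.map cv ++ W).map NF24.π).prod := by
  rw [← ev_reverse gP sqP, ev_gG, ← ev_append, ← ev_append, phi_ev]
  rfl

theorem comm_iff {w T k l : Cfsg.Spor.Fi24} (hk : w * l * w⁻¹ = k) :
    (w⁻¹ * T * w) * l = l * (w⁻¹ * T * w) ↔ T * k = k * T := by
  subst hk
  constructor
  · intro h
    calc T * (w * l * w⁻¹) = w * ((w⁻¹ * T * w) * l) * w⁻¹ := by group
      _ = w * (l * (w⁻¹ * T * w)) * w⁻¹ := by rw [h]
      _ = w * l * w⁻¹ * T := by group
  · intro h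
    calc w⁻¹ * T * w * l = w⁻¹ * (T * (w * l * w⁻¹)) * w := by group
      _ = w⁻¹ * (w * l * w⁻¹ * T) * w := by rw [h]
      _ = l * (w⁻¹ * T * w) := by group

theorem braid_conj' {x y : Cfsg.Spor.Fi24} (hx : x * x = 1) (hy : y * y = 1) (h : (x * y) ^ 3 = 1) :
    (x * y) * x * (x * y)⁻¹ = y := by
  have h3 : x * y * (x * y) * (x * y) = 1 := by rw [← h, pow_succ, pow_two]
  have h4 : (x * y)⁻¹ = y * x := by
    rw [mul_inv_rev, inv_eq_of_mul_eq_one_left hx, inv_eq_of_mul_eq_one_left hy]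
  rw [h4]
  calc x * y * x * (y * x) = x * y * (x * y) * (x * y) * y⁻¹ := by group
    _ = y⁻¹ := by rw [h3, one_mul]
    _ = y := inv_eq_of_mul_eq_one_left hy

theorem conj_k : ev gP [.l, .k] * gP .l * (ev gP [.l, .k])⁻¹ = gP .k := by
  rw [ev_cons, ev_single]
  exact braid_conj' (sqP .l) (sqP .k) (hpP .l .k)

theorem conj_b : ev gP wcb * gP .l * (ev gP wcb)⁻¹ = gP .b := by
  have h1 := braid_conj' (sqP .l) (sqP .k) (hpP .l .k)
  have h2 := braid_conj' (sqP .k) (sqP .a) (hpP .k .a)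
  have h3 := braid_conj' (sqP .a) (sqP .b) (hpP .a .b)
  have e : ev gP wcb = (gP .a * gP .b) * ((gP .k * gP .a) * (gP .l * gP .k)) := by
    rw [wcb, ev_cons, ev_cons, ev_cons, ev_cons, ev_cons, ev_single]; group
  rw [e]
  calc gP .a * gP .b * (gP .k * gP .a * (gP .l * gP .k)) * gP .l * (gP .a * gP .b * (gP .k * gP .a * (gP .l * gP .k)))⁻¹
      = (gP .a * gP .b) * ((gP .k * gP .a) * ((gP .l * gP .k) * gP .l * (gP .l * gP .k)⁻¹) * (gP .k * gP .a)⁻¹) *
        (gP .a * gP .b)⁻¹ := by group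
    _ = gP .b := by rw [h1, h2, h3]

theorem t1k : ev gG t1 * gP .k = gP .k * ev gG t1 := by
  rw [← comm_iff conj_k, cent_iff, mem_H1, phi_conj]
  exact fix_k

theorem t1b_ne : ev gG t1 * gP .b ≠ gP .b * ev gG t1 := by
  rw [Ne, ← comm_iff conj_b, cent_iff, mem_H1, phi_conj]
  exact nfix_b

theorem gG_sq (x : H40.TCF24G.Lt) : gG x * gG x = 1 := sqP _

theorem t1_mem : ev gG t1 ∈ FiClass24.D := by
  change IsConj (PresentedGroup.of Fi24.Gen.a) (ev gG t1)
  rw [isConj_iff]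
  refine ⟨ev gG t1u, ?_⟩
  rw [t1, ev_append, ev_append, ev_reverse gG gG_sq, ev_single]
  rfl

theorem t1b : (gP .b * ev gG t1) ^ 3 = 1 := by
  rcases FiClass24.D_three (FiClass24.letter_mem .b) t1_mem with h | h | h
  · exact absurd (by rw [← h]) t1b_ne
  · exact absurd h.1.eq.symm t1b_ne
  · exact h.1

theorem letters : Letters (gP .l) gG := by
  refine ⟨rfl, ?_, ?_, ?_, ?_, t1k, t1b, ?_, ?_⟩
  · rw [← genP]
    congr 1
    ext y
    constructor
    · rintro ⟨x, rfl⟩; exact ⟨_, rfl⟩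
    · rintro ⟨x, rfl⟩
      cases x
      · exact ⟨.l, rfl⟩
      · exact ⟨.k, rfl⟩
      · exact ⟨.a, rfl⟩
      · exact ⟨.b, rfl⟩
      · exact ⟨.c, rfl⟩
      · exact ⟨.d, rfl⟩
      · exact ⟨.e, rfl⟩
      · exact ⟨.f, rfl⟩
      · exact ⟨.g, rfl⟩
      · exact ⟨.j, rfl⟩
      · exact ⟨.h, rfl⟩
      · exact ⟨.i, rfl⟩
  · intro x y
    rw [mm_cv]; exact hpP _ _
  · rw [ev_gG]; exact l_eq
  · rw [ev_gG]; exact spiderP
  · intro x
    obtain ⟨c, hc⟩ := isConj_iff.mp (FiClass24.isConj_l (cv x))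
    exact ⟨c, hc.symm⟩
  · rw [FiClass24.centralizer_l, H1_card, card_inj.1]

/-- upper bound -/
theorem stem_dvd {X : Type} [Group X] [Finite X] {σ : X →* D} (hσ : Cfsg.IsStemExtension σ) :
    Nat.card σ.ker ∣ 3 := stem_bound base letters D_perfect hσ

/-- the triple cover -/
theorem exists3 : ∃ (X : Type) (_ : Group X) (_ : Finite X) (τ : X →* D), Cfsg.IsStemExtension τ ∧
    Nat.card τ.ker = 3 := by
  have h1 : ∀ x y, (NF24.π x * NF24.π y) ^ TCF24A.mm x y = 1 := by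
    intro x y
    rw [← hφ, ← hφ, ← map_mul, ← map_pow, hpP, map_one]
  have h2 : NF24.π .l = (ev NF24.π (w7.map cv)) ^ 9 := by
    rw [← phi_ev, ← hφ, ← map_pow]
    exact congrArg φ l_eq
  have h3 : (ev NF24.π (wS.map cv)) ^ 10 = 1 := by
    rw [← phi_ev, ← map_pow, ← map_one φ]
    exact congrArg φ spiderP
  have h4 : (NF24.π .k * ev NF24.π (t1.map cv)) ^ 2 = 1 := by
    rw [← phi_ev, ← hφ, ← map_mul, ← map_pow, ← map_one φ, ← ev_gG]
    congr 1
    have hT : ev gG t1 * ev gG t1 = 1 := by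
      have h3 : t1.reverse = t1 := by rw [t1]; simp
      have h4 := ev_reverse gG gG_sq t1
      rw [h3] at h4
      nth_rw 1 [h4]
      rw [inv_mul_cancel]
    rw [pow_two]
    calc gP .k * ev gG t1 * (gP .k * ev gG t1) = gP .k * (ev gG t1 * gP .k) * ev gG t1 := by group
      _ = gP .k * gP .k * (ev gG t1 * ev gG t1) := by rw [t1k]; group
      _ = 1 := by rw [hT, sqP, one_mul]
  obtain ⟨f, hp, hl, hs, hv1, hv3, hvi⟩ := exists_perm h1 h2 h3 h4 NF24.pres
  exact exists_cover base letters D_perfect (by rw [card_inj.1]) f hp hl hs hv1 hv3 hvi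

theorem mult : Cfsg.HasCyclicSchurMultiplier Cfsg.Spor.Fi24' 3 := by
  refine ⟨?_, ?_⟩
  · obtain ⟨X, _, _, τ, hτ, hc⟩ := exists3
    have hcyc : IsCyclic τ.ker := isCyclic_of_prime_card (p := 3) hc
    refine ⟨X, inferInstance, inferInstance, τ, hτ, ⟨?_⟩⟩
    rw [← hc]
    exact (zmodCyclicMulEquiv hcyc).symm
  · intro Γ _ _ τ hτ
    have hc := stem_dvd hτ
    have hcyc : IsCyclic τ.ker := by
      rcases (Nat.dvd_prime Nat.prime_three).mp hc with h1 | h1
      · have : Subsingleton τ.ker := (Nat.card_eq_one_iff_unique.mp h1).1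
        infer_instance
      · exact isCyclic_of_prime_card (p := 3) h1
    exact H40.StemFinish.exists_surj_of_isCyclic hc

end H40.F24F
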