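import Cfsg.Agent.Lib.H40.CL3
import Cfsg.Agent.Lib.H40.Fi23M1

/-!
# The Schur multiplier of the presented group Fi23 is trivial
-/

set_option autoImplicit false
set_option maxRecDepth 100000
set_option linter.all false

namespace H40.Fi23M

open H35.TC H35.Net H35.Fi23Main H35 H34.Fi23Z Subgroup H40.CL Cfsg.Spor
open H35.TCFi23A (Lt)
open scoped commutatorElement

theorem hp23 : ⁅centralizer {FiClass23.t}, centralizer {FiClass23.t}⁆ =
    (centralizer {FiClass23.t} : Subgroup Cfsg.Spor.Fi23) := by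
  rw [← H92.Expl23.H1_eq]
  have h := H34.Fi23D.perfect
  have h1 := Subgroup.map_subtype_commutator H1
  rw [← h1, h]
  rw [← MonoidHom.range_eq_map, Subgroup.range_subtype]

theorem g_mem (x : Lt) : gP x ∈ CLift.D FiClass23.t := by
  obtain ⟨c, hc⟩ := isConj_iff.mp (FiClass23.isConj_t x)
  exact ⟨c, hc.symm⟩

theorem D_sq {x : Cfsg.Spor.Fi23} (hx : x ∈ CLift.D FiClass23.t) : x * x = 1 := by
  obtain ⟨g, rfl⟩ := hx
  have h := FiClass23.t_sq
  calc g * FiClass23.t * g⁻¹ * (g * FiClass23.t * g⁻¹) = g * (FiClass23.t * FiClass23.t) * g⁻¹ := by group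
    _ = 1 := by rw [h]; group

/-- commuting letters -/
def cm (x y : Lt) : Bool := TCFi23A.mm x y == 2

theorem cm_comm (x y : Lt) (h : cm x y = true) : gP x * gP y = gP y * gP x := by
  have h2 : TCFi23A.mm x y = 2 := by simpa [cm] using h
  have h3 := hpP x y
  rw [h2] at h3
  have e : (gP x * gP y)⁻¹ = gP x * gP y := inv_eq_of_mul_eq_one_left (by rw [← pow_two]; exact h3)
  rw [← e, mul_inv_rev, inv_eq_of_mul_eq_one_left (FiClass23.sqP x), inv_eq_of_mul_eq_one_left (FiClass23.sqP y)]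

theorem mm_cases (x y : Lt) : TCFi23A.mm x y = 1 ∧ x = y ∨ TCFi23A.mm x y = 2 ∨ TCFi23A.mm x y = 3 := by
  cases x <;> cases y <;> decide

theorem mm_eq (x y : Fi23.Gen) : coxLabel Fi23.edges x y = TCFi23A.mm (toLt x) (toLt y) := by
  cases x <;> cases y <;> decide

theorem ev_of_chk {w : List Lt} (h : chkW NFi23.net 15 w 1 0 15 = true) : ev gP w = 1 := by
  have := rel_of_chk h
  rw [pow_one] at this
  exact this

theorem rel7 : ((([.a, .b, .c, .d, .e, .f, .h] : List Lt).map gP).prod) ^ 9 = 1 :=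
  heP ([.a, .b, .c, .d, .e, .f, .h], 9) (by simp [TCFi23A.extra])

universe v

/-- the group-theoretic part: from normalised lifts -/
theorem spider {Γ : Type v} [Group Γ] {σ : Γ →* Cfsg.Spor.Fi23} (hc : σ.ker ≤ center Γ) {L : Cfsg.Spor.Fi23 → Γ}
    (hL : CLift σ FiClass23.t L) (hL1 : ∀ x ∈ CLift.D FiClass23.t, L x * L x = 1) :
    (ev (fun x => L (gP x)) wS) ^ 10 = 1 := by
  set F : Lt → Γ := fun x => L (gP x) with hF
  have hs : ∀ x, F x * F x = 1 := fun x => hL1 _ (g_mem x)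
  have hm : ∀ x y, (F x * F y) ^ TCFi23A.mm x y = 1 := fun x y =>
    cox_lift hL hL1 (fun x hx => D_sq hx) (g_mem x) (g_mem y) (by
      rcases mm_cases x y with ⟨h, e⟩ | h | h
      · exact Or.inl ⟨h, by rw [e]⟩
      · exact Or.inr (Or.inl h)
      · exact Or.inr (Or.inr h)) (hpP x y)
  have hmap : ∀ w, σ (ev F w) = ev gP w := fun w => ev_map (fun x => hL.map' (g_mem x)) w
  have hgs := FiClass23.sqP
  -- `j` and `m` commute with `X`
  have hm1 : ev F wX * ev F wm = ev F wm * ev F wX := by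
    have h0 : wm = [.g, .f, .e, .d, .h, .i, .c, .d, .h, .j, .g, .f, .e, .d, .c] ++ [.b] ++
        ([.g, .f, .e, .d, .h, .i, .c, .d, .h, .j, .g, .f, .e, .d, .c] : List Lt).reverse := rfl
    have h1 := comm_of_word hgs (u := wX) (v := wm) (ev_of_chk chk3)
    rw [← hmap wX] at h1
    rw [h0] at h1 ⊢
    exact comm_pal hL g_mem hs hgs _ _ h1
  have hj1 : ev F wX * F .j = F .j * ev F wX := by
    have h1 := comm_of_word hgs (u := wX) (v := [.j]) (ev_of_chk chk5)
    rw [← hmap wX, ev_single] at h1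
    exact hL.comm_of (g_mem .j) h1
  -- the cube
  have hcube : ev gP ((List.replicate 3 (wc ++ [.j] ++ wm)).flatten ++ wX.reverse) = 1 := ev_of_chk chk4
  have hn : ev F (wc ++ [.j] ++ wm) * ev F wX = ev F wX * ev F (wc ++ [.j] ++ wm) := by
    set n := ev F (wc ++ [.j] ++ wm) with hn
    have h1 : σ (n ^ 3 * (ev F wX)⁻¹) = 1 := by
      rw [← hcube, ev_append, ev_rep, ev_reverse _ hgs, map_mul, map_pow, map_inv, hmap, hmap]
    have h2 := ker_comm hc h1 n
    have h3 : n * (ev F wX)⁻¹ = (ev F wX)⁻¹ * n := by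
      have h4 : n ^ 3 * (n * (ev F wX)⁻¹) = n ^ 3 * ((ev F wX)⁻¹ * n) := by
        calc n ^ 3 * (n * (ev F wX)⁻¹) = n * (n ^ 3 * (ev F wX)⁻¹) := by group
          _ = n ^ 3 * (ev F wX)⁻¹ * n := h2
          _ = _ := by group
      exact mul_left_cancel h4
    have h5 : Commute n (ev F wX)⁻¹ := h3
    exact (Commute.inv_right_iff.mp h5).eq
  have hcX : ev F wc * ev F wX = ev F wX * ev F wc := by
    rw [ev_append, ev_append, ev_single] at hn
    have h1 : Commute (ev F wX) (ev F wc * F .j * ev F wm) := hn.symm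
    have h2 : Commute (ev F wX) (F .j) := hj1
    have h3 : Commute (ev F wX) (ev F wm) := hm1
    have h4 := (h1.mul_right h3.inv_right).mul_right h2.inv_right
    have e : ev F wc * F .j * ev F wm * (ev F wm)⁻¹ * (F .j)⁻¹ = ev F wc := by group
    rw [e] at h4
    exact h4.eq.symm
  have hZ : ev F wZ = 1 := by
    have h1 : ev F wJ1 = 1 := H40.Rew.prod_of_chk F hs hm chk1
    rw [wJ1, ev_append, ev_append, ev_append, ev_append, ev_reverse _ hs, ev_reverse _ hs, ev_reverse _ hs] at h1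
    have h2 : ev F wc * ev F wX * (ev F wc)⁻¹ * (ev F wX)⁻¹ = 1 := by rw [hcX]; group
    rw [h2, one_mul] at h1
    exact inv_eq_one.mp h1
  have h2 : ev F wJ2 = 1 := H40.Rew.prod_of_chk F hs hm chk2
  rw [wJ2, ev_append, ev_rep] at h2
  have h3 : ev F ((wa ++ wZ.reverse ++ wa.reverse ++ wb ++ wZ.reverse ++ wb.reverse).reverse) = 1 := by
    rw [ev_reverse _ hs, inv_eq_one]
    simp only [ev_append]
    rw [ev_reverse _ hs, ev_reverse _ hs, ev_reverse _ hs, hZ]
    group
  rw [h3, mul_one] at h2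
  exact h2

theorem ker_bot {Γ : Type v} [Group Γ] {σ : Γ →* Cfsg.Spor.Fi23} (hσ : Cfsg.IsStemExtension σ) :
    ∀ z ∈ σ.ker, z = 1 := by
  obtain ⟨L, hL, hL1, h7⟩ := exists_normalised hσ.1 hσ.2.1 hp23 FiClass23.t_sq gP g_mem cm cm_comm
    [.a, .b, .c, .d, .e, .f, .h] [.a, .b, .c, .d, .a, .b] [.e, .h, .c, .a] [.f, .d, .b] 9 31 (by rfl) rel7
    [6, 5, 4, 7, 6, 5, 7, 8, 10, 9] [3, 2, 1, 4, 3, 5] [2, 1, 3] (by decide) (by decide) (by decide) (by rfl)
  have h10 := spider hσ.2.1 hL hL1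
  have hker : σ.ker ≤ ⊥ := by
    refine H40.PGS.cox_ker_le hσ ⊥ bot_le (fun x => L (gP (toLt x))) ?_ ?_ ?_
    · intro x
      rw [hL.map' (g_mem _), gP_toLt]
    · intro x _ y _
      rw [Subgroup.mem_bot, mm_eq]
      refine cox_lift hL hL1 (fun x hx => D_sq hx) (g_mem _) (g_mem _) ?_ (hpP _ _)
      rcases mm_cases (toLt x) (toLt y) with ⟨h, e⟩ | h | h
      · exact Or.inl ⟨h, by rw [e]⟩
      · exact Or.inr (Or.inl h)
      · exact Or.inr (Or.inr h)
    · intro r hr
      rw [Subgroup.mem_bot]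
      have hl : ∀ x, FreeGroup.lift (fun x => L (gP (toLt x))) (FreeGroup.of x) = L (gP (toLt x)) :=
        fun x => FreeGroup.lift_apply_of ..
      simp only [Fi23.extra, List.mem_cons, List.mem_nil_iff, or_false] at hr
      rcases hr with rfl | rfl
      · simp only [map_mul, map_pow, hl]
        rw [← h10]
        simp only [ev, wS, List.map_cons, List.map_nil, List.prod_cons, List.prod_nil, mul_one, mul_assoc]
        rfl
      · simp only [map_mul, map_pow, hl]
        rw [← h7]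
        simp only [List.map_cons, List.map_nil, List.prod_cons, List.prod_nil, mul_one, mul_assoc]
        rfl
  intro z hz
  exact hker hz

theorem mult : Cfsg.HasCyclicSchurMultiplier Cfsg.Spor.Fi23 1 := by
  have := fin
  exact H40.StemFinish.hasCyclic_one_of_ker fun Γ _ _ σ hσ => ker_bot hσ

end H40.Fi23M
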