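import Cfsg.Agent.Lib.H35.FiClass24
import Cfsg.Agent.Lib.H40.Fi23M
import Cfsg.Agent.Lib.H40.CE

/-!
# Facts about the presented group Fi24: the even part of the centraliser of a transposition
-/

set_option autoImplicit false
set_option maxRecDepth 10000
set_option linter.all false

namespace H40.F24U

open Subgroup H35 H35.TC H35.Net Cfsg.Spor H35.Fi24Base H35.Fi24Main H35.Fi24Simple
open scoped commutatorElement

theorem S_equiv : Nonempty (Cfsg.Spor.Fi23 ≃* S) := by
  obtain ⟨_, N, hN, hNz, hrel, htop⟩ := H1_data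
  have hord : orderOf (p1 .l) = 2 := orderOf_eq_prime (by rw [pow_two]; exact l_sq) l_ne_one
  have hNc : Nat.card N = 2 := by rw [hNz, Nat.card_zpowers, hord]
  have hQ : Nat.card (H1 ⧸ N) = 4089470473293004800 := by
    have h := Subgroup.card_eq_card_quotient_mul_card_subgroup N
    rw [H1_card, hNc] at h
    exact (Nat.eq_of_mul_eq_mul_right (by norm_num) h).symm
  obtain ⟨e⟩ := Fi23Hom.exists_equiv hrel htop hQ
  have hfQ : Finite (H1 ⧸ N) := Nat.finite_of_card_ne_zero (by rw [hQ]; norm_num)
  have hfD := H35.Fi24Simple.fin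
  have hfS : Finite S := inferInstance
  have hinj : Function.Injective ((QuotientGroup.mk' N).comp inc) := by
    rw [injective_iff_map_eq_one]
    intro x hx
    have h1 : inc x ∈ N := (QuotientGroup.eq_one_iff _).1 hx
    rw [hNz] at h1
    rcases mem_zpowers_l h1 with h2 | h2
    · have h3 : x.1.1 = 1 := congrArg Subtype.val h2
      exact Subtype.ext (Subtype.ext h3)
    · exfalso
      have h3 : x.1.1 = gP .l := congrArg Subtype.val h2
      exact odd .l (h3 ▸ x.1.2)
  have : Fintype S := Fintype.ofFinite S
  have : Fintype (H1 ⧸ N) := Fintype.ofFinite _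
  have hb : Function.Bijective ((QuotientGroup.mk' N).comp inc) := by
    rw [Fintype.bijective_iff_injective_and_card]
    refine ⟨hinj, ?_⟩
    rw [← Nat.card_eq_fintype_card, ← Nat.card_eq_fintype_card, hQ, card_S]
  have f : S ≃* (H1 ⧸ N) := MulEquiv.ofBijective _ hb
  exact ⟨(f.trans e.symm).symm⟩

/-- transport of triviality of the kernel along an isomorphism of the base -/
theorem stem_iso {Γ : Type} [Group Γ] {A B : Type} [Group A] [Group B] (e : A ≃* B) {σ : Γ →* B}
    (h : Cfsg.IsStemExtension σ) : Cfsg.IsStemExtension ((e.symm : B →* A).comp σ) ∧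
      ((e.symm : B →* A).comp σ).ker = σ.ker := by
  have hk : ((e.symm : B →* A).comp σ).ker = σ.ker := by
    ext x
    rw [MonoidHom.mem_ker, MonoidHom.mem_ker]
    change e.symm (σ x) = 1 ↔ _
    rw [← map_one e.symm, e.symm.injective.eq_iff]
  refine ⟨⟨e.symm.surjective.comp h.1, ?_, ?_⟩, hk⟩
  · rw [hk]; exact h.2.1
  · rw [hk]; exact h.2.2

/-- every stem extension of `S ≅ Fi23` is trivial -/
theorem S_ker_bot {Γ : Type} [Group Γ] {σ : Γ →* S} (hσ : Cfsg.IsStemExtension σ) : ∀ z ∈ σ.ker, z = 1 := by
  obtain ⟨e⟩ := S_equiv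
  obtain ⟨h1, h2⟩ := stem_iso e hσ
  rw [← h2]
  exact Fi23M.ker_bot h1

theorem S_perfect : commutator S = ⊤ := by
  have := S_simple
  have hfD := H35.Fi24Simple.fin
  rcases (inferInstance : (commutator S).Normal).eq_bot_or_eq_top with h | h
  · exfalso
    have hcomm : ∀ a b : S, a * b = b * a := by
      intro a b
      have h1 : ⁅a, b⁆ ∈ commutator S := Subgroup.commutator_mem_commutator trivial trivial
      rw [h, Subgroup.mem_bot, commutatorElement_eq_one_iff_mul_comm] at h1
      exact h1
    letI : CommGroup S := { (inferInstance : Group S) with mul_comm := hcomm }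
    have hp : (Nat.card S).Prime := IsSimpleGroup.prime_card
    rw [card_S] at hp
    exact absurd hp (by norm_num)
  · exact h

theorem cent_iff (c : Cfsg.Spor.Fi24) : c * gP .l = gP .l * c ↔ c ∈ H1 := by
  rw [← FiClass24.centralizer_l, mem_centralizer_singleton_iff]

/-- the even part of the centraliser of `l` -/
abbrev S' : Subgroup Cfsg.Spor.Fi24 := H1 ⊓ D

theorem S'_perfect : ⁅S', S'⁆ = S' := by
  have h1 : S.map D.subtype = S' := by
    ext x
    constructor
    · rintro ⟨y, hy, rfl⟩
      exact ⟨hy, y.2⟩
    · rintro ⟨h1, h2⟩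
      exact ⟨⟨x, h2⟩, h1, rfl⟩
  have h2 := Subgroup.map_subtype_commutator S
  rw [S_perfect] at h2
  rw [← MonoidHom.range_eq_map, Subgroup.range_subtype] at h2
  rw [← h1, ← Subgroup.map_commutator, ← h2]

theorem D_perfect : commutator D = ⊤ := by
  have := simple
  have hf := H35.Fi24Simple.fin
  rcases (inferInstance : (commutator D).Normal).eq_bot_or_eq_top with h | h
  · exfalso
    have hcomm : ∀ a b : D, a * b = b * a := by
      intro a b
      have h1 : ⁅a, b⁆ ∈ commutator D := Subgroup.commutator_mem_commutator trivial trivial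
      rw [h, Subgroup.mem_bot, commutatorElement_eq_one_iff_mul_comm] at h1
      exact h1
    letI : CommGroup D := { (inferInstance : Group D) with mul_comm := hcomm }
    have hp : (Nat.card D).Prime := IsSimpleGroup.prime_card
    rw [card_D] at hp
    exact absurd hp (by norm_num)
  · exact h

end H40.F24U
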