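import Cfsg.Agent.Lib.H40.CL3
import Cfsg.Agent.Lib.H40.Fi22M1

/-!
# The Schur multiplier of the presented group Fi22 is cyclic of order dividing six
-/

set_option autoImplicit false
set_option maxRecDepth 100000
set_option linter.all false

namespace H40.Fi22M

open H35.TC H35.Net H35.Fi22Main H35 Subgroup H40.CL Cfsg.Spor
open H35.TCFi22A (Lt)
open H35.FiClass22 (sqP letter_mem)
open scoped commutatorElement

/-- the transposition `a` -/
abbrev t : Cfsg.Spor.Fi22 := gP .a

theorem hp22 : ⁅centralizer {t}, centralizer {t}⁆ = (centralizer {t} : Subgroup Cfsg.Spor.Fi22) := by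
  have h0 : H34.U62.HH = centralizer {t} := H92.Expl22.HH_eq
  rw [← h0]
  have h := H34.U62.perfect
  have h1 := Subgroup.map_subtype_commutator H34.U62.HH
  rw [← h1, h]
  rw [← MonoidHom.range_eq_map, Subgroup.range_subtype]

theorem g_mem (x : Lt) : gP x ∈ CLift.D t := by
  have h : gP x ∈ H35.FiClass22.D := letter_mem x
  obtain ⟨c, hc⟩ := isConj_iff.mp h
  exact ⟨c, hc.symm⟩

theorem D_sq {x : Cfsg.Spor.Fi22} (hx : x ∈ CLift.D t) : x * x = 1 := by
  obtain ⟨g, rfl⟩ := hx
  have h := sqP .a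
  calc g * t * g⁻¹ * (g * t * g⁻¹) = g * (t * t) * g⁻¹ := by group
    _ = 1 := by rw [h]; group

/-- commuting letters -/
def cm (x y : Lt) : Bool := TCFi22A.mm x y == 2

theorem cm_comm (x y : Lt) (h : cm x y = true) : gP x * gP y = gP y * gP x := by
  have h2 : TCFi22A.mm x y = 2 := by simpa [cm] using h
  have h3 := hpP x y
  rw [h2] at h3
  have e : (gP x * gP y)⁻¹ = gP x * gP y := inv_eq_of_mul_eq_one_left (by rw [← pow_two]; exact h3)
  rw [← e, mul_inv_rev, inv_eq_of_mul_eq_one_left (sqP x), inv_eq_of_mul_eq_one_left (sqP y)]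

theorem mm_cases (x y : Lt) : TCFi22A.mm x y = 1 ∧ x = y ∨ TCFi22A.mm x y = 2 ∨ TCFi22A.mm x y = 3 := by
  cases x <;> cases y <;> decide

theorem mm_eq (x y : Fi22.Gen) : coxLabel Fi22.edges x y = TCFi22A.mm (toLt x) (toLt y) := by
  cases x <;> cases y <;> decide

theorem rel7 : ((([.a, .b, .c, .d, .e, .f, .h] : List Lt).map gP).prod) ^ 9 = 1 :=
  heP ([.a, .b, .c, .d, .e, .f, .h], 9) (by simp [TCFi22A.extra])

theorem rel8 : ((wC.map gP).prod) ^ 9 = 1 :=
  heP ([.b, .c, .d, .e, .f, .g, .h], 9) (by simp [TCFi22A.extra])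

theorem rel10 : ((wS.map gP).prod) ^ 10 = 1 :=
  heP ([.d, .c, .b, .d, .e, .f, .d, .h, .i], 10) (by simp [TCFi22A.extra])

universe v

/-- the kernel of a stem extension of Fi22 is cyclic of order dividing 6 -/
theorem ker_cyc {Γ : Type v} [Group Γ] {σ : Γ →* Cfsg.Spor.Fi22} (hσ : Cfsg.IsStemExtension σ) :
    ∃ w : Γ, w ^ 6 = 1 ∧ σ.ker ≤ Subgroup.zpowers w := by
  obtain ⟨L, hL, hL1, h7⟩ := exists_normalised hσ.1 hσ.2.1 hp22 (sqP .a) gP g_mem cm cm_comm
    [.a, .b, .c, .d, .e, .f, .h] [.a, .b, .c, .d, .a, .b] [.e, .h, .c, .a] [.f, .d, .b] 9 31 (by rfl) rel7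
    [6, 5, 4, 7, 6, 5, 7, 8, 10, 9] [3, 2, 1, 4, 3, 5] [2, 1, 3] (by decide) (by decide) (by decide) (by rfl)
  have hcox : ∀ x y, (L (gP x) * L (gP y)) ^ TCFi22A.mm x y = 1 := fun x y =>
    cox_lift hL hL1 (fun x hx => D_sq hx) (g_mem x) (g_mem y) (by
      rcases mm_cases x y with ⟨h, e⟩ | h | h
      · exact Or.inl ⟨h, by rw [e]⟩
      · exact Or.inr (Or.inl h)
      · exact Or.inr (Or.inr h)) (hpP x y)
  set F : Lt → Γ := fun x => L (gP x) with hF
  have hs : ∀ x, F x * F x = 1 := fun x => hL1 _ (g_mem x)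
  have hm : ∀ x y, (F x * F y) ^ TCFi22A.mm x y = 1 := hcox
  have hmap : ∀ w, σ (ev F w) = ev gP w := fun w => ev_map (fun x => hL.map' (g_mem x)) w
  -- the two central elements
  set z := (ev F wS) ^ 10 with hz
  set y := (ev F wC) ^ 9 with hy
  have hzk : σ z = 1 := by rw [hz, map_pow, hmap]; exact rel10
  have hyk : σ y = 1 := by rw [hy, map_pow, hmap]; exact rel8
  have hy2 : y ^ 2 = 1 := by
    have h1 : ev F wC18 = 1 := H40.Rew.prod_of_chk F hs hm chk2
    rw [wC18, ev_rep] at h1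
    rw [hy, ← pow_mul]
    exact h1
  have hz3 : z ^ 3 = 1 := by
    have h1 : ev F wJ = 1 := H40.Rew.prod_of_chk F hs hm chk1
    have h2 : ev F wS10 = z := by rw [wS10, ev_rep]
    rw [wJ, ev_append, ev_append, ev_append, ev_append, ev_append, ev_append, ev_reverse _ hs, ev_reverse _ hs,
      h2] at h1
    have hc := fun k => ker_comm hσ.2.1 hzk k
    have h3 : z * ev F wa * z * (ev F wa)⁻¹ * ev F wb * z * (ev F wb)⁻¹ = z ^ 3 := by
      have ha : ev F wa * z * (ev F wa)⁻¹ = z := by rw [hc]; group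
      have hb : ev F wb * z * (ev F wb)⁻¹ = z := by rw [hc]; group
      calc z * ev F wa * z * (ev F wa)⁻¹ * ev F wb * z * (ev F wb)⁻¹
          = z * (ev F wa * z * (ev F wa)⁻¹) * (ev F wb * z * (ev F wb)⁻¹) := by group
        _ = z ^ 3 := by rw [ha, hb, pow_succ, pow_two]
    rw [← h3]
    exact h1
  have hyz : Commute z y := (ker_comm hσ.2.1 hzk y).symm
  have hw4 : (z * y) ^ 4 = z := by
    rw [hyz.mul_pow, show (4 : ℕ) = 3 + 1 from rfl, pow_succ z, hz3, one_mul, show (3 + 1 : ℕ) = 2 * 2 from rfl,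
      pow_mul y, hy2, one_pow, mul_one]
  have hw3 : (z * y) ^ 3 = y := by
    rw [hyz.mul_pow, hz3, one_mul, show (3 : ℕ) = 2 + 1 from rfl, pow_succ, hy2, one_mul]
  have hw6 : (z * y) ^ 6 = 1 := by
    rw [show (6 : ℕ) = 3 * 2 from rfl, pow_mul, hw3, hy2]
  have hzB : z ∈ zpowers (z * y) := by
    have h := pow_mem (mem_zpowers (z * y)) 4
    rwa [hw4] at h
  have hyB : y ∈ zpowers (z * y) := by
    have h := pow_mem (mem_zpowers (z * y)) 3
    rwa [hw3] at h
  refine ⟨z * y, hw6, ?_⟩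
  refine H40.PGS.cox_ker_le hσ (zpowers (z * y)) ?_ (fun x => L (gP (toLt x))) ?_ ?_ ?_
  · rw [zpowers_le, MonoidHom.mem_ker, map_mul, hzk, hyk, mul_one]
  · intro x
    rw [hL.map' (g_mem _), gP_toLt]
  · intro x _ y _
    rw [mm_eq]
    rw [hcox]
    exact one_mem _
  · intro r hr
    have hl : ∀ x, FreeGroup.lift (fun x => L (gP (toLt x))) (FreeGroup.of x) = L (gP (toLt x)) :=
      fun x => FreeGroup.lift_apply_of ..
    simp only [Fi22.extra, List.mem_cons, List.mem_nil_iff, or_false] at hr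
    rcases hr with rfl | rfl | rfl
    · simp only [map_mul, map_pow, hl]
      have : z ∈ zpowers (z * y) := hzB
      rw [hz] at this ⊢
      simp only [ev, wS, List.map_cons, List.map_nil, List.prod_cons, List.prod_nil, mul_one, ← mul_assoc] at this ⊢
      exact this
    · simp only [map_mul, map_pow, hl]
      have : (1 : Γ) ∈ zpowers (z * y) := one_mem _
      rw [← h7] at this
      simp only [List.map_cons, List.map_nil, List.prod_cons, List.prod_nil, mul_one, ← mul_assoc] at this ⊢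
      exact this
    · simp only [map_mul, map_pow, hl]
      have : y ∈ zpowers (z * y) := hyB
      rw [hy] at this ⊢
      simp only [ev, wC, List.map_cons, List.map_nil, List.prod_cons, List.prod_nil, mul_one, ← mul_assoc] at this ⊢
      exact this

end H40.Fi22M
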