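import Cfsg.Agent.Lib.H40.Fi22E1
import Cfsg.Agent.Lib.H40.Fi22M

/-!
# The triple cover of the presented group Fi22
-/

set_option autoImplicit false
set_option maxRecDepth 100000
set_option linter.all false

namespace H40.PGS

open Subgroup

universe u v

/-- the kernel of a map onto a presented group from a group generated by lifts of the generators -/
theorem ker_le_of_gen {α : Type u} {rels : Set (FreeGroup α)} {E : Type v} [Group E]
    (σ : E →* PresentedGroup rels) (f : α → E) (hgen : closure (Set.range f) = ⊤)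
    (hf : ∀ x, σ (f x) = PresentedGroup.of x) (B : Subgroup E) (hB : B ≤ center E)
    (hr : ∀ r ∈ rels, FreeGroup.lift f r ∈ B) : σ.ker ≤ B := by
  have hBn : B.Normal := by
    constructor
    intro b hb g
    have h1 : g * b = b * g := mem_center_iff.mp (hB hb) g
    rw [h1, mul_assoc, mul_inv_cancel, mul_one]
    exact hb
  let q := QuotientGroup.mk' B
  have hlift : ∀ r : FreeGroup α, FreeGroup.lift (fun x => q (f x)) r = q (FreeGroup.lift f r) := by
    intro r
    have : FreeGroup.lift (fun x => q (f x)) = q.comp (FreeGroup.lift f) := by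
      ext x
      simp
    rw [this]; rfl
  have hrel : ∀ r ∈ rels, FreeGroup.lift (fun x => q (f x)) r = 1 := by
    intro r hr'
    rw [hlift]
    exact (QuotientGroup.eq_one_iff _).mpr (hr r hr')
  let τ : PresentedGroup rels →* E ⧸ B := PresentedGroup.toGroup hrel
  have hτ : ∀ x, τ (PresentedGroup.of x) = q (f x) := fun x => PresentedGroup.toGroup.of hrel
  have key : τ.comp σ = q := by
    apply MonoidHom.eq_of_eqOn_dense hgen
    rintro _ ⟨x, rfl⟩
    rw [MonoidHom.comp_apply, hf, hτ]
  intro y hy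
  have h1 : q y = 1 := by
    rw [← key, MonoidHom.comp_apply, (MonoidHom.mem_ker.mp hy), map_one]
  exact (QuotientGroup.eq_one_iff y).mp h1

end H40.PGS

namespace H40.Fi22E

open H35.TC H35.Net H35.Fi22Main H35 Subgroup H40.CL Cfsg.Spor H40.XRep
open H35.TCFi22A (Lt mm)
open scoped commutatorElement

/-- word in the free group -/
def wf (w : List Lt) : FreeGroup Lt := (w.map FreeGroup.of).prod

/-- relators -/
def rels3 : Set (FreeGroup Lt) :=
  {r | (∃ x y, r = (FreeGroup.of x * FreeGroup.of y) ^ mm x y) ∨ r = wf w7 ^ 9 ∨ r = wf w8 ^ 9 ∨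
    (∃ x, r = wf wS ^ 10 * FreeGroup.of x * (wf wS ^ 10)⁻¹ * (FreeGroup.of x)⁻¹) ∨ r = wf wS ^ 30}

/-- the triple cover of Fi22 -/
abbrev E3 : Type := PresentedGroup rels3

theorem lift_wf {K : Type*} [Group K] (F : Lt → K) (w : List Lt) : FreeGroup.lift F (wf w) = ev F w := by
  rw [wf, ev, map_list_prod, List.map_map]
  congr 1
  apply List.map_congr_left
  intro x _
  simp

theorem lift_ok {K : Type*} [Group K] (F : Lt → K) (hm : ∀ x y, (F x * F y) ^ mm x y = 1)
    (h7 : ev F w7 ^ 9 = 1) (h8 : ev F w8 ^ 9 = 1) (hc : ∀ x, ev F wS ^ 10 * F x = F x * ev F wS ^ 10)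
    (h30 : ev F wS ^ 30 = 1) : ∀ r ∈ rels3, FreeGroup.lift F r = 1 := by
  rintro r (⟨x, y, rfl⟩ | rfl | rfl | ⟨x, rfl⟩ | rfl)
  · simpa using hm x y
  · rw [map_pow, lift_wf, h7]
  · rw [map_pow, lift_wf, h8]
  · rw [map_mul, map_mul, map_mul, map_inv, map_inv, map_pow, lift_wf, FreeGroup.lift_apply_of, hc]
    group
  · rw [map_pow, lift_wf, h30]

/-- the generators -/
def F3 (x : Lt) : E3 := PresentedGroup.of x

theorem mk_wf (w : List Lt) : (PresentedGroup.mk rels3 (wf w) : E3) = ev F3 w := by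
  rw [wf, ev, map_list_prod, List.map_map]
  rfl

theorem mk_rel {r : FreeGroup Lt} (h : r ∈ rels3) : (PresentedGroup.mk rels3 r : E3) = 1 :=
  (QuotientGroup.eq_one_iff r).mpr (Subgroup.subset_normalClosure h)

theorem hm3 (x y : Lt) : (F3 x * F3 y) ^ mm x y = 1 := by
  have h := mk_rel (r := (FreeGroup.of x * FreeGroup.of y) ^ mm x y) (Or.inl ⟨x, y, rfl⟩)
  rw [map_pow, map_mul] at h
  exact h

theorem h73 : ev F3 w7 ^ 9 = 1 := by
  have h := mk_rel (r := wf w7 ^ 9) (Or.inr (Or.inl rfl))
  rwa [map_pow, mk_wf] at h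

theorem h83 : ev F3 w8 ^ 9 = 1 := by
  have h := mk_rel (r := wf w8 ^ 9) (Or.inr (Or.inr (Or.inl rfl)))
  rwa [map_pow, mk_wf] at h

/-- the central element -/
noncomputable def z : E3 := ev F3 wS ^ 10

theorem hc3 (x : Lt) : z * F3 x = F3 x * z := by
  have h := mk_rel (r := wf wS ^ 10 * FreeGroup.of x * (wf wS ^ 10)⁻¹ * (FreeGroup.of x)⁻¹)
    (Or.inr (Or.inr (Or.inr (Or.inl ⟨x, rfl⟩))))
  rw [map_mul, map_mul, map_mul, map_inv, map_inv, map_pow, mk_wf] at h
  change z * F3 x * z⁻¹ * (F3 x)⁻¹ = 1 at h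
  have h2 := mul_inv_eq_one.mp h
  rw [mul_inv_eq_iff_eq_mul] at h2
  exact h2

theorem z_cube : z ^ 3 = 1 := by
  have h := mk_rel (r := wf wS ^ 30) (Or.inr (Or.inr (Or.inr (Or.inr rfl))))
  rw [map_pow, mk_wf] at h
  rw [z, ← pow_mul]
  exact h

theorem gen3 : closure (Set.range F3) = ⊤ := PresentedGroup.closure_range_of _

theorem z_central : z ∈ center E3 := by
  rw [mem_center_iff]
  intro g
  have h : g ∈ centralizer {z} := by
    have : closure (Set.range F3) ≤ centralizer {z} := by
      rw [closure_le]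
      rintro _ ⟨x, rfl⟩
      rw [SetLike.mem_coe, mem_centralizer_singleton_iff]
      exact (hc3 x).symm
    rw [gen3] at this
    exact this trivial
  exact mem_centralizer_singleton_iff.mp h

/-- the projection onto Fi22 -/
noncomputable def σ : E3 →* Cfsg.Spor.Fi22 := PresentedGroup.toGroup (f := gP) (lift_ok gP hpP
  H40.Fi22M.rel7 H40.Fi22M.rel8
  (fun x => by
    have h : ev gP wS ^ 10 = 1 := H40.Fi22M.rel10
    rw [h, one_mul, mul_one])
  (by
    have h : ev gP wS ^ 10 = 1 := H40.Fi22M.rel10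
    rw [show (30 : ℕ) = 10 * 3 from rfl, pow_mul, h, one_pow]))

theorem σ_F (x : Lt) : σ (F3 x) = gP x := PresentedGroup.toGroup.of _

theorem σ_surj : Function.Surjective σ := by
  rw [← MonoidHom.range_eq_top, eq_top_iff, ← genP, closure_le]
  rintro _ ⟨x, rfl⟩
  exact ⟨F3 x, σ_F x⟩

theorem σ_z : σ z = 1 := by
  rw [z, map_pow, ev_map σ_F]
  exact H40.Fi22M.rel10

theorem ker_le : σ.ker ≤ zpowers z := by
  refine H40.PGS.ker_le_of_gen (α := Fi22.Gen) σ (fun x => F3 (toLt x)) ?_ ?_ (zpowers z) ?_ ?_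
  · rw [eq_top_iff, ← gen3, closure_le]
    rintro _ ⟨x, rfl⟩
    apply Subgroup.subset_closure
    cases x
    · exact ⟨.a, rfl⟩
    · exact ⟨.b, rfl⟩
    · exact ⟨.c, rfl⟩
    · exact ⟨.d, rfl⟩
    · exact ⟨.e, rfl⟩
    · exact ⟨.f, rfl⟩
    · exact ⟨.g, rfl⟩
    · exact ⟨.h, rfl⟩
    · exact ⟨.i, rfl⟩
  · intro x
    rw [σ_F, gP_toLt]
  · rw [zpowers_le]
    exact z_central
  · rintro r (⟨x, hx, y, hy, rfl⟩ | hr)
    · rw [map_pow, map_mul, FreeGroup.lift_apply_of, FreeGroup.lift_apply_of, H40.Fi22M.mm_eq, hm3]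
      exact one_mem _
    · have hl : ∀ x, FreeGroup.lift (fun x => F3 (toLt x)) (FreeGroup.of x) = F3 (toLt x) :=
        fun x => FreeGroup.lift_apply_of ..
      simp only [Fi22.extra, List.mem_cons, List.mem_nil_iff, or_false] at hr
      rcases hr with rfl | rfl | rfl
      · simp only [map_mul, map_pow, hl]
        have : z ∈ zpowers z := mem_zpowers z
        rw [show z = ev F3 wS ^ 10 from rfl] at this ⊢
        simp only [ev, wS, List.map_cons, List.map_nil, List.prod_cons, List.prod_nil, mul_one, ← mul_assoc] at this ⊢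
        exact this
      · simp only [map_mul, map_pow, hl]
        have : (1 : E3) ∈ zpowers z := one_mem _
        have h7 := h73
        simp only [ev, w7, List.map_cons, List.map_nil, List.prod_cons, List.prod_nil, mul_one, ← mul_assoc] at h7
        rw [← h7] at this
        exact this
      · simp only [map_mul, map_pow, hl]
        have : (1 : E3) ∈ zpowers z := one_mem _
        have h7 := h83
        simp only [ev, w8, List.map_cons, List.map_nil, List.prod_cons, List.prod_nil, mul_one, ← mul_assoc] at h7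
        rw [← h7] at this
        exact this

/-- the letters as permutations -/
noncomputable abbrev P (x : Lt) : Equiv.Perm (Vec 54) := π small_nl sq_nl x

theorem P_chk {w : List Lt} (h : chkT nl w.reverse 54 = true) : ev P w = 1 := prod_one small_nl sq_nl h

theorem P_sq (x : Lt) : P x * P x = 1 := π_sq small_nl sq_nl x

theorem P_rp (n : ℕ) (w : List Lt) : ev P (rp n w) = ev P w ^ n := ev_rep P n w

/-- the representation -/
noncomputable def ρ : E3 →* Equiv.Perm (Vec 54) := PresentedGroup.toGroup (f := P) (lift_ok P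
  (fun x y => by
    have h := P_chk (pr x y)
    rw [P_rp] at h
    have e : ev P [x, y] = P x * P y := by simp [ev]
    rwa [e] at h)
  (by have h := P_chk e7; rwa [P_rp] at h)
  (by have h := P_chk e8; rwa [P_rp] at h)
  (fun x => by
    have h := P_chk (s10 x)
    rw [ev_append, ev_append, ev_append, ev_reverse P P_sq, ev_single, P_rp] at h
    have h2 : ev P wS ^ 10 * P x * (ev P wS ^ 10)⁻¹ = P x := by
      rw [← mul_left_inj (P x), h, P_sq]
    exact mul_inv_eq_iff_eq_mul.mp h2)
  (by have h := P_chk s30; rwa [P_rp] at h))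

theorem ρ_F (x : Lt) : ρ (F3 x) = P x := PresentedGroup.toGroup.of _

theorem z_ne : z ≠ 1 := by
  intro h
  have h1 : ρ z = 1 := by rw [h, map_one]
  rw [z, map_pow, ev_map ρ_F, ← P_rp] at h1
  exact prod_ne small_nl sq_nl (w := rp 10 wS) (v := 1) (by norm_num) ne h1

theorem z_order : orderOf z = 3 := orderOf_eq_prime z_cube z_ne

theorem perf : commutator E3 = ⊤ := by
  let q : E3 →* Abelianization E3 := Abelianization.of
  have hs : ∀ x, q (F3 x) * q (F3 x) = 1 := by
    intro x
    have h := hm3 x x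
    have e : mm x x = 1 := by cases x <;> rfl
    rw [e, pow_one] at h
    rw [← map_mul, h, map_one]
  have hb : ∀ x y, mm x y = 3 → q (F3 x) = q (F3 y) := by
    intro x y h
    have h3 := hm3 x y
    rw [h] at h3
    have h4 : (q (F3 x) * q (F3 y)) ^ 3 = 1 := by rw [← map_mul, ← map_pow, h3, map_one]
    have h5 : (q (F3 x) * q (F3 y)) ^ 2 = 1 := by rw [mul_pow, pow_two, pow_two, hs, hs, one_mul]
    have h6 : q (F3 x) * q (F3 y) = 1 := by
      rw [pow_succ, h5, one_mul] at h4
      exact h4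
    rw [eq_inv_of_mul_eq_one_left h6, inv_eq_of_mul_eq_one_left (hs y)]
  have hab := hb .a .b rfl
  have hbc := hb .b .c rfl
  have hcd := hb .c .d rfl
  have hde := hb .d .e rfl
  have hdh := hb .d .h rfl
  have hef := hb .e .f rfl
  have hfg := hb .f .g rfl
  have hhi := hb .h .i rfl
  have hall : ∀ x, q (F3 x) = q (F3 .a) := by
    intro x
    cases x <;> simp only [hab, hbc, hcd, ← hde, ← hdh, ← hef, ← hfg, ← hhi] <;>
      simp only [← hde, ← hdh, ← hef, ← hfg, ← hhi]
  have h1 : q (F3 .a) = 1 := by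
    have h := congrArg q h73
    rw [map_pow, ev_map (F := F3) (g := fun _ => q (F3 .a)) hall, map_one] at h
    have e : ev (fun _ : Lt => q (F3 .a)) w7 = q (F3 .a) ^ 7 := by
      simp [ev, w7, pow_succ, mul_assoc]
    rw [e, ← pow_mul, show 7 * 9 = 2 * 31 + 1 from rfl, pow_succ, pow_mul, pow_two, hs, one_pow, one_mul] at h
    exact h
  have hq : q = 1 := by
    apply MonoidHom.eq_of_eqOn_dense gen3
    rintro _ ⟨x, rfl⟩
    rw [hall x, h1]
    rfl
  rw [eq_top_iff]
  intro g _
  have h2 : q g = 1 := by rw [hq]; rfl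
  rw [← Abelianization.ker_of]
  exact h2

theorem stem : Cfsg.IsStemExtension σ := by
  refine ⟨σ_surj, ?_, ?_⟩
  · refine ker_le.trans ?_
    rw [zpowers_le]
    exact z_central
  · rw [perf]
    exact le_top

theorem ker_eq : σ.ker = zpowers z := by
  refine le_antisymm ker_le ?_
  rw [zpowers_le]
  exact σ_z

theorem card_ker : Nat.card σ.ker = 3 := by
  rw [ker_eq, Nat.card_zpowers, z_order]

end H40.Fi22E
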