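import Cfsg.Agent.Lib.H40.Fi22E
import Cfsg.Agent.Lib.H40.StemFibre
import Cfsg.Agent.Lib.H34.Fi23D

/-!
# The Schur multiplier of the presented group Fi22 is cyclic of order six
-/

set_option autoImplicit false
set_option linter.all false

namespace H40.Fi22F

open Subgroup Cfsg.Spor

theorem stem2 : ∃ ψ : H35.Fi23Main.H1 →* Cfsg.Spor.Fi22, Cfsg.IsStemExtension ψ ∧ Nat.card ψ.ker = 2 := by
  obtain ⟨ψ, hs⟩ := H34.Fi23D.exists_psi
  have hfin : Finite Cfsg.Spor.Fi23 := H35.Fi23Main.fin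
  have hker : Nat.card ψ.ker = 2 := by
    have h1 := Subgroup.card_eq_card_quotient_mul_card_subgroup ψ.ker
    have h2 : Nat.card (H35.Fi23Main.H1 ⧸ ψ.ker) = Nat.card Cfsg.Spor.Fi22 :=
      Nat.card_congr (QuotientGroup.quotientKerEquivOfSurjective ψ hs).toEquiv
    rw [h2, H34.Fi23D.card_H1, H35.Fi22Main.card_inj.1] at h1
    omega
  refine ⟨ψ, ⟨hs, H34.DCover.le_center_of_card_two _ hker, ?_⟩, hker⟩
  rw [H34.Fi23D.perfect]
  exact le_top

theorem mult : Cfsg.HasCyclicSchurMultiplier Cfsg.Spor.Fi22 6 := by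
  have hf22 : Finite Cfsg.Spor.Fi22 := H35.Fi22Main.fin
  have hf23 : Finite Cfsg.Spor.Fi23 := H35.Fi23Main.fin
  refine ⟨?_, ?_⟩
  · obtain ⟨ψ, hψ, hc⟩ := stem2
    have hfE : Finite H40.Fi22E.E3 := by
      have h1 := Subgroup.card_eq_card_quotient_mul_card_subgroup H40.Fi22E.σ.ker
      have h2 : Nat.card (H40.Fi22E.E3 ⧸ H40.Fi22E.σ.ker) = Nat.card Cfsg.Spor.Fi22 :=
        Nat.card_congr (QuotientGroup.quotientKerEquivOfSurjective _ H40.Fi22E.σ_surj).toEquiv
      rw [h2, H35.Fi22Main.card_inj.1, H40.Fi22E.card_ker] at h1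
      apply Nat.finite_of_card_ne_zero
      rw [h1]
      norm_num
    have hcop : Nat.Coprime (Nat.card ψ.ker) (Nat.card H40.Fi22E.σ.ker) := by
      rw [hc, H40.Fi22E.card_ker]
      norm_num
    obtain ⟨h1, ⟨e⟩⟩ := H40.StemFibre.isStem_fib hψ H40.Fi22E.stem hcop
    have hcyc2 : IsCyclic ψ.ker := isCyclic_of_prime_card (p := 2) hc
    have hcyc3 : IsCyclic H40.Fi22E.σ.ker := isCyclic_of_prime_card (p := 3) H40.Fi22E.card_ker
    have hcyc : IsCyclic (ψ.ker × H40.Fi22E.σ.ker) := Group.isCyclic_prod_iff.mpr ⟨hcyc2, hcyc3, hcop⟩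
    have hcyc' : IsCyclic (H40.StemFibre.fibMap ψ H40.Fi22E.σ).ker := isCyclic_of_surjective e.symm e.symm.surjective
    refine ⟨_, inferInstance, inferInstance, _, h1, ⟨?_⟩⟩
    have hcard : Nat.card (H40.StemFibre.fibMap ψ H40.Fi22E.σ).ker = 6 := by
      rw [Nat.card_congr e.toEquiv, Nat.card_prod, hc, H40.Fi22E.card_ker]
    rw [← hcard]
    exact (zmodCyclicMulEquiv hcyc').symm
  · intro Γ _ _ σ hσ
    obtain ⟨w, hw, hle⟩ := H40.Fi22M.ker_cyc hσ
    have hcw : IsCyclic (zpowers w) := inferInstance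
    have hcyc : IsCyclic σ.ker :=
      isCyclic_of_injective (Subgroup.inclusion hle) (Subgroup.inclusion_injective hle)
    refine H40.StemFinish.exists_surj_of_isCyclic ?_
    have h1 : Nat.card σ.ker ∣ Nat.card (zpowers w) := Subgroup.card_dvd_of_le hle
    rw [Nat.card_zpowers] at h1
    exact h1.trans (orderOf_dvd_of_pow_eq_one hw)

end H40.Fi22F
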