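import Cfsg.Agent.Lib.H40.Ext7

/-!
Schur multipliers of `G₂(q)` (`q ≥ 5`) and `F₄(q)` (`q ≥ 3`).
-/

set_option autoImplicit false

universe u v

namespace H40.Mult

open H22.St
open H22.RGD H22.Coord H22.RCCheck H22.RCComb H22.ChevTri H22.ChevRel H22.ChevSys H22.ChevMain
open H22.ChevStd H22.ChevSolv H22.ChevUni H22.ChevTorus
open H40.ChevAut H40.Ext H40.StCov
open Cfsg.Lie
open H23.ChevCore (Core)
open scoped MatrixGroups Matrix commutatorElement

variable {F : Type u} [Field F]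

omit [Field F] in
theorem exists_finset_of_card [Fintype F] {n : ℕ} (h : n < Fintype.card F) :
    ∃ s : Finset F, n < s.card := ⟨Finset.univ, by rwa [Finset.card_univ]⟩

theorem exists_third [Fintype F] (h : 3 ≤ Fintype.card F) : ∃ a : F, a ≠ 0 ∧ a ≠ 1 := by
  obtain ⟨c, hc, hc'⟩ := exists_pow_ne (F := F) (n := 2) (b := 1) (exists_finset_of_card h) le_rfl
    le_rfl
  exact ⟨c, hc, by simpa using hc'⟩

theorem multG2 [Fintype F] (hF : 5 ≤ Fintype.card F) :
    Cfsg.HasCyclicSchurMultiplier ↥(chevG2.group F) 1 := by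
  refine H40.StemFinish.hasCyclic_one_of_ker ?_
  intro Γ _ _ σ hσ
  have R := relG2 F
  obtain ⟨S, hS⟩ := covG2 (exists_finset_of_card hF) R (ce_of_stem hσ)
    (perfect_of_stem hσ (H22.ChevSimple.perfG2 R (exists_third (by omega))))
  exact ker_one_of_cov H22.PoinG2.rcxG2 H22.ChevLex.lexG2 H22.StTab.certG2
    (H23.ChevAll.core _ (by simp)) S hS (H22.ChevTorusCard.kerG2 rfl)

theorem multF4 [Fintype F] (hF : 3 ≤ Fintype.card F) :
    Cfsg.HasCyclicSchurMultiplier ↥(chevF4.group F) 1 := by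
  refine H40.StemFinish.hasCyclic_one_of_ker ?_
  intro Γ _ _ σ hσ
  have R := relF4 F
  obtain ⟨S, hS⟩ := covF4 (exists_finset_of_card hF) R (ce_of_stem hσ)
    (perfect_of_stem hσ (H22.ChevSimple.perfF4 R))
  exact ker_one_of_cov H22.PoinF4.rcxF4 H22.ChevLex.lexF4 H22.StTab.certF4
    (H23.ChevAll.core _ (by simp)) S hS (H22.ChevTorusCard.kerF4 rfl)

end H40.Mult
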