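import Cfsg.Prelude
import Cfsg.Agent.Lib.H40.AltMult
import Cfsg.Agent.Lib.H40.SL2Tori
import Cfsg.Agent.Lib.H6.SLCard
import Cfsg.Agent.Lib.H6.SLGen

set_option autoImplicit false

open Subgroup H40.StemFibre H40.StemFinish H40.AltMult H40.Stem H40.StemGroups

universe u v w

namespace H40.SL3Two

abbrev S3 : Type := Matrix.SpecialLinearGroup (Fin 3) (ZMod 2)

theorem card_S3 : Nat.card S3 = 168 := by
  have : Fact (Nat.Prime 2) := ⟨Nat.prime_two⟩
  have h := H6.SLCard.card_sl (F := ZMod 2) (n := 3) (by norm_num)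
  rw [ZMod.card, Fin.prod_univ_three] at h
  norm_num at h
  rw [Nat.card_eq_fintype_card]
  exact h

theorem perfect : commutator S3 = ⊤ := by
  have : Fact (Nat.Prime 2) := ⟨Nat.prime_two⟩
  exact H6.SLGen.commutator_eq_top (by simp)

abbrev Pt : Type := {x : Fin 3 → ZMod 2 // x ≠ 0}

/-- the action on nonzero vectors -/
def act : S3 →* Equiv.Perm Pt where
  toFun g :=
    { toFun := fun x => ⟨(g : Matrix (Fin 3) (Fin 3) (ZMod 2)).mulVec x.1, fun h => x.2 (by
        have h1 : ((g⁻¹ * g : S3) : Matrix (Fin 3) (Fin 3) (ZMod 2)).mulVec x.1 = 0 := by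
          rw [Matrix.SpecialLinearGroup.coe_mul, ← Matrix.mulVec_mulVec, h, Matrix.mulVec_zero]
        rwa [inv_mul_cancel, Matrix.SpecialLinearGroup.coe_one, Matrix.one_mulVec] at h1)⟩
      invFun := fun x => ⟨((g⁻¹ : S3) : Matrix (Fin 3) (Fin 3) (ZMod 2)).mulVec x.1, fun h => x.2 (by
        have h1 : ((g * g⁻¹ : S3) : Matrix (Fin 3) (Fin 3) (ZMod 2)).mulVec x.1 = 0 := by
          rw [Matrix.SpecialLinearGroup.coe_mul, ← Matrix.mulVec_mulVec, h, Matrix.mulVec_zero]
        rwa [mul_inv_cancel, Matrix.SpecialLinearGroup.coe_one, Matrix.one_mulVec] at h1)⟩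
      left_inv := fun x => Subtype.ext (by
        change ((g⁻¹ : S3) : Matrix (Fin 3) (Fin 3) (ZMod 2)).mulVec ((g : Matrix (Fin 3) (Fin 3) (ZMod 2)).mulVec x.1) = x.1
        rw [Matrix.mulVec_mulVec, ← Matrix.SpecialLinearGroup.coe_mul, inv_mul_cancel,
          Matrix.SpecialLinearGroup.coe_one, Matrix.one_mulVec])
      right_inv := fun x => Subtype.ext (by
        change (g : Matrix (Fin 3) (Fin 3) (ZMod 2)).mulVec (((g⁻¹ : S3) : Matrix (Fin 3) (Fin 3) (ZMod 2)).mulVec x.1) = x.1
        rw [Matrix.mulVec_mulVec, ← Matrix.SpecialLinearGroup.coe_mul, mul_inv_cancel,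
          Matrix.SpecialLinearGroup.coe_one, Matrix.one_mulVec]) }
  map_one' := by
    ext1 x
    apply Subtype.ext
    change ((1 : S3) : Matrix (Fin 3) (Fin 3) (ZMod 2)).mulVec x.1 = x.1
    rw [Matrix.SpecialLinearGroup.coe_one, Matrix.one_mulVec]
  map_mul' g h := by
    ext1 x
    apply Subtype.ext
    change ((g * h : S3) : Matrix (Fin 3) (Fin 3) (ZMod 2)).mulVec x.1 =
      (g : Matrix (Fin 3) (Fin 3) (ZMod 2)).mulVec ((h : Matrix (Fin 3) (Fin 3) (ZMod 2)).mulVec x.1)
    rw [Matrix.SpecialLinearGroup.coe_mul, Matrix.mulVec_mulVec]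

theorem act_injective : Function.Injective act := by
  rw [injective_iff_map_eq_one]
  intro g hg
  apply Subtype.ext
  have h1 : ∀ x : Fin 3 → ZMod 2, (g : Matrix (Fin 3) (Fin 3) (ZMod 2)).mulVec x = x := by
    intro x
    by_cases hx : x = 0
    · rw [hx, Matrix.mulVec_zero]
    · exact congrArg Subtype.val (Equiv.Perm.congr_fun hg ⟨x, hx⟩)
  ext i j
  have h2 := congrFun (h1 (Pi.single j 1)) i
  rw [Matrix.mulVec_single_one] at h2
  rw [Matrix.SpecialLinearGroup.coe_one, Matrix.one_apply]
  have h3 : (g : Matrix (Fin 3) (Fin 3) (ZMod 2)) i j = (Pi.single j 1 : Fin 3 → ZMod 2) i := h2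
  rw [h3, Pi.single_apply]

theorem card_Pt : Fintype.card Pt = 7 := by decide

/-- `SL₃(2)` inside `A₇` -/
theorem exists_embedding7 : ∃ f : S3 →* alternatingGroup (Fin 7), Function.Injective f := by
  let e : Pt ≃ Fin 7 := Fintype.equivFinOfCardEq card_Pt
  let f : S3 →* Equiv.Perm (Fin 7) := (e.permCongrHom : Equiv.Perm Pt →* Equiv.Perm (Fin 7)).comp act
  have hf : ∀ g, f g ∈ alternatingGroup (Fin 7) := by
    intro g
    rw [Equiv.Perm.mem_alternatingGroup]
    have h1 : g ∈ (Equiv.Perm.sign.comp f).ker := by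
      apply Abelianization.commutator_subset_ker
      rw [perfect]; exact mem_top g
    exact h1
  refine ⟨f.codRestrict _ hf, ?_⟩
  intro x y h
  have h1 : f x = f y := congrArg Subtype.val h
  exact act_injective (e.permCongrHom.injective h1)

theorem exists_cover : ∃ (Γ : Type) (_ : Group Γ) (_ : Finite Γ) (σ : Γ →* S3), Cfsg.IsStemExtension σ ∧
    Nonempty (σ.ker ≃* Multiplicative (ZMod 2)) := by
  obtain ⟨f, hf⟩ := exists_embedding7
  have hc7 : Nat.card (alternatingGroup (Fin 7)) = 2520 := by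
    rw [nat_card_alternatingGroup, Nat.card_eq_fintype_card, Fintype.card_fin]; rfl
  have ef := MonoidHom.ofInjective hf
  have hidx : f.range.index = 15 := by
    have h1 := f.range.index_mul_card
    rw [← Nat.card_congr ef.toEquiv, card_S3, hc7] at h1
    omega
  obtain ⟨τ, hτ, ⟨k⟩⟩ := isStem_restrict H40.TwoA7.isStem f.range (by
    rw [hidx, H40.TwoA7.card_ker]; norm_num)
  apply exists_stem_of ef.symm τ hτ
  apply equiv_zmod_of_card (comm_of_central hτ.2.1) _ Nat.prime_two.squarefree
  rw [Nat.card_congr k.toEquiv, H40.TwoA7.card_ker]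

theorem bounds (p : ℕ) (hp : p.Prime) (hd : p ∣ Nat.card S3) :
    ∃ (K : Subgroup S3) (n : ℕ), ¬ p ∣ K.index ∧ n ≠ 0 ∧
      n.factorization p ≤ (2 : ℕ).factorization p ∧ CycMult.{0, v} K n := by
  have hcard := card_S3
  have hp' : p = 2 ∨ p = 3 ∨ p = 5 ∨ p = 7 := by
    apply prime_cases hp
    rw [hcard] at hd
    exact hd.trans (by norm_num)
  rcases hp' with rfl | rfl | rfl | rfl
  · let a : S3 := ⟨!![1, 1, 0; 0, 1, 1; 0, 0, 1], by decide⟩
    let b : S3 := ⟨!![1, 1, 0; 0, 1, 0; 0, 0, 1], by decide⟩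
    have : Fact (Nat.Prime 2) := ⟨Nat.prime_two⟩
    have ha4 : orderOf a = 4 := by
      have h1 : ¬ a ^ 2 ^ 1 = 1 := by
        intro h
        have := congrArg Subtype.val h
        revert this
        decide
      have h2 : a ^ 2 ^ (1 + 1) = 1 := by
        apply Subtype.ext
        decide
      exact orderOf_eq_prime_pow h1 h2
    have hab : b * a * b⁻¹ = a⁻¹ := by
      apply Subtype.ext
      decide
    have hnot : b ∉ zpowers a := by
      intro h
      rw [mem_zpowers_iff_mem_range_orderOf, ha4] at h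
      simp only [Finset.mem_image, Finset.mem_range] at h
      obtain ⟨k, hk, hk'⟩ := h
      have h2 := congrArg Subtype.val hk'
      revert h2
      interval_cases k <;> decide
    have hb2 : b * b = 1 := by
      apply Subtype.ext
      decide
    have hc : 8 ∣ Nat.card (Subgroup.closure ({a, b} : Set S3)) := by
      have := two_mul_orderOf_dvd' hab hb2 hnot
      rw [ha4] at this
      exact this
    refine ⟨Subgroup.closure {a, b}, 2, not_dvd_index _ (m := 8) (N := 21) (by norm_num) (by rw [hcard]) hc (by norm_num),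
      by norm_num, le_rfl, bound_dihedral hab⟩
  · let a : S3 := ⟨!![0, 0, 1; 1, 0, 0; 0, 1, 0], by decide⟩
    have : Fact (Nat.Prime 3) := ⟨Nat.prime_three⟩
    have ha : orderOf a = 3 := by
      apply orderOf_eq_prime
      · apply Subtype.ext
        decide
      · intro h
        have := congrArg Subtype.val h
        revert this
        decide
    exact ⟨zpowers a, 1, not_dvd_index _ (m := 3) (N := 56) (by norm_num) (by rw [hcard])
      (by rw [Nat.card_zpowers, ha]) (by norm_num), by norm_num, by simp, cycMult_of_isCyclic _⟩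
  · rw [hcard] at hd
    norm_num at hd
  · let a : S3 := ⟨!![0, 0, 1; 1, 0, 1; 0, 1, 0], by decide⟩
    have : Fact (Nat.Prime 7) := ⟨by norm_num⟩
    have ha : orderOf a = 7 := by
      apply orderOf_eq_prime
      · apply Subtype.ext
        decide +kernel
      · intro h
        have := congrArg Subtype.val h
        revert this
        decide
    exact ⟨zpowers a, 1, not_dvd_index _ (m := 7) (N := 24) (by norm_num) (by rw [hcard])
      (by rw [Nat.card_zpowers, ha]) (by norm_num), by norm_num, by simp, cycMult_of_isCyclic _⟩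

theorem multiplier : Cfsg.HasCyclicSchurMultiplier S3 2 :=
  hasCyclic_of_bounds (by norm_num) exists_cover bounds

theorem mapEquiv {R S : Type*} [CommRing R] [CommRing S] {n : ℕ} (e : R ≃+* S) :
    Nonempty (Matrix.SpecialLinearGroup (Fin n) R ≃* Matrix.SpecialLinearGroup (Fin n) S) := by
  refine ⟨MulEquiv.ofBijective (Matrix.SpecialLinearGroup.map (e : R →+* S)) ⟨?_, ?_⟩⟩
  · intro x y h
    apply Subtype.ext
    ext i j
    have := congrArg (fun z : Matrix.SpecialLinearGroup (Fin n) S => (z : Matrix (Fin n) (Fin n) S) i j) h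
    simpa using this
  · intro y
    refine ⟨Matrix.SpecialLinearGroup.map (e.symm : S →+* R) y, ?_⟩
    apply Subtype.ext
    ext i j
    simp

theorem multiplier' {F : Type u} [Field F] [Fintype F] (hF : Fintype.card F = 2) :
    Cfsg.HasCyclicSchurMultiplier (Matrix.ProjectiveSpecialLinearGroup (Fin 3) F) 2 := by
  let e := ZMod.ringEquivOfPrime F Nat.prime_two hF
  obtain ⟨f⟩ := mapEquiv (n := 3) e
  have hcen : center (Matrix.SpecialLinearGroup (Fin 3) F) = ⊥ := by
    apply (Subgroup.card_eq_one).mp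
    rw [H6.SLCard.card_center_sl, Fintype.card_fin, hF]
    rfl
  have g : Matrix.SpecialLinearGroup (Fin 3) F ≃* Matrix.ProjectiveSpecialLinearGroup (Fin 3) F :=
    (QuotientGroup.quotientBot (G := Matrix.SpecialLinearGroup (Fin 3) F)).symm.trans
      (QuotientGroup.quotientMulEquivOfEq hcen.symm)
  exact HasSchurMultiplier.congr (f.trans g) multiplier

end H40.SL3Two
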