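import Mathlib
import Cfsg.Agent.Lib.H40.Sieg21
import Cfsg.Agent.S0790
import Cfsg.Agent.S0791

/-!
The Schur multipliers of the orthogonal groups.
-/
set_option autoImplicit false
set_option linter.unusedSimpArgs false
set_option linter.unusedSectionVars false
set_option linter.unusedVariables false
set_option linter.style.haveILetI false

namespace H40.Sieg

open H7.Hyp H7.Omega QuadraticMap H17.OrthSiegel H50.OrthE H40.Ext H50.OrthModel H7.HypStd H7.HypOrd H7.MinusOrd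
open H48.QuadStd H7.AnisoPlane H50.OrthMat Cfsg

universe u

variable {F : Type u} [Field F] [Fintype F]

theorem main_odd {q : ℕ} (hF : Fintype.card F = q) (hq : Odd q) (m : ℕ) (hm : 3 ≤ m) (hexc : ¬ (m = 3 ∧ q = 3)) :
    Cfsg.HasCyclicSchurMultiplier (Cfsg.POmega F (Cfsg.quadFormOdd m F)) 2 := by
  have h2 : (2 : F) ≠ 0 := H7.OmegaIso.two_ne_zero_of_odd (by rw [hF]; exact hq)
  obtain ⟨k, rfl⟩ : ∃ k, m = k + 3 := ⟨m - 3, by omega⟩
  obtain ⟨L⟩ := H50.OrthFam.eq3_odd (F := F) k 1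
  have hd : 1 ≤ Module.finrank F (Unit ⊕ (Fin k ⊕ Fin k) → F) := by rw [fr_odd]; omega
  have hlt : 1 < q := by rw [← hF]; exact Fintype.one_lt_card
  have hB : Bd (qOdd k F 1) := bd_odd one_ne_zero h2 (by
    rw [hF]
    obtain ⟨j, hj⟩ := hq
    omega)
  have key := mult_two (nd_odd k h2 one_ne_zero) hd L hB h2
    (not_neg_odd (nd_odd k h2 one_ne_zero) hd h2 (by rw [fr_odd]; exact ⟨k, rfl⟩))
  rw [coe_qOdd] at key
  exact key

theorem two_zero_or {q : ℕ} (hF : Fintype.card F = q) : ((2 : F) = 0 ∧ Even q) ∨ ((2 : F) ≠ 0 ∧ Odd q) := by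
  have h := H48.FinFieldSq.two_ne_zero_iff_odd_card (F := F)
  rw [Nat.card_eq_fintype_card, hF] at h
  by_cases h2 : (2 : F) = 0
  · left; exact ⟨h2, by rw [← Nat.not_odd_iff_even]; exact fun ho => h.mpr ho h2⟩
  · right; exact ⟨h2, h.mp h2⟩

theorem exists_sqrt_neg_one {q : ℕ} (hF : Fintype.card F = q) (hq : q % 4 = 1) : ∃ i : Fˣ, i * i = -1 := by
  have h : IsSquare (-1 : F) := by
    rw [FiniteField.isSquare_neg_one_iff, hF]; omega
  obtain ⟨i, hi⟩ := h
  have hi0 : i ≠ 0 := by rintro rfl; simp at hi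
  exact ⟨Units.mk0 i hi0, Units.ext (by rw [Units.val_mul, Units.val_mk0, Units.val_neg, Units.val_one, hi])⟩

theorem gcd_four_one {n : ℕ} (h : n % 2 = 1) : Nat.gcd 4 n = 1 := by
  rw [show (4 : ℕ) = 2 ^ 2 from rfl]
  exact Nat.Coprime.pow_left 2 (by rw [Nat.coprime_two_left, Nat.odd_iff]; exact h)
theorem gcd_four_two {n : ℕ} (h : n % 4 = 2) : Nat.gcd 4 n = 2 := by
  rw [Nat.gcd_rec, h]; rfl
theorem gcd_four_four {n : ℕ} (h : n % 4 = 0) : Nat.gcd 4 n = 4 := by
  rw [Nat.gcd_rec, h]; rfl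

theorem pow_mod_four_odd {q l : ℕ} (hl : Odd l) (hq : Odd q) : q ^ l % 4 = q % 4 := by
  obtain ⟨j, rfl⟩ := hl
  have h1 : q ^ 2 % 4 = 1 := by
    obtain ⟨i, rfl⟩ := hq
    have : (2 * i + 1) ^ 2 = 4 * (i ^ 2 + i) + 1 := by ring
    rw [this]; omega
  rw [pow_succ, pow_mul, Nat.mul_mod, Nat.pow_mod, h1, one_pow]
  norm_num

theorem pow_mod_four_even {q l : ℕ} (hl : Even l) (hq : Odd q) : q ^ l % 4 = 1 := by
  obtain ⟨j, rfl⟩ := hl
  have h1 : q ^ 2 % 4 = 1 := by
    obtain ⟨i, rfl⟩ := hq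
    have : (2 * i + 1) ^ 2 = 4 * (i ^ 2 + i) + 1 := by ring
    rw [this]; omega
  rw [← two_mul, pow_mul, Nat.pow_mod, h1, one_pow]
  rfl

theorem main_plus_odd {q : ℕ} (hF : Fintype.card F = q) (l : ℕ) (hl : 5 ≤ l) (hodd : Odd l) :
    Cfsg.HasCyclicSchurMultiplier (Cfsg.POmega F (Cfsg.quadFormPlus l F)) (Nat.gcd 4 (q ^ l - 1)) := by
  obtain ⟨k, rfl⟩ : ∃ k, l = k + 1 + 3 := ⟨l - 4, by omega⟩
  have hk : k % 2 = 1 := by rw [Nat.odd_iff] at hodd; omega
  obtain ⟨L⟩ := H50.OrthFam.eq3_plus (F := F) (k + 1)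
  have hd : 1 ≤ Module.finrank F (Fin (k + 1) ⊕ Fin (k + 1) → F) := by rw [fr_plus]; omega
  have hB : Bd (qPlus (k + 1) F) := bd_plus (Or.inl (by omega))
  have hlt : 1 ≤ q := by rw [← hF]; exact Fintype.card_pos
  have hql : 1 ≤ q ^ (k + 1 + 3) := Nat.one_le_pow _ _ hlt
  rcases two_zero_or hF with ⟨h2, hq⟩ | ⟨h2, hq⟩
  · have hev : Even (q ^ (k + 1 + 3)) := hq.pow_of_ne_zero (by omega)
    rw [gcd_four_one (by rw [Nat.even_iff] at hev; omega)]
    have key := mult_even (nd_plus (k + 1)) hd L hB h2 (A := Multiplicative (ZMod 1))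
    rw [coe_qPlus] at key
    exact key
  · have hmod := pow_mod_four_odd hodd hq
    rw [Nat.odd_iff] at hq
    by_cases h4 : q % 4 = 1
    · rw [gcd_four_four (by omega)]
      obtain ⟨i, hi⟩ := exists_sqrt_neg_one hF h4
      have key := mult_four (nd_plus (k + 1)) hd L hB h2 (ng_plus_odd hi hk)
      rw [coe_qPlus] at key
      exact key
    · rw [gcd_four_two (by omega)]
      have key := mult_two (nd_plus (k + 1)) hd L hB h2 (fun hn => by
        have h5 := neg_transfer (nd_plus (k + 1)) hd L hn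
        rw [coe_qPlus] at h5
        have h6 := (Cfsg.Agent.S0790.result hF (Nat.odd_iff.mpr hq) (k + 1 + 3) (by omega)).mp h5
        omega)
      rw [coe_qPlus] at key
      exact key

theorem main_plus_even {q : ℕ} (hF : Fintype.card F = q) (l : ℕ) (hl : 4 ≤ l) (heven : Even l) (hexc : ¬ (l = 4 ∧ q = 2)) :
    Cfsg.HasSchurMultiplier (Cfsg.POmega F (Cfsg.quadFormPlus l F))
      (Multiplicative (ZMod (Nat.gcd 2 (q ^ l - 1)) × ZMod (Nat.gcd 2 (q ^ l - 1)))) := by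
  obtain ⟨k, rfl⟩ : ∃ k, l = k + 1 + 3 := ⟨l - 4, by omega⟩
  have hk : k % 2 = 0 := by rw [Nat.even_iff] at heven; omega
  obtain ⟨L⟩ := H50.OrthFam.eq3_plus (F := F) (k + 1)
  have hd : 1 ≤ Module.finrank F (Fin (k + 1) ⊕ Fin (k + 1) → F) := by rw [fr_plus]; omega
  have hlt : 2 ≤ q := by rw [← hF]; exact Fintype.one_lt_card
  have hcase : 1 ≤ k ∨ 3 ≤ Fintype.card F := by
    rw [hF]
    by_contra hcon
    push Not at hcon
    exact hexc ⟨by omega, by omega⟩
  have hB : Bd (qPlus (k + 1) F) := bd_plus hcase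
  have hql : 1 ≤ q ^ (k + 1 + 3) := Nat.one_le_pow _ _ (by omega)
  rcases two_zero_or hF with ⟨h2, hq⟩ | ⟨h2, hq⟩
  · have hev : Even (q ^ (k + 1 + 3)) := hq.pow_of_ne_zero (by omega)
    have hg : Nat.gcd 2 (q ^ (k + 1 + 3) - 1) = 1 := by
      rw [← Nat.coprime_iff_gcd_eq_one, Nat.coprime_two_left, Nat.odd_iff]
      rw [Nat.even_iff] at hev; omega
    rw [hg]
    have key := mult_even (nd_plus (k + 1)) hd L hB h2 (A := Multiplicative (ZMod 1 × ZMod 1))
    rw [coe_qPlus] at key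
    exact key
  · have hodd : Odd (q ^ (k + 1 + 3)) := hq.pow
    have hg : Nat.gcd 2 (q ^ (k + 1 + 3) - 1) = 2 := by
      apply Nat.gcd_eq_left
      rw [Nat.odd_iff] at hodd
      omega
    rw [hg]
    have key := mult_klein (nd_plus (k + 1)) hd L hB h2 (ng_plus_even hk hcase)
    rw [coe_qPlus] at key
    exact key

theorem main_minus {q : ℕ} (hF : Fintype.card F = q) (l : ℕ) (hl : 4 ≤ l) (a b : F)
    (hab : ∀ z₁ z₂ : F, z₁ ^ 2 + a * z₁ * z₂ + b * z₂ ^ 2 = 0 → z₁ = 0 ∧ z₂ = 0) :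
    Cfsg.HasCyclicSchurMultiplier (Cfsg.POmega F (Cfsg.quadFormMinus (l - 1) F a b)) (Nat.gcd 4 (q ^ l + 1)) := by
  obtain ⟨k, rfl⟩ : ∃ k, l = k + 3 + 1 := ⟨l - 4, by omega⟩
  rw [Nat.add_sub_cancel]
  obtain ⟨L⟩ := H50.OrthFam.eq3_minus (F := F) k a b
  have hd : 1 ≤ Module.finrank F ((Fin k ⊕ Fin k) ⊕ Fin 2 → F) := by rw [fr_minus]; omega
  have hB : Bd (qMinus k F a b) := bd_minus hab
  have hnd := nd_minus k (a := a) (b := b) hab
  rcases two_zero_or hF with ⟨h2, hq⟩ | ⟨h2, hq⟩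
  · have hev : Even (q ^ (k + 3 + 1)) := hq.pow_of_ne_zero (by omega)
    rw [gcd_four_one (by rw [Nat.even_iff] at hev; omega)]
    have key := mult_even hnd hd L hB h2 (A := Multiplicative (ZMod 1))
    rw [coe_qMinus] at key
    exact key
  · have hno : q ^ (k + 3 + 1) % 4 ≠ 3 → Cfsg.HasCyclicSchurMultiplier (Cfsg.POmega F (Cfsg.quadFormMinus (k + 3) F a b)) 2 := by
      intro hne
      have key := mult_two hnd hd L hB h2 (fun hn => by
        have h5 := neg_transfer hnd hd L hn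
        rw [coe_qMinus] at h5
        exact hne ((Cfsg.Agent.S0791.result hF hq (k + 3 + 1) (by omega) a b hab).mp h5))
      rw [coe_qMinus] at key
      exact key
    rcases Nat.even_or_odd (k + 3 + 1) with he | ho
    · have hmod := pow_mod_four_even he hq
      rw [gcd_four_two (by omega)]
      exact hno (by omega)
    · have hmod := pow_mod_four_odd ho hq
      rw [Nat.odd_iff] at hq
      by_cases h4 : q % 4 = 3
      · rw [gcd_four_four (by omega)]
        have key := mult_four hnd hd L hB h2 (ng_minus hab (by rw [hF]; exact h4) (by rw [Nat.odd_iff] at ho; omega))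
        rw [coe_qMinus] at key
        exact key
      · rw [gcd_four_two (by omega)]
        exact hno (by omega)

end H40.Sieg
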