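import Cfsg.Prelude
import Cfsg.Agent.Lib.H8.SuzCent
import Cfsg.Agent.Lib.H24.SzIso
import Cfsg.Agent.Lib.H50.FieldAut

set_option autoImplicit false

open Subgroup

universe u v

/-!
Automorphisms of `Sz(q)`.
-/

namespace H40.SzAut

open Cfsg H8.SuzField H8.SuzMat H8.SuzGroup H8.SuzSylow H8.SuzCent H8.SuzOvoid

/-- outer automorphism groups of isomorphic groups -/
theorem card_out_congr {G : Type u} {G' : Type v} [Group G] [Group G'] (e : G ≃* G') :
    Nat.card (Cfsg.Out G) = Nat.card (Cfsg.Out G') := by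
  rw [Cfsg.Out, Cfsg.Out, ← Subgroup.index_eq_card, ← Subgroup.index_eq_card]
  have h : Cfsg.Inn G = (Cfsg.Inn G').comap (MulAut.congr e : MulAut G →* MulAut G') := by
    ext φ
    constructor
    · rintro ⟨g, rfl⟩
      refine ⟨e g, ?_⟩
      ext x
      simp [MulAut.conj_apply, MulAut.congr]
    · rintro ⟨g, hg⟩
      refine ⟨e.symm g, ?_⟩
      ext x
      have h1 := DFunLike.congr_fun hg (e x)
      have h2 : g * e x * g⁻¹ = e (φ x) := by
        rw [← MulAut.conj_apply, h1]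
        simp [MulAut.congr]
      rw [MulAut.conj_apply]
      apply e.injective
      rw [map_mul, map_mul, map_inv, e.apply_symm_apply, h2]
  rw [h, Subgroup.index_comap_of_surjective]
  exact (MulAut.congr e).surjective

variable {F : Type u} [Field F] [Fintype F] {m : ℕ} (hF : Fintype.card F = 2 ^ (2 * m + 1))

/-- elements of the group are products -/
theorem bruhat' (hm : 1 ≤ m) (g : Cfsg.Sz F m) :
    (∃ a b : F, ∃ k : Fˣ, g = tG hF a b * dG hF k) ∨
    (∃ x y a b : F, ∃ k : Fˣ, g = tG hF x y * wG hF * (tG hF a b * dG hF k)) := by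
  rcases bruhat hF hm g.2 with ⟨a, b, k, h⟩ | ⟨x, y, a, b, k, h⟩
  · exact Or.inl ⟨a, b, k, Subtype.ext h⟩
  · exact Or.inr ⟨x, y, a, b, k, Subtype.ext h⟩

theorem ext_of_fix (hm : 1 ≤ m) {φ : MulAut (Cfsg.Sz F m)} (ht : ∀ a b, φ (tG hF a b) = tG hF a b)
    (hd : ∀ k, φ (dG hF k) = dG hF k) (hw : φ (wG hF) = wG hF) : φ = 1 := by
  ext1 g
  rcases bruhat' hF hm g with ⟨a, b, k, rfl⟩ | ⟨x, y, a, b, k, rfl⟩
  · rw [map_mul, ht, hd]; rfl
  · rw [map_mul, map_mul, map_mul, ht, hd, hw, ht]; rfl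

/-! ### field automorphisms -/

omit [Fintype F] in
theorem map_T (f : F ≃+* F) (a b : F) : Matrix.SpecialLinearGroup.map (f : F →+* F) (T m a b) = T m (f a) (f b) := by
  apply Subtype.ext
  ext i j
  change f (Tm m a b i j) = Tm m (f a) (f b) i j
  fin_cases i <;> fin_cases j <;>
    simp [Tm, th, f_eq]

omit [Fintype F] in
theorem map_D (f : F ≃+* F) (k : Fˣ) : Matrix.SpecialLinearGroup.map (f : F →+* F) (D m k) =
    D m (Units.map (f : F →* F) k) := by
  apply Subtype.ext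
  ext i j
  change f (Dm m (k : F) i j) = Dm m (f (k : F)) i j
  fin_cases i <;> fin_cases j <;>
    simp [Dm]

omit [Fintype F] in
theorem map_W (f : F ≃+* F) : Matrix.SpecialLinearGroup.map (f : F →+* F) (W F) = W F := by
  apply Subtype.ext
  ext i j
  change f (Wm F i j) = Wm F i j
  fin_cases i <;> fin_cases j <;>
    simp [Wm, suzukiForm]

omit [Fintype F] in
theorem map_map_symm (f : F ≃+* F) (g : SL F) : Matrix.SpecialLinearGroup.map (f : F →+* F)
    (Matrix.SpecialLinearGroup.map (f.symm : F →+* F) g) = g := by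
  apply Subtype.ext
  ext i j
  simp

omit [Fintype F] in
theorem map_symm_map (f : F ≃+* F) (g : SL F) : Matrix.SpecialLinearGroup.map (f.symm : F →+* F)
    (Matrix.SpecialLinearGroup.map (f : F →+* F) g) = g := by
  apply Subtype.ext
  ext i j
  simp

include hF in
theorem map_mem (hm : 1 ≤ m) (f : F ≃+* F) {g : SL F} (hg : g ∈ Cfsg.Sz F m) :
    Matrix.SpecialLinearGroup.map (f : F →+* F) g ∈ Cfsg.Sz F m := by
  rcases bruhat hF hm hg with ⟨a, b, k, rfl⟩ | ⟨x, y, a, b, k, rfl⟩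
  · rw [map_mul, map_T, map_D]
    exact mul_mem (T_mem hF _ _) (D_mem hF _)
  · rw [map_mul, map_mul, map_mul, map_T, map_D, map_W, map_T]
    exact mul_mem (mul_mem (T_mem hF _ _) (W_mem hF)) (mul_mem (T_mem hF _ _) (D_mem hF _))

/-- the automorphism induced by a field automorphism -/
def fieldAut (hm : 1 ≤ m) (f : F ≃+* F) : MulAut (Cfsg.Sz F m) where
  toFun g := ⟨Matrix.SpecialLinearGroup.map (f : F →+* F) g, map_mem hF hm f g.2⟩
  invFun g := ⟨Matrix.SpecialLinearGroup.map (f.symm : F →+* F) g, map_mem hF hm f.symm g.2⟩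
  left_inv g := Subtype.ext (map_symm_map f g)
  right_inv g := Subtype.ext (map_map_symm f g)
  map_mul' _ _ := Subtype.ext (map_mul _ _ _)

theorem fieldAut_t (hm : 1 ≤ m) (f : F ≃+* F) (a b : F) : fieldAut hF hm f (tG hF a b) = tG hF (f a) (f b) :=
  Subtype.ext (map_T f a b)

theorem fieldAut_d (hm : 1 ≤ m) (f : F ≃+* F) (k : Fˣ) : fieldAut hF hm f (dG hF k) =
    dG hF (Units.map (f : F →* F) k) := Subtype.ext (map_D f k)

theorem fieldAut_w (hm : 1 ≤ m) (f : F ≃+* F) : fieldAut hF hm f (wG hF) = wG hF := Subtype.ext (map_W f)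

/-! ### an automorphism fixing the Borel subgroup -/

theorem conj_T (k : Fˣ) (a b : F) : dG (m := m) hF k * tG hF a b * (dG hF k)⁻¹ =
    tG hF (k * a) (k * th m (k : F) * b) := by
  rw [D_T, mul_inv_cancel_right]

theorem inf_t (a b : F) : ((tG hF a b : Cfsg.Sz F m) : SL F) • suzukiPointInfinity F = suzukiPointInfinity F :=
  T_smul_inf a b

/-- step E -/
theorem fix_W (hm : 1 ≤ m) {φ : MulAut (Cfsg.Sz F m)} (ht : ∀ a b, φ (tG hF a b) = tG hF a b)
    (hd : ∀ k, φ (dG hF k) = dG hF k) : φ (wG hF) = wG hF := by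
  obtain ⟨k, hk⟩ := exists_k (F := F) (m := m) hm hF
  -- `φ w = w * d l`
  have h1 : ((wG hF)⁻¹ * φ (wG hF)) * dG hF k = dG hF k * ((wG hF)⁻¹ * φ (wG hF)) := by
    have e1 : φ (wG hF) * dG hF k = dG hF k⁻¹ * φ (wG hF) := by
      have := congrArg φ (W_D (m := m) hF k)
      rwa [map_mul, map_mul, hd, hd] at this
    have e2 : (wG (m := m) hF)⁻¹ * dG hF k⁻¹ = dG hF k * (wG hF)⁻¹ := by
      rw [inv_mul_eq_iff_eq_mul, ← mul_assoc, eq_mul_inv_iff_mul_eq]
      have := W_D (m := m) hF k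
      rw [this]
    rw [mul_assoc, e1, ← mul_assoc, e2, mul_assoc]
  obtain ⟨l, hl⟩ := mem_HH_of_commute hm hF hk h1
  have hw : φ (wG hF) = wG hF * dG hF l := by rw [hl, mul_inv_cancel_left]
  -- the element `b₁ = w t(1,0)⁻¹ w t(0,1) w` fixes infinity
  let b₁ : Cfsg.Sz F m := wG hF * (tG hF 1 0)⁻¹ * wG hF * tG hF 0 1 * wG hF
  have hf01 : f m (0 : F) 1 = 1 := by rw [f_eq, th_zero, th_one]; ring
  have hW1 : ((wG hF : Cfsg.Sz F m) : SL F) • pnt m (0 : F) 1 = pnt m 1 0 := by
    change W F • pnt m (0 : F) 1 = pnt m 1 0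
    rw [W_smul_pnt hF (by rw [hf01]; exact one_ne_zero), hf01]
    congr 1
    · ring
    · ring
  have hb₁ : (b₁ : SL F) • suzukiPointInfinity F = suzukiPointInfinity F := by
    change (W F * (T m 1 0)⁻¹ * W F * T m 0 1 * W F) • suzukiPointInfinity F = _
    rw [mul_smul, mul_smul, mul_smul, mul_smul, W_smul_inf (m := m), T_smul_zero hF]
    have : W F • pnt m (0 : F) 1 = pnt m 1 0 := hW1
    rw [this]
    have h2 : (T m (1 : F) 0)⁻¹ • pnt m (1 : F) 0 = pnt m 0 0 := by
      rw [inv_smul_eq_iff, T_smul_zero hF]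
    rw [h2, W_smul_zero]
  obtain ⟨a, b, k₁, hb⟩ := eq_TD_of_fix_inf hF hm b₁.2 hb₁
  have hb' : b₁ = tG hF a b * dG hF k₁ := Subtype.ext hb
  have hφb : φ b₁ = b₁ := by rw [hb', map_mul, ht, hd]
  have hrel : wG hF * tG hF 0 1 * wG hF = tG hF 1 0 * wG hF * b₁ := by
    have hww := wG_mul (m := m) hF
    change _ = tG hF 1 0 * wG hF * (wG hF * (tG hF 1 0)⁻¹ * wG hF * tG hF 0 1 * wG hF)
    calc wG hF * tG hF 0 1 * wG hF
        = tG hF 1 0 * 1 * (tG hF 1 0)⁻¹ * wG hF * tG hF 0 1 * wG hF := by group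
      _ = tG hF 1 0 * (wG hF * wG hF) * (tG hF 1 0)⁻¹ * wG hF * tG hF 0 1 * wG hF := by rw [hww]
      _ = _ := by group
  have hrel' := congrArg φ hrel
  rw [map_mul, map_mul, map_mul, map_mul, ht, ht, hφb, hw] at hrel'
  have h3 := congrArg (fun g : Cfsg.Sz F m => (g : SL F) • suzukiPointInfinity F) hrel'
  have h4 : (W F * D m l * T m 0 1 * (W F * D m l)) • suzukiPointInfinity F =
      (T m 1 0 * (W F * D m l) * (b₁ : SL F)) • suzukiPointInfinity F := h3
  rw [mul_smul, mul_smul, mul_smul, mul_smul, D_smul_inf, W_smul_inf (m := m), T_smul_zero hF, D_smul_pnt hF,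
    mul_smul, mul_smul, hb₁, mul_smul, D_smul_inf, W_smul_inf (m := m), T_smul_zero hF] at h4
  have hl0 : (l : F) ≠ 0 := l.ne_zero
  have hthl : th m (l : F) ≠ 0 := fun h => hl0 (th_eq_zero.mp h)
  have hfl : f m ((l : F) * 0) ((l : F) * th m (l : F) * 1) = (l : F) ^ 2 * th m (l : F) := by
    rw [f_smul hF, hf01, mul_one]
  rw [W_smul_pnt hF (by rw [hfl]; positivity), hfl] at h4
  obtain ⟨h5, -⟩ := pnt_inj h4
  have h6 : (l : F) = 1 := by
    field_simp at h5
    exact h5.symm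
  have h7 : l = 1 := Units.ext h6
  rw [hw, h7, map_one, mul_one]


/-- an automorphism acting trivially modulo the centre of the Sylow subgroup and on the torus is trivial -/
theorem eq_one (hm : 1 ≤ m) {φ : MulAut (Cfsg.Sz F m)} {γ β : F → F} (ht : ∀ a, φ (tG hF a 0) = tG hF a (γ a))
    (ht' : ∀ b, φ (tG hF 0 b) = tG hF 0 (β b)) (hd : ∀ k, φ (dG hF k) = dG hF k) : φ = 1 := by
  have hch := charP_two hF
  have htwo := two_eq_zero hF
  have hTT' : ∀ a s t : F, (tG hF a s : Cfsg.Sz F m) * tG hF 0 t = tG hF a (s + t) := by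
    intro a s t
    rw [tG_mul]
    congr 1 <;> ring
  -- `β` is the identity
  have hβ : ∀ b, β b = b := by
    intro b
    by_cases hb : b = 0
    · have h1 := ht' 0
      rw [tG_one, map_one, ← tG_one hF] at h1
      rw [hb, ← (tG_inj hF h1).2]
    · obtain ⟨a, ha, hab⟩ := exists_norm (m := m) hF hb
      have h1 := congrArg φ (tG_sq (m := m) hF a 0)
      rw [map_pow, ht, tG_sq, ht'] at h1
      have h2 := (tG_inj hF h1).2
      rw [mul_comm, hab] at h2
      exact h2.symm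
  have hγadd : ∀ a c, γ (a + c) = γ a + γ c := by
    intro a c
    have h1 : tG (m := m) hF a 0 * tG hF c 0 = tG hF (a + c) 0 * tG hF 0 (th m a * c) := by
      rw [tG_mul, hTT']
      congr 1; ring
    have h2 := congrArg φ h1
    rw [map_mul, map_mul, ht, ht, ht, ht', tG_mul, hTT', hβ] at h2
    have h3 := (tG_inj hF h2).2
    linear_combination -h3
  have hγmul : ∀ (k : Fˣ) (a : F), γ (k * a) = k * th m (k : F) * γ a := by
    intro k a
    have h1 := conj_T (m := m) hF k a 0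
    rw [mul_zero] at h1
    have h2 := congrArg φ h1
    rw [map_mul, map_mul, map_inv, hd, ht, ht, conj_T] at h2
    exact ((tG_inj hF h2).2).symm
  have hγ1 : γ 1 = 0 := by
    obtain ⟨t, ht0⟩ := exists_th_ne (m := m) hm hF
    have ht1 : t ≠ 0 := by rintro rfl; rw [th_zero, add_zero] at ht0; exact ht0 rfl
    have ht2 : t + 1 ≠ 0 := by
      intro h
      have : t = 1 := by linear_combination h - htwo
      rw [this, th_one, one_add_one_eq_two] at ht0
      exact ht0 htwo
    have h1 := hγmul (Units.mk0 t ht1) 1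
    have h2 := hγmul (Units.mk0 (t + 1) ht2) 1
    rw [Units.val_mk0, mul_one] at h1 h2
    rw [hγadd, h1, th_add hF, th_one] at h2
    have h3 : (t + th m t) * γ 1 = 0 := by linear_combination -h2
    exact (mul_eq_zero.mp h3).resolve_left ht0
  have hγ : ∀ a, γ a = 0 := by
    intro a
    by_cases ha : a = 0
    · have := hγadd 0 0
      rw [add_zero] at this
      rw [ha]
      exact left_eq_add.mp this
    · have := hγmul (Units.mk0 a ha) 1
      rwa [Units.val_mk0, mul_one, hγ1, mul_zero] at this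
  have hall : ∀ a b, φ (tG hF a b) = tG hF a b := by
    intro a b
    have h1 : tG (m := m) hF a b = tG hF a 0 * tG hF 0 b := by rw [hTT', zero_add]
    rw [h1, map_mul, ht, ht', hγ, hβ]
  exact ext_of_fix hF hm hall hd (fix_W hF hm hall hd)

/-- a torus element normalising a nontrivial part of the translation group lies in the Borel subgroup -/
theorem fix_inf_of_conj {g t : Cfsg.Sz F m} (ht : t ∈ TT (m := m) hF) (ht1 : t ≠ 1)
    (h : g * t * g⁻¹ ∈ TT (m := m) hF) : (g : SL F) • suzukiPointInfinity F = suzukiPointInfinity F := by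
  obtain ⟨a, b, rfl⟩ := ht
  obtain ⟨x, y, h⟩ := h
  rcases mem_ovoid_iff.1 (smul_mem g.2 (inf_mem m)) with h1 | ⟨u, v, h1⟩
  · exact h1
  · exfalso
    apply ht1
    have h2 : g * tG hF a b = tG hF x y * g := by rw [← h]; group
    have h3 := congrArg (fun g : Cfsg.Sz F m => (g : SL F) • suzukiPointInfinity F) h2
    have h4 : ((g : SL F) * T m a b) • suzukiPointInfinity F = (T m x y * (g : SL F)) • suzukiPointInfinity F := h3
    rw [mul_smul, mul_smul, T_smul_inf, h1, T_smul_pnt hF] at h4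
    obtain ⟨h5, h6⟩ := pnt_inj h4
    have hx : x = 0 := by linear_combination -h5
    have hy : y = 0 := by
      rw [hx, th_zero] at h6
      linear_combination -h6
    rw [hx, hy, tG_one] at h
    rw [mul_inv_eq_one, mul_eq_left] at h
    exact h

/-- normal form of an automorphism -/
theorem exists_form (hm : 1 ≤ m) (φ : MulAut (Cfsg.Sz F m)) :
    ∃ (g : Cfsg.Sz F m) (f : F ≃+* F), MulAut.conj g * φ = fieldAut hF hm f := by
  classical
  have : Fact (Nat.Prime 2) := ⟨Nat.prime_two⟩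
  have hch := charP_two hF
  have htwo := two_eq_zero hF
  have hTT' : ∀ a s t : F, (tG hF a s : Cfsg.Sz F m) * tG hF 0 t = tG hF a (s + t) := by
    intro a s t
    rw [tG_mul]
    congr 1 <;> ring
  -- step A
  obtain ⟨g₁, hg₁⟩ : ∃ g : Cfsg.Sz F m, ∀ t ∈ TT (m := m) hF, (MulAut.conj g * φ) t ∈ TT (m := m) hF := by
    have hQG : IsPGroup 2 ((TT (m := m) hF).map φ.toMonoidHom) := (isPGroup_TT hF).map _
    obtain ⟨Q, hQ⟩ := hQG.exists_le_sylow
    obtain ⟨g, hg⟩ := MulAction.exists_smul_eq (Cfsg.Sz F m) Q (PT hm hF)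
    refine ⟨g, fun t ht => ?_⟩
    have h2 : g * φ t * g⁻¹ ∈ ((PT hm hF : Sylow 2 (Cfsg.Sz F m)) : Subgroup (Cfsg.Sz F m)) := by
      rw [← hg, Sylow.coe_subgroup_smul]
      exact Subgroup.smul_mem_pointwise_smul (φ t) (MulAut.conj g) _ (hQ (Subgroup.mem_map_of_mem _ ht))
    exact h2
  set φ₁ := MulAut.conj g₁ * φ with hφ₁
  -- a generator of the torus
  obtain ⟨κ, hκ⟩ := IsCyclic.exists_generator (α := Fˣ)
  have hκ1 : κ ≠ 1 := by
    rintro rfl
    obtain ⟨k, hk⟩ := exists_k (F := F) (m := m) hm hF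
    obtain ⟨i, hi⟩ := hκ k
    exact hk (by rw [← hi]; simp)
  -- step B
  have hinf : ((φ₁ (dG hF κ) : Cfsg.Sz F m) : SL F) • suzukiPointInfinity F = suzukiPointInfinity F := by
    apply fix_inf_of_conj hF (t := φ₁ (tG hF 0 1)) (hg₁ _ ⟨0, 1, rfl⟩)
    · intro h
      have h1 : tG (m := m) hF 0 1 = 1 := (MulEquiv.map_eq_one_iff φ₁).mp h
      rw [← tG_one hF] at h1
      exact one_ne_zero (tG_inj hF h1).2
    · rw [← map_mul, ← map_inv, ← map_mul, conj_T]
      exact hg₁ _ ⟨_, _, rfl⟩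
  obtain ⟨a, b, k, hk⟩ := eq_TD_of_fix_inf hF hm (φ₁ (dG hF κ)).2 hinf
  have hk' : φ₁ (dG hF κ) = tG hF a b * dG hF k := Subtype.ext hk
  have hk1 : k ≠ 1 := by
    rintro rfl
    rw [map_one, mul_one] at hk'
    have h4 : (φ₁ (dG hF κ)) ^ 4 = 1 := by rw [hk', tG_pow_four]
    rw [← map_pow, MulEquiv.map_eq_one_iff, ← map_pow, ← map_one (dG (m := m) hF)] at h4
    have h5 := dG_inj hF h4
    have h6 : orderOf κ ∣ 4 := orderOf_dvd_of_pow_eq_one h5
    have h7 : orderOf κ ∣ 2 ^ (2 * m + 1) - 1 := by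
      have := orderOf_dvd_card (x := κ)
      rwa [Fintype.card_units, hF] at this
    have h8 : orderOf κ ∣ 1 := by
      have hcop : Nat.Coprime 4 (2 ^ (2 * m + 1) - 1) := by
        have h9 : Odd (2 ^ (2 * m + 1) - 1) := by
          rw [pow_succ, mul_comm]
          have : 0 < 2 ^ (2 * m) := by positivity
          exact ⟨2 ^ (2 * m) - 1, by omega⟩
        have : Nat.Coprime (2 ^ 2) (2 ^ (2 * m + 1) - 1) := Nat.Coprime.pow_left 2 h9.coprime_two_left
        exact this
      rw [← hcop]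
      exact Nat.dvd_gcd h6 h7
    exact hκ1 (orderOf_eq_one_iff.mp (Nat.dvd_one.mp h8))
  have hk0 : (k : F) ≠ 0 := k.ne_zero
  have hk2 : 1 + (k : F) ≠ 0 := by
    intro h
    exact hk1 (Units.ext (by rw [Units.val_one]; linear_combination h - htwo))
  have hk3 : 1 + (k : F) * th m (k : F) ≠ 0 := by
    intro h
    have h1 : (k : F) * th m (k : F) = 1 := by linear_combination h - htwo
    exact hk1 (Units.ext (k_eq_one hF h1))
  -- conjugate `t(a,b) d(k)` to `d(k)`
  obtain ⟨x, y, hxy⟩ : ∃ x y : F, tG (m := m) hF a b * dG hF k * tG hF x y = tG hF x y * dG hF k := by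
    refine ⟨a / (1 + k), (b + th m a * (k * (a / (1 + k)))) / (1 + k * th m (k : F)), ?_⟩
    rw [mul_assoc, D_T, ← mul_assoc, tG_mul]
    congr 2
    · field_simp
      linear_combination (a * k) * htwo
    · field_simp
      linear_combination (((1 + (k : F)) * b + th m a * (k : F) * a) * (k : F) * th m (k : F)) * htwo
  set g₂ := (tG (m := m) hF x y)⁻¹ with hg₂
  set φ₂ := MulAut.conj g₂ * φ₁ with hφ₂
  have h2t : ∀ t ∈ TT (m := m) hF, φ₂ t ∈ TT (m := m) hF := by
    intro t ht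
    change g₂ * φ₁ t * g₂⁻¹ ∈ _
    have h3 : tG (m := m) hF x y ∈ TT (m := m) hF := ⟨x, y, rfl⟩
    exact mul_mem (mul_mem (inv_mem h3) (hg₁ t ht)) (inv_mem (inv_mem h3))
  have h2d : φ₂ (dG hF κ) = dG hF k := by
    change g₂ * φ₁ (dG hF κ) * g₂⁻¹ = _
    rw [hk', hg₂, inv_inv, mul_assoc, hxy, inv_mul_cancel_left]
  have h2τ : ∀ l : Fˣ, ∃ l' : Fˣ, φ₂ (dG hF l) = dG hF l' := by
    intro l
    obtain ⟨i, rfl⟩ := hκ l
    exact ⟨k ^ i, by
      change φ₂ (dG hF (κ ^ i)) = _
      rw [map_zpow, map_zpow, h2d, ← map_zpow]⟩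
  choose τ hτ using h2τ
  -- step C
  have h2α : ∀ a : F, ∃ a' c' : F, φ₂ (tG hF a 0) = tG hF a' c' := fun a => h2t _ ⟨a, 0, rfl⟩
  choose α γ hαγ using h2α
  have h2β : ∀ b : F, ∃ b' : F, φ₂ (tG hF 0 b) = tG hF 0 b' := by
    intro b
    obtain ⟨a', c', h⟩ := h2t _ ⟨0, b, rfl⟩
    refine ⟨c', ?_⟩
    have h1 := congrArg φ₂ (tG_sq (m := m) hF 0 b)
    rw [map_pow, h, tG_sq, th_zero, mul_zero, tG_one, map_one, ← tG_one hF] at h1
    have h3 := (tG_inj hF h1).2
    have h4 : a' = 0 := by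
      rcases mul_eq_zero.mp h3 with h5 | h5
      · exact th_eq_zero.mp h5
      · exact h5
    rw [h, h4]
  choose β hβ using h2β
  have hαadd : ∀ a c, α (a + c) = α a + α c := by
    intro a c
    have h1 : tG (m := m) hF a 0 * tG hF c 0 = tG hF (a + c) 0 * tG hF 0 (th m a * c) := by
      rw [tG_mul, hTT']
      congr 1; ring
    have h2 := congrArg φ₂ h1
    rw [map_mul, map_mul, hαγ, hαγ, hαγ, hβ, tG_mul, hTT'] at h2
    exact ((tG_inj hF h2).1).symm
  have hαmul : ∀ (k : Fˣ) (a : F), α (k * a) = τ k * α a := by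
    intro k a
    have h1 := conj_T (m := m) hF k a 0
    rw [mul_zero] at h1
    have h2 := congrArg φ₂ h1
    rw [map_mul, map_mul, map_inv, hτ, hαγ, hαγ, conj_T] at h2
    exact ((tG_inj hF h2).1).symm
  have hα0 : α 0 = 0 := by
    have := hαadd 0 0
    rw [add_zero] at this
    exact left_eq_add.mp this
  have hα1 : α 1 ≠ 0 := by
    intro h
    have h1 := congrArg φ₂ (tG_sq (m := m) hF 1 0)
    rw [map_pow, hαγ, tG_sq, h, th_zero, mul_zero, tG_one] at h1
    have h2 := (MulEquiv.map_eq_one_iff φ₂).mp h1.symm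
    rw [← tG_one hF, th_one, mul_one] at h2
    exact one_ne_zero (tG_inj hF h2).2
  have hα : ∀ a, α a = 0 → a = 0 := by
    intro a ha
    by_contra hne
    have := hαmul (Units.mk0 a hne) 1
    rw [Units.val_mk0, mul_one, ha] at this
    exact (mul_ne_zero (τ _).ne_zero hα1) this.symm
  -- the field automorphism
  let u := α 1
  have hu : u ≠ 0 := hα1
  let f₀ : F →+* F :=
    { toFun := fun a => u⁻¹ * α a
      map_one' := inv_mul_cancel₀ hα1
      map_zero' := by rw [hα0, mul_zero]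
      map_add' := fun a c => by rw [hαadd, mul_add]
      map_mul' := fun a c => by
        by_cases ha : a = 0
        · rw [ha, zero_mul, hα0, mul_zero, zero_mul]
        · have h1 := hαmul (Units.mk0 a ha) c
          have h2 := hαmul (Units.mk0 a ha) 1
          rw [Units.val_mk0] at h1 h2
          rw [mul_one] at h2
          have h3 : (τ (Units.mk0 a ha) : F) = u⁻¹ * α a := by
            rw [h2, mul_comm u⁻¹]
            exact (mul_inv_cancel_right₀ hu _).symm
          rw [h1, h3]; ring }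
  let f : F ≃+* F := RingEquiv.ofBijective f₀ (Finite.injective_iff_bijective.mp f₀.injective)
  have hf : ∀ a, f a = u⁻¹ * α a := fun a => rfl
  have hfτ : ∀ l : Fˣ, f (l : F) = τ l := by
    intro l
    have h2 := hαmul l 1
    rw [mul_one] at h2
    rw [hf, h2, mul_comm u⁻¹]
    exact mul_inv_cancel_right₀ hu _
  set g₃ := dG (m := m) hF (Units.mk0 u⁻¹ (inv_ne_zero hu)) with hg₃
  set φ₃ := MulAut.conj g₃ * φ₂ with hφ₃
  have h3a : ∀ a, φ₃ (tG hF a 0) = tG hF (f a) (u⁻¹ * th m u⁻¹ * γ a) := by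
    intro a
    change g₃ * φ₂ (tG hF a 0) * g₃⁻¹ = _
    rw [hαγ, hg₃, conj_T, Units.val_mk0, hf]
  have h3b : ∀ b, φ₃ (tG hF 0 b) = tG hF 0 (u⁻¹ * th m u⁻¹ * β b) := by
    intro b
    change g₃ * φ₂ (tG hF 0 b) * g₃⁻¹ = _
    rw [hβ, hg₃, conj_T, Units.val_mk0, mul_zero]
  have h3d : ∀ l, φ₃ (dG hF l) = dG hF (Units.map (f : F →* F) l) := by
    intro l
    change g₃ * φ₂ (dG hF l) * g₃⁻¹ = _
    rw [hτ, hg₃, ← map_inv, ← map_mul, ← map_mul, mul_inv_cancel_comm]
    congr 1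
    apply Units.ext
    exact (hfτ l).symm
  have h5 : (fieldAut hF hm f)⁻¹ * φ₃ = 1 := by
    apply eq_one hF hm (γ := fun a => f.symm (u⁻¹ * th m u⁻¹ * γ a))
      (β := fun b => f.symm (u⁻¹ * th m u⁻¹ * β b))
    · intro a
      rw [MulAut.mul_apply, h3a, MulAut.inv_apply, MulEquiv.symm_apply_eq, fieldAut_t, f.apply_symm_apply]
    · intro b
      rw [MulAut.mul_apply, h3b, MulAut.inv_apply, MulEquiv.symm_apply_eq, fieldAut_t, map_zero,
        f.apply_symm_apply]
    · intro l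
      rw [MulAut.mul_apply, h3d, MulAut.inv_apply, MulEquiv.symm_apply_eq, fieldAut_d]
  refine ⟨g₃ * g₂ * g₁, f, ?_⟩
  rw [map_mul, map_mul, mul_assoc, mul_assoc, ← hφ₁, ← hφ₂, ← hφ₃]
  exact (inv_mul_eq_one.mp h5).symm

/-- inner field automorphisms are trivial -/
theorem eq_refl_of_inner (hm : 1 ≤ m) {f : F ≃+* F} {g : Cfsg.Sz F m} (h : fieldAut hF hm f = MulAut.conj g) :
    f = RingEquiv.refl F := by
  have h1 : g * tG hF 0 1 = tG hF 0 1 * g := by
    have := DFunLike.congr_fun h (tG hF 0 1)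
    rw [fieldAut_t, map_zero, map_one, MulAut.conj_apply] at this
    exact (eq_mul_inv_iff_mul_eq.mp this).symm
  have hne : tG hF 0 1 ≠ (1 : Cfsg.Sz F m) := by
    intro h
    rw [← tG_one hF] at h
    exact one_ne_zero (tG_inj hF h).2
  obtain ⟨x, y, hg⟩ := mem_TT_of_commute hm hF hne h1
  have h2 : g * wG hF = wG hF * g := by
    have := DFunLike.congr_fun h (wG hF)
    rw [fieldAut_w, MulAut.conj_apply] at this
    exact (eq_mul_inv_iff_mul_eq.mp this).symm
  rw [hg] at h2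
  have h3 := congrArg (fun g : Cfsg.Sz F m => (g : SL F) • suzukiPointInfinity F) h2
  have h4 : (T m x y * W F) • suzukiPointInfinity F = (W F * T m x y) • suzukiPointInfinity F := h3
  rw [mul_smul, mul_smul, T_smul_inf, W_smul_inf (m := m), T_smul_zero hF] at h4
  obtain ⟨rfl, rfl⟩ := pnt_inj h4
  rw [hg, tG_one, map_one] at h
  ext a
  have := DFunLike.congr_fun h (tG hF a 0)
  rw [fieldAut_t] at this
  exact (tG_inj hF this).1

include hF in
theorem card_out (hm : 1 ≤ m) : Nat.card (Cfsg.Out (Cfsg.Sz F m)) = 2 * m + 1 := by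
  have : Fact (Nat.Prime 2) := ⟨Nat.prime_two⟩
  have hch := charP_two hF
  let ψ : (F ≃+* F) → Cfsg.Out (Cfsg.Sz F m) := fun f => QuotientGroup.mk (fieldAut hF hm f)
  have hmul : ∀ f g : F ≃+* F, (fieldAut hF hm f)⁻¹ * fieldAut hF hm g = fieldAut hF hm (g.trans f.symm) := by
    intro f g
    rw [inv_mul_eq_iff_eq_mul]
    ext1 x
    apply Subtype.ext
    apply Subtype.ext
    ext i j
    change g ((x : SL F) i j) = f (f.symm (g ((x : SL F) i j)))
    rw [f.apply_symm_apply]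
  have hψ : Function.Bijective ψ := by
    constructor
    · intro f g h
      have h1 := QuotientGroup.eq.mp h
      obtain ⟨x, hx⟩ := h1
      rw [hmul] at hx
      have h2 := eq_refl_of_inner hF hm hx.symm
      ext a
      have := DFunLike.congr_fun h2 a
      have h3 : f.symm (g a) = a := this
      rw [← h3, f.apply_symm_apply, h3]
    · intro q
      obtain ⟨φ, rfl⟩ := QuotientGroup.mk_surjective q
      obtain ⟨g, f, h⟩ := exists_form hF hm φ
      refine ⟨f, ?_⟩
      change QuotientGroup.mk (fieldAut hF hm f) = QuotientGroup.mk φ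
      rw [QuotientGroup.eq, ← h]
      refine ⟨φ⁻¹ g⁻¹, ?_⟩
      ext1 x
      simp [MulAut.conj_apply, MulAut.mul_apply]
  rw [← Nat.card_congr (Equiv.ofBijective ψ hψ)]
  exact H50.FieldAut.card_ringAut (p := 2) (by rw [Nat.card_eq_fintype_card, hF])

include hF in
theorem card_out_Lie (hm : 1 ≤ m) : Nat.card (Cfsg.Out ↥(Cfsg.Lie.Sz F (2 ^ (m + 1)))) = 2 * m + 1 := by
  rw [← card_out_congr (H24.SzIso.equiv hF hm), card_out hF hm]

end H40.SzAut
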