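import Cfsg.Agent.Lib.H8.SuzCent
import Cfsg.Agent.Lib.H24.SzIso
import Cfsg.Agent.Lib.H40.FieldForm
import Cfsg.Agent.Lib.H40.StemFinish

set_option autoImplicit false

open Subgroup H40.Stem H40.StemFinish
open scoped commutatorElement

universe u v

/-!
The Schur multiplier of `Sz(q)`, `q ≥ 32`.
-/

namespace H40.SzMult

open H8.SuzField H8.SuzMat H8.SuzGroup H8.SuzSylow H8.SuzCent

/-! ### commutators in central extensions -/

section comm
variable {Γ : Type v} [Group Γ]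

theorem comm_dep {G : Type u} [Group G] {σ : Γ →* G} (hc : σ.ker ≤ center Γ) {g g' h h' : Γ} (hg : σ g = σ g')
    (hh : σ h = σ h') : ⁅g, h⁆ = ⁅g', h'⁆ := by
  obtain ⟨z, hz, rfl⟩ : ∃ z ∈ σ.ker, g = g' * z :=
    ⟨g'⁻¹ * g, by rw [MonoidHom.mem_ker, map_mul, map_inv, hg, inv_mul_cancel], by group⟩
  obtain ⟨w, hw, rfl⟩ : ∃ w ∈ σ.ker, h = h' * w :=
    ⟨h'⁻¹ * h, by rw [MonoidHom.mem_ker, map_mul, map_inv, hh, inv_mul_cancel], by group⟩
  have hz' := mem_center_iff.mp (hc hz)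
  have hw' := mem_center_iff.mp (hc hw)
  rw [commutatorElement_def, commutatorElement_def]
  have e1 : (g' * z)⁻¹ = z⁻¹ * g'⁻¹ := mul_inv_rev _ _
  have e2 : (h' * w)⁻¹ = w⁻¹ * h'⁻¹ := mul_inv_rev _ _
  rw [e1, e2]
  calc g' * z * (h' * w) * (z⁻¹ * g'⁻¹) * (w⁻¹ * h'⁻¹)
      = g' * (z * (h' * w)) * z⁻¹ * g'⁻¹ * w⁻¹ * h'⁻¹ := by group
    _ = g' * ((h' * w) * z) * z⁻¹ * g'⁻¹ * w⁻¹ * h'⁻¹ := by rw [hz']
    _ = g' * h' * (w * g'⁻¹) * w⁻¹ * h'⁻¹ := by group
    _ = g' * h' * (g'⁻¹ * w) * w⁻¹ * h'⁻¹ := by rw [hw']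
    _ = g' * h' * g'⁻¹ * h'⁻¹ := by group

theorem comm_mul_left {a b c : Γ} (h : a * ⁅b, c⁆ = ⁅b, c⁆ * a) : ⁅a * b, c⁆ = ⁅b, c⁆ * ⁅a, c⁆ := by
  have e : ⁅a * b, c⁆ = a * ⁅b, c⁆ * a⁻¹ * ⁅a, c⁆ := by
    simp only [commutatorElement_def]; group
  rw [e, h]; group

theorem comm_mul_right {a b c : Γ} (h : b * ⁅a, c⁆ = ⁅a, c⁆ * b) : ⁅a, b * c⁆ = ⁅a, b⁆ * ⁅a, c⁆ := by
  have e : ⁅a, b * c⁆ = ⁅a, b⁆ * (b * ⁅a, c⁆ * b⁻¹) := by
    simp only [commutatorElement_def]; group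
  rw [e, h]; group

theorem comm_conj (d x y : Γ) : ⁅d * x * d⁻¹, d * y * d⁻¹⁆ = d * ⁅x, y⁆ * d⁻¹ := by
  simp only [commutatorElement_def]; group

end comm

variable {F : Type u} [Field F] [Fintype F] {m : ℕ} (hF : Fintype.card F = 2 ^ (2 * m + 1))
  {Γ : Type v} [Group Γ] {σ : Γ →* Cfsg.Sz F m}

theorem conj_T (k : Fˣ) (a b : F) : dG (m := m) hF k * tG hF a b * (dG hF k)⁻¹ =
    tG hF (k * a) (k * th m (k : F) * b) := by
  rw [D_T, mul_inv_cancel_right]

include hF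

theorem card_ne (hm : 1 ≤ m) : Fintype.card F ≠ 4 ∧ Fintype.card F ≠ 9 := by
  rw [hF]
  have h8 : 8 ∣ 2 ^ (2 * m + 1) := by
    have : 2 ^ 3 ∣ 2 ^ (2 * m + 1) := pow_dvd_pow 2 (by omega)
    exact this
  constructor
  · intro h; rw [h] at h8; norm_num at h8
  · intro h; rw [h] at h8; norm_num at h8

/-- lifts of elements of the centre of the Sylow subgroup commute -/
theorem step1 (hm : 1 ≤ m) (hs : Function.Surjective σ) (hc : σ.ker ≤ center Γ) {x y : Γ} {b c : F}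
    (hx : σ x = tG hF 0 b) (hy : σ y = tG hF 0 c) : x * y = y * x := by
  classical
  choose ℓ hℓ using fun s : F => hs (tG hF 0 s)
  have hTT : ∀ s t : F, (tG hF 0 s : Cfsg.Sz F m) * tG hF 0 t = tG hF 0 (s + t) := by
    intro s t
    rw [tG_mul, th_zero]
    congr 1 <;> ring
  have hker : ∀ s t, ⁅ℓ s, ℓ t⁆ ∈ σ.ker := by
    intro s t
    rw [MonoidHom.mem_ker, map_commutatorElement, hℓ, hℓ, commutatorElement_eq_one_iff_mul_comm, hTT, hTT, add_comm]
  let B : F → F → center Γ := fun s t => ⟨⁅ℓ s, ℓ t⁆, hc (hker s t)⟩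
  have hB : ∀ g h s t, σ g = tG hF 0 s → σ h = tG hF 0 t → ⁅g, h⁆ = (B s t : Γ) := by
    intro g h s t hg hh
    exact comm_dep hc (by rw [hg, hℓ]) (by rw [hh, hℓ])
  have hcomm : ∀ s t (g : Γ), g * ⁅ℓ s, ℓ t⁆ = ⁅ℓ s, ℓ t⁆ * g := fun s t g =>
    mem_center_iff.mp (hc (hker s t)) g
  have hl : ∀ s s' t, B (s + s') t = B s t * B s' t := by
    intro s s' t
    apply Subtype.ext
    change (B (s + s') t : Γ) = ⁅ℓ s, ℓ t⁆ * ⁅ℓ s', ℓ t⁆
    rw [← hB (ℓ s * ℓ s') (ℓ t) (s + s') t (by rw [map_mul, hℓ, hℓ, hTT]) (hℓ t),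
      comm_mul_left (hcomm _ _ _), hcomm]
  have hr : ∀ s t t', B s (t + t') = B s t * B s t' := by
    intro s t t'
    apply Subtype.ext
    change (B s (t + t') : Γ) = ⁅ℓ s, ℓ t⁆ * ⁅ℓ s, ℓ t'⁆
    rw [← hB (ℓ s) (ℓ t * ℓ t') s (t + t') (hℓ s) (by rw [map_mul, hℓ, hℓ, hTT]), comm_mul_right (hcomm _ _ _)]
  have ha : ∀ s, B s s = 1 := by
    intro s
    apply Subtype.ext
    change ⁅ℓ s, ℓ s⁆ = 1
    exact commutatorElement_self _
  have hinv : ∀ c s t, c ≠ 0 → B (c ^ 2 * s) (c ^ 2 * t) = B s t := by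
    intro c s t hc0
    obtain ⟨k, hk0, hk⟩ := exists_norm (m := m) hF (u := c ^ 2) (pow_ne_zero 2 hc0)
    apply Subtype.ext
    obtain ⟨d, hd⟩ := hs (dG hF (Units.mk0 k hk0))
    change (B (c ^ 2 * s) (c ^ 2 * t) : Γ) = ⁅ℓ s, ℓ t⁆
    have h1 : ∀ s, σ (d * ℓ s * d⁻¹) = tG hF 0 (c ^ 2 * s) := by
      intro s
      rw [map_mul, map_mul, map_inv, hd, hℓ, conj_T, Units.val_mk0, hk, mul_zero]
    rw [← hB (d * ℓ s * d⁻¹) (d * ℓ t * d⁻¹) (c ^ 2 * s) (c ^ 2 * t) (h1 s) (h1 t), comm_conj, hcomm,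
      mul_assoc, mul_inv_cancel, mul_one]
  letI : CommGroup (center Γ) := { (inferInstance : Group (center Γ)) with
    mul_comm := fun a b => Subtype.ext (mem_center_iff.mp b.2 a.1) }
  have hB1 := H40.FieldForm.form_trivial B hl hr ha hinv (card_ne hF hm).1 (card_ne hF hm).2
  rw [← commutatorElement_eq_one_iff_mul_comm, hB x y b c hx hy, hB1]
  rfl

/-- the polynomial inequality -/
theorem exists_good (hm : 2 ≤ m) : ∃ k : F, k ≠ 0 ∧ k + 1 ≠ 0 ∧
    ((k * th m k)⁻¹ + 1) - ((k + 1) * th m (k + 1))⁻¹ ≠ 0 := by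
  classical
  have hch := charP_two hF
  have h2 := two_eq_zero hF
  -- the polynomial
  let θ := 2 ^ (m + 1)
  let f : Polynomial F := 1 + (Polynomial.X + (Polynomial.X ^ θ + (Polynomial.X ^ (1 + θ) +
    (Polynomial.X ^ (2 + θ) + (Polynomial.X ^ (1 + 2 * θ) + Polynomial.X ^ (2 + 2 * θ))))))
  have hθ : 0 < θ := by positivity
  have hf0 : f ≠ 0 := by
    intro h
    have h1 := congrArg (Polynomial.eval 0) h
    simp only [f, Polynomial.eval_add, Polynomial.eval_one, Polynomial.eval_X, Polynomial.eval_pow,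
      Polynomial.eval_zero] at h1
    rw [zero_pow hθ.ne', zero_pow (by omega), zero_pow (by omega), zero_pow (by omega), zero_pow (by omega)] at h1
    simp at h1
  have hdeg : f.natDegree ≤ 2 + 2 * θ := by
    simp only [f]
    compute_degree
    all_goals omega
  have hroots : f.roots.toFinset.card ≤ 2 + 2 * θ :=
    (Multiset.toFinset_card_le _).trans ((Polynomial.card_roots' f).trans hdeg)
  -- counting
  have hcount : (f.roots.toFinset ∪ {0, 1}).card < Fintype.card F := by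
    have h3 : (f.roots.toFinset ∪ {0, 1}).card ≤ 2 + 2 * θ + 2 :=
      (Finset.card_union_le _ _).trans (Nat.add_le_add hroots Finset.card_le_two)
    have h4 : 2 * 2 ^ (m + 1) + 4 < 2 ^ (2 * m + 1) := by
      obtain ⟨j, rfl⟩ := Nat.exists_eq_add_of_le hm
      have e1 : 2 ^ (2 + j + 1) = 8 * 2 ^ j := by rw [show 2 + j + 1 = j + 3 by ring, pow_add]; ring
      have e2 : 2 ^ (2 * (2 + j) + 1) = 32 * (2 ^ j * 2 ^ j) := by
        rw [show 2 * (2 + j) + 1 = j + j + 5 by ring, pow_add, pow_add]; ring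
      rw [e1, e2]
      have h5 : 1 ≤ 2 ^ j := Nat.one_le_two_pow
      nlinarith
    rw [hF]
    calc _ ≤ 2 + 2 * θ + 2 := h3
      _ = 2 * 2 ^ (m + 1) + 4 := by simp only [θ]; ring
      _ < _ := h4
  obtain ⟨k, hk⟩ : ∃ k : F, k ∉ f.roots.toFinset ∪ {0, 1} := by
    by_contra hcon
    push Not at hcon
    have : (Finset.univ : Finset F) ⊆ f.roots.toFinset ∪ {0, 1} := fun a _ => hcon a
    have := Finset.card_le_card this
    rw [Finset.card_univ] at this
    omega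
  simp only [Finset.mem_union, Multiset.mem_toFinset, Finset.mem_insert, Finset.mem_singleton, not_or] at hk
  obtain ⟨hk1, hk0, hk2⟩ := hk
  have hk2' : k + 1 ≠ 0 := by
    intro h
    apply hk2
    have : k + 1 + 1 = 1 := by rw [h, zero_add]
    rw [add_assoc, one_add_one_eq_two, h2, add_zero] at this
    exact this
  refine ⟨k, hk0, hk2', fun h => hk1 ?_⟩
  rw [Polynomial.mem_roots hf0, Polynomial.IsRoot.def]
  simp only [f, Polynomial.eval_add, Polynomial.eval_one, Polynomial.eval_X, Polynomial.eval_pow]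
  have hth : th m k ≠ 0 := fun h => hk0 (th_eq_zero.mp h)
  have hth1 : th m (k + 1) = th m k + 1 := by rw [th_add hF, th_one]
  have hth1' : th m k + 1 ≠ 0 := by rw [← hth1]; exact fun h => hk2' (th_eq_zero.mp h)
  rw [hth1] at h
  have h5 : (1 + k * th m k) * ((k + 1) * (th m k + 1)) = k * th m k := by
    field_simp at h
    linear_combination h
  have e1 : k ^ θ = th m k := rfl
  have e2 : k ^ (1 + θ) = k * th m k := by rw [pow_add, pow_one, e1]
  have e3 : k ^ (2 + θ) = k ^ 2 * th m k := by rw [pow_add, e1]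
  have e4 : k ^ (1 + 2 * θ) = k * th m k ^ 2 := by rw [pow_add, pow_one, mul_comm 2 θ, pow_mul, e1]
  have e5 : k ^ (2 + 2 * θ) = k ^ 2 * th m k ^ 2 := by rw [pow_add, mul_comm 2 θ, pow_mul, e1]
  rw [e1, e2, e3, e4, e5]
  linear_combination h5 - (k * th m k) * h2 + (k * th m k) * h2

/-- the preimage of the centre of the Sylow subgroup is central in the preimage of the Sylow subgroup -/
theorem step2 (hm : 2 ≤ m) (hs : Function.Surjective σ) (hc : σ.ker ≤ center Γ) {x y : Γ} {a a' b : F}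
    (hx : σ x = tG hF a a') (hy : σ y = tG hF 0 b) : x * y = y * x := by
  classical
  have hch := charP_two hF
  choose ℓ hℓ using fun s : F => hs (tG hF 0 s)
  choose r hr using fun s : F => hs (tG hF s 0)
  have hTT : ∀ s t : F, (tG hF 0 s : Cfsg.Sz F m) * tG hF 0 t = tG hF 0 (s + t) := by
    intro s t
    rw [tG_mul, th_zero]
    congr 1 <;> ring
  have hTT' : ∀ a s t : F, (tG hF a s : Cfsg.Sz F m) * tG hF 0 t = tG hF a (s + t) := by
    intro a s t
    rw [tG_mul]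
    congr 1 <;> ring
  have hTT'' : ∀ a s t : F, (tG hF 0 t : Cfsg.Sz F m) * tG hF a s = tG hF a (s + t) := by
    intro a s t
    rw [tG_mul, th_zero]
    congr 1 <;> ring
  have hker : ∀ g h a a' b, σ g = tG hF a a' → σ h = tG hF 0 b → ⁅g, h⁆ ∈ σ.ker := by
    intro g h a a' b hg hh
    rw [MonoidHom.mem_ker, map_commutatorElement, hg, hh, commutatorElement_eq_one_iff_mul_comm, hTT', hTT'']
  let B : F → F → center Γ := fun s t => ⟨⁅r s, ℓ t⁆, hc (hker _ _ _ _ _ (hr s) (hℓ t))⟩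
  have hcen : ∀ g h a a' b, σ g = tG hF a a' → σ h = tG hF 0 b → ∀ x : Γ, x * ⁅g, h⁆ = ⁅g, h⁆ * x :=
    fun g h a a' b hg hh x => mem_center_iff.mp (hc (hker g h a a' b hg hh)) x
  have hB : ∀ g h s s' t, σ g = tG hF s s' → σ h = tG hF 0 t → ⁅g, h⁆ = (B s t : Γ) := by
    intro g h s s' t hg hh
    have h1 : ⁅g, h⁆ = ⁅r s * ℓ s', ℓ t⁆ :=
      comm_dep hc (by rw [map_mul, hr, hℓ, hTT', zero_add, hg]) (by rw [hh, hℓ])
    rw [h1, comm_mul_left (hcen _ _ _ _ _ (hℓ s') (hℓ t) _),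
      commutatorElement_eq_one_iff_mul_comm.mpr (step1 hF (by omega) hs hc (hℓ s') (hℓ t)), one_mul]
  have hl : ∀ s s' t, B (s + s') t = B s t * B s' t := by
    intro s s' t
    apply Subtype.ext
    change (B (s + s') t : Γ) = ⁅r s, ℓ t⁆ * ⁅r s', ℓ t⁆
    rw [← hB (r s * r s') (ℓ t) (s + s') (0 + 0 + th m s * s') t (by rw [map_mul, hr, hr, tG_mul]) (hℓ t),
      comm_mul_left (hcen _ _ _ _ _ (hr s') (hℓ t) _), hcen _ _ _ _ _ (hr s) (hℓ t)]
  have hrr : ∀ s t t', B s (t + t') = B s t * B s t' := by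
    intro s t t'
    apply Subtype.ext
    change (B s (t + t') : Γ) = ⁅r s, ℓ t⁆ * ⁅r s, ℓ t'⁆
    rw [← hB (r s) (ℓ t * ℓ t') s 0 (t + t') (hr s) (by rw [map_mul, hℓ, hℓ, hTT]),
      comm_mul_right (hcen _ _ _ _ _ (hr s) (hℓ t') _)]
  have hinv : ∀ (k : F) (s t : F), k ≠ 0 → B (k * s) (k * th m k * t) = B s t := by
    intro k s t hk0
    apply Subtype.ext
    obtain ⟨d, hd⟩ := hs (dG hF (Units.mk0 k hk0))
    change (B (k * s) (k * th m k * t) : Γ) = ⁅r s, ℓ t⁆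
    rw [← hB (d * r s * d⁻¹) (d * ℓ t * d⁻¹) (k * s) (k * th m k * 0) (k * th m k * t) (by
      rw [map_mul, map_mul, map_inv, hd, hr, conj_T, Units.val_mk0]) (by
      rw [map_mul, map_mul, map_inv, hd, hℓ, conj_T, Units.val_mk0, mul_zero]), comm_conj,
      hcen _ _ _ _ _ (hr s) (hℓ t), mul_assoc, mul_inv_cancel, mul_one]
  -- all values are trivial
  obtain ⟨k, hk0, hk1, hg⟩ := exists_good hF hm
  have hshift : ∀ (c : F) (s t : F), c ≠ 0 → B (c * s) t = B s ((c * th m c)⁻¹ * t) := by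
    intro c s t hc0
    have hth : th m c ≠ 0 := fun h => hc0 (th_eq_zero.mp h)
    have := hinv c s ((c * th m c)⁻¹ * t) hc0
    rw [mul_inv_cancel_left₀ (mul_ne_zero hc0 hth)] at this
    exact this
  have h0 : ∀ s, B s 0 = 1 := by
    intro s
    have := hrr s 0 0
    rw [add_zero] at this
    exact left_eq_mul.mp this
  have hkey : ∀ s t : F, B s (((k * th m k)⁻¹ + 1 - ((k + 1) * th m (k + 1))⁻¹) * t) = 1 := by
    intro s t
    have e1 : B ((k + 1) * s) t = B s ((k * th m k)⁻¹ * t) * B s t := by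
      rw [add_mul, one_mul, hl, hshift k s t hk0]
    have e2 := hshift (k + 1) s t hk1
    rw [e2] at e1
    have e3 : B s (((k * th m k)⁻¹ + 1 - ((k + 1) * th m (k + 1))⁻¹) * t) * B s (((k + 1) * th m (k + 1))⁻¹ * t) =
        B s ((k * th m k)⁻¹ * t) * B s t := by
      rw [← hrr, ← hrr]
      congr 1
      ring
    rw [← e1] at e3
    exact mul_eq_right.mp e3
  have hB1 : ∀ s t, B s t = 1 := by
    intro s t
    have := hkey s (((k * th m k)⁻¹ + 1 - ((k + 1) * th m (k + 1))⁻¹)⁻¹ * t)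
    rwa [mul_inv_cancel_left₀ hg] at this
  rw [← commutatorElement_eq_one_iff_mul_comm, hB x y a a' b hx hy, hB1]
  rfl

/-- the commutator subgroup of the preimage of the Sylow subgroup meets the kernel trivially -/
theorem step5 (hm : 2 ≤ m) (hs : Function.Surjective σ) (hc : σ.ker ≤ center Γ) {z : Γ} (hz : z ∈ σ.ker)
    (hz' : z ∈ ⁅(TT (m := m) hF).comap σ, (TT (m := m) hF).comap σ⁆) : z = 1 := by
  classical
  have hch := charP_two hF
  have htwo := two_eq_zero hF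
  obtain ⟨t₀, ht₀⟩ := exists_th_ne (m := m) (by omega) hF
  -- a torus element acting non-trivially
  obtain ⟨k₀, hk₀, hlm0⟩ : ∃ k : F, k ≠ 0 ∧ k * th m k + 1 ≠ 0 := by
    obtain ⟨k, hk⟩ := exists_k (F := F) (m := m) (by omega) hF
    refine ⟨k, k.ne_zero, fun h => hk ?_⟩
    have h1 : (k : F) * th m (k : F) = 1 := by
      have : (k : F) * th m (k : F) + 1 + 1 = 1 := by rw [h, zero_add]
      rwa [add_assoc, one_add_one_eq_two, htwo, add_zero] at this
    have := k_eq_one hF h1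
    exact Units.ext this
  set lam := k₀ * th m k₀ + 1 with hlam
  have hTT : ∀ s t : F, (tG hF 0 s : Cfsg.Sz F m) * tG hF 0 t = tG hF 0 (s + t) := by
    intro s t
    rw [tG_mul, th_zero]
    congr 1 <;> ring
  obtain ⟨d₀, hd₀⟩ := hs (dG hF (Units.mk0 k₀ hk₀))
  choose ℓ hℓ using fun s : F => hs (tG hF 0 s)
  choose r hr using fun s : F => hs (tG hF s 0)
  have hinv0 : ∀ b : F, (tG hF 0 b : Cfsg.Sz F m)⁻¹ = tG hF 0 b := by
    intro b
    rw [inv_eq_iff_mul_eq_one, hTT, CharTwo.add_self_eq_zero, tG_one]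
  -- canonical lifts
  let s : F → Γ := fun b => ⁅d₀, ℓ (lam⁻¹ * b)⁆
  have hs1 : ∀ (d e : Γ) (b : F), σ d = dG hF (Units.mk0 k₀ hk₀) → σ e = tG hF 0 (lam⁻¹ * b) → ⁅d, e⁆ = s b := by
    intro d e b hd he
    exact comm_dep hc (by rw [hd, hd₀]) (by rw [he, hℓ])
  have hsσ : ∀ b, σ (s b) = tG hF 0 b := by
    intro b
    change σ ⁅d₀, ℓ (lam⁻¹ * b)⁆ = _
    rw [map_commutatorElement, commutatorElement_def, hd₀, hℓ, conj_T, Units.val_mk0, hinv0, mul_zero, hTT]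
    congr 1
    have : k₀ * th m k₀ * (lam⁻¹ * b) + lam⁻¹ * b = lam * lam⁻¹ * b := by rw [hlam]; ring
    rw [this, mul_inv_cancel₀ hlm0, one_mul]
  have hs_add : ∀ b b', s (b + b') = s b * s b' := by
    intro b b'
    rw [← hs1 d₀ (ℓ (lam⁻¹ * b) * ℓ (lam⁻¹ * b')) (b + b') hd₀ (by rw [map_mul, hℓ, hℓ, hTT, mul_add]),
      comm_mul_right]
    exact step1 hF (by omega) hs hc (hℓ _) (hsσ b')
  have hs_conj : ∀ (x : Γ) (k : F) (hk : k ≠ 0) (b : F), σ x = dG hF (Units.mk0 k hk) →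
      x * s b * x⁻¹ = s (k * th m k * b) := by
    intro x k hk b hx
    change x * ⁅d₀, ℓ (lam⁻¹ * b)⁆ * x⁻¹ = _
    rw [← comm_conj]
    apply hs1
    · rw [map_mul, map_mul, map_inv, hx, hd₀, ← map_mul, mul_comm (Units.mk0 k hk), map_mul, mul_inv_cancel_right]
    · rw [map_mul, map_mul, map_inv, hx, hℓ, conj_T, Units.val_mk0, mul_zero]
      congr 1
      ring
  have hs0 : s 0 = 1 := by
    have := hs_add 0 0
    rw [add_zero] at this
    exact left_eq_mul.mp this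
  have hs_comm : ∀ (b : F) (x : Γ) (a a' : F), σ x = tG hF a a' → x * s b = s b * x :=
    fun b x a a' hx => step2 hF hm hs hc hx (hsσ b)
  -- the commutator of lifts
  have hTT' : ∀ a s t : F, (tG hF a s : Cfsg.Sz F m) * tG hF 0 t = tG hF a (s + t) := by
    intro a s t
    rw [tG_mul]
    congr 1 <;> ring
  have hκ : ∀ (x y : Γ) (a a' c c' : F), σ x = tG hF a a' → σ y = tG hF c c' → ⁅x, y⁆ = ⁅r a, r c⁆ := by
    intro x y a a' c c' hx hy
    have h1 : ⁅x, y⁆ = ⁅r a * ℓ a', r c * ℓ c'⁆ :=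
      comm_dep hc (by rw [map_mul, hr, hℓ, hTT', zero_add, hx]) (by rw [map_mul, hr, hℓ, hTT', zero_add, hy])
    have h2 : ⁅ℓ a', r c * ℓ c'⁆ = 1 := by
      rw [commutatorElement_eq_one_iff_mul_comm]
      exact (step2 hF hm hs hc (by rw [map_mul, hr, hℓ, hTT']) (hℓ a')).symm
    have h3 : ⁅r a, ℓ c'⁆ = 1 := by
      rw [commutatorElement_eq_one_iff_mul_comm]
      exact step2 hF hm hs hc (hr a) (hℓ c')
    rw [h1, comm_mul_left (by rw [h2]; group), h2, one_mul, comm_mul_right (by rw [h3]; group), h3, mul_one]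
  have hT0 : ∀ a b : F, (tG hF a b : Cfsg.Sz F m)⁻¹ = tG hF a (b + th m a * a) := by
    intro a b
    apply Subtype.ext
    exact T_inv hF a b
  have hcomT : ∀ a c : F, ⁅(tG hF a 0 : Cfsg.Sz F m), tG hF c 0⁆ = tG hF 0 (th m a * c + th m c * a) := by
    intro a c
    rw [commutatorElement_def, hT0, hT0, tG_mul, tG_mul, tG_mul]
    congr 1
    · linear_combination (a + c) * htwo
    · simp only [th_add hF]
      linear_combination (th m a * a + th m c * c + th m a * c) * htwo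
  have hκσ : ∀ a c : F, σ ⁅r a, r c⁆ = tG hF 0 (th m a * c + th m c * a) := by
    intro a c
    rw [map_commutatorElement, hr, hr, hcomT]
  have hκl : ∀ a a' c : F, ⁅r (a + a'), r c⁆ = ⁅r a', r c⁆ * ⁅r a, r c⁆ := by
    intro a a' c
    rw [← hκ (r a * r a') (r c) (a + a') (0 + 0 + th m a * a') c 0 (by rw [map_mul, hr, hr, tG_mul]) (hr c),
      comm_mul_left]
    exact step2 hF hm hs hc (hr a) (hκσ a' c)
  have hκr : ∀ a c c' : F, ⁅r a, r (c + c')⁆ = ⁅r a, r c⁆ * ⁅r a, r c'⁆ := by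
    intro a c c'
    rw [← hκ (r a) (r c * r c') a 0 (c + c') (0 + 0 + th m c * c') (hr a) (by rw [map_mul, hr, hr, tG_mul]),
      comm_mul_right]
    exact step2 hF hm hs hc (hr c) (hκσ a c')
  have hζker : ∀ a c : F, ⁅r a, r c⁆ * (s (th m a * c + th m c * a))⁻¹ ∈ σ.ker := by
    intro a c
    rw [MonoidHom.mem_ker, map_mul, map_inv, hκσ, hsσ, mul_inv_cancel]
  have hcomm : ∀ a c (g : Γ), g * (⁅r a, r c⁆ * (s (th m a * c + th m c * a))⁻¹) =
      (⁅r a, r c⁆ * (s (th m a * c + th m c * a))⁻¹) * g := fun a c g =>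
    mem_center_iff.mp (hc (hζker a c)) g
  let B : F → F → center Γ := fun a c => ⟨⁅r a, r c⁆ * (s (th m a * c + th m c * a))⁻¹, hc (hζker a c)⟩
  -- elements of the preimage of the centre commute with everything relevant
  have hE : ∀ (x y : Γ) (a a' b : F), σ x = tG hF a a' → σ y = tG hF 0 b → x * y = y * x :=
    fun x y a a' b hx hy => step2 hF hm hs hc hx hy
  have hl : ∀ a a' c, B (a + a') c = B a c * B a' c := by
    intro a a' c
    apply Subtype.ext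
    change ⁅r (a + a'), r c⁆ * (s (th m (a + a') * c + th m c * (a + a')))⁻¹ =
      (⁅r a, r c⁆ * (s (th m a * c + th m c * a))⁻¹) * (⁅r a', r c⁆ * (s (th m a' * c + th m c * a'))⁻¹)
    have e : th m (a + a') * c + th m c * (a + a') =
        (th m a' * c + th m c * a') + (th m a * c + th m c * a) := by rw [th_add hF]; ring
    rw [hκl, e, hs_add, mul_inv_rev]
    have h1 := hE ⁅r a', r c⁆ (⁅r a, r c⁆ * (s (th m a * c + th m c * a))⁻¹) _ _ 0 (hκσ a' c)
      (by rw [tG_one]; exact hζker a c)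
    calc ⁅r a', r c⁆ * ⁅r a, r c⁆ * ((s (th m a * c + th m c * a))⁻¹ * (s (th m a' * c + th m c * a'))⁻¹)
        = ⁅r a', r c⁆ * (⁅r a, r c⁆ * (s (th m a * c + th m c * a))⁻¹) * (s (th m a' * c + th m c * a'))⁻¹ := by
          group
      _ = (⁅r a, r c⁆ * (s (th m a * c + th m c * a))⁻¹) * ⁅r a', r c⁆ * (s (th m a' * c + th m c * a'))⁻¹ := by
          rw [h1]
      _ = _ := by group
  have hrr : ∀ a c c', B a (c + c') = B a c * B a c' := by
    intro a c c'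
    apply Subtype.ext
    change ⁅r a, r (c + c')⁆ * (s (th m a * (c + c') + th m (c + c') * a))⁻¹ =
      (⁅r a, r c⁆ * (s (th m a * c + th m c * a))⁻¹) * (⁅r a, r c'⁆ * (s (th m a * c' + th m c' * a))⁻¹)
    have e : th m a * (c + c') + th m (c + c') * a =
        (th m a * c + th m c * a) + (th m a * c' + th m c' * a) := by rw [th_add hF]; ring
    rw [hκr, e, hs_add, mul_inv_rev]
    have h1 := hcomm a c' (s (th m a * c + th m c * a))⁻¹
    calc ⁅r a, r c⁆ * ⁅r a, r c'⁆ * ((s (th m a * c' + th m c' * a))⁻¹ * (s (th m a * c + th m c * a))⁻¹)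
        = ⁅r a, r c⁆ * ((⁅r a, r c'⁆ * (s (th m a * c' + th m c' * a))⁻¹) * (s (th m a * c + th m c * a))⁻¹) := by
          group
      _ = _ := by rw [← h1]; group
  have ha : ∀ a, B a a = 1 := by
    intro a
    apply Subtype.ext
    change ⁅r a, r a⁆ * (s (th m a * a + th m a * a))⁻¹ = 1
    rw [commutatorElement_self, CharTwo.add_self_eq_zero, hs0]
    group
  have hinv : ∀ c a a', c ≠ 0 → B (c ^ 2 * a) (c ^ 2 * a') = B a a' := by
    intro c a a' hc0
    have hk0 : c ^ 2 ≠ 0 := pow_ne_zero 2 hc0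
    apply Subtype.ext
    obtain ⟨d, hd⟩ := hs (dG hF (Units.mk0 (c ^ 2) hk0))
    change ⁅r (c ^ 2 * a), r (c ^ 2 * a')⁆ * (s (th m (c ^ 2 * a) * (c ^ 2 * a') + th m (c ^ 2 * a') * (c ^ 2 * a)))⁻¹ =
      ⁅r a, r a'⁆ * (s (th m a * a' + th m a' * a))⁻¹
    have e : th m (c ^ 2 * a) * (c ^ 2 * a') + th m (c ^ 2 * a') * (c ^ 2 * a) =
        c ^ 2 * th m (c ^ 2) * (th m a * a' + th m a' * a) := by
      rw [th_mul, th_mul]; ring
    rw [e, ← hs_conj d (c ^ 2) hk0 _ hd,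
      ← hκ (d * r a * d⁻¹) (d * r a' * d⁻¹) (c ^ 2 * a) (c ^ 2 * th m (c ^ 2) * 0) (c ^ 2 * a')
        (c ^ 2 * th m (c ^ 2) * 0) (by rw [map_mul, map_mul, map_inv, hd, hr, conj_T, Units.val_mk0])
        (by rw [map_mul, map_mul, map_inv, hd, hr, conj_T, Units.val_mk0]), comm_conj]
    have h1 : d * ⁅r a, r a'⁆ * d⁻¹ * (d * s (th m a * a' + th m a' * a) * d⁻¹)⁻¹ =
        d * (⁅r a, r a'⁆ * (s (th m a * a' + th m a' * a))⁻¹) * d⁻¹ := by group
    rw [h1, hcomm, mul_inv_cancel_right]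
  letI : CommGroup (center Γ) := { (inferInstance : Group (center Γ)) with
    mul_comm := fun a b => Subtype.ext (mem_center_iff.mp b.2 a.1) }
  have hB1 := H40.FieldForm.form_trivial B hl hrr ha hinv (card_ne hF (by omega)).1 (card_ne hF (by omega)).2
  -- the subgroup of canonical lifts
  let S : Subgroup Γ :=
    { carrier := Set.range s
      one_mem' := ⟨0, hs0⟩
      mul_mem' := by
        rintro _ _ ⟨b, rfl⟩ ⟨b', rfl⟩
        exact ⟨b + b', hs_add b b'⟩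
      inv_mem' := by
        rintro _ ⟨b, rfl⟩
        refine ⟨b, ?_⟩
        rw [eq_inv_iff_mul_eq_one, ← hs_add, CharTwo.add_self_eq_zero, hs0] }
  have hle : ⁅(TT (m := m) hF).comap σ, (TT (m := m) hF).comap σ⁆ ≤ S := by
    rw [commutator_le]
    rintro x ⟨a, a', hx⟩ y ⟨c, c', hy⟩
    refine ⟨th m a * c + th m c * a, ?_⟩
    have h1 : (⁅r a, r c⁆ * (s (th m a * c + th m c * a))⁻¹ : Γ) = 1 := congrArg Subtype.val (hB1 a c)
    rw [hκ x y a a' c c' hx hy]
    exact (mul_inv_eq_one.mp h1).symm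
  obtain ⟨b, rfl⟩ := hle hz'
  have h1 : σ (s b) = 1 := hz
  rw [hsσ, ← tG_one hF] at h1
  rw [(tG_inj hF h1).2, hs0]

theorem ker_eq_one (hm : 2 ≤ m) [Finite Γ] (hσ : Cfsg.IsStemExtension σ) : ∀ z ∈ σ.ker, z = 1 := by
  classical
  intro z hz
  by_contra hne
  have hord : orderOf z ≠ 1 := fun h => hne (orderOf_eq_one_iff.mp h)
  obtain ⟨r, hr, hrz⟩ := Nat.exists_prime_and_dvd hord
  have : Fact r.Prime := ⟨hr⟩
  by_cases hr2 : r = 2
  · subst hr2
    have h1 := pow_index_mem_commutator ((TT (m := m) hF).comap σ) (hσ.2.1 hz) (hσ.2.2 hz)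
    rw [Subgroup.index_comap_of_surjective _ hσ.1] at h1
    have h2 := step5 hF hm hσ.1 hσ.2.1 (pow_mem hz _) h1
    exact odd_index (by omega) hF (hrz.trans (orderOf_dvd_of_pow_eq_one h2))
  · obtain ⟨P⟩ : Nonempty (Sylow r (Cfsg.Sz F m)) := inferInstance
    have hcyc : IsCyclic P := sylow_cyclic (by omega) hF hr2 P
    have hcy : CycMult.{u, v} (P : Subgroup (Cfsg.Sz F m)) 1 := cycMult_of_isCyclic _
    obtain ⟨w, hw, hall⟩ := exists_pow_mem hσ (P : Subgroup (Cfsg.Sz F m)) hcy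
    rw [pow_one] at hw
    have h1 := hall z hz
    rw [hw, zpowers_one_eq_bot, mem_bot] at h1
    exact P.not_dvd_index (hrz.trans (orderOf_dvd_of_pow_eq_one h1))

theorem multiplier (hm : 2 ≤ m) : Cfsg.HasCyclicSchurMultiplier ↥(Cfsg.Lie.Sz F (2 ^ (m + 1))) 1 :=
  HasSchurMultiplier.congr (H24.SzIso.equiv hF (by omega : 1 ≤ m))
    (hasCyclic_one_of_ker (G := Cfsg.Sz F m) fun _ _ _ _ hσ => ker_eq_one hF hm hσ)

end H40.SzMult
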