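import Mathlib
import Cfsg.Agent.Lib.H40.RGDAut
import Cfsg.Agent.Lib.H40.RGDSyl
import Cfsg.Agent.Lib.H40.RGDNorm

import Cfsg.Prelude.Def_KGroupFacts

/-!
Counting the outer automorphisms of a group with a root group system by normalised automorphisms.
-/
set_option autoImplicit false
set_option linter.unusedSectionVars false
set_option linter.unusedVariables false

namespace H40.TwOut

open H22.RGD H40.RGDOpp H40.RGDAut

variable {Φ I G : Type*} [Group G] {C : RootComb Φ I} (S : Sys G C) [Finite Φ]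

/-- the group of normalised automorphisms -/
def NA : Subgroup (MulAut G) where
  carrier := {θ | Norm S θ}
  one_mem' := ⟨by rw [im]; exact Subgroup.map_id _, by rw [im]; exact Subgroup.map_id _⟩
  mul_mem' {a b} ha hb := by
    have key : ∀ K : Subgroup G, im (a * b) K = im a (im b K) := fun K => by
      rw [im, im, im, Subgroup.map_map]; rfl
    exact ⟨by rw [key, hb.U, ha.U], by rw [key, hb.V, ha.V]⟩
  inv_mem' {a} ha := ha.symm

theorem mem_NA {θ : MulAut G} : θ ∈ NA S ↔ Norm S θ := Iff.rfl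

variable (hlong : ∃ w ∈ C.W, ∀ r, C.pos r → ¬ C.pos (w r)) (hΓ : S.Γ = ⊤)
  (hN : ∀ θ : G ≃* G, ∃ g, Norm S (θ.trans (MulAut.conj g))) (hZ : Subgroup.center G = ⊥)
include hlong hΓ

theorem conj_mem_iff {g : G} : MulAut.conj g ∈ NA S ↔ g ∈ S.H := by
  constructor
  · intro h
    exact mem_H_of_stab S hlong (by rw [hΓ]; trivial) h.U h.V
  · intro h
    refine ⟨?_, ?_⟩
    · exact S.H_le_stab_U h
    · exact S.H_le_stab_V h


include hN hZ in
/-- outer automorphisms and normalised automorphisms -/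
theorem card_out_mul [Finite G] : Nat.card (Cfsg.Out G) * Nat.card S.H = Nat.card (NA S) := by
  have h1 : NA S ⊔ Cfsg.Inn G = ⊤ := by
    rw [eq_top_iff]
    intro θ _
    obtain ⟨g, hg⟩ := hN θ
    have h2 : MulAut.conj g * θ ∈ NA S := hg
    have h3 : θ = (MulAut.conj g)⁻¹ * (MulAut.conj g * θ) := by group
    rw [h3]
    exact Subgroup.mul_mem _ (Subgroup.mem_sup_right (Subgroup.inv_mem _ ⟨g, rfl⟩)) (Subgroup.mem_sup_left h2)
  have h2 : (Cfsg.Inn G).relIndex (NA S) = (Cfsg.Inn G).index := by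
    rw [← Subgroup.relIndex_sup_right, h1, Subgroup.relIndex_top_right]
  have h3 : Nat.card ((Cfsg.Inn G).subgroupOf (NA S)) = Nat.card S.H := by
    symm
    refine Nat.card_congr (Equiv.ofBijective (fun h : S.H => (⟨⟨MulAut.conj (h : G), (conj_mem_iff S hlong hΓ).mpr h.2⟩,
      ⟨(h : G), rfl⟩⟩ : (Cfsg.Inn G).subgroupOf (NA S))) ⟨?_, ?_⟩)
    · intro a b hab
      have h4 : MulAut.conj (a : G) = MulAut.conj (b : G) := congrArg Subtype.val (congrArg Subtype.val hab)
      have h5 : (b : G)⁻¹ * a ∈ Subgroup.center G := by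
        rw [Subgroup.mem_center_iff]
        intro g
        have := congrArg (fun θ : MulAut G => θ g) h4
        simp only [MulAut.conj_apply] at this
        calc g * ((b : G)⁻¹ * a) = (b : G)⁻¹ * ((b : G) * g * (b : G)⁻¹) * a := by group
          _ = (b : G)⁻¹ * a * g := by rw [← this]; group
      rw [hZ, Subgroup.mem_bot, inv_mul_eq_one] at h5
      exact Subtype.ext h5.symm
    · rintro ⟨⟨θ, hθ⟩, g, hg⟩
      have hg' : MulAut.conj g = θ := hg
      subst hg'
      exact ⟨⟨g, (conj_mem_iff S hlong hΓ).mp hθ⟩, rfl⟩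
  have h4 := Subgroup.card_mul_index ((Cfsg.Inn G).subgroupOf (NA S))
  rw [h3] at h4
  have h5 : ((Cfsg.Inn G).subgroupOf (NA S)).index = Nat.card (Cfsg.Out G) := h2
  rw [← h4, h5, mul_comm]

end H40.TwOut
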