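import Mathlib
import Cfsg.Agent.Lib.H40.TwOut1
import Cfsg.Agent.Lib.H40.ChevAut2
import Cfsg.Agent.Lib.H23.SysLift2

/-!
Normalised automorphisms at a parametrised node.
-/
set_option autoImplicit false
set_option linter.unusedSectionVars false
set_option linter.unusedVariables false

namespace H40.TwOut

open H22.RGD H40.RGDOpp H40.RGDAut H23.RankOne

variable {Φ I G : Type*} [Group G] {C : RootComb Φ I} (S : Sys G C) [Finite Φ]

/-- a node with a parametrised rank one group -/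
structure Par (i : I) {K : Type*} [Field K] (x y : K → G) : Prop where
  r1 : R1 x y
  inj : Function.Injective x
  mx : ∀ g, g ∈ S.X (C.simple i) ↔ ∃ t, g = x t
  my : ∀ g, g ∈ S.X (C.neg (C.simple i)) ↔ ∃ t, g = y t

namespace Par

variable {S} {i : I} {K : Type*} [Field K] [Finite K] {x y : K → G} (P : Par S i x y)
include P

omit [Finite Φ] [Finite K] in
theorem y_inj : Function.Injective y := by
  intro s t h
  have h1 := P.r1.W2 1 one_ne_zero s
  have h2 := P.r1.W2 1 one_ne_zero t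
  rw [h, h2] at h1
  have h3 := P.inj h1
  have h4 : (-1 ^ 2 : K) ≠ 0 := by simp
  exact (mul_left_cancel₀ h4 h3).symm

omit [Finite Φ] in
theorem nn_mem {t : K} (ht : t ≠ 0) : ∃ k ∈ S.H, nn x y t = S.n i * k :=
  H23.SysLift.nn_mem P.r1 S i P.mx P.my ht

omit [Finite Φ] in
theorem hh_mem {t : K} (ht : t ≠ 0) : hh x y t ∈ S.H :=
  H23.SysLift.hh_mem_H P.r1 S i P.mx P.my ht

omit [Finite Φ] in
theorem nn_rep {t : K} (ht : t ≠ 0) : S.Rep (nn x y t) (C.refl i) := by
  obtain ⟨k, hk, e⟩ := P.nn_mem ht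
  rw [e]
  have := (S.rep_n i).mul (S.rep_H hk)
  rwa [mul_one] at this

omit [Finite Φ] [Finite K] in
theorem x_ne {t : K} (ht : t ≠ 0) : x t ≠ 1 := by
  intro h
  rw [← P.r1.x_zero] at h
  exact ht (P.inj h)

theorem eq_of_mem_N {a b : K} (hb : b ≠ 0) (h : x a * y b * x a ∈ S.N) : b = -a⁻¹ := by
  set α := C.simple i with hα
  have hb' : -b⁻¹ ≠ 0 := neg_ne_zero.2 (inv_ne_zero hb)
  set c := a + b⁻¹ with hc
  set n := nn x y (-b⁻¹) with hn
  have e2 : x a * y b * x a = x c * n * x c := by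
    have e1 : n = x (-b⁻¹) * y b * x (-b⁻¹) := by
      rw [hn, nn, inv_neg, inv_inv, neg_neg]
    rw [e1]
    have h1 : x a = x c * x (-b⁻¹) := by rw [P.r1.xadd]; congr 1; rw [hc]; ring
    have h2 : x a = x (-b⁻¹) * x c := by rw [P.r1.xadd]; congr 1; rw [hc]; ring
    calc x a * y b * x a = (x c * x (-b⁻¹)) * y b * (x (-b⁻¹) * x c) := by rw [← h1, ← h2]
      _ = _ := by simp only [mul_assoc]
  rw [e2] at h
  obtain ⟨w, hw⟩ := S.exists_rep h
  have hr := P.nn_rep hb'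
  have hxm : ∀ t, x t ∈ S.X α := fun t => (P.mx _).2 ⟨t, rfl⟩
  have hcB : x c ∈ S.B := S.U_le_B (S.X_le_U (C.simple_pos i) (hxm c))
  have h3 := S.double_coset_unique hr hw hcB hcB rfl
  subst h3
  obtain ⟨k, hk, e3⟩ := S.rep_mod_H hr hw
  have h4 : n⁻¹ * x c * n = k * (x c)⁻¹ := by
    have h5 : x c * n * x c = n * k := e3
    calc n⁻¹ * x c * n = n⁻¹ * (x c * n * x c) * (x c)⁻¹ := by simp only [mul_assoc, mul_inv_cancel, mul_one]
      _ = _ := by rw [h5]; simp only [inv_mul_cancel_left]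
  have h5 : n⁻¹ * x c * n ∈ S.B := by
    rw [h4]; exact S.B.mul_mem (S.H_le_B hk) (S.B.inv_mem hcB)
  have h6 : n⁻¹ * x c * n ∈ S.V := by
    have h7 : cj n⁻¹ (S.X α) = S.X (C.neg α) := by
      rw [hr.inv.2.2, C.refl_inv, C.refl_simple]
    apply S.X_neg_simple_le_V i
    rw [← hα, ← h7]
    have := conj_mem_cj (g := n⁻¹) (hxm c)
    simpa using this
  have h7 := S.eq_one_of_mem_B_V h5 h6
  have h8 : x c = 1 := by
    have : x c = n * (n⁻¹ * x c * n) * n⁻¹ := by group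
    rw [this, h7]; simp
  have h9 : c = 0 := by
    by_contra hne; exact P.x_ne hne h8
  have h10 : a = -b⁻¹ := by rw [hc] at h9; exact eq_neg_of_add_eq_zero_left h9
  rw [h10, inv_neg, inv_inv, neg_neg]

/-- the form of a normalised automorphism at a node -/
theorem exists_form {θ : G ≃* G} (hi : im θ (S.X (C.simple i)) = S.X (C.simple i))
    (hi' : im θ (S.X (C.neg (C.simple i))) = S.X (C.neg (C.simple i))) (hN : ∀ z ∈ S.N, θ z ∈ S.N) :
    ∃ (α : Kˣ) (φ : K ≃+* K), (∀ t, θ (x t) = x (α * φ t)) ∧ ∀ t, θ (y t) = y (((α⁻¹ : Kˣ) : K) * φ t) := by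
  have h1 : ∀ t, ∃ u, θ (x t) = x u := by
    intro t
    rw [← P.mx, ← hi, apply_mem_im]
    exact (P.mx _).2 ⟨t, rfl⟩
  have h2 : ∀ t, ∃ u, θ (y t) = y u := by
    intro t
    rw [← P.my, ← hi', apply_mem_im]
    exact (P.my _).2 ⟨t, rfl⟩
  choose f hf using h1
  choose g hg using h2
  have f_add : ∀ t u, f (t + u) = f t + f u := by
    intro t u
    apply P.inj
    rw [← hf, ← P.r1.xadd, map_mul, hf, hf, P.r1.xadd]
  have g_add : ∀ t u, g (t + u) = g t + g u := by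
    intro t u
    apply P.y_inj
    rw [← hg, ← P.r1.yadd, map_mul, hg, hg, P.r1.yadd]
  have f_inj : Function.Injective f := by
    intro t u e
    apply P.inj
    apply θ.injective
    rw [hf, hf, e]
  have g_inj : Function.Injective g := by
    intro t u e
    apply P.y_inj
    apply θ.injective
    rw [hg, hg, e]
  have f_zero : f 0 = 0 := by
    have := f_add 0 0
    rw [add_zero] at this
    exact left_eq_add.1 this
  have g_zero : g 0 = 0 := by
    have := g_add 0 0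
    rw [add_zero] at this
    exact left_eq_add.1 this
  have f_neg : ∀ t, f (-t) = - f t := fun t => by
    rw [eq_neg_iff_add_eq_zero, ← f_add, neg_add_cancel, f_zero]
  have g_neg : ∀ t, g (-t) = - g t := fun t => by
    rw [eq_neg_iff_add_eq_zero, ← g_add, neg_add_cancel, g_zero]
  have f_ne : ∀ {t}, t ≠ 0 → f t ≠ 0 := by
    intro t ht e; apply ht; apply f_inj; rw [e, f_zero]
  have g_ne : ∀ {t}, t ≠ 0 → g t ≠ 0 := by
    intro t ht e; apply ht; apply g_inj; rw [e, g_zero]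
  have g_eq : ∀ {t}, t ≠ 0 → g t⁻¹ = (f t)⁻¹ := by
    intro t ht
    have h1 := hN _ (P.nn_rep ht).1
    unfold nn at h1
    rw [map_mul, map_mul, hf, hg] at h1
    have h2 := P.eq_of_mem_N (g_ne (neg_ne_zero.2 (inv_ne_zero ht))) h1
    rw [g_neg, neg_inj] at h2
    exact h2
  have map_nn : ∀ {t}, t ≠ 0 → θ (nn x y t) = nn x y (f t) := by
    intro t ht
    unfold nn
    rw [map_mul, map_mul, hf, hg, g_neg, g_eq ht]
  have f1 : f 1 ≠ 0 := f_ne one_ne_zero
  have hsq : ∀ t, t ≠ 0 → ∀ u, f (t ^ 2 * u) * (f 1)⁻¹ = (f t * (f 1)⁻¹) ^ 2 * (f u * (f 1)⁻¹) := by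
    intro t ht u
    have e1 := congrArg θ (P.r1.h_x ht u)
    rw [map_mul, map_mul, map_inv, hf, hf] at e1
    have e2 : θ (hh x y t) = nn x y (f t) * (nn x y (f 1))⁻¹ := by
      unfold hh
      rw [map_mul, map_nn ht, map_nn (neg_ne_zero.2 one_ne_zero), f_neg, P.r1.n_inv]
    have e3 : (nn x y (f 1))⁻¹ * x (f u) * nn x y (f 1) = y (-((f 1) ^ 2)⁻¹ * f u) := by
      have := P.r1.W1 (-f 1) (neg_ne_zero.2 f1) (f u)
      rw [P.r1.n_inv, neg_neg] at this
      rw [P.r1.n_inv, this]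
      congr 2
      ring
    have e4 : θ (hh x y t) * x (f u) * (θ (hh x y t))⁻¹ = x ((f t) ^ 2 * ((f 1) ^ 2)⁻¹ * f u) := by
      rw [e2]
      have : nn x y (f t) * (nn x y (f 1))⁻¹ * x (f u) * (nn x y (f t) * (nn x y (f 1))⁻¹)⁻¹ =
          nn x y (f t) * ((nn x y (f 1))⁻¹ * x (f u) * nn x y (f 1)) * (nn x y (f t))⁻¹ := by group
      rw [this, e3, P.r1.W2 _ (f_ne ht)]
      congr 1
      ring
    rw [e4] at e1
    rw [← P.inj e1]
    field_simp
  have hmul : ∀ a b, f (a * b) * (f 1)⁻¹ = (f a * (f 1)⁻¹) * (f b * (f 1)⁻¹) := by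
    intro a b
    refine H40.ChevAut.mul_of_sq (φ := fun t => f t * (f 1)⁻¹) ?_ ?_ hsq a b
    · intro a b; rw [f_add]; ring
    · exact mul_inv_cancel₀ f1
  let φh : K →+* K :=
    { toFun := fun t => f t * (f 1)⁻¹
      map_one' := mul_inv_cancel₀ f1
      map_mul' := hmul
      map_zero' := by rw [f_zero, zero_mul]
      map_add' := fun a b => by rw [f_add]; ring }
  let φ : K ≃+* K := RingEquiv.ofBijective φh (Finite.injective_iff_bijective.1 φh.injective)
  have hφ : ∀ t, f t = f 1 * φ t := by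
    intro t
    change f t = f 1 * (f t * (f 1)⁻¹)
    rw [mul_comm (f t), ← mul_assoc, mul_inv_cancel₀ f1, one_mul]
  refine ⟨Units.mk0 (f 1) f1, φ, fun t => ?_, fun t => ?_⟩
  · rw [hf, hφ t]; rfl
  · rw [hg]
    congr 1
    by_cases ht : t = 0
    · subst ht; rw [g_zero, map_zero, mul_zero]
    · have h1 := g_eq (inv_ne_zero ht)
      rw [inv_inv] at h1
      rw [h1, hφ t⁻¹, mul_inv, map_inv₀, inv_inv]
      rfl

end Par

/-- the relation between two nodes -/
theorem cross {K L : Type*} [Field K] [Field L] {x y : K → G} {z : L → G} (hr : R1 x y) (hz : Function.Injective z)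
    (j : K →+* L) (hrel : ∀ t, t ≠ 0 → ∀ u, hh x y t * z u * (hh x y t)⁻¹ = z ((j t)⁻¹ * u))
    {θ : G ≃* G} {α : Kˣ} {φ : K ≃+* K} {β : Lˣ} {ψ : L ≃+* L}
    (h1 : ∀ t, θ (x t) = x (α * φ t)) (h2 : ∀ t, θ (y t) = y (((α⁻¹ : Kˣ) : K) * φ t)) (h3 : ∀ t, θ (z t) = z (β * ψ t))
    (t : K) : ψ (j t) = j (φ t) := by
  by_cases ht : t = 0
  · subst ht; simp
  have map_nn : ∀ {t}, t ≠ 0 → θ (nn x y t) = nn x y (α * φ t) := by
    intro t ht
    unfold nn
    rw [map_mul, map_mul, h1, h2]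
    congr 3
    rw [map_neg, map_inv₀, mul_inv, Units.val_inv_eq_inv_val]
    ring
  have hα : (α : K) ≠ 0 := α.ne_zero
  have hφt : φ t ≠ 0 := by rw [Ne, map_eq_zero_iff φ φ.injective]; exact ht
  have e2 : θ (hh x y t) = hh x y (α * φ t) * (hh x y α)⁻¹ := by
    unfold hh
    rw [map_mul, map_nn ht, map_nn (neg_ne_zero.2 one_ne_zero), map_neg, map_one, mul_neg, mul_one, ← hr.n_inv α]
    group
  have e1 := congrArg θ (hrel t ht 1)
  rw [map_mul, map_mul, map_inv, h3, h3, e2] at e1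
  have e3 : ∀ u, (hh x y (α : K))⁻¹ * z u * hh x y α = z (j α * u) := by
    intro u
    have := hrel α hα (j α * u)
    rw [inv_mul_cancel_left₀ ((map_ne_zero j).2 hα)] at this
    rw [← this]; group
  have e4 : hh x y (α * φ t) * (hh x y (α : K))⁻¹ * z (β * ψ 1) * (hh x y (α * φ t) * (hh x y (α : K))⁻¹)⁻¹ =
      hh x y (α * φ t) * ((hh x y (α : K))⁻¹ * z (β * ψ 1) * hh x y α) * (hh x y (α * φ t))⁻¹ := by group
  rw [e4, e3, hrel _ (mul_ne_zero hα hφt)] at e1
  have e5 := hz e1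
  rw [map_mul, mul_one, map_one, mul_one, map_inv₀, mul_inv] at e5
  have hj : j (α : K) ≠ 0 := (map_ne_zero j).2 hα
  have hβ : (β : L) ≠ 0 := β.ne_zero
  have hjt : j (φ t) ≠ 0 := (map_ne_zero j).2 hφt
  have hψ : ψ (j t) ≠ 0 := by rw [Ne, map_eq_zero_iff ψ ψ.injective, map_eq_zero]; exact ht
  field_simp at e5
  exact e5

end H40.TwOut
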