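import Mathlib
import Cfsg.Agent.Lib.H40.TwOut2
import Cfsg.Agent.Lib.H40.ChevOut
import Cfsg.Agent.Lib.H40.SzAut
import Cfsg.Agent.Lib.H23.MultD4c

/-!
Outer automorphisms of `³D₄(q)`.
-/
set_option autoImplicit false
set_option linter.unusedSectionVars false
set_option linter.unusedVariables false

namespace H40.TwOut

open H22.RGD H40.RGDOpp H40.RGDAut

theorem conj_of_index {G : Type*} [Group G] [Finite G] {p n : ℕ} (hp : p.Prime) {U : Subgroup G} (hc : Nat.card U = p ^ n)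
    (hi : ¬ p ∣ U.index) (K : Subgroup G) (hK : Nat.card K = Nat.card U) : ∃ g, cj g K = U := by
  have : Fact p.Prime := ⟨hp⟩
  have h1 : IsPGroup p U := IsPGroup.of_card hc
  have h2 : IsPGroup p K := IsPGroup.of_card (hK.trans hc)
  have hidxK : ¬ p ∣ K.index := by
    have h3 := U.card_mul_index
    rw [← K.card_mul_index, hK] at h3
    rw [← Nat.eq_of_mul_eq_mul_left Nat.card_pos h3]; exact hi
  obtain ⟨g, hg⟩ := MulAction.exists_smul_eq G (h2.toSylow hidxK) (h1.toSylow hi)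
  refine ⟨g, ?_⟩
  have := congrArg (fun P : Sylow p G => (P : Subgroup G)) hg
  simp only [Sylow.coe_subgroup_smul, Subgroup.pointwise_smul_def] at this
  exact this

/-- restriction of an automorphism -/
noncomputable def resAut {A : Type*} [Group A] [Finite A] (L : Subgroup A) (θ : A ≃* A) (h : ∀ x ∈ L, θ x ∈ L) : MulAut L :=
  MulEquiv.ofBijective ((θ.toMonoidHom.comp L.subtype).codRestrict L (fun x => h x x.2))
    (Finite.injective_iff_bijective.1 (fun x y e => Subtype.ext (θ.injective (congrArg Subtype.val e))))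

theorem resAut_val {A : Type*} [Group A] [Finite A] (L : Subgroup A) (θ : A ≃* A) (h : ∀ x ∈ L, θ x ∈ L) (x : L) :
    ((resAut L θ h x : L) : A) = θ x := rfl

/-- an automorphism that normalises the root groups of simple roots and their negatives is normalised -/
theorem norm_of_simple {Φ I G : Type*} [Group G] {C : RootComb Φ I} (S : Sys G C) [Finite Φ] [Finite G] {θ : G ≃* G}
    (h1 : ∀ i, im θ (S.X (C.simple i)) = S.X (C.simple i))
    (h2 : ∀ i, im θ (S.X (C.neg (C.simple i))) = S.X (C.neg (C.simple i))) (hH : im θ S.H = S.H)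
    (hconj : ∀ r, ∃ L i, C.w L (C.simple i) = r) : Norm S θ :=
  H40.RGDNorm.Perms.norm (ρ := 1) ⟨h1, h2, hH⟩ hconj

namespace TD

open H22.Coord H22.RCCheck H22.RCComb H22.ChevTri H22.ChevRel H22.ChevSys H22.ChevMain
open H22.ChevStd H22.ChevSolv H22.ChevUni H22.St H22.TwChev H22.TwSt H22.RCPack H22.TwTab H22.TwX
open H22.TwDat H22.TwAut H22.TwThm H22.TwPerf H22.TwMisc H22.TwD4
open H23.WSplit H23.Lift H23.SysRes H23.TwW H23.LiftPP H23.RankOne H23.MultD4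
open Cfsg.Lie (ChevalleyDatum)
open scoped MatrixGroups Matrix commutatorElement

local notation "D4" => Cfsg.Lie.chevD4
local notation "X4" => H22.PoinD4.rcxD4
local notation "G2X" => H22.PoinG2.rcxG2
local notation "Z4" => H22.ChevLex.lexD4
local notation "W4" => certD4'
local notation "C2" => comb G2X

variable {K : Type*} [Field K] [Finite K] (R : Rel D4 K) (hm : ∀ r < (D4).nroots, ∀ c d : K, c ≠ 0 → d ≠ 0 →
      (D4).hMat K r c * (D4).hMat K r d = (D4).hMat K r (c * d))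
  (φ : K →+* K) (hφ : Function.Surjective φ) (h3 : ∀ t : K, φ (φ (φ t)) = t)

theorem xb_eq {r : ℕ} (hr : r < (D4).nroots) (t : K) : (St R hm).xb r t = H40.ChevAut.xe R ⟨r, hr⟩ t := rfl

include h3 in
theorem Γ₀_le {L : Subgroup ↥((D4).group K)} (a1 : ∀ t, xs R hm φ 18 13 12 t ∈ L) (a2 : ∀ t, xs R hm φ 5 10 11 t ∈ L)
    (a3 : ∀ t, φ t = t → (St R hm).xb 14 t ∈ L) (a4 : ∀ t, φ t = t → (St R hm).xb 9 t ∈ L) : Γ₀ R hm φ hφ ≤ L := by
  have b1 : ∀ J : Fin 2, X1 ((St R hm).stSys X4 Z4 W4) (A R hm φ hφ).σ (E R hm φ hφ).clF ((C2).simple J) ≤ L := by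
    intro J
    rcases two J with rfl | rfl
    · intro g hg
      obtain ⟨t, _, rfl⟩ := (m0 R hm φ hφ).1 hg
      exact a1 t
    · intro g hg
      obtain ⟨t, ht, rfl⟩ := (m1 R hm φ hφ).1 hg
      exact a3 t ht
  have b2 : ∀ J : Fin 2, X1 ((St R hm).stSys X4 Z4 W4) (A R hm φ hφ).σ (E R hm φ hφ).clF
      ((C2).neg ((C2).simple J)) ≤ L := by
    intro J
    rcases two J with rfl | rfl
    · intro g hg
      obtain ⟨t, _, rfl⟩ := (n0 R hm φ hφ).1 hg
      exact a2 t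
    · intro g hg
      obtain ⟨t, ht, rfl⟩ := (n1 R hm φ hφ).1 hg
      exact a4 t ht
  exact (T R hm φ hφ).Γ_le (hfix_le R hm φ hφ h3 b1 b2) b1 b2

/-- generation -/
theorem gen {L : Subgroup ↥(Γ₀ R hm φ hφ)} (a1 : ∀ t, xa R hm φ hφ h3 t ∈ L) (a2 : ∀ t, ya R hm φ hφ h3 t ∈ L)
    (a3 : ∀ t, xb0 R hm φ hφ t ∈ L) (a4 : ∀ t, yb0 R hm φ hφ t ∈ L) : L = ⊤ := by
  rw [eq_top_iff]
  have h := Γ₀_le R hm φ hφ h3 (L := L.map (Γ₀ R hm φ hφ).subtype) (fun t => ⟨_, a1 t, rfl⟩) (fun t => ⟨_, a2 t, rfl⟩)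
    (fun t ht => ⟨_, a3 ⟨t, ht⟩, rfl⟩) (fun t ht => ⟨_, a4 ⟨t, ht⟩, rfl⟩)
  intro g _
  obtain ⟨g', hg', e⟩ := h g.2
  rw [← Subtype.ext e]; exact hg'

theorem hom_ext {M : Type*} [Group M] {f g : ↥(Γ₀ R hm φ hφ) →* M} (a1 : ∀ t, f (xa R hm φ hφ h3 t) = g (xa R hm φ hφ h3 t))
    (a2 : ∀ t, f (ya R hm φ hφ h3 t) = g (ya R hm φ hφ h3 t)) (a3 : ∀ t, f (xb0 R hm φ hφ t) = g (xb0 R hm φ hφ t))
    (a4 : ∀ t, f (yb0 R hm φ hφ t) = g (yb0 R hm φ hφ t)) : f = g := by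
  have := gen R hm φ hφ h3 (L := f.eqLocus g) a1 a2 a3 a4
  ext x
  have h : x ∈ f.eqLocus g := by rw [this]; trivial
  exact h

/-! ### parametrised nodes -/

theorem P0 : Par (SS R hm φ hφ) (0 : Fin 2) (xa R hm φ hφ h3) (ya R hm φ hφ h3) where
  r1 := r1_xa R hm φ hφ h3
  inj := by
    intro t u e
    exact xs_inj R hm φ hφ (congrArg Subtype.val e)
  mx := mxa R hm φ hφ h3
  my := mya R hm φ hφ h3

theorem P1 : Par (SS R hm φ hφ) (1 : Fin 2) (xb0 R hm φ hφ) (yb0 R hm φ hφ) where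
  r1 := r1_xb R hm φ hφ
  inj := by
    intro t u e
    apply Subtype.ext
    exact H40.ChevAut.xe_inj R X4 (r := ⟨14, by decide⟩) (congrArg Subtype.val e)
  mx := mxb R hm φ hφ
  my := myb R hm φ hφ

/-! ### diagonal and field automorphisms -/

/-- parameters of a diagonal automorphism -/
def par (α : Kˣ) (β : (Kf φ)ˣ) : Fin (D4).rank → Kˣ := fun i =>
  if i.val = 0 then α else if i.val = 1 then Units.map (Kf φ).subtype.toMonoidHom β else
    if i.val = 2 then Units.map φ.toMonoidHom α else Units.map φ.toMonoidHom (Units.map φ.toMonoidHom α)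

theorem sm0 : (D4).simple 0 = 18 := by decide +kernel
theorem sm1 : (D4).simple 1 = 14 := by decide +kernel
theorem sm2 : (D4).simple 2 = 13 := by decide +kernel
theorem sm3 : (D4).simple 3 = 12 := by decide +kernel
theorem ng18 : (D4).neg 18 = 5 := by decide +kernel
theorem ng14 : (D4).neg 14 = 9 := by decide +kernel
theorem ng13 : (D4).neg 13 = 10 := by decide +kernel
theorem ng12 : (D4).neg 12 = 11 := by decide +kernel

theorem c18 (α : Kˣ) (β : (Kf φ)ˣ) : H40.ChevAut.chr (X4).rc (par φ α β) 18 = α := by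
  have := H40.ChevAut.chr_simple (X4).rc (par φ α β) (⟨0, by decide⟩ : Fin (D4).rank)
  rw [← sm0]; exact this
theorem c14 (α : Kˣ) (β : (Kf φ)ˣ) : ((H40.ChevAut.chr (X4).rc (par φ α β) 14 : Kˣ) : K) = ((β : Kf φ) : K) := by
  have := H40.ChevAut.chr_simple (X4).rc (par φ α β) (⟨1, by decide⟩ : Fin (D4).rank)
  rw [← sm1, this]; rfl
theorem c13 (α : Kˣ) (β : (Kf φ)ˣ) : ((H40.ChevAut.chr (X4).rc (par φ α β) 13 : Kˣ) : K) = φ α := by
  have := H40.ChevAut.chr_simple (X4).rc (par φ α β) (⟨2, by decide⟩ : Fin (D4).rank)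
  rw [← sm2, this]; rfl
theorem c12 (α : Kˣ) (β : (Kf φ)ˣ) : ((H40.ChevAut.chr (X4).rc (par φ α β) 12 : Kˣ) : K) = φ (φ α) := by
  have := H40.ChevAut.chr_simple (X4).rc (par φ α β) (⟨3, by decide⟩ : Fin (D4).rank)
  rw [← sm3, this]; rfl
theorem c5 (α : Kˣ) (β : (Kf φ)ˣ) : H40.ChevAut.chr (X4).rc (par φ α β) 5 = α⁻¹ := by
  rw [← ng18, H40.ChevAut.chr_neg _ _ (by decide), c18]
theorem c9 (α : Kˣ) (β : (Kf φ)ˣ) : ((H40.ChevAut.chr (X4).rc (par φ α β) 9 : Kˣ) : K) = ((β⁻¹ : (Kf φ)ˣ) : Kf φ) := by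
  rw [← ng14, H40.ChevAut.chr_neg _ _ (by decide), Units.val_inv_eq_inv_val, c14, Units.val_inv_eq_inv_val]; rfl
theorem c10 (α : Kˣ) (β : (Kf φ)ˣ) : ((H40.ChevAut.chr (X4).rc (par φ α β) 10 : Kˣ) : K) = φ (α⁻¹ : Kˣ) := by
  rw [← ng13, H40.ChevAut.chr_neg _ _ (by decide), Units.val_inv_eq_inv_val, c13, Units.val_inv_eq_inv_val, map_inv₀]
theorem c11 (α : Kˣ) (β : (Kf φ)ˣ) : ((H40.ChevAut.chr (X4).rc (par φ α β) 11 : Kˣ) : K) = φ (φ (α⁻¹ : Kˣ)) := by
  rw [← ng12, H40.ChevAut.chr_neg _ _ (by decide), Units.val_inv_eq_inv_val, c12, Units.val_inv_eq_inv_val, map_inv₀, map_inv₀]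

theorem dAut_xb (a : Fin (D4).rank → Kˣ) {r : ℕ} (hr : r < (D4).nroots) (t : K) :
    H40.ChevAut.dAut R X4 a ((St R hm).xb r t) = (St R hm).xb r ((H40.ChevAut.chr (X4).rc a r : K) * t) :=
  H40.ChevAut.dAut_xe R X4 a ⟨r, hr⟩ t

theorem dAut_xs (α : Kˣ) (β : (Kf φ)ˣ) (t : K) : H40.ChevAut.dAut R X4 (par φ α β) (xs R hm φ 18 13 12 t) =
    xs R hm φ 18 13 12 (α * t) := by
  unfold xs
  rw [map_mul, map_mul, dAut_xb R hm _ (by decide), dAut_xb R hm _ (by decide), dAut_xb R hm _ (by decide), c18, c13, c12,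
    ← map_mul, ← map_mul, ← map_mul]

theorem dAut_ys (α : Kˣ) (β : (Kf φ)ˣ) (t : K) : H40.ChevAut.dAut R X4 (par φ α β) (xs R hm φ 5 10 11 t) =
    xs R hm φ 5 10 11 ((α⁻¹ : Kˣ) * t) := by
  unfold xs
  rw [map_mul, map_mul, dAut_xb R hm _ (by decide), dAut_xb R hm _ (by decide), dAut_xb R hm _ (by decide), c5, c10, c11,
    ← map_mul, ← map_mul, ← map_mul]

theorem fAut_xb (σ : K ≃+* K) {r : ℕ} (hr : r < (D4).nroots) (t : K) :
    H40.ChevAut.fAut (D := D4) σ ((St R hm).xb r t) = (St R hm).xb r (σ t) :=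
  H40.ChevAut.fAut_xe R σ ⟨r, hr⟩ t

/-- field automorphisms commute with the endomorphism -/
theorem comm_pow {q : ℕ} (hq : ∀ t, φ t = t ^ q) (σ : K ≃+* K) (t : K) : σ (φ t) = φ (σ t) := by rw [hq, hq, map_pow]

theorem fAut_xs {q : ℕ} (hq : ∀ t, φ t = t ^ q) (σ : K ≃+* K) {r s v : ℕ} (hr : r < (D4).nroots) (hs : s < (D4).nroots)
    (hv : v < (D4).nroots) (t : K) : H40.ChevAut.fAut (D := D4) σ (xs R hm φ r s v t) = xs R hm φ r s v (σ t) := by
  unfold xs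
  rw [map_mul, map_mul, fAut_xb R hm _ hr, fAut_xb R hm _ hs, fAut_xb R hm _ hv, comm_pow φ hq, comm_pow φ hq, comm_pow φ hq]

end TD

end H40.TwOut
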