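import Mathlib
import Cfsg.Agent.Lib.H40.TwOut3
import Cfsg.Agent.Lib.H50.FieldAut

/-!
Outer automorphisms of `³D₄(q)`, continued.
-/
set_option autoImplicit false
set_option linter.unusedSectionVars false
set_option linter.unusedVariables false

namespace H40.TwOut

open H22.RGD H40.RGDOpp H40.RGDAut

theorem im_eq_of_le {G : Type*} [Group G] [Finite G] {θ : G ≃* G} {K : Subgroup G} (h : im θ K ≤ K) : im θ K = K :=
  Subgroup.eq_of_le_of_card_ge h (by rw [card_im])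

/-- restrictions of automorphisms which preserve the root groups are normalised -/
theorem norm_res {G : Type*} [Group G] [Finite G] {Φ I : Type*} {C : RootComb Φ I} {S : Sys G C} {Ψ I' : Type*}
    {C' : RootComb Ψ I'} (T : Tw S C') [Finite Φ] [Finite Ψ]
    (hX : ∀ c, T.sys.X c ≤ T.sys.Γ) (hH : T.sys.H ≤ T.sys.Γ) (hn : ∀ i, T.sys.n i ∈ T.sys.Γ)
    (θ : G ≃* G) (h : ∀ x ∈ T.sys.Γ, θ x ∈ T.sys.Γ) (hθ : ∀ r, ∀ x ∈ S.X r, θ x ∈ S.X r) :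
    Norm (H23.SysRes.res T.sys hX hH hn) (resAut T.sys.Γ θ h) := by
  apply H40.ChevAut.norm_of_im
  intro c
  apply im_eq_of_le
  rintro _ ⟨x, hx, rfl⟩
  have hx1 : (x : G) ∈ X1 S T.σ T.cl c := hx
  have h1 : XX S T.cl c ≤ (XX S T.cl c).comap θ.toMonoidHom := by
    refine XX_le S T.cl fun r hr => ?_
    intro y hy
    exact X_le_XX S T.cl hr (hθ r y hy)
  exact ⟨h1 hx1.1, T.sys_Γ_le (h x x.2)⟩

theorem im_N_of {Φ I G : Type*} [Group G] {C : RootComb Φ I} {S : Sys G C} {θ : G ≃* G} (hH : im θ S.H = S.H)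
    {ρ : I → I} (hn : ∀ i, ∃ h ∈ S.H, θ (S.n i) = S.n (ρ i) * h) : ∀ z ∈ S.N, θ z ∈ S.N := by
  intro x hx
  have h1 : S.N ≤ S.N.comap θ.toMonoidHom := by
    refine sup_le ?_ ?_
    · intro y hy
      apply S.H_le_N
      rw [← hH]
      exact ⟨y, hy, rfl⟩
    · rw [Subgroup.closure_le]
      rintro _ ⟨i, rfl⟩
      obtain ⟨k, hk, e⟩ := hn i
      show θ (S.n i) ∈ S.N
      rw [e]
      exact S.N.mul_mem (S.n_mem_N _) (S.H_le_N hk)
  exact h1 hx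

namespace TD

open H22.Coord H22.RCCheck H22.RCComb H22.ChevTri H22.ChevRel H22.ChevSys H22.ChevMain
open H22.ChevStd H22.ChevSolv H22.ChevUni H22.St H22.TwChev H22.TwSt H22.RCPack H22.TwTab H22.TwX
open H22.TwDat H22.TwAut H22.TwThm H22.TwPerf H22.TwMisc H22.TwD4
open H23.WSplit H23.Lift H23.SysRes H23.TwW H23.LiftPP H23.RankOne H23.MultD4
open Cfsg.Lie (ChevalleyDatum)
open scoped MatrixGroups Matrix commutatorElement

local notation "D4" => Cfsg.Lie.chevD4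
local notation "X4" => H22.PoinD4.rcxD4
local notation "G2X" => H22.PoinG2.rcxG2
local notation "Z4" => H22.ChevLex.lexD4
local notation "W4" => certD4'
local notation "C2" => comb G2X

variable {K : Type*} [Field K] [Finite K] (R : Rel D4 K) (hm : ∀ r < (D4).nroots, ∀ c d : K, c ≠ 0 → d ≠ 0 →
      (D4).hMat K r c * (D4).hMat K r d = (D4).hMat K r (c * d))
  (φ : K →+* K) (hφ : Function.Surjective φ) (h3 : ∀ t : K, φ (φ (φ t)) = t)

include h3 in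
theorem mem_short (t : K) : xs R hm φ 18 13 12 t ∈ Γ₀ R hm φ hφ := (xa R hm φ hφ h3 t).2
include h3 in
theorem mem_nshort (t : K) : xs R hm φ 5 10 11 t ∈ Γ₀ R hm φ hφ := (ya R hm φ hφ h3 t).2
theorem mem_long {t : K} (ht : φ t = t) : (St R hm).xb 14 t ∈ Γ₀ R hm φ hφ := (xb0 R hm φ hφ ⟨t, ht⟩).2
theorem mem_nlong {t : K} (ht : φ t = t) : (St R hm).xb 9 t ∈ Γ₀ R hm φ hφ := (yb0 R hm φ hφ ⟨t, ht⟩).2

include h3 in
theorem Γ₀_map {θ : ↥((D4).group K) ≃* ↥((D4).group K)} (a1 : ∀ t, θ (xs R hm φ 18 13 12 t) ∈ Γ₀ R hm φ hφ)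
    (a2 : ∀ t, θ (xs R hm φ 5 10 11 t) ∈ Γ₀ R hm φ hφ) (a3 : ∀ t, φ t = t → θ ((St R hm).xb 14 t) ∈ Γ₀ R hm φ hφ)
    (a4 : ∀ t, φ t = t → θ ((St R hm).xb 9 t) ∈ Γ₀ R hm φ hφ) : ∀ x ∈ Γ₀ R hm φ hφ, θ x ∈ Γ₀ R hm φ hφ := by
  have := Γ₀_le R hm φ hφ h3 (L := (Γ₀ R hm φ hφ).comap θ.toMonoidHom) a1 a2 a3 a4
  exact fun x hx => this hx

include h3 in
/-- action of the diagonal automorphisms on the fixed group -/
theorem dmem (α : Kˣ) (β : (Kf φ)ˣ) : ∀ x ∈ Γ₀ R hm φ hφ, H40.ChevAut.dAut R X4 (par φ α β) x ∈ Γ₀ R hm φ hφ := by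
  apply Γ₀_map R hm φ hφ h3
  · intro t
    rw [dAut_xs]; exact mem_short R hm φ hφ h3 _
  · intro t
    rw [dAut_ys]; exact mem_nshort R hm φ hφ h3 _
  · intro t ht
    rw [dAut_xb R hm _ (by decide), c14]
    exact mem_long R hm φ hφ (by rw [map_mul, ht]; congr 1; exact (β : Kf φ).2)
  · intro t ht
    rw [dAut_xb R hm _ (by decide), c9]
    exact mem_nlong R hm φ hφ (by rw [map_mul, ht]; congr 1; exact ((β⁻¹ : (Kf φ)ˣ) : Kf φ).2)

include h3 in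
theorem fmem {q : ℕ} (hq : ∀ t, φ t = t ^ q) (σ : K ≃+* K) :
    ∀ x ∈ Γ₀ R hm φ hφ, H40.ChevAut.fAut (D := D4) σ x ∈ Γ₀ R hm φ hφ := by
  apply Γ₀_map R hm φ hφ h3
  · intro t
    rw [fAut_xs R hm φ hq σ (by decide) (by decide) (by decide)]; exact mem_short R hm φ hφ h3 _
  · intro t
    rw [fAut_xs R hm φ hq σ (by decide) (by decide) (by decide)]; exact mem_nshort R hm φ hφ h3 _
  · intro t ht
    rw [fAut_xb R hm _ (by decide)]
    exact mem_long R hm φ hφ (by rw [← comm_pow φ hq, ht])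
  · intro t ht
    rw [fAut_xb R hm _ (by decide)]
    exact mem_nlong R hm φ hφ (by rw [← comm_pow φ hq, ht])

/-- diagonal automorphisms -/
noncomputable def dA (α : Kˣ) (β : (Kf φ)ˣ) : MulAut ↥(Γ₀ R hm φ hφ) := resAut _ _ (dmem R hm φ hφ h3 α β)
/-- field automorphisms -/
noncomputable def fA {q : ℕ} (hq : ∀ t, φ t = t ^ q) (σ : K ≃+* K) : MulAut ↥(Γ₀ R hm φ hφ) :=
  resAut _ _ (fmem R hm φ hφ h3 hq σ)

theorem hXr {θ : ↥((D4).group K) ≃* ↥((D4).group K)} (h : ∀ r (hr : r < (D4).nroots) t, ∃ u, θ ((St R hm).xb r t) = (St R hm).xb r u) :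
    ∀ r, ∀ x ∈ ((St R hm).stSys X4 Z4 W4).X r, θ x ∈ ((St R hm).stSys X4 Z4 W4).X r := by
  intro r x hx
  obtain ⟨t, rfl⟩ := ((St R hm).mem_Xb r.2).1 hx
  obtain ⟨u, hu⟩ := h r r.2 t
  exact ((St R hm).mem_Xb r.2).2 ⟨u, hu⟩

theorem dA_norm (α : Kˣ) (β : (Kf φ)ˣ) : Norm (SS R hm φ hφ) (dA R hm φ hφ h3 α β) :=
  norm_res _ _ _ _ _ (dmem R hm φ hφ h3 α β) (hXr R hm fun r hr t => ⟨_, dAut_xb R hm _ hr t⟩)

theorem fA_norm {q : ℕ} (hq : ∀ t, φ t = t ^ q) (σ : K ≃+* K) : Norm (SS R hm φ hφ) (fA R hm φ hφ h3 hq σ) :=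
  norm_res _ _ _ _ _ (fmem R hm φ hφ h3 hq σ) (hXr R hm fun r hr t => ⟨_, fAut_xb R hm _ hr t⟩)

end TD

end H40.TwOut
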