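import Mathlib
import Cfsg.Agent.Lib.H40.TwOut4

/-!
Outer automorphisms of `³D₄(q)`, the count.
-/
set_option autoImplicit false
set_option linter.unusedSectionVars false
set_option linter.unusedVariables false

namespace H40.TwOut

open H22.RGD H40.RGDOpp H40.RGDAut

namespace TD

open H22.Coord H22.RCCheck H22.RCComb H22.ChevTri H22.ChevRel H22.ChevSys H22.ChevMain
open H22.ChevStd H22.ChevSolv H22.ChevUni H22.St H22.TwChev H22.TwSt H22.RCPack H22.TwTab H22.TwX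
open H22.TwDat H22.TwAut H22.TwThm H22.TwPerf H22.TwMisc H22.TwD4
open H23.WSplit H23.Lift H23.SysRes H23.TwW H23.LiftPP H23.RankOne H23.MultD4
open Cfsg.Lie (ChevalleyDatum)
open scoped MatrixGroups Matrix commutatorElement

local notation "D4" => Cfsg.Lie.chevD4
local notation "X4" => H22.PoinD4.rcxD4
local notation "G2X" => H22.PoinG2.rcxG2
local notation "Z4" => H22.ChevLex.lexD4
local notation "W4" => certD4'
local notation "C2" => comb G2X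

variable {K : Type*} [Field K] [Finite K] (R : Rel D4 K) (hm : ∀ r < (D4).nroots, ∀ c d : K, c ≠ 0 → d ≠ 0 →
      (D4).hMat K r c * (D4).hMat K r d = (D4).hMat K r (c * d))
  (φ : K →+* K) (hφ : Function.Surjective φ) (h3 : ∀ t : K, φ (φ (φ t)) = t)

theorem dA_xa (α : Kˣ) (β : (Kf φ)ˣ) (t : K) : dA R hm φ hφ h3 α β (xa R hm φ hφ h3 t) = xa R hm φ hφ h3 (α * t) :=
  Subtype.ext (dAut_xs R hm φ α β t)
theorem dA_ya (α : Kˣ) (β : (Kf φ)ˣ) (t : K) : dA R hm φ hφ h3 α β (ya R hm φ hφ h3 t) = ya R hm φ hφ h3 ((α⁻¹ : Kˣ) * t) :=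
  Subtype.ext (dAut_ys R hm φ α β t)
theorem dA_xb (α : Kˣ) (β : (Kf φ)ˣ) (t : Kf φ) : dA R hm φ hφ h3 α β (xb0 R hm φ hφ t) = xb0 R hm φ hφ (β * t) := by
  apply Subtype.ext
  change H40.ChevAut.dAut R X4 (par φ α β) ((St R hm).xb 14 (t : K)) = (St R hm).xb 14 ((β * t : Kf φ) : K)
  rw [dAut_xb R hm _ (by decide), c14]; rfl
theorem dA_yb (α : Kˣ) (β : (Kf φ)ˣ) (t : Kf φ) : dA R hm φ hφ h3 α β (yb0 R hm φ hφ t) =
    yb0 R hm φ hφ ((β⁻¹ : (Kf φ)ˣ) * t) := by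
  apply Subtype.ext
  change H40.ChevAut.dAut R X4 (par φ α β) ((St R hm).xb 9 (t : K)) = (St R hm).xb 9 (((β⁻¹ : (Kf φ)ˣ) * t : Kf φ) : K)
  rw [dAut_xb R hm _ (by decide), c9]; rfl

/-- the restriction of a field automorphism -/
def sf {q : ℕ} (hq : ∀ t, φ t = t ^ q) (σ : K ≃+* K) (t : Kf φ) : Kf φ :=
  ⟨σ t, by
    change φ (σ t) = σ t
    rw [← comm_pow φ hq]; congr 1; exact t.2⟩

theorem fA_xa {q : ℕ} (hq : ∀ t, φ t = t ^ q) (σ : K ≃+* K) (t : K) :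
    fA R hm φ hφ h3 hq σ (xa R hm φ hφ h3 t) = xa R hm φ hφ h3 (σ t) :=
  Subtype.ext (fAut_xs R hm φ hq σ (by decide) (by decide) (by decide) t)
theorem fA_ya {q : ℕ} (hq : ∀ t, φ t = t ^ q) (σ : K ≃+* K) (t : K) :
    fA R hm φ hφ h3 hq σ (ya R hm φ hφ h3 t) = ya R hm φ hφ h3 (σ t) :=
  Subtype.ext (fAut_xs R hm φ hq σ (by decide) (by decide) (by decide) t)
theorem fA_xb {q : ℕ} (hq : ∀ t, φ t = t ^ q) (σ : K ≃+* K) (t : Kf φ) :
    fA R hm φ hφ h3 hq σ (xb0 R hm φ hφ t) = xb0 R hm φ hφ (sf φ hq σ t) :=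
  Subtype.ext (fAut_xb R hm σ (by decide) t)
theorem fA_yb {q : ℕ} (hq : ∀ t, φ t = t ^ q) (σ : K ≃+* K) (t : Kf φ) :
    fA R hm φ hφ h3 hq σ (yb0 R hm φ hφ t) = yb0 R hm φ hφ (sf φ hq σ t) :=
  Subtype.ext (fAut_xb R hm σ (by decide) t)

/-! ### the relation between the nodes -/

theorem hh_eq (t : K) : hh ((St R hm).xb 14) ((St R hm).xb 9) t = H40.ChevAut.he R X4 (1 : Fin 4) t := by
  have e1 : (comb X4).simple (1 : Fin 4) = (⟨14, by decide⟩ : Fin (D4).nroots) := Fin.ext sm1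
  have e2 : (comb X4).neg (⟨14, by decide⟩ : Fin (D4).nroots) = (⟨9, by decide⟩ : Fin (D4).nroots) := Fin.ext ng14
  unfold hh nn H40.ChevAut.he H40.ChevAut.ne
  rw [e1, e2]
  rfl

theorem ct : ((D4).cartan 1 18 = -1) ∧ ((D4).cartan 1 13 = -1) ∧ ((D4).cartan 1 12 = -1) := by decide +kernel

theorem rel (t : Kf φ) (ht : t ≠ 0) (u : K) : hh (xb0 R hm φ hφ) (yb0 R hm φ hφ) t * xa R hm φ hφ h3 u *
    (hh (xb0 R hm φ hφ) (yb0 R hm φ hφ) t)⁻¹ = xa R hm φ hφ h3 (((Kf φ).subtype t)⁻¹ * u) := by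
  apply Subtype.ext
  have ht' : (t : K) ≠ 0 := fun h => ht (Subtype.ext h)
  have hft : φ (t : K) = t := t.2
  change hh ((St R hm).xb 14) ((St R hm).xb 9) (t : K) * xs R hm φ 18 13 12 u *
    (hh ((St R hm).xb 14) ((St R hm).xb 9) (t : K))⁻¹ = xs R hm φ 18 13 12 ((t : K)⁻¹ * u)
  rw [hh_eq]
  have e1 := H40.ChevAut.he_conj R X4 (1 : Fin 4) ht' (⟨18, by decide⟩ : Fin (D4).nroots) u
  have e2 := H40.ChevAut.he_conj R X4 (1 : Fin 4) ht' (⟨13, by decide⟩ : Fin (D4).nroots) (φ u)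
  have e3 := H40.ChevAut.he_conj R X4 (1 : Fin 4) ht' (⟨12, by decide⟩ : Fin (D4).nroots) (φ (φ u))
  rw [show (D4).cartan ((1 : Fin 4) : ℕ) ((⟨18, by decide⟩ : Fin (D4).nroots) : ℕ) = -1 from ct.1, zpow_neg_one] at e1
  rw [show (D4).cartan ((1 : Fin 4) : ℕ) ((⟨13, by decide⟩ : Fin (D4).nroots) : ℕ) = -1 from ct.2.1, zpow_neg_one] at e2
  rw [show (D4).cartan ((1 : Fin 4) : ℕ) ((⟨12, by decide⟩ : Fin (D4).nroots) : ℕ) = -1 from ct.2.2, zpow_neg_one] at e3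
  unfold xs
  rw [map_mul, map_inv₀, hft, map_mul, map_inv₀, hft]
  rw [xb_eq R hm (by decide), xb_eq R hm (by decide), xb_eq R hm (by decide), xb_eq R hm (by decide), xb_eq R hm (by decide),
    xb_eq R hm (by decide), ← e1, ← e2, ← e3]
  group

/-! ### the count -/

include h3 in
theorem SS_Γ : (SS R hm φ hφ).Γ = ⊤ := by
  rw [eq_top_iff, ← gen_X R hm φ hφ h3, iSup_le_iff]
  intro r
  exact (SS R hm φ hφ).X_le_Γ (longest G2X) r

include h3 in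
theorem card_X0 : Nat.card ((SS R hm φ hφ).X ((C2).simple (0 : Fin 2))) = Nat.card K := by
  have P := P0 R hm φ hφ h3
  symm
  refine Nat.card_congr (Equiv.ofBijective (fun t => (⟨xa R hm φ hφ h3 t, (P.mx _).2 ⟨t, rfl⟩⟩ : (SS R hm φ hφ).X ((C2).simple (0 : Fin 2)))) ⟨?_, ?_⟩)
  · intro t u e
    exact P.inj (congrArg Subtype.val e)
  · rintro ⟨g, hg⟩
    obtain ⟨t, rfl⟩ := (P.mx g).1 hg
    exact ⟨t, rfl⟩

theorem card_X1 : Nat.card ((SS R hm φ hφ).X ((C2).simple (1 : Fin 2))) = Nat.card (Kf φ) := by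
  have P := P1 R hm φ hφ
  symm
  refine Nat.card_congr (Equiv.ofBijective (fun t => (⟨xb0 R hm φ hφ t, (P.mx _).2 ⟨t, rfl⟩⟩ : (SS R hm φ hφ).X ((C2).simple (1 : Fin 2)))) ⟨?_, ?_⟩)
  · intro t u e
    exact P.inj (congrArg Subtype.val e)
  · rintro ⟨g, hg⟩
    obtain ⟨t, rfl⟩ := (P.mx g).1 hg
    exact ⟨t, rfl⟩

/-- all normalised automorphisms -/
theorem exists_par {q : ℕ} (hq : ∀ t, φ t = t ^ q) (hne : Nat.card (Kf φ) ≠ Nat.card K) {θ : MulAut ↥(Γ₀ R hm φ hφ)}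
    (hθ : H40.RGDAut.Norm (SS R hm φ hφ) θ) : ∃ (α : Kˣ) (β : (Kf φ)ˣ) (σ : K ≃+* K), θ = dA R hm φ hφ h3 α β * fA R hm φ hφ h3 hq σ := by
  have hΓ := SS_Γ R hm φ hφ h3
  obtain ⟨ρ, hρ⟩ := hθ.main (longest G2X) hΓ (coord G2X).simple_injective
  have h0 : ρ (0 : Fin 2) = (0 : Fin 2) := by
    rcases two (ρ (0 : Fin 2)) with h | h
    · exact h
    · exfalso
      have e1 := (hρ (0 : Fin 2)).1
      rw [h] at e1
      have e2 : Nat.card (im θ ((SS R hm φ hφ).X ((C2).simple (0 : Fin 2)))) = Nat.card ((SS R hm φ hφ).X ((C2).simple (1 : Fin 2))) :=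
        congrArg (fun L : Subgroup ↥(Γ₀ R hm φ hφ) => Nat.card L) e1
      rw [card_im, card_X0 R hm φ hφ h3, card_X1 R hm φ hφ] at e2
      exact hne e2.symm
  have h1 : ρ (1 : Fin 2) = (1 : Fin 2) := by
    rcases two (ρ (1 : Fin 2)) with h | h
    · exfalso
      have h2 := ρ.injective (h.trans h0.symm)
      exact (by decide : ¬ ((1 : Fin 2) = (0 : Fin 2))) h2
    · exact h
  have hN := im_N_of (hθ.H (longest G2X) hΓ) (fun i => (hρ i).2.2)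
  have a0 := hρ (0 : Fin 2)
  have a1 := hρ (1 : Fin 2)
  rw [h0] at a0
  rw [h1] at a1
  obtain ⟨α, ψ, f1, f2⟩ := (P0 R hm φ hφ h3).exists_form a0.1 a0.2.1 hN
  obtain ⟨β, ψ', f3, f4⟩ := (P1 R hm φ hφ).exists_form a1.1 a1.2.1 hN
  have hc := cross (r1_xb R hm φ hφ) (P0 R hm φ hφ h3).inj (Kf φ).subtype (rel R hm φ hφ h3) f3 f4 f1
  have hsf : ∀ t, sf φ hq ψ t = ψ' t := fun t => Subtype.ext (hc t)
  refine ⟨α, β, ψ, ?_⟩
  have key : θ.toMonoidHom = (dA R hm φ hφ h3 α β * fA R hm φ hφ h3 hq ψ).toMonoidHom := by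
    apply hom_ext R hm φ hφ h3
    · intro t
      change θ _ = dA R hm φ hφ h3 α β (fA R hm φ hφ h3 hq ψ _)
      rw [fA_xa, dA_xa, f1]
    · intro t
      change θ _ = dA R hm φ hφ h3 α β (fA R hm φ hφ h3 hq ψ _)
      rw [fA_ya, dA_ya, f2]
    · intro t
      change θ _ = dA R hm φ hφ h3 α β (fA R hm φ hφ h3 hq ψ _)
      rw [fA_xb, dA_xb, f3, hsf]
    · intro t
      change θ _ = dA R hm φ hφ h3 α β (fA R hm φ hφ h3 hq ψ _)
      rw [fA_yb, dA_yb, f4, hsf]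
  exact MulEquiv.toMonoidHom_injective key

include h3 in
theorem card_NA {q : ℕ} (hq : ∀ t, φ t = t ^ q) (hne : Nat.card (Kf φ) ≠ Nat.card K) :
    Nat.card (NA (SS R hm φ hφ)) = Nat.card Kˣ * Nat.card (Kf φ)ˣ * Nat.card (K ≃+* K) := by
  rw [← Nat.card_prod, ← Nat.card_prod]
  symm
  refine Nat.card_congr (Equiv.ofBijective (fun p : (Kˣ × (Kf φ)ˣ) × (K ≃+* K) =>
    (⟨dA R hm φ hφ h3 p.1.1 p.1.2 * fA R hm φ hφ h3 hq p.2, Subgroup.mul_mem _ (dA_norm R hm φ hφ h3 _ _)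
      (fA_norm R hm φ hφ h3 hq _)⟩ : NA (SS R hm φ hφ))) ⟨?_, ?_⟩)
  · rintro ⟨⟨α, β⟩, σ⟩ ⟨⟨α', β'⟩, σ'⟩ e
    have e0 : dA R hm φ hφ h3 α β * fA R hm φ hφ h3 hq σ = dA R hm φ hφ h3 α' β' * fA R hm φ hφ h3 hq σ' := congrArg Subtype.val e
    have e1 : ∀ t, (α : K) * σ t = α' * σ' t := by
      intro t
      have := congrArg (fun θ : MulAut ↥(Γ₀ R hm φ hφ) => θ (xa R hm φ hφ h3 t)) e0
      simp only [MulAut.mul_apply] at this
      rw [fA_xa, fA_xa, dA_xa, dA_xa] at this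
      exact (P0 R hm φ hφ h3).inj this
    have e2 := e1 1
    rw [map_one, map_one, mul_one, mul_one] at e2
    have e3 : α = α' := Units.ext e2
    subst e3
    have e4 : σ = σ' := by
      ext t
      exact mul_left_cancel₀ α.ne_zero (e1 t)
    subst e4
    have e5 : (β : Kf φ) * sf φ hq σ 1 = β' * sf φ hq σ 1 := by
      have := congrArg (fun θ : MulAut ↥(Γ₀ R hm φ hφ) => θ (xb0 R hm φ hφ 1)) e0
      simp only [MulAut.mul_apply] at this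
      rw [fA_xb, dA_xb, dA_xb] at this
      exact (P1 R hm φ hφ).inj this
    have e6 : sf φ hq σ 1 = 1 := Subtype.ext (map_one σ)
    rw [e6, mul_one, mul_one] at e5
    have e7 : β = β' := Units.ext e5
    rw [e7]
  · rintro ⟨θ, hθ⟩
    obtain ⟨α, β, σ, h⟩ := exists_par R hm φ hφ h3 hq hne hθ
    exact ⟨⟨⟨α, β⟩, σ⟩, Subtype.ext h.symm⟩

end TD

end H40.TwOut
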