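import Mathlib
import Cfsg.Agent.Lib.H40.TwOut5
import Cfsg.Agent.Lib.H50.FieldAut

/-!
Outer automorphisms of `³D₄(q)`, the theorem.
-/
set_option autoImplicit false
set_option linter.unusedSectionVars false
set_option linter.unusedVariables false

namespace H40.TwOut

open H22.RGD H40.RGDOpp H40.RGDAut

/-- the center of a group isomorphic to a nonabelian simple group -/
theorem center_bot {G H : Type*} [Group G] [Group H] (e : G ≃* H) (h : IsSimpleGroup H ∧ ¬ IsMulCommutative H) :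
    Subgroup.center G = ⊥ := by
  haveI := h.1
  have h1 : Subgroup.center H = ⊥ := by
    rcases (Subgroup.center H).normal_of_characteristic.eq_bot_or_eq_top with h' | h'
    · exact h'
    · exact absurd (⟨⟨fun a b => (Subgroup.mem_center_iff.1 (h' ▸ Subgroup.mem_top a : a ∈ Subgroup.center H) b).symm⟩⟩) h.2
  rw [eq_bot_iff]
  intro z hz
  have h2 : e z ∈ Subgroup.center H := by
    rw [Subgroup.mem_center_iff]
    intro x
    obtain ⟨y, rfl⟩ := e.surjective x
    rw [← map_mul, ← map_mul, Subgroup.mem_center_iff.1 hz y]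
  rw [h1, Subgroup.mem_bot] at h2
  exact (map_eq_one_iff e e.injective).1 h2

namespace TD

open H22.Coord H22.RCCheck H22.RCComb H22.ChevTri H22.ChevRel H22.ChevSys H22.ChevMain
open H22.ChevStd H22.ChevSolv H22.ChevUni H22.St H22.TwChev H22.TwSt H22.RCPack H22.TwTab H22.TwX
open H22.TwDat H22.TwAut H22.TwThm H22.TwPerf H22.TwMisc H22.TwD4
open H23.WSplit H23.Lift H23.SysRes H23.TwW H23.LiftPP H23.RankOne H23.MultD4
open Cfsg.Lie (ChevalleyDatum)
open scoped MatrixGroups Matrix commutatorElement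

local notation "D4" => Cfsg.Lie.chevD4
local notation "X4" => H22.PoinD4.rcxD4
local notation "G2X" => H22.PoinG2.rcxG2
local notation "Z4" => H22.ChevLex.lexD4
local notation "W4" => certD4'
local notation "C2" => comb G2X

theorem card_out {K : Type*} [Field K] [Fintype K] {p f : ℕ} [Fact p.Prime] [CharP K p] (hK : Fintype.card K = p ^ (3 * f)) (hf : 1 ≤ f) :
    Nat.card (Cfsg.Out ↥(Cfsg.Lie.twistedD4 K (p ^ f))) = 3 * f := by
  set q := p ^ f with hqdef
  have hp : p.Prime := Fact.out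
  have hq0 : IsPrimePow q := ⟨p, f, hp.prime, hf, rfl⟩
  have hq1 : 1 < q := hq0.one_lt
  have hK0 : Nat.card K = p ^ (3 * f) := by rw [Nat.card_eq_fintype_card]; exact hK
  have hKq : Fintype.card K = q ^ 3 := by rw [hK, hqdef, ← pow_mul, mul_comm]
  have hK' : Nat.card K = q ^ 3 := by rw [Nat.card_eq_fintype_card]; exact hKq
  obtain ⟨φ, hφ, hφq⟩ := exists_frob hq0 (by norm_num : (3 : ℕ) ≠ 0) hK'
  have h3 : ∀ t : K, φ (φ (φ t)) = t := by
    intro t
    rw [hφq, hφq, hφq, ← pow_mul, ← pow_mul]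
    have := FiniteField.pow_card t
    rwa [hKq, show q ^ 3 = q * (q * q) by ring] at this
  have hcf : Nat.card {t : K // φ t = t} = q := by
    simp only [hφq]
    exact card_fixed hq1 (by norm_num) hK'
  have hcf' : Nat.card (Kf φ) = q := hcf
  have hne : Nat.card (Kf φ) ≠ Nat.card K := by
    rw [hcf', hK']
    have : q ^ 1 < q ^ 3 := Nat.pow_lt_pow_right hq1 (by norm_num)
    rw [pow_one] at this
    exact this.ne
  have hG := Γ_eq (RR K) (H22.St.hmul_all _ memD4) φ hφ h3 hφq
  have hM := M_Γ (T (RR K) (H22.St.hmul_all _ memD4) φ hφ).tw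
  let e : ↥(Γ₀ (RR K) (H22.St.hmul_all _ memD4) φ hφ) ≃* ↥(Cfsg.Lie.twistedD4 K q) :=
    (Subgroup.equivMapOfInjective _ ((D4).group K).subtype (Subgroup.subtype_injective _)).trans
      (MulEquiv.subgroupCongr (hM.symm.trans hG))
  have hΓ := SS_Γ (RR K) (H22.St.hmul_all _ memD4) φ hφ h3
  have hZ := center_bot e (H22.TwD4.s1071 hq0 hKq)
  have hU : Nat.card (SS (RR K) (H22.St.hmul_all _ memD4) φ hφ).U = p ^ (f * 12) := by
    rw [card_SU (RR K) (H22.St.hmul_all _ memD4) φ hφ h3 hK' hcf, hqdef, ← pow_mul]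
  have hS := conj_of_index hp hU (index_ndvd (RR K) (H22.St.hmul_all _ memD4) φ hφ h3 hq1 hK' hφq hp (dvd_pow_self p (by omega)))
  have h := card_out_mul (SS (RR K) (H22.St.hmul_all _ memD4) φ hφ) (longest G2X) hΓ (fun θ => H40.RGDAut.exists_norm _ (longest G2X) hΓ hS θ) hZ
  rw [card_SH (RR K) (H22.St.hmul_all _ memD4) φ hφ h3 hq1 hK' hφq, card_NA (RR K) (H22.St.hmul_all _ memD4) φ hφ h3 hφq hne,
    Nat.card_units, Nat.card_units, hcf', hK', H50.FieldAut.card_ringAut p hK0] at h
  rw [← H40.SzAut.card_out_congr e]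
  have hpos : 0 < (q ^ 3 - 1) * (q - 1) := by
    have h3 : 1 < q ^ 3 := Nat.one_lt_pow (by norm_num) hq1
    exact Nat.mul_pos (by omega) (by omega)
  rw [mul_comm ((q ^ 3 - 1) * (q - 1)) (3 * f)] at h
  exact Nat.eq_of_mul_eq_mul_right hpos h

end TD

end H40.TwOut
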