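import Mathlib
import Cfsg.Agent.Lib.H40.TwOut2
import Cfsg.Agent.Lib.H40.TwOut4
import Cfsg.Agent.Lib.H40.ChevOut
import Cfsg.Agent.Lib.H23.MultTE6c

/-!
Outer automorphisms of `²E₆(q)`.
-/
set_option autoImplicit false
set_option linter.unusedSectionVars false
set_option linter.unusedVariables false

namespace H40.TwOut

open H22.RGD H40.RGDOpp H40.RGDAut

/-- commuting simple reflections correspond under normalised automorphisms -/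
theorem comm_iff {Φ I G : Type*} [Group G] {C : RootComb Φ I} {S : Sys G C} [Finite Φ] {θ : G ≃* G} (hH : im θ S.H = S.H)
    {ρ : I → I} (hn : ∀ i, ∃ h ∈ S.H, θ (S.n i) = S.n (ρ i) * h) (i k : I) :
    C.refl i * C.refl k = C.refl k * C.refl i ↔ C.refl (ρ i) * C.refl (ρ k) = C.refl (ρ k) * C.refl (ρ i) := by
  have key : ∀ {g : G} {w : Equiv.Perm Φ}, S.Rep g w → (g ∈ S.H ↔ w = 1) := by
    intro g w hg
    constructor
    · intro hh; exact hg.unique (S.rep_H hh)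
    · rintro rfl; exact S.mem_H_of_rep_one hg
  have h3 : ∀ i, S.Rep (θ (S.n i)) (C.refl (ρ i)) := by
    intro i
    obtain ⟨k, hk, e⟩ := hn i
    rw [e]
    have := (S.rep_n (ρ i)).mul (S.rep_H hk)
    rwa [mul_one] at this
  have r1 := ((S.rep_n k).mul (S.rep_n i)).inv.mul ((S.rep_n i).mul (S.rep_n k))
  have r2 := ((h3 k).mul (h3 i)).inv.mul ((h3 i).mul (h3 k))
  rw [← map_mul, ← map_mul, ← map_inv, ← map_mul] at r2
  have e1 := key r1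
  have e2 := key r2
  have e3 : θ ((S.n k * S.n i)⁻¹ * (S.n i * S.n k)) ∈ S.H ↔ (S.n k * S.n i)⁻¹ * (S.n i * S.n k) ∈ S.H := by
    conv_lhs => rw [← hH]
    exact apply_mem_im
  rw [inv_mul_eq_one] at e1 e2
  constructor
  · intro h
    exact (e2.1 (e3.2 (e1.2 h.symm))).symm
  · intro h
    exact (e1.1 (e3.1 (e2.2 h.symm))).symm

namespace TE

open H22.Coord H22.RCCheck H22.RCComb H22.ChevTri H22.ChevRel H22.ChevSys H22.ChevMain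
open H22.ChevStd H22.ChevSolv H22.ChevUni H22.St H22.TwChev H22.TwSt H22.RCPack H22.TwTab H22.TwX
open H22.TwDat H22.TwAut H22.TwThm H22.TwPerf H22.TwMisc H22.TwE6
open H23.WSplit H23.Lift H23.SysRes H23.TwW H23.LiftPP H23.RankOne H23.MultTE6
open Cfsg.Lie (ChevalleyDatum)
open scoped MatrixGroups Matrix commutatorElement

local notation "E6" => Cfsg.Lie.chevE6
local notation "X6" => H22.PoinE6.rcxE6
local notation "F4X" => H22.PoinF4.rcxF4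
local notation "Z6" => H22.ChevLex.lexE6
local notation "W6" => certE6'
local notation "C4" => comb F4X

variable {K : Type*} [Field K] [Finite K] (R : Rel E6 K) (hm : ∀ r < (E6).nroots, ∀ c d : K, c ≠ 0 → d ≠ 0 →
      (E6).hMat K r c * (E6).hMat K r d = (E6).hMat K r (c * d))
  (φ : K →+* K) (hφ : Function.Surjective φ) (h2 : ∀ t : K, φ (φ t) = t)

theorem xb_eq {r : ℕ} (hr : r < (E6).nroots) (t : K) : (St R hm).xb r t = H40.ChevAut.xe R ⟨r, hr⟩ t := rfl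

/-- root elements of the short nodes -/
def a0 (t : K) : ↥(Γ₀ R hm φ hφ) := x2 R hm φ hφ h2 (m0 R hm φ hφ) t
def a0' (t : K) : ↥(Γ₀ R hm φ hφ) := x2 R hm φ hφ h2 (n0 R hm φ hφ) t
def a1 (t : K) : ↥(Γ₀ R hm φ hφ) := x2 R hm φ hφ h2 (m1 R hm φ hφ) t
def a1' (t : K) : ↥(Γ₀ R hm φ hφ) := x2 R hm φ hφ h2 (n1 R hm φ hφ) t
/-- root elements of the long nodes -/
def a2 (t : Kf φ) : ↥(Γ₀ R hm φ hφ) := x1 R hm φ hφ (m2 R hm φ hφ) t
def a2' (t : Kf φ) : ↥(Γ₀ R hm φ hφ) := x1 R hm φ hφ (n2 R hm φ hφ) t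
def a3 (t : Kf φ) : ↥(Γ₀ R hm φ hφ) := x1 R hm φ hφ (m3 R hm φ hφ) t
def a3' (t : Kf φ) : ↥(Γ₀ R hm φ hφ) := x1 R hm φ hφ (n3 R hm φ hφ) t

include h2 in
theorem Γ₀_le {L : Subgroup ↥((E6).group K)} (p0 : ∀ t, xs R hm φ 56 36 t ∈ L) (p0' : ∀ t, xs R hm φ 15 35 t ∈ L)
    (p1 : ∀ t, xs R hm φ 42 37 t ∈ L) (p1' : ∀ t, xs R hm φ 29 34 t ∈ L)
    (p2 : ∀ t, φ t = t → (St R hm).xb 39 t ∈ L) (p2' : ∀ t, φ t = t → (St R hm).xb 32 t ∈ L)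
    (p3 : ∀ t, φ t = t → (St R hm).xb 46 t ∈ L) (p3' : ∀ t, φ t = t → (St R hm).xb 25 t ∈ L) : Γ₀ R hm φ hφ ≤ L := by
  have b1 : ∀ J : Fin 4, X1 ((St R hm).stSys X6 Z6 W6) (A R hm φ hφ).σ (E R hm φ hφ).clF ((C4).simple J) ≤ L := by
    intro J
    rcases four J with rfl | rfl | rfl | rfl
    · intro g hg
      obtain ⟨t, _, rfl⟩ := (m0 R hm φ hφ).1 hg
      exact p0 t
    · intro g hg
      obtain ⟨t, _, rfl⟩ := (m1 R hm φ hφ).1 hg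
      exact p1 t
    · intro g hg
      obtain ⟨t, ht, rfl⟩ := (m2 R hm φ hφ).1 hg
      exact p2 t ht
    · intro g hg
      obtain ⟨t, ht, rfl⟩ := (m3 R hm φ hφ).1 hg
      exact p3 t ht
  have b2 : ∀ J : Fin 4, X1 ((St R hm).stSys X6 Z6 W6) (A R hm φ hφ).σ (E R hm φ hφ).clF
      ((C4).neg ((C4).simple J)) ≤ L := by
    intro J
    rcases four J with rfl | rfl | rfl | rfl
    · intro g hg
      obtain ⟨t, _, rfl⟩ := (n0 R hm φ hφ).1 hg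
      exact p0' t
    · intro g hg
      obtain ⟨t, _, rfl⟩ := (n1 R hm φ hφ).1 hg
      exact p1' t
    · intro g hg
      obtain ⟨t, ht, rfl⟩ := (n2 R hm φ hφ).1 hg
      exact p2' t ht
    · intro g hg
      obtain ⟨t, ht, rfl⟩ := (n3 R hm φ hφ).1 hg
      exact p3' t ht
  exact (T R hm φ hφ).Γ_le (hfix_le R hm φ hφ h2 b1 b2) b1 b2

/-- generation -/
theorem gen {L : Subgroup ↥(Γ₀ R hm φ hφ)} (p0 : ∀ t, a0 R hm φ hφ h2 t ∈ L) (p0' : ∀ t, a0' R hm φ hφ h2 t ∈ L)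
    (p1 : ∀ t, a1 R hm φ hφ h2 t ∈ L) (p1' : ∀ t, a1' R hm φ hφ h2 t ∈ L)
    (p2 : ∀ t, a2 R hm φ hφ t ∈ L) (p2' : ∀ t, a2' R hm φ hφ t ∈ L)
    (p3 : ∀ t, a3 R hm φ hφ t ∈ L) (p3' : ∀ t, a3' R hm φ hφ t ∈ L) : L = ⊤ := by
  rw [eq_top_iff]
  have h := Γ₀_le R hm φ hφ h2 (L := L.map (Γ₀ R hm φ hφ).subtype) (fun t => ⟨_, p0 t, rfl⟩) (fun t => ⟨_, p0' t, rfl⟩)
    (fun t => ⟨_, p1 t, rfl⟩) (fun t => ⟨_, p1' t, rfl⟩)
    (fun t ht => ⟨_, p2 ⟨t, ht⟩, rfl⟩) (fun t ht => ⟨_, p2' ⟨t, ht⟩, rfl⟩)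
    (fun t ht => ⟨_, p3 ⟨t, ht⟩, rfl⟩) (fun t ht => ⟨_, p3' ⟨t, ht⟩, rfl⟩)
  intro g _
  obtain ⟨g', hg', e⟩ := h g.2
  rw [← Subtype.ext e]; exact hg'

theorem hom_ext {M : Type*} [Group M] {f g : ↥(Γ₀ R hm φ hφ) →* M}
    (p0 : ∀ t, f (a0 R hm φ hφ h2 t) = g (a0 R hm φ hφ h2 t)) (p0' : ∀ t, f (a0' R hm φ hφ h2 t) = g (a0' R hm φ hφ h2 t))
    (p1 : ∀ t, f (a1 R hm φ hφ h2 t) = g (a1 R hm φ hφ h2 t)) (p1' : ∀ t, f (a1' R hm φ hφ h2 t) = g (a1' R hm φ hφ h2 t))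
    (p2 : ∀ t, f (a2 R hm φ hφ t) = g (a2 R hm φ hφ t)) (p2' : ∀ t, f (a2' R hm φ hφ t) = g (a2' R hm φ hφ t))
    (p3 : ∀ t, f (a3 R hm φ hφ t) = g (a3 R hm φ hφ t)) (p3' : ∀ t, f (a3' R hm φ hφ t) = g (a3' R hm φ hφ t)) : f = g := by
  have := gen R hm φ hφ h2 (L := f.eqLocus g) p0 p0' p1 p1' p2 p2' p3 p3'
  ext x
  have h : x ∈ f.eqLocus g := by rw [this]; trivial
  exact h

/-! ### parametrised nodes -/

theorem P0 : Par (SS R hm φ hφ) (0 : Fin 4) (a0 R hm φ hφ h2) (a0' R hm φ hφ h2) where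
  r1 := (r1_pair R hm φ (by decide) (by decide) (o1 R hm)).res _ _
  inj := by
    intro t u e
    exact xs_inj0 R hm φ hφ (congrArg Subtype.val e)
  mx := mem_x2 R hm φ hφ h2 (m0 R hm φ hφ)
  my := mem_x2 R hm φ hφ h2 (n0 R hm φ hφ)

theorem P1 : Par (SS R hm φ hφ) (1 : Fin 4) (a1 R hm φ hφ h2) (a1' R hm φ hφ h2) where
  r1 := (r1_pair R hm φ (by decide) (by decide) (o2 R hm)).res _ _
  inj := by
    intro t u e
    exact xs_inj1 R hm φ hφ (congrArg Subtype.val e)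
  mx := mem_x2 R hm φ hφ h2 (m1 R hm φ hφ)
  my := mem_x2 R hm φ hφ h2 (n1 R hm φ hφ)

theorem P2 : Par (SS R hm φ hφ) (2 : Fin 4) (a2 R hm φ hφ) (a2' R hm φ hφ) where
  r1 := (r1_single R hm φ (r := 39) (by decide)).res _ _
  inj := by
    intro t u e
    apply Subtype.ext
    exact H40.ChevAut.xe_inj R X6 (r := ⟨39, by decide⟩) (congrArg Subtype.val e)
  mx := mem_x1 R hm φ hφ (m2 R hm φ hφ)
  my := mem_x1 R hm φ hφ (n2 R hm φ hφ)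

theorem P3 : Par (SS R hm φ hφ) (3 : Fin 4) (a3 R hm φ hφ) (a3' R hm φ hφ) where
  r1 := (r1_single R hm φ (r := 46) (by decide)).res _ _
  inj := by
    intro t u e
    apply Subtype.ext
    exact H40.ChevAut.xe_inj R X6 (r := ⟨46, by decide⟩) (congrArg Subtype.val e)
  mx := mem_x1 R hm φ hφ (m3 R hm φ hφ)
  my := mem_x1 R hm φ hφ (n3 R hm φ hφ)

end TE

end H40.TwOut
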