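import Mathlib
import Cfsg.Agent.Lib.H40.TwOut7

/-!
Outer automorphisms of `²E₆(q)`: diagonal and field automorphisms.
-/
set_option autoImplicit false
set_option linter.unusedSectionVars false
set_option linter.unusedVariables false

namespace H40.TwOut

open H22.RGD H40.RGDOpp H40.RGDAut

namespace TE

open H22.Coord H22.RCCheck H22.RCComb H22.ChevTri H22.ChevRel H22.ChevSys H22.ChevMain
open H22.ChevStd H22.ChevSolv H22.ChevUni H22.St H22.TwChev H22.TwSt H22.RCPack H22.TwTab H22.TwX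
open H22.TwDat H22.TwAut H22.TwThm H22.TwPerf H22.TwMisc H22.TwE6
open H23.WSplit H23.Lift H23.SysRes H23.TwW H23.LiftPP H23.RankOne H23.MultTE6
open Cfsg.Lie (ChevalleyDatum)
open scoped MatrixGroups Matrix commutatorElement

local notation "E6" => Cfsg.Lie.chevE6
local notation "X6" => H22.PoinE6.rcxE6
local notation "F4X" => H22.PoinF4.rcxF4
local notation "Z6" => H22.ChevLex.lexE6
local notation "W6" => certE6'
local notation "C4" => comb F4X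

variable {K : Type*} [Field K] [Finite K] (R : Rel E6 K) (hm : ∀ r < (E6).nroots, ∀ c d : K, c ≠ 0 → d ≠ 0 →
      (E6).hMat K r c * (E6).hMat K r d = (E6).hMat K r (c * d))
  (φ : K →+* K) (hφ : Function.Surjective φ) (h2 : ∀ t : K, φ (φ t) = t)

/-- parameters of a diagonal automorphism -/
def par (α β : Kˣ) (γ δ : (Kf φ)ˣ) : Fin (E6).rank → Kˣ := fun i =>
  if i.val = 0 then α else if i.val = 1 then Units.map (Kf φ).subtype.toMonoidHom δ else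
    if i.val = 2 then β else if i.val = 3 then Units.map (Kf φ).subtype.toMonoidHom γ else
      if i.val = 4 then Units.map φ.toMonoidHom β else Units.map φ.toMonoidHom α

theorem sm0 : (E6).simple 0 = 56 := by decide +kernel
theorem sm1 : (E6).simple 1 = 46 := by decide +kernel
theorem sm2 : (E6).simple 2 = 42 := by decide +kernel
theorem sm3 : (E6).simple 3 = 39 := by decide +kernel
theorem sm4 : (E6).simple 4 = 37 := by decide +kernel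
theorem sm5 : (E6).simple 5 = 36 := by decide +kernel
theorem ng56 : (E6).neg 56 = 15 := by decide +kernel
theorem ng36 : (E6).neg 36 = 35 := by decide +kernel
theorem ng42 : (E6).neg 42 = 29 := by decide +kernel
theorem ng37 : (E6).neg 37 = 34 := by decide +kernel
theorem ng39 : (E6).neg 39 = 32 := by decide +kernel
theorem ng46 : (E6).neg 46 = 25 := by decide +kernel
theorem c56 (α β : Kˣ) (γ δ : (Kf φ)ˣ) : ((H40.ChevAut.chr (X6).rc (par φ α β γ δ) 56 : Kˣ) : K) = (α : K) := by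
  have := H40.ChevAut.chr_simple (X6).rc (par φ α β γ δ) (⟨0, by decide⟩ : Fin (E6).rank)
  rw [← sm0, this]; rfl
theorem c46 (α β : Kˣ) (γ δ : (Kf φ)ˣ) : ((H40.ChevAut.chr (X6).rc (par φ α β γ δ) 46 : Kˣ) : K) = ((δ : Kf φ) : K) := by
  have := H40.ChevAut.chr_simple (X6).rc (par φ α β γ δ) (⟨1, by decide⟩ : Fin (E6).rank)
  rw [← sm1, this]; rfl
theorem c42 (α β : Kˣ) (γ δ : (Kf φ)ˣ) : ((H40.ChevAut.chr (X6).rc (par φ α β γ δ) 42 : Kˣ) : K) = (β : K) := by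
  have := H40.ChevAut.chr_simple (X6).rc (par φ α β γ δ) (⟨2, by decide⟩ : Fin (E6).rank)
  rw [← sm2, this]; rfl
theorem c39 (α β : Kˣ) (γ δ : (Kf φ)ˣ) : ((H40.ChevAut.chr (X6).rc (par φ α β γ δ) 39 : Kˣ) : K) = ((γ : Kf φ) : K) := by
  have := H40.ChevAut.chr_simple (X6).rc (par φ α β γ δ) (⟨3, by decide⟩ : Fin (E6).rank)
  rw [← sm3, this]; rfl
theorem c37 (α β : Kˣ) (γ δ : (Kf φ)ˣ) : ((H40.ChevAut.chr (X6).rc (par φ α β γ δ) 37 : Kˣ) : K) = φ β := by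
  have := H40.ChevAut.chr_simple (X6).rc (par φ α β γ δ) (⟨4, by decide⟩ : Fin (E6).rank)
  rw [← sm4, this]; rfl
theorem c36 (α β : Kˣ) (γ δ : (Kf φ)ˣ) : ((H40.ChevAut.chr (X6).rc (par φ α β γ δ) 36 : Kˣ) : K) = φ α := by
  have := H40.ChevAut.chr_simple (X6).rc (par φ α β γ δ) (⟨5, by decide⟩ : Fin (E6).rank)
  rw [← sm5, this]; rfl
theorem c15 (α β : Kˣ) (γ δ : (Kf φ)ˣ) : ((H40.ChevAut.chr (X6).rc (par φ α β γ δ) 15 : Kˣ) : K) = ((α⁻¹ : Kˣ) : K) := by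
  rw [← ng56, H40.ChevAut.chr_neg _ _ (by decide), Units.val_inv_eq_inv_val, c56, Units.val_inv_eq_inv_val]
theorem c25 (α β : Kˣ) (γ δ : (Kf φ)ˣ) : ((H40.ChevAut.chr (X6).rc (par φ α β γ δ) 25 : Kˣ) : K) = (((δ⁻¹ : (Kf φ)ˣ) : Kf φ) : K) := by
  rw [← ng46, H40.ChevAut.chr_neg _ _ (by decide), Units.val_inv_eq_inv_val, c46, Units.val_inv_eq_inv_val]; rfl
theorem c29 (α β : Kˣ) (γ δ : (Kf φ)ˣ) : ((H40.ChevAut.chr (X6).rc (par φ α β γ δ) 29 : Kˣ) : K) = ((β⁻¹ : Kˣ) : K) := by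
  rw [← ng42, H40.ChevAut.chr_neg _ _ (by decide), Units.val_inv_eq_inv_val, c42, Units.val_inv_eq_inv_val]
theorem c32 (α β : Kˣ) (γ δ : (Kf φ)ˣ) : ((H40.ChevAut.chr (X6).rc (par φ α β γ δ) 32 : Kˣ) : K) = (((γ⁻¹ : (Kf φ)ˣ) : Kf φ) : K) := by
  rw [← ng39, H40.ChevAut.chr_neg _ _ (by decide), Units.val_inv_eq_inv_val, c39, Units.val_inv_eq_inv_val]; rfl
theorem c34 (α β : Kˣ) (γ δ : (Kf φ)ˣ) : ((H40.ChevAut.chr (X6).rc (par φ α β γ δ) 34 : Kˣ) : K) = φ (β⁻¹ : Kˣ) := by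
  rw [← ng37, H40.ChevAut.chr_neg _ _ (by decide), Units.val_inv_eq_inv_val, c37, Units.val_inv_eq_inv_val, map_inv₀]
theorem c35 (α β : Kˣ) (γ δ : (Kf φ)ˣ) : ((H40.ChevAut.chr (X6).rc (par φ α β γ δ) 35 : Kˣ) : K) = φ (α⁻¹ : Kˣ) := by
  rw [← ng36, H40.ChevAut.chr_neg _ _ (by decide), Units.val_inv_eq_inv_val, c36, Units.val_inv_eq_inv_val, map_inv₀]

theorem dAut_xb (a : Fin (E6).rank → Kˣ) {r : ℕ} (hr : r < (E6).nroots) (t : K) :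
    H40.ChevAut.dAut R X6 a ((St R hm).xb r t) = (St R hm).xb r ((H40.ChevAut.chr (X6).rc a r : K) * t) :=
  H40.ChevAut.dAut_xe R X6 a ⟨r, hr⟩ t

theorem dAut_xs (a : Fin (E6).rank → Kˣ) {r s : ℕ} (hr : r < (E6).nroots) (hs : s < (E6).nroots) {v : K}
    (h1 : ((H40.ChevAut.chr (X6).rc a r : Kˣ) : K) = v) (h2 : ((H40.ChevAut.chr (X6).rc a s : Kˣ) : K) = φ v) (t : K) :
    H40.ChevAut.dAut R X6 a (xs R hm φ r s t) = xs R hm φ r s (v * t) := by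
  unfold xs
  rw [map_mul, dAut_xb R hm _ hr, dAut_xb R hm _ hs, h1, h2, ← map_mul]

theorem fAut_xb (σ : K ≃+* K) {r : ℕ} (hr : r < (E6).nroots) (t : K) :
    H40.ChevAut.fAut (D := E6) σ ((St R hm).xb r t) = (St R hm).xb r (σ t) :=
  H40.ChevAut.fAut_xe R σ ⟨r, hr⟩ t

/-- field automorphisms commute with the endomorphism -/
theorem comm_pow {q : ℕ} (hq : ∀ t, φ t = t ^ q) (σ : K ≃+* K) (t : K) : σ (φ t) = φ (σ t) := by rw [hq, hq, map_pow]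

theorem fAut_xs {q : ℕ} (hq : ∀ t, φ t = t ^ q) (σ : K ≃+* K) {r s : ℕ} (hr : r < (E6).nroots) (hs : s < (E6).nroots)
    (t : K) : H40.ChevAut.fAut (D := E6) σ (xs R hm φ r s t) = xs R hm φ r s (σ t) := by
  unfold xs
  rw [map_mul, fAut_xb R hm _ hr, fAut_xb R hm _ hs, comm_pow φ hq]

/-! ### the restrictions -/

include h2 in
theorem Γ₀_map {θ : ↥((E6).group K) ≃* ↥((E6).group K)} (p0 : ∀ t, θ (xs R hm φ 56 36 t) ∈ Γ₀ R hm φ hφ)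
    (p0' : ∀ t, θ (xs R hm φ 15 35 t) ∈ Γ₀ R hm φ hφ)
    (p1 : ∀ t, θ (xs R hm φ 42 37 t) ∈ Γ₀ R hm φ hφ) (p1' : ∀ t, θ (xs R hm φ 29 34 t) ∈ Γ₀ R hm φ hφ)
    (p2 : ∀ t, φ t = t → θ ((St R hm).xb 39 t) ∈ Γ₀ R hm φ hφ) (p2' : ∀ t, φ t = t → θ ((St R hm).xb 32 t) ∈ Γ₀ R hm φ hφ)
    (p3 : ∀ t, φ t = t → θ ((St R hm).xb 46 t) ∈ Γ₀ R hm φ hφ) (p3' : ∀ t, φ t = t → θ ((St R hm).xb 25 t) ∈ Γ₀ R hm φ hφ) :
    ∀ x ∈ Γ₀ R hm φ hφ, θ x ∈ Γ₀ R hm φ hφ := by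
  have := Γ₀_le R hm φ hφ h2 (L := (Γ₀ R hm φ hφ).comap θ.toMonoidHom) p0 p0' p1 p1' p2 p2' p3 p3'
  exact fun x hx => this hx

theorem ml39 {t : K} (ht : φ t = t) : (St R hm).xb 39 t ∈ Γ₀ R hm φ hφ := (a2 R hm φ hφ ⟨t, ht⟩).2
theorem ml32 {t : K} (ht : φ t = t) : (St R hm).xb 32 t ∈ Γ₀ R hm φ hφ := (a2' R hm φ hφ ⟨t, ht⟩).2
theorem ml46 {t : K} (ht : φ t = t) : (St R hm).xb 46 t ∈ Γ₀ R hm φ hφ := (a3 R hm φ hφ ⟨t, ht⟩).2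
theorem ml25 {t : K} (ht : φ t = t) : (St R hm).xb 25 t ∈ Γ₀ R hm φ hφ := (a3' R hm φ hφ ⟨t, ht⟩).2

include h2 in
/-- action of the diagonal automorphisms on the fixed group -/
theorem dmem (α β : Kˣ) (γ δ : (Kf φ)ˣ) : ∀ x ∈ Γ₀ R hm φ hφ, H40.ChevAut.dAut R X6 (par φ α β γ δ) x ∈ Γ₀ R hm φ hφ := by
  apply Γ₀_map R hm φ hφ h2
  · intro t
    rw [dAut_xs R hm φ _ (by decide) (by decide) (c56 φ α β γ δ) (c36 φ α β γ δ)]; exact (a0 R hm φ hφ h2 _).2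
  · intro t
    rw [dAut_xs R hm φ _ (by decide) (by decide) (c15 φ α β γ δ) (c35 φ α β γ δ)]; exact (a0' R hm φ hφ h2 _).2
  · intro t
    rw [dAut_xs R hm φ _ (by decide) (by decide) (c42 φ α β γ δ) (c37 φ α β γ δ)]; exact (a1 R hm φ hφ h2 _).2
  · intro t
    rw [dAut_xs R hm φ _ (by decide) (by decide) (c29 φ α β γ δ) (c34 φ α β γ δ)]; exact (a1' R hm φ hφ h2 _).2
  · intro t ht
    rw [dAut_xb R hm _ (by decide), c39]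
    exact ml39 R hm φ hφ (by rw [map_mul, ht]; congr 1; exact (γ : Kf φ).2)
  · intro t ht
    rw [dAut_xb R hm _ (by decide), c32]
    exact ml32 R hm φ hφ (by rw [map_mul, ht]; congr 1; exact ((γ⁻¹ : (Kf φ)ˣ) : Kf φ).2)
  · intro t ht
    rw [dAut_xb R hm _ (by decide), c46]
    exact ml46 R hm φ hφ (by rw [map_mul, ht]; congr 1; exact (δ : Kf φ).2)
  · intro t ht
    rw [dAut_xb R hm _ (by decide), c25]
    exact ml25 R hm φ hφ (by rw [map_mul, ht]; congr 1; exact ((δ⁻¹ : (Kf φ)ˣ) : Kf φ).2)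

include h2 in
theorem fmem {q : ℕ} (hq : ∀ t, φ t = t ^ q) (σ : K ≃+* K) :
    ∀ x ∈ Γ₀ R hm φ hφ, H40.ChevAut.fAut (D := E6) σ x ∈ Γ₀ R hm φ hφ := by
  apply Γ₀_map R hm φ hφ h2
  · intro t
    rw [fAut_xs R hm φ hq σ (by decide) (by decide)]; exact (a0 R hm φ hφ h2 _).2
  · intro t
    rw [fAut_xs R hm φ hq σ (by decide) (by decide)]; exact (a0' R hm φ hφ h2 _).2
  · intro t
    rw [fAut_xs R hm φ hq σ (by decide) (by decide)]; exact (a1 R hm φ hφ h2 _).2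
  · intro t
    rw [fAut_xs R hm φ hq σ (by decide) (by decide)]; exact (a1' R hm φ hφ h2 _).2
  · intro t ht
    rw [fAut_xb R hm _ (by decide)]
    exact ml39 R hm φ hφ (by rw [← comm_pow φ hq, ht])
  · intro t ht
    rw [fAut_xb R hm _ (by decide)]
    exact ml32 R hm φ hφ (by rw [← comm_pow φ hq, ht])
  · intro t ht
    rw [fAut_xb R hm _ (by decide)]
    exact ml46 R hm φ hφ (by rw [← comm_pow φ hq, ht])
  · intro t ht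
    rw [fAut_xb R hm _ (by decide)]
    exact ml25 R hm φ hφ (by rw [← comm_pow φ hq, ht])

/-- diagonal automorphisms -/
noncomputable def dA (α β : Kˣ) (γ δ : (Kf φ)ˣ) : MulAut ↥(Γ₀ R hm φ hφ) := resAut _ _ (dmem R hm φ hφ h2 α β γ δ)
/-- field automorphisms -/
noncomputable def fA {q : ℕ} (hq : ∀ t, φ t = t ^ q) (σ : K ≃+* K) : MulAut ↥(Γ₀ R hm φ hφ) :=
  resAut _ _ (fmem R hm φ hφ h2 hq σ)

theorem hXr {θ : ↥((E6).group K) ≃* ↥((E6).group K)} (h : ∀ r (hr : r < (E6).nroots) t, ∃ u, θ ((St R hm).xb r t) = (St R hm).xb r u) :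
    ∀ r, ∀ x ∈ ((St R hm).stSys X6 Z6 W6).X r, θ x ∈ ((St R hm).stSys X6 Z6 W6).X r := by
  intro r x hx
  obtain ⟨t, rfl⟩ := ((St R hm).mem_Xb r.2).1 hx
  obtain ⟨u, hu⟩ := h r r.2 t
  exact ((St R hm).mem_Xb r.2).2 ⟨u, hu⟩

theorem dA_norm (α β : Kˣ) (γ δ : (Kf φ)ˣ) : Norm (SS R hm φ hφ) (dA R hm φ hφ h2 α β γ δ) :=
  norm_res _ _ _ _ _ (dmem R hm φ hφ h2 α β γ δ) (hXr R hm fun r hr t => ⟨_, dAut_xb R hm _ hr t⟩)

theorem fA_norm {q : ℕ} (hq : ∀ t, φ t = t ^ q) (σ : K ≃+* K) : Norm (SS R hm φ hφ) (fA R hm φ hφ h2 hq σ) :=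
  norm_res _ _ _ _ _ (fmem R hm φ hφ h2 hq σ) (hXr R hm fun r hr t => ⟨_, fAut_xb R hm _ hr t⟩)

theorem dA_a0 (α β : Kˣ) (γ δ : (Kf φ)ˣ) (t : K) : dA R hm φ hφ h2 α β γ δ (a0 R hm φ hφ h2 t) = a0 R hm φ hφ h2 (α * t) :=
  Subtype.ext (dAut_xs R hm φ _ (by decide) (by decide) (c56 φ α β γ δ) (c36 φ α β γ δ) t)
theorem dA_a0' (α β : Kˣ) (γ δ : (Kf φ)ˣ) (t : K) : dA R hm φ hφ h2 α β γ δ (a0' R hm φ hφ h2 t) = a0' R hm φ hφ h2 ((α⁻¹ : Kˣ) * t) :=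
  Subtype.ext (dAut_xs R hm φ _ (by decide) (by decide) (c15 φ α β γ δ) (c35 φ α β γ δ) t)
theorem dA_a1 (α β : Kˣ) (γ δ : (Kf φ)ˣ) (t : K) : dA R hm φ hφ h2 α β γ δ (a1 R hm φ hφ h2 t) = a1 R hm φ hφ h2 (β * t) :=
  Subtype.ext (dAut_xs R hm φ _ (by decide) (by decide) (c42 φ α β γ δ) (c37 φ α β γ δ) t)
theorem dA_a1' (α β : Kˣ) (γ δ : (Kf φ)ˣ) (t : K) : dA R hm φ hφ h2 α β γ δ (a1' R hm φ hφ h2 t) = a1' R hm φ hφ h2 ((β⁻¹ : Kˣ) * t) :=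
  Subtype.ext (dAut_xs R hm φ _ (by decide) (by decide) (c29 φ α β γ δ) (c34 φ α β γ δ) t)
theorem dA_a2 (α β : Kˣ) (γ δ : (Kf φ)ˣ) (t : Kf φ) : dA R hm φ hφ h2 α β γ δ (a2 R hm φ hφ t) = a2 R hm φ hφ (γ * t) := by
  apply Subtype.ext
  change H40.ChevAut.dAut R X6 (par φ α β γ δ) ((St R hm).xb 39 (t : K)) = (St R hm).xb 39 ((γ * t : Kf φ) : K)
  rw [dAut_xb R hm _ (by decide), c39]; rfl
theorem dA_a2' (α β : Kˣ) (γ δ : (Kf φ)ˣ) (t : Kf φ) : dA R hm φ hφ h2 α β γ δ (a2' R hm φ hφ t) = a2' R hm φ hφ ((γ⁻¹ : (Kf φ)ˣ) * t) := by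
  apply Subtype.ext
  change H40.ChevAut.dAut R X6 (par φ α β γ δ) ((St R hm).xb 32 (t : K)) = (St R hm).xb 32 (((γ⁻¹ : (Kf φ)ˣ) * t : Kf φ) : K)
  rw [dAut_xb R hm _ (by decide), c32]; rfl
theorem dA_a3 (α β : Kˣ) (γ δ : (Kf φ)ˣ) (t : Kf φ) : dA R hm φ hφ h2 α β γ δ (a3 R hm φ hφ t) = a3 R hm φ hφ (δ * t) := by
  apply Subtype.ext
  change H40.ChevAut.dAut R X6 (par φ α β γ δ) ((St R hm).xb 46 (t : K)) = (St R hm).xb 46 ((δ * t : Kf φ) : K)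
  rw [dAut_xb R hm _ (by decide), c46]; rfl
theorem dA_a3' (α β : Kˣ) (γ δ : (Kf φ)ˣ) (t : Kf φ) : dA R hm φ hφ h2 α β γ δ (a3' R hm φ hφ t) = a3' R hm φ hφ ((δ⁻¹ : (Kf φ)ˣ) * t) := by
  apply Subtype.ext
  change H40.ChevAut.dAut R X6 (par φ α β γ δ) ((St R hm).xb 25 (t : K)) = (St R hm).xb 25 (((δ⁻¹ : (Kf φ)ˣ) * t : Kf φ) : K)
  rw [dAut_xb R hm _ (by decide), c25]; rfl

/-- the restriction of a field automorphism -/
def sf {q : ℕ} (hq : ∀ t, φ t = t ^ q) (σ : K ≃+* K) (t : Kf φ) : Kf φ :=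
  ⟨σ t, by
    change φ (σ t) = σ t
    rw [← comm_pow φ hq]; congr 1; exact t.2⟩

theorem fA_a0 {q : ℕ} (hq : ∀ t, φ t = t ^ q) (σ : K ≃+* K) (t : K) : fA R hm φ hφ h2 hq σ (a0 R hm φ hφ h2 t) = a0 R hm φ hφ h2 (σ t) :=
  Subtype.ext (fAut_xs R hm φ hq σ (by decide) (by decide) t)
theorem fA_a0' {q : ℕ} (hq : ∀ t, φ t = t ^ q) (σ : K ≃+* K) (t : K) : fA R hm φ hφ h2 hq σ (a0' R hm φ hφ h2 t) = a0' R hm φ hφ h2 (σ t) :=
  Subtype.ext (fAut_xs R hm φ hq σ (by decide) (by decide) t)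
theorem fA_a1 {q : ℕ} (hq : ∀ t, φ t = t ^ q) (σ : K ≃+* K) (t : K) : fA R hm φ hφ h2 hq σ (a1 R hm φ hφ h2 t) = a1 R hm φ hφ h2 (σ t) :=
  Subtype.ext (fAut_xs R hm φ hq σ (by decide) (by decide) t)
theorem fA_a1' {q : ℕ} (hq : ∀ t, φ t = t ^ q) (σ : K ≃+* K) (t : K) : fA R hm φ hφ h2 hq σ (a1' R hm φ hφ h2 t) = a1' R hm φ hφ h2 (σ t) :=
  Subtype.ext (fAut_xs R hm φ hq σ (by decide) (by decide) t)
theorem fA_a2 {q : ℕ} (hq : ∀ t, φ t = t ^ q) (σ : K ≃+* K) (t : Kf φ) : fA R hm φ hφ h2 hq σ (a2 R hm φ hφ t) = a2 R hm φ hφ (sf φ hq σ t) :=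
  Subtype.ext (fAut_xb R hm σ (by decide) t)
theorem fA_a2' {q : ℕ} (hq : ∀ t, φ t = t ^ q) (σ : K ≃+* K) (t : Kf φ) : fA R hm φ hφ h2 hq σ (a2' R hm φ hφ t) = a2' R hm φ hφ (sf φ hq σ t) :=
  Subtype.ext (fAut_xb R hm σ (by decide) t)
theorem fA_a3 {q : ℕ} (hq : ∀ t, φ t = t ^ q) (σ : K ≃+* K) (t : Kf φ) : fA R hm φ hφ h2 hq σ (a3 R hm φ hφ t) = a3 R hm φ hφ (sf φ hq σ t) :=
  Subtype.ext (fAut_xb R hm σ (by decide) t)
theorem fA_a3' {q : ℕ} (hq : ∀ t, φ t = t ^ q) (σ : K ≃+* K) (t : Kf φ) : fA R hm φ hφ h2 hq σ (a3' R hm φ hφ t) = a3' R hm φ hφ (sf φ hq σ t) :=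
  Subtype.ext (fAut_xb R hm σ (by decide) t)

end TE

end H40.TwOut
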