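import Mathlib
import Cfsg.Agent.Lib.H40.TwOut8

/-!
Outer automorphisms of `²E₆(q)`: relations between the nodes and the count.
-/
set_option autoImplicit false
set_option linter.unusedSectionVars false
set_option linter.unusedVariables false

namespace H40.TwOut

open H22.RGD H40.RGDOpp H40.RGDAut

namespace TE

open H22.Coord H22.RCCheck H22.RCComb H22.ChevTri H22.ChevRel H22.ChevSys H22.ChevMain
open H22.ChevStd H22.ChevSolv H22.ChevUni H22.St H22.TwChev H22.TwSt H22.RCPack H22.TwTab H22.TwX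
open H22.TwDat H22.TwAut H22.TwThm H22.TwPerf H22.TwMisc H22.TwE6
open H23.WSplit H23.Lift H23.SysRes H23.TwW H23.LiftPP H23.RankOne H23.MultTE6
open Cfsg.Lie (ChevalleyDatum)
open scoped MatrixGroups Matrix commutatorElement

local notation "E6" => Cfsg.Lie.chevE6
local notation "X6" => H22.PoinE6.rcxE6
local notation "F4X" => H22.PoinF4.rcxF4
local notation "Z6" => H22.ChevLex.lexE6
local notation "W6" => certE6'
local notation "C4" => comb F4X

variable {K : Type*} [Field K] [Finite K] (R : Rel E6 K) (hm : ∀ r < (E6).nroots, ∀ c d : K, c ≠ 0 → d ≠ 0 →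
      (E6).hMat K r c * (E6).hMat K r d = (E6).hMat K r (c * d))
  (φ : K →+* K) (hφ : Function.Surjective φ) (h2 : ∀ t : K, φ (φ t) = t)


/-! ### the relations between the nodes -/

theorem hh_he {i : Fin 6} {r s : ℕ} (hr : (E6).simple i = r) (hs : (E6).neg r = s) (t : K) : hh ((St R hm).xb r) ((St R hm).xb s) t =
    H40.ChevAut.he R X6 i t := by
  subst hr
  subst hs
  unfold hh nn H40.ChevAut.he H40.ChevAut.ne
  rfl

theorem he_xb {i : Fin 6} {r : ℕ} (hr : r < (E6).nroots) {t : K} (ht : t ≠ 0) {c : ℤ} (hc : (E6).cartan i r = c) (u : K) :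
    H40.ChevAut.he R X6 i t * (St R hm).xb r u * (H40.ChevAut.he R X6 i t)⁻¹ = (St R hm).xb r (t ^ c * u) := by
  have e1 := H40.ChevAut.he_conj R X6 i ht (⟨r, hr⟩ : Fin (E6).nroots) u
  rw [show (E6).cartan (i : ℕ) ((⟨r, hr⟩ : Fin (E6).nroots) : ℕ) = c from hc] at e1
  exact e1

theorem conj_xs {g : ↥((E6).group K)} {r s : ℕ} {c : K} (h1 : ∀ u, g * (St R hm).xb r u * g⁻¹ = (St R hm).xb r (c * u))
    (h3 : ∀ u, g * (St R hm).xb s u * g⁻¹ = (St R hm).xb s (φ c * u)) (u : K) : g * xs R hm φ r s u * g⁻¹ = xs R hm φ r s (c * u) := by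
  unfold xs
  rw [map_mul, ← h1, ← h3]
  group

theorem ct0 : ((E6).cartan 2 56 = -1) ∧ ((E6).cartan 2 36 = 0) ∧ ((E6).cartan 4 56 = 0) ∧ ((E6).cartan 4 36 = -1) := by decide +kernel
theorem ct1 : ((E6).cartan 3 42 = -1) ∧ ((E6).cartan 3 37 = -1) ∧ ((E6).cartan 3 46 = -1) := by decide +kernel

theorem hh_a1 (t : K) : ((hh (a1 R hm φ hφ h2) (a1' R hm φ hφ h2) t : ↥(Γ₀ R hm φ hφ)) : ↥((E6).group K)) =
    H40.ChevAut.he R X6 (2 : Fin 6) t * H40.ChevAut.he R X6 (4 : Fin 6) (φ t) := by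
  rw [← hh_he R hm sm2 ng42, ← hh_he R hm sm4 ng37]
  exact hh_prod φ (fun t u => (o2 R hm t u).1) (fun t u => (o2 R hm t u).2.1) (fun t u => (o2 R hm t u).2.2.1)
    (fun t u => (o2 R hm t u).2.2.2) t

theorem hh_a2 (t : Kf φ) : ((hh (a2 R hm φ hφ) (a2' R hm φ hφ) t : ↥(Γ₀ R hm φ hφ)) : ↥((E6).group K)) =
    H40.ChevAut.he R X6 (3 : Fin 6) (t : K) := by
  rw [← hh_he R hm sm3 ng39]
  rfl

theorem cj_val (g x : ↥(Γ₀ R hm φ hφ)) : ((g * x * g⁻¹ : ↥(Γ₀ R hm φ hφ)) : ↥((E6).group K)) = g * x * (g : ↥((E6).group K))⁻¹ := rfl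
theorem a0_val (t : K) : ((a0 R hm φ hφ h2 t : ↥(Γ₀ R hm φ hφ)) : ↥((E6).group K)) = xs R hm φ 56 36 t := rfl
theorem a1_val (t : K) : ((a1 R hm φ hφ h2 t : ↥(Γ₀ R hm φ hφ)) : ↥((E6).group K)) = xs R hm φ 42 37 t := rfl
theorem a3_val (t : Kf φ) : ((a3 R hm φ hφ t : ↥(Γ₀ R hm φ hφ)) : ↥((E6).group K)) = (St R hm).xb 46 (t : K) := rfl

theorem rel10 (t : K) (ht : t ≠ 0) (u : K) : hh (a1 R hm φ hφ h2) (a1' R hm φ hφ h2) t * a0 R hm φ hφ h2 u *
    (hh (a1 R hm φ hφ h2) (a1' R hm φ hφ h2) t)⁻¹ = a0 R hm φ hφ h2 ((RingHom.id K t)⁻¹ * u) := by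
  apply Subtype.ext
  have hft : φ t ≠ 0 := (map_ne_zero φ).2 ht
  rw [cj_val, a0_val, a0_val, hh_a1, RingHom.id_apply]
  refine conj_xs R hm φ ?_ ?_ u
  · intro u
    have e1 := he_xb R hm (i := 4) (r := 56) (by decide) hft (c := 0) ct0.2.2.1 u
    have e2 := he_xb R hm (i := 2) (r := 56) (by decide) ht (c := -1) ct0.1 u
    rw [zpow_zero, one_mul] at e1
    rw [zpow_neg_one] at e2
    rw [← e2]
    nth_rw 2 [← e1]
    group
  · intro u
    have e1 := he_xb R hm (i := 4) (r := 36) (by decide) hft (c := -1) ct0.2.2.2 u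
    have e2 := he_xb R hm (i := 2) (r := 36) (by decide) ht (c := 0) ct0.2.1 ((φ t)⁻¹ * u)
    rw [zpow_zero, one_mul] at e2
    rw [zpow_neg_one] at e1
    rw [map_inv₀, ← e2, ← e1]
    group

theorem rel21 (t : Kf φ) (ht : t ≠ 0) (u : K) : hh (a2 R hm φ hφ) (a2' R hm φ hφ) t * a1 R hm φ hφ h2 u *
    (hh (a2 R hm φ hφ) (a2' R hm φ hφ) t)⁻¹ = a1 R hm φ hφ h2 (((Kf φ).subtype t)⁻¹ * u) := by
  apply Subtype.ext
  have ht' : (t : K) ≠ 0 := fun h => ht (Subtype.ext h)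
  have hft : φ (t : K) = t := t.2
  rw [cj_val, a1_val, a1_val, hh_a2, Subfield.subtype_apply]
  refine conj_xs R hm φ ?_ ?_ u
  · intro u
    have e1 := he_xb R hm (i := 3) (r := 42) (by decide) ht' (c := -1) ct1.1 u
    rw [zpow_neg_one] at e1
    exact e1
  · intro u
    have e1 := he_xb R hm (i := 3) (r := 37) (by decide) ht' (c := -1) ct1.2.1 u
    rw [zpow_neg_one] at e1
    rw [map_inv₀, hft]
    exact e1

theorem rel23 (t : Kf φ) (ht : t ≠ 0) (u : Kf φ) : hh (a2 R hm φ hφ) (a2' R hm φ hφ) t * a3 R hm φ hφ u *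
    (hh (a2 R hm φ hφ) (a2' R hm φ hφ) t)⁻¹ = a3 R hm φ hφ ((RingHom.id (Kf φ) t)⁻¹ * u) := by
  apply Subtype.ext
  have ht' : (t : K) ≠ 0 := fun h => ht (Subtype.ext h)
  rw [cj_val, a3_val, a3_val, hh_a2, RingHom.id_apply]
  have e1 := he_xb R hm (i := 3) (r := 46) (by decide) ht' (c := -1) ct1.2.2 u
  rw [zpow_neg_one] at e1
  rw [e1]; rfl

/-! ### the diagram -/

theorem cm02 : (C4).refl (0 : Fin 4) * (C4).refl (2 : Fin 4) = (C4).refl (2 : Fin 4) * (C4).refl (0 : Fin 4) := by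
  have : ∀ c : Fin 48, (C4).refl (0 : Fin 4) ((C4).refl (2 : Fin 4) c) = (C4).refl (2 : Fin 4) ((C4).refl (0 : Fin 4) c) := by
    decide +kernel
  exact Equiv.ext this
theorem cm03 : (C4).refl (0 : Fin 4) * (C4).refl (3 : Fin 4) = (C4).refl (3 : Fin 4) * (C4).refl (0 : Fin 4) := by
  have : ∀ c : Fin 48, (C4).refl (0 : Fin 4) ((C4).refl (3 : Fin 4) c) = (C4).refl (3 : Fin 4) ((C4).refl (0 : Fin 4) c) := by
    decide +kernel
  exact Equiv.ext this
theorem cm13 : (C4).refl (1 : Fin 4) * (C4).refl (3 : Fin 4) = (C4).refl (3 : Fin 4) * (C4).refl (1 : Fin 4) := by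
  have : ∀ c : Fin 48, (C4).refl (1 : Fin 4) ((C4).refl (3 : Fin 4) c) = (C4).refl (3 : Fin 4) ((C4).refl (1 : Fin 4) c) := by
    decide +kernel
  exact Equiv.ext this
theorem cm12 : (C4).refl (1 : Fin 4) * (C4).refl (2 : Fin 4) ≠ (C4).refl (2 : Fin 4) * (C4).refl (1 : Fin 4) := by
  have : ∃ c : Fin 48, (C4).refl (1 : Fin 4) ((C4).refl (2 : Fin 4) c) ≠ (C4).refl (2 : Fin 4) ((C4).refl (1 : Fin 4) c) := by
    decide +kernel
  obtain ⟨c, hc⟩ := this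
  intro h
  exact hc (congrArg (fun w : Equiv.Perm (Fin 48) => w c) h)

end TE

end H40.TwOut
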