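import Mathlib
import Cfsg.Agent.Lib.H40.TwOut6
import Cfsg.Agent.Lib.H40.TwOut9

/-!
Outer automorphisms of `²E₆(q)`: the count.
-/
set_option autoImplicit false
set_option linter.unusedSectionVars false
set_option linter.unusedVariables false

namespace H40.TwOut

open H22.RGD H40.RGDOpp H40.RGDAut


/-- the size of the root group of a parametrised node -/
theorem Par.card {Φ I G : Type*} [Group G] {C : RootComb Φ I} {S : Sys G C} {K : Type*} [Field K] {i : I} {x y : K → G}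
    (P : Par S i x y) : Nat.card (S.X (C.simple i)) = Nat.card K := by
  symm
  refine Nat.card_congr (Equiv.ofBijective (fun t => (⟨x t, (P.mx _).2 ⟨t, rfl⟩⟩ : S.X (C.simple i))) ⟨?_, ?_⟩)
  · intro t u e
    exact P.inj (congrArg Subtype.val e)
  · rintro ⟨g, hg⟩
    obtain ⟨t, rfl⟩ := (P.mx g).1 hg
    exact ⟨t, rfl⟩

namespace TE

open H22.Coord H22.RCCheck H22.RCComb H22.ChevTri H22.ChevRel H22.ChevSys H22.ChevMain
open H22.ChevStd H22.ChevSolv H22.ChevUni H22.St H22.TwChev H22.TwSt H22.RCPack H22.TwTab H22.TwX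
open H22.TwDat H22.TwAut H22.TwThm H22.TwPerf H22.TwMisc H22.TwE6
open H23.WSplit H23.Lift H23.SysRes H23.TwW H23.LiftPP H23.RankOne H23.MultTE6
open Cfsg.Lie (ChevalleyDatum)
open scoped MatrixGroups Matrix commutatorElement

local notation "E6" => Cfsg.Lie.chevE6
local notation "X6" => H22.PoinE6.rcxE6
local notation "F4X" => H22.PoinF4.rcxF4
local notation "Z6" => H22.ChevLex.lexE6
local notation "W6" => certE6'
local notation "C4" => comb F4X

variable {K : Type*} [Field K] [Finite K] (R : Rel E6 K) (hm : ∀ r < (E6).nroots, ∀ c d : K, c ≠ 0 → d ≠ 0 →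
      (E6).hMat K r c * (E6).hMat K r d = (E6).hMat K r (c * d))
  (φ : K →+* K) (hφ : Function.Surjective φ) (h2 : ∀ t : K, φ (φ t) = t)


include h2 in
theorem SS_Γ : (SS R hm φ hφ).Γ = ⊤ := by
  rw [eq_top_iff, ← gen_X R hm φ hφ h2, iSup_le_iff]
  intro r
  exact (SS R hm φ hφ).X_le_Γ (longest F4X) r

include h2 in
/-- the permutation of the nodes is trivial -/
theorem perm_one (hne : Nat.card (Kf φ) ≠ Nat.card K) {θ : MulAut ↥(Γ₀ R hm φ hφ)} {ρ : Fin 4 ≃ Fin 4}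
    (hH : im θ (SS R hm φ hφ).H = (SS R hm φ hφ).H)
    (h1 : ∀ i, im θ ((SS R hm φ hφ).X ((C4).simple i)) = (SS R hm φ hφ).X ((C4).simple (ρ i)))
    (hn : ∀ i, ∃ h ∈ (SS R hm φ hφ).H, θ ((SS R hm φ hφ).n i) = (SS R hm φ hφ).n (ρ i) * h) : ∀ i, ρ i = i := by
  have hc : ∀ i, Nat.card ((SS R hm φ hφ).X ((C4).simple (ρ i))) = Nat.card ((SS R hm φ hφ).X ((C4).simple i)) := by
    intro i
    rw [← h1 i, card_im]
  have k0 := (P0 R hm φ hφ h2).card
  have k1 := (P1 R hm φ hφ h2).card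
  have k2 := (P2 R hm φ hφ).card
  have k3 := (P3 R hm φ hφ).card
  have hinj := ρ.injective
  -- the classes
  have s0 : ρ (0 : Fin 4) = (0 : Fin 4) ∨ ρ (0 : Fin 4) = (1 : Fin 4) := by
    rcases four (ρ (0 : Fin 4)) with h | h | h | h
    · exact Or.inl h
    · exact Or.inr h
    · exfalso
      have := hc (0 : Fin 4)
      rw [h, k2, k0] at this
      exact hne this
    · exfalso
      have := hc (0 : Fin 4)
      rw [h, k3, k0] at this
      exact hne this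
  have s1 : ρ (1 : Fin 4) = (0 : Fin 4) ∨ ρ (1 : Fin 4) = (1 : Fin 4) := by
    rcases four (ρ (1 : Fin 4)) with h | h | h | h
    · exact Or.inl h
    · exact Or.inr h
    · exfalso
      have := hc (1 : Fin 4)
      rw [h, k2, k1] at this
      exact hne this
    · exfalso
      have := hc (1 : Fin 4)
      rw [h, k3, k1] at this
      exact hne this
  have s2 : ρ (2 : Fin 4) = (2 : Fin 4) ∨ ρ (2 : Fin 4) = (3 : Fin 4) := by
    rcases four (ρ (2 : Fin 4)) with h | h | h | h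
    · exfalso
      have := hc (2 : Fin 4)
      rw [h, k2, k0] at this
      exact hne this.symm
    · exfalso
      have := hc (2 : Fin 4)
      rw [h, k2, k1] at this
      exact hne this.symm
    · exact Or.inl h
    · exact Or.inr h
  have s3 : ρ (3 : Fin 4) = (2 : Fin 4) ∨ ρ (3 : Fin 4) = (3 : Fin 4) := by
    rcases four (ρ (3 : Fin 4)) with h | h | h | h
    · exfalso
      have := hc (3 : Fin 4)
      rw [h, k3, k0] at this
      exact hne this.symm
    · exfalso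
      have := hc (3 : Fin 4)
      rw [h, k3, k1] at this
      exact hne this.symm
    · exact Or.inl h
    · exact Or.inr h
  have hcm := comm_iff hH hn (1 : Fin 4) (2 : Fin 4)
  have hb : ¬ ((C4).refl (ρ (1 : Fin 4)) * (C4).refl (ρ (2 : Fin 4)) = (C4).refl (ρ (2 : Fin 4)) * (C4).refl (ρ (1 : Fin 4))) :=
    fun h => cm12 (hcm.2 h)
  have r1 : ρ (1 : Fin 4) = (1 : Fin 4) := by
    rcases s1 with h | h
    · exfalso
      apply hb
      rcases s2 with h' | h'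
      · rw [h, h']; exact cm02
      · rw [h, h']; exact cm03
    · exact h
  have r0 : ρ (0 : Fin 4) = (0 : Fin 4) := by
    rcases s0 with h | h
    · exact h
    · exfalso
      have := hinj (h.trans r1.symm)
      exact (by decide : ¬ ((0 : Fin 4) = (1 : Fin 4))) this
  have r2 : ρ (2 : Fin 4) = (2 : Fin 4) := by
    rcases s2 with h | h
    · exact h
    · exfalso
      apply hb
      rw [r1, h]; exact cm13
  have r3 : ρ (3 : Fin 4) = (3 : Fin 4) := by
    rcases s3 with h | h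
    · exfalso
      have := hinj (h.trans r2.symm)
      exact (by decide : ¬ ((3 : Fin 4) = (2 : Fin 4))) this
    · exact h
  intro i
  rcases four i with rfl | rfl | rfl | rfl
  · exact r0
  · exact r1
  · exact r2
  · exact r3

/-- all normalised automorphisms -/
theorem exists_par {q : ℕ} (hq : ∀ t, φ t = t ^ q) (hne : Nat.card (Kf φ) ≠ Nat.card K) {θ : MulAut ↥(Γ₀ R hm φ hφ)}
    (hθ : H40.RGDAut.Norm (SS R hm φ hφ) θ) : ∃ (α β : Kˣ) (γ δ : (Kf φ)ˣ) (σ : K ≃+* K),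
      θ = dA R hm φ hφ h2 α β γ δ * fA R hm φ hφ h2 hq σ := by
  have hΓ := SS_Γ R hm φ hφ h2
  obtain ⟨ρ, hρ⟩ := hθ.main (longest F4X) hΓ (coord F4X).simple_injective
  have hone := perm_one R hm φ hφ h2 hne (hθ.H (longest F4X) hΓ) (fun i => (hρ i).1) (fun i => (hρ i).2.2)
  have hN := im_N_of (hθ.H (longest F4X) hΓ) (fun i => (hρ i).2.2)
  have q1 : ∀ i, im θ ((SS R hm φ hφ).X ((C4).simple i)) = (SS R hm φ hφ).X ((C4).simple i) := by
    intro i
    have h3 := (hρ i).1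
    have hi : ρ i = i := hone i
    rwa [hi] at h3
  have q2 : ∀ i, im θ ((SS R hm φ hφ).X ((C4).neg ((C4).simple i))) = (SS R hm φ hφ).X ((C4).neg ((C4).simple i)) := by
    intro i
    have h3 := (hρ i).2.1
    have hi : ρ i = i := hone i
    rwa [hi] at h3
  obtain ⟨α, ψ0, f0, f0'⟩ := (P0 R hm φ hφ h2).exists_form (q1 (0 : Fin 4)) (q2 (0 : Fin 4)) hN
  obtain ⟨β, ψ, f1, f1'⟩ := (P1 R hm φ hφ h2).exists_form (q1 (1 : Fin 4)) (q2 (1 : Fin 4)) hN
  obtain ⟨γ, ψ2, f2, f2'⟩ := (P2 R hm φ hφ).exists_form (q1 (2 : Fin 4)) (q2 (2 : Fin 4)) hN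
  obtain ⟨δ, ψ3, f3, f3'⟩ := (P3 R hm φ hφ).exists_form (q1 (3 : Fin 4)) (q2 (3 : Fin 4)) hN
  have c1 := cross (P1 R hm φ hφ h2).r1 (P0 R hm φ hφ h2).inj (RingHom.id K) (rel10 R hm φ hφ h2) f1 f1' f0
  have c2 := cross (P2 R hm φ hφ).r1 (P1 R hm φ hφ h2).inj (Kf φ).subtype (rel21 R hm φ hφ h2) f2 f2' f1
  have c3 := cross (P2 R hm φ hφ).r1 (P3 R hm φ hφ).inj (RingHom.id (Kf φ)) (rel23 R hm φ hφ) f2 f2' f3
  have e0 : ∀ t, ψ0 t = ψ t := c1
  have e2 : ∀ t, sf φ hq ψ t = ψ2 t := fun t => Subtype.ext (c2 t)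
  have e3 : ∀ t, ψ3 t = ψ2 t := c3
  refine ⟨α, β, γ, δ, ψ, ?_⟩
  have key : θ.toMonoidHom = (dA R hm φ hφ h2 α β γ δ * fA R hm φ hφ h2 hq ψ).toMonoidHom := by
    apply hom_ext R hm φ hφ h2
    · intro t
      change θ _ = dA R hm φ hφ h2 α β γ δ (fA R hm φ hφ h2 hq ψ _)
      rw [fA_a0, dA_a0, f0, e0]
    · intro t
      change θ _ = dA R hm φ hφ h2 α β γ δ (fA R hm φ hφ h2 hq ψ _)
      rw [fA_a0', dA_a0', f0', e0]
    · intro t
      change θ _ = dA R hm φ hφ h2 α β γ δ (fA R hm φ hφ h2 hq ψ _)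
      rw [fA_a1, dA_a1, f1]
    · intro t
      change θ _ = dA R hm φ hφ h2 α β γ δ (fA R hm φ hφ h2 hq ψ _)
      rw [fA_a1', dA_a1', f1']
    · intro t
      change θ _ = dA R hm φ hφ h2 α β γ δ (fA R hm φ hφ h2 hq ψ _)
      rw [fA_a2, dA_a2, f2, e2]
    · intro t
      change θ _ = dA R hm φ hφ h2 α β γ δ (fA R hm φ hφ h2 hq ψ _)
      rw [fA_a2', dA_a2', f2', e2]
    · intro t
      change θ _ = dA R hm φ hφ h2 α β γ δ (fA R hm φ hφ h2 hq ψ _)
      rw [fA_a3, dA_a3, f3, e3, e2]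
    · intro t
      change θ _ = dA R hm φ hφ h2 α β γ δ (fA R hm φ hφ h2 hq ψ _)
      rw [fA_a3', dA_a3', f3', e3, e2]
  exact MulEquiv.toMonoidHom_injective key

include h2 in
theorem card_NA {q : ℕ} (hq : ∀ t, φ t = t ^ q) (hne : Nat.card (Kf φ) ≠ Nat.card K) :
    Nat.card (NA (SS R hm φ hφ)) = Nat.card Kˣ * Nat.card Kˣ * (Nat.card (Kf φ)ˣ * Nat.card (Kf φ)ˣ) * Nat.card (K ≃+* K) := by
  rw [← Nat.card_prod, ← Nat.card_prod, ← Nat.card_prod, ← Nat.card_prod]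
  symm
  refine Nat.card_congr (Equiv.ofBijective (fun p : ((Kˣ × Kˣ) × ((Kf φ)ˣ × (Kf φ)ˣ)) × (K ≃+* K) =>
    (⟨dA R hm φ hφ h2 p.1.1.1 p.1.1.2 p.1.2.1 p.1.2.2 * fA R hm φ hφ h2 hq p.2, Subgroup.mul_mem _ (dA_norm R hm φ hφ h2 _ _ _ _)
      (fA_norm R hm φ hφ h2 hq _)⟩ : NA (SS R hm φ hφ))) ⟨?_, ?_⟩)
  · rintro ⟨⟨⟨α, β⟩, ⟨γ, δ⟩⟩, σ⟩ ⟨⟨⟨α', β'⟩, ⟨γ', δ'⟩⟩, σ'⟩ e
    have e0 : dA R hm φ hφ h2 α β γ δ * fA R hm φ hφ h2 hq σ = dA R hm φ hφ h2 α' β' γ' δ' * fA R hm φ hφ h2 hq σ' := congrArg Subtype.val e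
    have e1 : ∀ t, (α : K) * σ t = α' * σ' t := by
      intro t
      have := congrArg (fun θ : MulAut ↥(Γ₀ R hm φ hφ) => θ (a0 R hm φ hφ h2 t)) e0
      simp only [MulAut.mul_apply] at this
      rw [fA_a0, fA_a0, dA_a0, dA_a0] at this
      exact (P0 R hm φ hφ h2).inj this
    have e2 := e1 1
    rw [map_one, map_one, mul_one, mul_one] at e2
    have e3 : α = α' := Units.ext e2
    subst e3
    have e4 : σ = σ' := by
      ext t
      exact mul_left_cancel₀ α.ne_zero (e1 t)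
    subst e4
    have e6 : sf φ hq σ 1 = 1 := Subtype.ext (map_one σ)
    have e5 : β = β' := by
      have := congrArg (fun θ : MulAut ↥(Γ₀ R hm φ hφ) => θ (a1 R hm φ hφ h2 1)) e0
      simp only [MulAut.mul_apply] at this
      rw [fA_a1, dA_a1, dA_a1] at this
      have := (P1 R hm φ hφ h2).inj this
      rw [map_one, mul_one, mul_one] at this
      exact Units.ext this
    have e7 : γ = γ' := by
      have := congrArg (fun θ : MulAut ↥(Γ₀ R hm φ hφ) => θ (a2 R hm φ hφ 1)) e0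
      simp only [MulAut.mul_apply] at this
      rw [fA_a2, dA_a2, dA_a2] at this
      have := (P2 R hm φ hφ).inj this
      rw [e6, mul_one, mul_one] at this
      exact Units.ext this
    have e8 : δ = δ' := by
      have := congrArg (fun θ : MulAut ↥(Γ₀ R hm φ hφ) => θ (a3 R hm φ hφ 1)) e0
      simp only [MulAut.mul_apply] at this
      rw [fA_a3, dA_a3, dA_a3] at this
      have := (P3 R hm φ hφ).inj this
      rw [e6, mul_one, mul_one] at this
      exact Units.ext this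
    subst e5 e7 e8
    rfl
  · rintro ⟨θ, hθ⟩
    obtain ⟨α, β, γ, δ, σ, h⟩ := exists_par R hm φ hφ h2 hq hne hθ
    exact ⟨⟨⟨⟨α, β⟩, ⟨γ, δ⟩⟩, σ⟩, Subtype.ext h.symm⟩

theorem card_out {K : Type*} [Field K] [Fintype K] {p f : ℕ} [Fact p.Prime] [CharP K p] (hK : Fintype.card K = p ^ (2 * f)) (hf : 1 ≤ f) :
    Nat.card (Cfsg.Out ↥(Cfsg.Lie.twistedE6 K (p ^ f))) = 2 * Nat.gcd 3 (p ^ f + 1) * f := by
  set q := p ^ f with hqdef
  have hp : p.Prime := Fact.out
  have hq0 : IsPrimePow q := ⟨p, f, hp.prime, hf, rfl⟩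
  have hq1 : 1 < q := hq0.one_lt
  have hK0 : Nat.card K = p ^ (2 * f) := by rw [Nat.card_eq_fintype_card]; exact hK
  have hKq : Fintype.card K = q ^ 2 := by rw [hK, hqdef, ← pow_mul, mul_comm]
  have hK' : Nat.card K = q ^ 2 := by rw [Nat.card_eq_fintype_card]; exact hKq
  obtain ⟨φ, hφ, hφq⟩ := exists_frob hq0 (by norm_num : (2 : ℕ) ≠ 0) hK'
  have h2 : ∀ t : K, φ (φ t) = t := by
    intro t
    rw [hφq, hφq, ← pow_mul]
    have := FiniteField.pow_card t
    rwa [hKq, show q ^ 2 = q * q by ring] at this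
  have hcf : Nat.card {t : K // φ t = t} = q := by
    simp only [hφq]
    exact card_fixed hq1 (by norm_num) hK'
  have hcf' : Nat.card (Kf φ) = q := hcf
  have hne : Nat.card (Kf φ) ≠ Nat.card K := by
    rw [hcf', hK']
    have : q ^ 1 < q ^ 2 := Nat.pow_lt_pow_right hq1 (by norm_num)
    rw [pow_one] at this
    exact this.ne
  have hG := Γ_eq (RR K) (H22.St.hmul_all _ memE6) φ hφ h2 hφq
  have hM := M_Γ (T (RR K) (H22.St.hmul_all _ memE6) φ hφ).tw
  let e : ↥(Γ₀ (RR K) (H22.St.hmul_all _ memE6) φ hφ) ≃* ↥(Cfsg.Lie.twistedE6 K q) :=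
    (Subgroup.equivMapOfInjective _ ((E6).group K).subtype (Subgroup.subtype_injective _)).trans
      (MulEquiv.subgroupCongr (hM.symm.trans hG))
  have hΓ := SS_Γ (RR K) (H22.St.hmul_all _ memE6) φ hφ h2
  have hZ := center_bot e (H22.TwE6.s1070 hq0 hKq)
  have hU : Nat.card (SS (RR K) (H22.St.hmul_all _ memE6) φ hφ).U = p ^ (f * 36) := by
    rw [card_SU (RR K) (H22.St.hmul_all _ memE6) φ hφ h2 hK' hcf, hqdef, ← pow_mul]
  have hS := conj_of_index hp hU (index_ndvd (RR K) (H22.St.hmul_all _ memE6) φ hφ h2 hq1 hK' hφq hp (dvd_pow_self p (by omega)))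
  have h := card_out_mul (SS (RR K) (H22.St.hmul_all _ memE6) φ hφ) (longest F4X) hΓ (fun θ => H40.RGDAut.exists_norm _ (longest F4X) hΓ hS θ) hZ
  have hH := card_SH (RR K) (H22.St.hmul_all _ memE6) φ hφ h2 hq1 hK' hφq
  rw [card_NA (RR K) (H22.St.hmul_all _ memE6) φ hφ h2 hφq hne,
    Nat.card_units, Nat.card_units, hcf', hK', H50.FieldAut.card_ringAut p hK0] at h
  rw [← H40.SzAut.card_out_congr e]
  have hposH : 0 < Nat.card (SS (RR K) (H22.St.hmul_all _ memE6) φ hφ).H := Nat.card_pos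
  have h5 : Nat.card (Cfsg.Out ↥(Γ₀ (RR K) (H22.St.hmul_all _ memE6) φ hφ)) * Nat.card (SS (RR K) (H22.St.hmul_all _ memE6) φ hφ).H =
      2 * Nat.gcd 3 (q + 1) * f * Nat.card (SS (RR K) (H22.St.hmul_all _ memE6) φ hφ).H := by
    rw [h]
    calc (q ^ 2 - 1) * (q ^ 2 - 1) * ((q - 1) * (q - 1)) * (2 * f) = ((q ^ 2 - 1) ^ 2 * (q - 1) ^ 2) * (2 * f) := by ring
      _ = _ := by rw [← hH]; ring
  exact Nat.eq_of_mul_eq_mul_right hposH h5

end TE

end H40.TwOut
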