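import Mathlib
import Cfsg.Agent.Lib.H40.TwOut7
import Cfsg.Agent.Lib.H22.TwF4d
import Cfsg.Agent.Lib.H23.TwR1

/-!
Outer automorphisms of `²F₄(q)`: the nodes.
-/
set_option autoImplicit false
set_option linter.unusedSectionVars false
set_option linter.unusedVariables false

namespace H40.TwOut

open H22.RGD H40.RGDOpp H40.RGDAut

/-- a normalised automorphism which is trivial on a simple root group is trivial on the opposite root group -/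
theorem fix_neg {Φ I G : Type*} [Group G] {C : RootComb Φ I} {S : Sys G C} {θ : G ≃* G} (i : I)
    (h1 : ∀ x ∈ S.X (C.simple i), θ x = x) (h2 : ∀ x ∈ S.X (C.neg (C.simple i)), θ x ∈ S.X (C.neg (C.simple i)))
    (hn : ∃ h ∈ S.H, θ (S.n i) = S.n i * h) (hH : im θ S.H = S.H) :
    ∀ x ∈ S.X (C.neg (C.simple i)), θ x = x := by
  intro x hx
  by_cases hx1 : x = 1
  · rw [hx1, map_one]
  obtain ⟨y, hy, h, hh, z, hz, e⟩ := S.rank_one i x hx hx1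
  obtain ⟨k, hk, ek⟩ := hn
  have hθh : θ h ∈ S.H := by
    rw [← hH]; exact ⟨h, hh, rfl⟩
  have e2 : θ x = y * (S.n i * (k * θ h)) * z := by
    rw [e, map_mul, map_mul, map_mul, h1 y hy, h1 z hz, ek]
    simp only [mul_assoc]
  have e3 : x⁻¹ * θ x = z⁻¹ * (h⁻¹ * (k * θ h)) * z := by
    rw [e2]
    nth_rw 1 [e]
    group
  have hzB : z ∈ S.B := S.U_le_B (S.X_le_U (C.simple_pos i) hz)
  have h3 : x⁻¹ * θ x ∈ S.B := by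
    rw [e3]
    exact S.B.mul_mem (S.B.mul_mem (S.B.inv_mem hzB) (S.H_le_B (S.H.mul_mem (S.H.inv_mem hh) (S.H.mul_mem hk hθh)))) hzB
  have h4 : x⁻¹ * θ x ∈ S.V := S.V.mul_mem (S.V.inv_mem (S.X_neg_simple_le_V i hx)) (S.X_neg_simple_le_V i (h2 x hx))
  have h5 := S.eq_one_of_mem_B_V h3 h4
  rw [inv_mul_eq_one] at h5
  exact h5.symm

namespace TF

open H22.Coord H22.RCCheck H22.RCComb H22.ChevTri H22.ChevRel H22.ChevSys H22.ChevMain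
open H22.ChevStd H22.ChevSolv H22.ChevUni H22.St H22.TwChev H22.TwSt H22.RCPack H22.TwTab H22.TwX
open H22.TwDat H22.TwAut H22.ChevTorus H22.TwThm H22.TwPerf H22.TwMisc H22.TwB2c H22.TwF4
open H23.SysRes H23.RankOne
open Cfsg.Lie (ChevalleyDatum)
open scoped MatrixGroups Matrix commutatorElement

local notation "F4" => Cfsg.Lie.chevF4
local notation "X4" => H22.PoinF4.rcxF4
local notation "Z4" => H22.ChevLex.lexF4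
local notation "W4'" => certF4'

variable {K : Type*} [Field K] [CharP K 2] [Finite K] (R : Rel F4 K)
  (hm : ∀ r < (F4).nroots, ∀ c d : K, c ≠ 0 → d ≠ 0 →
      (F4).hMat K r c * (F4).hMat K r d = (F4).hMat K r (c * d))
  (θ ψ : K →+* K) (hθ : Function.Surjective θ) (hψ : Function.Surjective ψ) (h2 : ∀ t, ψ t = θ t ^ 2)
  (i1 : ∀ t, θ (ψ t) = t) (i2 : ∀ t, ψ (θ t) = t)

/-- the fixed group -/
noncomputable abbrev Γ₀ : Subgroup ↥((F4).group K) := (T R hm θ ψ hθ hψ h2 i1 i2).tw.sys.Γ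

theorem hX (c : Fin ttF4.n') : (T R hm θ ψ hθ hψ h2 i1 i2).tw.sys.X c ≤ Γ₀ R hm θ ψ hθ hψ h2 i1 i2 :=
  (T R hm θ ψ hθ hψ h2 i1 i2).tw.sys.X_le_Γ longest16 c

theorem hH : (T R hm θ ψ hθ hψ h2 i1 i2).tw.sys.H ≤ Γ₀ R hm θ ψ hθ hψ h2 i1 i2 :=
  ((T R hm θ ψ hθ hψ h2 i1 i2).tw.sys.H_le_B).trans (T R hm θ ψ hθ hψ h2 i1 i2).tw.sys.B_le_Γ

/-- the system in the fixed group -/
noncomputable def SS : Sys ↥(Γ₀ R hm θ ψ hθ hψ h2 i1 i2) C16 :=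
  res (T R hm θ ψ hθ hψ h2 i1 i2).tw.sys (hX R hm θ ψ hθ hψ h2 i1 i2) (hH R hm θ ψ hθ hψ h2 i1 i2)
    (fun i => (T R hm θ ψ hθ hψ h2 i1 i2).tw.sys.N_le_Γ ((T R hm θ ψ hθ hψ h2 i1 i2).tw.sys.n_mem_N i))

/-- elements of the fixed group -/
def a0 (t : K) : ↥(Γ₀ R hm θ ψ hθ hψ h2 i1 i2) :=
  ⟨xs R hm θ 33 24 t, hX R hm θ ψ hθ hψ h2 i1 i2 _ ((m0 R hm θ ψ hθ hψ h2 i2).2 ⟨t, rfl⟩)⟩
def a0' (t : K) : ↥(Γ₀ R hm θ ψ hθ hψ h2 i1 i2) :=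
  ⟨xs R hm θ 14 23 t, hX R hm θ ψ hθ hψ h2 i1 i2 _ ((n0 R hm θ ψ hθ hψ h2 i2).2 ⟨t, rfl⟩)⟩
def b0 (t u : K) : ↥(Γ₀ R hm θ ψ hθ hψ h2 i1 i2) :=
  ⟨xw R hm θ ψ 27 25 28 30 t u, hX R hm θ ψ hθ hψ h2 i1 i2 _ ((m1 R hm θ ψ hθ hψ h2 i1 i2).2 ⟨t, u, rfl⟩)⟩
def b0' (t u : K) : ↥(Γ₀ R hm θ ψ hθ hψ h2 i1 i2) :=
  ⟨xw R hm θ ψ 20 22 19 17 t u, hX R hm θ ψ hθ hψ h2 i1 i2 _ ((n1 R hm θ ψ hθ hψ h2 i1 i2).2 ⟨t, u, rfl⟩)⟩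

theorem mem_a0 (g : ↥(Γ₀ R hm θ ψ hθ hψ h2 i1 i2)) : g ∈ (SS R hm θ ψ hθ hψ h2 i1 i2).X (C16.simple (0 : Fin 2)) ↔
    ∃ t, g = a0 R hm θ ψ hθ hψ h2 i1 i2 t := by
  constructor
  · intro hg
    obtain ⟨t, e⟩ := (m0 R hm θ ψ hθ hψ h2 i2).1 hg
    exact ⟨t, Subtype.ext e⟩
  · rintro ⟨t, rfl⟩
    exact (m0 R hm θ ψ hθ hψ h2 i2).2 ⟨t, rfl⟩

theorem mem_a0' (g : ↥(Γ₀ R hm θ ψ hθ hψ h2 i1 i2)) : g ∈ (SS R hm θ ψ hθ hψ h2 i1 i2).X (C16.neg (C16.simple (0 : Fin 2))) ↔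
    ∃ t, g = a0' R hm θ ψ hθ hψ h2 i1 i2 t := by
  constructor
  · intro hg
    obtain ⟨t, e⟩ := (n0 R hm θ ψ hθ hψ h2 i2).1 hg
    exact ⟨t, Subtype.ext e⟩
  · rintro ⟨t, rfl⟩
    exact (n0 R hm θ ψ hθ hψ h2 i2).2 ⟨t, rfl⟩

theorem mem_b0 (g : ↥(Γ₀ R hm θ ψ hθ hψ h2 i1 i2)) : g ∈ (SS R hm θ ψ hθ hψ h2 i1 i2).X (C16.simple (1 : Fin 2)) ↔
    ∃ t u, g = b0 R hm θ ψ hθ hψ h2 i1 i2 t u := by
  constructor
  · intro hg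
    obtain ⟨t, u, e⟩ := (m1 R hm θ ψ hθ hψ h2 i1 i2).1 hg
    exact ⟨t, u, Subtype.ext e⟩
  · rintro ⟨t, u, rfl⟩
    exact (m1 R hm θ ψ hθ hψ h2 i1 i2).2 ⟨t, u, rfl⟩

theorem mem_b0' (g : ↥(Γ₀ R hm θ ψ hθ hψ h2 i1 i2)) : g ∈ (SS R hm θ ψ hθ hψ h2 i1 i2).X (C16.neg (C16.simple (1 : Fin 2))) ↔
    ∃ t u, g = b0' R hm θ ψ hθ hψ h2 i1 i2 t u := by
  constructor
  · intro hg
    obtain ⟨t, u, e⟩ := (n1 R hm θ ψ hθ hψ h2 i1 i2).1 hg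
    exact ⟨t, u, Subtype.ext e⟩
  · rintro ⟨t, u, rfl⟩
    exact (n1 R hm θ ψ hθ hψ h2 i1 i2).2 ⟨t, u, rfl⟩

theorem Γ₀_le {L : Subgroup ↥((F4).group K)} (p0 : ∀ t, xs R hm θ 33 24 t ∈ L) (p0' : ∀ t, xs R hm θ 14 23 t ∈ L)
    (p1 : ∀ t u, xw R hm θ ψ 27 25 28 30 t u ∈ L) (p1' : ∀ t u, xw R hm θ ψ 20 22 19 17 t u ∈ L) :
    Γ₀ R hm θ ψ hθ hψ h2 i1 i2 ≤ L := by
  have q1 : ∀ J : Fin 2, X1 ((St R hm).stSys X4 Z4 W4') (A R hm θ ψ hθ hψ h2).σ (E R hm θ ψ hθ hψ h2).clF (C16.simple J) ≤ L := by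
    intro J
    rcases two J with rfl | rfl
    · intro g hg
      obtain ⟨t, rfl⟩ := (m0 R hm θ ψ hθ hψ h2 i2).1 hg
      exact p0 t
    · intro g hg
      obtain ⟨t, u, rfl⟩ := (m1 R hm θ ψ hθ hψ h2 i1 i2).1 hg
      exact p1 t u
  have q2 : ∀ J : Fin 2, X1 ((St R hm).stSys X4 Z4 W4') (A R hm θ ψ hθ hψ h2).σ (E R hm θ ψ hθ hψ h2).clF
      (C16.neg (C16.simple J)) ≤ L := by
    intro J
    rcases two J with rfl | rfl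
    · intro g hg
      obtain ⟨t, rfl⟩ := (n0 R hm θ ψ hθ hψ h2 i2).1 hg
      exact p0' t
    · intro g hg
      obtain ⟨t, u, rfl⟩ := (n1 R hm θ ψ hθ hψ h2 i1 i2).1 hg
      exact p1' t u
  exact (T R hm θ ψ hθ hψ h2 i1 i2).Γ_le (hfix_le R hm θ ψ hθ hψ h2 i1 i2 q1 q2) q1 q2

/-- generation -/
theorem gen {L : Subgroup ↥(Γ₀ R hm θ ψ hθ hψ h2 i1 i2)} (p0 : ∀ t, a0 R hm θ ψ hθ hψ h2 i1 i2 t ∈ L)
    (p0' : ∀ t, a0' R hm θ ψ hθ hψ h2 i1 i2 t ∈ L)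
    (p1 : ∀ t u, b0 R hm θ ψ hθ hψ h2 i1 i2 t u ∈ L) (p1' : ∀ t u, b0' R hm θ ψ hθ hψ h2 i1 i2 t u ∈ L) : L = ⊤ := by
  rw [eq_top_iff]
  have h := Γ₀_le R hm θ ψ hθ hψ h2 i1 i2 (L := L.map (Γ₀ R hm θ ψ hθ hψ h2 i1 i2).subtype) (fun t => ⟨_, p0 t, rfl⟩)
    (fun t => ⟨_, p0' t, rfl⟩) (fun t u => ⟨_, p1 t u, rfl⟩) (fun t u => ⟨_, p1' t u, rfl⟩)
  intro g _
  obtain ⟨g', hg', e⟩ := h g.2
  rw [← Subtype.ext e]; exact hg'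

theorem SS_Γ : (SS R hm θ ψ hθ hψ h2 i1 i2).Γ = ⊤ := by
  apply gen R hm θ ψ hθ hψ h2 i1 i2
  · exact fun t => (SS R hm θ ψ hθ hψ h2 i1 i2).X_le_Γ longest16 _ ((mem_a0 R hm θ ψ hθ hψ h2 i1 i2 _).2 ⟨t, rfl⟩)
  · exact fun t => (SS R hm θ ψ hθ hψ h2 i1 i2).X_le_Γ longest16 _ ((mem_a0' R hm θ ψ hθ hψ h2 i1 i2 _).2 ⟨t, rfl⟩)
  · exact fun t u => (SS R hm θ ψ hθ hψ h2 i1 i2).X_le_Γ longest16 _ ((mem_b0 R hm θ ψ hθ hψ h2 i1 i2 _).2 ⟨t, u, rfl⟩)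
  · exact fun t u => (SS R hm θ ψ hθ hψ h2 i1 i2).X_le_Γ longest16 _ ((mem_b0' R hm θ ψ hθ hψ h2 i1 i2 _).2 ⟨t, u, rfl⟩)

/-! ### the node of type A1 -/

theorem r1_pair : R1 (xs R hm θ 33 24) (xs R hm θ 14 23) := by
  have C := H23.ChevAll.core F4 memF4
  have a : R1 ((St R hm).xb 24) ((St R hm).xb 23) := H23.TwR1.r1 (St R hm) X4 Z4 W4' C ⟨24, by decide⟩
  have b : R1 ((St R hm).xb 33) ((St R hm).xb 14) := H23.TwR1.r1 (St R hm) X4 Z4 W4' C ⟨33, by decide⟩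
  have o := o1 R hm
  have h1 := a.prod b θ (fun t u => (o u t).1.symm) (fun t u => (o u t).2.2.1.symm) (fun t u => (o u t).2.1.symm)
    (fun t u => (o u t).2.2.2.symm)
  have e1 : (fun t => (St R hm).xb 24 t * (St R hm).xb 33 (θ t)) = xs R hm θ 33 24 :=
    funext fun t => (o (θ t) t).1.symm
  have e2 : (fun t => (St R hm).xb 23 t * (St R hm).xb 14 (θ t)) = xs R hm θ 14 23 :=
    funext fun t => (o (θ t) t).2.2.2.symm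
  rw [e1, e2] at h1
  exact h1

theorem P0 : Par (SS R hm θ ψ hθ hψ h2 i1 i2) (0 : Fin 2) (a0 R hm θ ψ hθ hψ h2 i1 i2) (a0' R hm θ ψ hθ hψ h2 i1 i2) where
  r1 := (r1_pair R hm θ).res _ _
  inj := by
    intro t u e
    exact xs_inj R hm θ ψ hθ hψ h2 (congrArg Subtype.val e)
  mx := mem_a0 R hm θ ψ hθ hψ h2 i1 i2
  my := mem_a0' R hm θ ψ hθ hψ h2 i1 i2

theorem b0_inj {t u t' u' : K} (h : b0 R hm θ ψ hθ hψ h2 i1 i2 t u = b0 R hm θ ψ hθ hψ h2 i1 i2 t' u') : t = t' ∧ u = u' :=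
  xw_inj R hm θ ψ hθ hψ h2 (congrArg Subtype.val h)

theorem b0_mul (t u t' u' : K) : b0 R hm θ ψ hθ hψ h2 i1 i2 t u * b0 R hm θ ψ hθ hψ h2 i1 i2 t' u' =
    b0 R hm θ ψ hθ hψ h2 i1 i2 (t + t') (u + u' + θ t * t') :=
  Subtype.ext (xw_mul R hm θ ψ h2 i2 t u t' u')

/-! ### the torus -/

include i2 in
theorem hD (a b : Kˣ) : (St R hm).psi X4 Z4 W4' (tc θ a b) ∈ (St R hm).Hb ⊓ fx (A R hm θ ψ hθ hψ h2).σ := by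
  refine ⟨?_, ?_⟩
  · rw [SetLike.mem_coe, ← (St R hm).psi_range X4 Z4 W4']; exact ⟨_, rfl⟩
  · show (A R hm θ ψ hθ hψ h2).σ _ = _
    rw [(A R hm θ ψ hθ hψ h2).σ_psi Z4 W4', τ_tc R hm θ ψ hθ hψ h2 i2 a b]
    rfl

/-- torus elements -/
noncomputable def Dt (a b : Kˣ) : ↥(Γ₀ R hm θ ψ hθ hψ h2 i1 i2) :=
  ⟨(St R hm).psi X4 Z4 W4' (tc θ a b), hH R hm θ ψ hθ hψ h2 i1 i2 (hD R hm θ ψ hθ hψ h2 i2 a b)⟩

theorem Dt_mem (a b : Kˣ) : Dt R hm θ ψ hθ hψ h2 i1 i2 a b ∈ (SS R hm θ ψ hθ hψ h2 i1 i2).H := hD R hm θ ψ hθ hψ h2 i2 a b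

theorem exists_Dt {g : ↥(Γ₀ R hm θ ψ hθ hψ h2 i1 i2)} (hg : g ∈ (SS R hm θ ψ hθ hψ h2 i1 i2).H) :
    ∃ a b, g = Dt R hm θ ψ hθ hψ h2 i1 i2 a b := by
  have h1 : (g : ↥((F4).group K)) ∈ (St R hm).Hb ⊓ fx (A R hm θ ψ hθ hψ h2).σ := hg
  rw [(A R hm θ ψ hθ hψ h2).fixed_torus Z4 W4' (lift R hm θ ψ hθ hψ h2)] at h1
  obtain ⟨c, hc, e⟩ := h1
  have h3 := eq_tc R hm θ ψ hθ hψ h2 (c := c) hc
  rw [h3] at e
  exact ⟨_, _, Subtype.ext e.symm⟩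

theorem Dt_a0 (a b : Kˣ) (t : K) : Dt R hm θ ψ hθ hψ h2 i1 i2 a b * a0 R hm θ ψ hθ hψ h2 i1 i2 t *
    (Dt R hm θ ψ hθ hψ h2 i1 i2 a b)⁻¹ = a0 R hm θ ψ hθ hψ h2 i1 i2 ((a : K) ^ 2 * (b : K)⁻¹ * t) := by
  apply Subtype.ext
  change (St R hm).psi X4 Z4 W4' (tc θ a b) * xs R hm θ 33 24 t * ((St R hm).psi X4 Z4 W4' (tc θ a b))⁻¹ = xs R hm θ 33 24 _
  obtain ⟨c33, c24, -, -, -, -⟩ := chr_tc θ a b
  have e1 := psi_x (S := St R hm) Z4 W4' (tc θ a b) (show 33 < (F4).nroots by decide) (θ t)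
  have e2 := psi_x (S := St R hm) Z4 W4' (tc θ a b) (show 24 < (F4).nroots by decide) t
  rw [c33] at e1
  rw [c24] at e2
  unfold xs
  rw [← e2, map_mul, map_mul, map_pow, map_inv₀, ← e1]
  group

/-- conjugation on the Suzuki root group -/
theorem conj_xw' {g : ↥((F4).group K)} {χ : K} (h27 : ∀ t, g * (St R hm).xb 27 t * g⁻¹ = (St R hm).xb 27 (θ χ * t))
    (h25 : ∀ t, g * (St R hm).xb 25 t * g⁻¹ = (St R hm).xb 25 (χ * t))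
    (h28 : ∀ t, g * (St R hm).xb 28 t * g⁻¹ = (St R hm).xb 28 (χ * θ χ * t))
    (h30 : ∀ t, g * (St R hm).xb 30 t * g⁻¹ = (St R hm).xb 30 (ψ (χ * θ χ) * t)) (t u : K) :
    g * xw R hm θ ψ 27 25 28 30 t u * g⁻¹ = xw R hm θ ψ 27 25 28 30 (χ * t) (χ * θ χ * u) := by
  unfold xw W4
  have e1 : θ (χ * t) = θ χ * θ t := map_mul _ _ _
  have e2 : θ (χ * t) * (χ * t) + χ * θ χ * u = χ * θ χ * (θ t * t + u) := by rw [map_mul]; ring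
  have e3 : ψ (χ * θ χ * u) = ψ (χ * θ χ) * ψ u := map_mul _ _ _
  rw [e2, e1, e3, ← h27, ← h25, ← h28, ← h30]
  group

/-- the character on the Suzuki root group -/
def chi1 (a b : Kˣ) : K := (b : K) ^ 2 * (θ (b : K) ^ 2)⁻¹ * (a : K)⁻¹

include h2 i2 in
theorem thth (b : K) : θ (θ b) ^ 2 = b := by
  rw [← h2, i2]

theorem Dt_b0 (a b : Kˣ) (t u : K) : Dt R hm θ ψ hθ hψ h2 i1 i2 a b * b0 R hm θ ψ hθ hψ h2 i1 i2 t u *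
    (Dt R hm θ ψ hθ hψ h2 i1 i2 a b)⁻¹ = b0 R hm θ ψ hθ hψ h2 i1 i2 (chi1 θ a b * t) (chi1 θ a b * θ (chi1 θ a b) * u) := by
  apply Subtype.ext
  change (St R hm).psi X4 Z4 W4' (tc θ a b) * xw R hm θ ψ 27 25 28 30 t u * ((St R hm).psi X4 Z4 W4' (tc θ a b))⁻¹ =
    xw R hm θ ψ 27 25 28 30 _ _
  obtain ⟨-, -, c27, c25, c28, c30⟩ := chr_tc θ a b
  have ha : (a : K) ≠ 0 := a.ne_zero
  have hb : (b : K) ≠ 0 := b.ne_zero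
  have hta : θ (a : K) ≠ 0 := (map_ne_zero θ).2 ha
  have htb : θ (b : K) ≠ 0 := (map_ne_zero θ).2 hb
  have tb := thth θ ψ h2 i2 (b : K)
  have hθχ : θ (chi1 θ a b) = θ (b : K) ^ 2 * (b : K)⁻¹ * (θ (a : K))⁻¹ := by
    unfold chi1
    rw [map_mul, map_mul, map_inv₀, map_inv₀, map_pow, map_pow, tb]
  have hχθ : chi1 θ a b * θ (chi1 θ a b) = (b : K) * (θ (a : K))⁻¹ * (a : K)⁻¹ := by
    rw [hθχ]
    unfold chi1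
    field_simp
  have hψχ : ψ (chi1 θ a b * θ (chi1 θ a b)) = θ (b : K) ^ 2 * (θ (a : K) ^ 2)⁻¹ * (a : K)⁻¹ := by
    rw [hχθ, map_mul, map_mul, map_inv₀, map_inv₀, i2, h2, h2]
    ring
  refine conj_xw' R hm θ ψ ?_ ?_ ?_ ?_ t u
  · intro t
    have e := psi_x (S := St R hm) Z4 W4' (tc θ a b) (show 27 < (F4).nroots by decide) t
    rw [c27] at e
    rw [e, hθχ]
  · intro t
    have e := psi_x (S := St R hm) Z4 W4' (tc θ a b) (show 25 < (F4).nroots by decide) t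
    rw [c25] at e
    rw [e]; rfl
  · intro t
    have e := psi_x (S := St R hm) Z4 W4' (tc θ a b) (show 28 < (F4).nroots by decide) t
    rw [c28] at e
    rw [e, hχθ]
  · intro t
    have e := psi_x (S := St R hm) Z4 W4' (tc θ a b) (show 30 < (F4).nroots by decide) t
    rw [c30] at e
    rw [e, hψχ]

end TF

end H40.TwOut
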