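import Mathlib
import Cfsg.Agent.Lib.H40.TwOut11

/-!
Outer automorphisms of `²F₄(q)`: the Suzuki node and the field automorphisms.
-/
set_option autoImplicit false
set_option linter.unusedSectionVars false
set_option linter.unusedVariables false

namespace H40.TwOut

open H22.RGD H40.RGDOpp H40.RGDAut

/-- automorphisms of Suzuki root groups which commute with the torus -/
theorem suz_form {K : Type*} [Field K] [CharP K 2] [Finite K] (θ ψ : K →+* K) (h2 : ∀ t, ψ t = θ t ^ 2)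
    (i1 : ∀ t, θ (ψ t) = t) (i2 : ∀ t, ψ (θ t) = t) (hK : 2 < Nat.card K) (A B : K → K → K)
    (hinj : ∀ t u, A t u = 0 → B t u = 0 → t = 0 ∧ u = 0)
    (hA : ∀ t u t' u', A (t + t') (u + u' + θ t * t') = A t u + A t' u')
    (hB : ∀ t u t' u', B (t + t') (u + u' + θ t * t') = B t u + B t' u' + θ (A t u) * A t' u')
    (sA : ∀ a : K, a ≠ 0 → ∀ t u, A (a * t) (a * θ a * u) = a * A t u)
    (sB : ∀ a : K, a ≠ 0 → ∀ t u, B (a * t) (a * θ a * u) = a * θ a * B t u) :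
    ∃ β : Kˣ, ∀ t u, A t u = β * t ∧ B t u = β * θ β * u := by
  -- every element is of the form θ t * t
  have hnorm : ∀ u : K, ∃ t, θ t * t = u := by
    have hinj0 : Function.Injective (fun t : K => θ t * t) := by
      intro s t e
      have e' : θ s * s = θ t * t := e
      by_cases hs : s = 0
      · subst hs
        rw [map_zero, zero_mul] at e'
        rcases mul_eq_zero.1 e'.symm with h | h
        · exact ((map_eq_zero θ).1 h).symm
        · exact h.symm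
      have ht : t ≠ 0 := by
        rintro rfl
        rw [map_zero, zero_mul] at e'
        rcases mul_eq_zero.1 e' with h | h
        · exact hs ((map_eq_zero θ).1 h)
        · exact hs h
      have e1 : ψ (θ s * s) = ψ (θ t * t) := by rw [e']
      rw [map_mul, map_mul, i2, i2, h2, h2] at e1
      -- s θ(s)^2 = t θ(t)^2
      have e2 : (θ s * s) ^ 2 = (θ t * t) ^ 2 := by rw [e']
      have hts : θ s ≠ 0 := (map_ne_zero θ).2 hs
      have htt : θ t ≠ 0 := (map_ne_zero θ).2 ht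
      have e3 : s * (s * θ s ^ 2) = t * (s * θ s ^ 2) := by
        calc s * (s * θ s ^ 2) = (θ s * s) ^ 2 := by ring
          _ = (θ t * t) ^ 2 := e2
          _ = t * (t * θ t ^ 2) := by ring
          _ = _ := by rw [e1]
      exact mul_right_cancel₀ (mul_ne_zero hs (pow_ne_zero 2 hts)) e3
    exact (Finite.injective_iff_surjective.1 hinj0)
  have hA0 : A 0 0 = 0 := by
    have := hA 0 0 0 0
    rw [map_zero, zero_mul, add_zero, add_zero] at this
    exact left_eq_add.1 this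
  have hB0 : B 0 0 = 0 := by
    have := hB 0 0 0 0
    rw [map_zero, zero_mul, add_zero, add_zero, hA0, map_zero, zero_mul, add_zero] at this
    exact left_eq_add.1 this
  -- A vanishes on the center
  have hAz : ∀ u, A 0 u = 0 := by
    intro u
    obtain ⟨t, ht⟩ := hnorm u
    have := hA t 0 t 0
    rw [CharTwo.add_self_eq_zero, CharTwo.add_self_eq_zero, CharTwo.add_self_eq_zero, zero_add, ht] at this
    exact this
  have hA1 : ∀ t u, A t u = A t 0 := by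
    intro t u
    have := hA t 0 0 u
    rw [add_zero, mul_zero, add_zero, zero_add, hAz, add_zero] at this
    exact this
  set β := A 1 0 with hβ
  have hAt : ∀ t u, A t u = t * β := by
    intro t u
    rw [hA1]
    by_cases ht : t = 0
    · subst ht; rw [hAz, zero_mul]
    have := sA t ht 1 0
    rwa [mul_one, mul_zero] at this
  have hβ0 : β ≠ 0 := by
    intro h0
    -- then B is injective on a group of exponent four
    have e1 : ∀ t u, A t u = 0 := fun t u => by rw [hAt, h0, mul_zero]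
    have e2 : B 0 1 = 0 := by
      obtain ⟨t, ht⟩ := hnorm 1
      have := hB t 0 t 0
      rw [CharTwo.add_self_eq_zero, CharTwo.add_self_eq_zero, CharTwo.add_self_eq_zero, zero_add, zero_add, ht, e1,
        mul_zero] at this
      exact this
    exact one_ne_zero (hinj 0 1 (hAz 1) e2).2
  -- B on the center
  have hBz : ∀ u, B 0 u = β * θ β * u := by
    intro u
    obtain ⟨t, ht⟩ := hnorm u
    have := hB t 0 t 0
    rw [CharTwo.add_self_eq_zero, CharTwo.add_self_eq_zero, CharTwo.add_self_eq_zero, zero_add, zero_add, ht] at this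
    rw [this, hAt, map_mul, ← ht]
    ring
  have hBt : ∀ t u, B t u = B t 0 + β * θ β * u := by
    intro t u
    have := hB t 0 0 u
    rw [add_zero, mul_zero, add_zero, zero_add, hAz, mul_zero, add_zero, hBz] at this
    exact this
  -- the additive part
  have hδ : ∀ t t', B (t + t') 0 = B t 0 + B t' 0 := by
    intro t t'
    have := hB t 0 t' 0
    rw [zero_add, zero_add, hBt, hAt, hAt, map_mul] at this
    have e1 : β * θ β * (θ t * t') = θ t * θ β * (t' * β) := by ring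
    rw [e1] at this
    exact add_right_cancel this
  have hδs : ∀ a, B a 0 = a * θ a * B 1 0 := by
    intro a
    by_cases ha : a = 0
    · subst ha; rw [hB0, zero_mul, zero_mul]
    have := sB a ha 1 0
    rwa [mul_one, mul_zero] at this
  have hδ1 : B 1 0 = 0 := by
    by_contra hne
    -- θ is the identity
    have h3 : ∀ c, θ c = c := by
      intro c
      have e1 := hδ 1 c
      rw [hδs (1 + c), hδs c, map_add, map_one] at e1
      have e2 : (1 + c) * (1 + θ c) = 1 + c * θ c := by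
        apply mul_right_cancel₀ hne
        rw [e1]; ring
      have e3 : c + θ c = 0 := by linear_combination e2
      exact (CharTwo.add_eq_zero.1 e3).symm
    have h4 : ∀ c : K, c = 0 ∨ c = 1 := by
      intro c
      have e1 := i2 c
      rw [h2, h3, h3] at e1
      have : c * (c - 1) = 0 := by rw [mul_sub, mul_one, ← sq, e1, sub_self]
      rcases mul_eq_zero.1 this with h | h
      · exact Or.inl h
      · exact Or.inr (sub_eq_zero.1 h)
    have h5 : Nat.card K ≤ 2 := by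
      classical
      have h6 : Function.Injective (fun c : K => decide (c = 0)) := by
        intro a b e
        have e' : (a = 0) ↔ (b = 0) := by simpa using e
        rcases h4 a with h | h <;> rcases h4 b with h' | h'
        · rw [h, h']
        · exact absurd (e'.1 h) (by rw [h']; exact one_ne_zero)
        · exact absurd (e'.2 h') (by rw [h]; exact one_ne_zero)
        · rw [h, h']
      have := Nat.card_le_card_of_injective _ h6
      simpa using this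
    omega
  refine ⟨Units.mk0 β hβ0, fun t u => ⟨?_, ?_⟩⟩
  · rw [hAt, Units.val_mk0, mul_comm]
  · rw [hBt, hδs, hδ1, mul_zero, zero_add, Units.val_mk0]

namespace TF

open H22.Coord H22.RCCheck H22.RCComb H22.ChevTri H22.ChevRel H22.ChevSys H22.ChevMain
open H22.ChevStd H22.ChevSolv H22.ChevUni H22.St H22.TwChev H22.TwSt H22.RCPack H22.TwTab H22.TwX
open H22.TwDat H22.TwAut H22.ChevTorus H22.TwThm H22.TwPerf H22.TwMisc H22.TwB2c H22.TwF4
open H23.SysRes H23.RankOne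
open Cfsg.Lie (ChevalleyDatum)
open scoped MatrixGroups Matrix commutatorElement

local notation "F4" => Cfsg.Lie.chevF4
local notation "X4" => H22.PoinF4.rcxF4
local notation "Z4" => H22.ChevLex.lexF4
local notation "W4'" => certF4'

variable {K : Type*} [Field K] [CharP K 2] [Finite K] (R : Rel F4 K)
  (hm : ∀ r < (F4).nroots, ∀ c d : K, c ≠ 0 → d ≠ 0 →
      (F4).hMat K r c * (F4).hMat K r d = (F4).hMat K r (c * d))
  (θ ψ : K →+* K) (hθ : Function.Surjective θ) (hψ : Function.Surjective ψ) (h2 : ∀ t, ψ t = θ t ^ 2)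
  (i1 : ∀ t, θ (ψ t) = t) (i2 : ∀ t, ψ (θ t) = t)

/-! ### field automorphisms -/

theorem fAut_xb (σ : K ≃+* K) {r : ℕ} (hr : r < (F4).nroots) (t : K) :
    H40.ChevAut.fAut (D := F4) σ ((St R hm).xb r t) = (St R hm).xb r (σ t) :=
  H40.ChevAut.fAut_xe R σ ⟨r, hr⟩ t

theorem comm_pow {e : ℕ} (he : ∀ t, θ t = t ^ e) (σ : K ≃+* K) (t : K) : σ (θ t) = θ (σ t) := by rw [he, he, map_pow]

include h2 in
theorem comm_pow' {e : ℕ} (he : ∀ t, θ t = t ^ e) (σ : K ≃+* K) (t : K) : σ (ψ t) = ψ (σ t) := by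
  rw [h2, h2, map_pow, comm_pow θ he]

theorem fAut_xs {e : ℕ} (he : ∀ t, θ t = t ^ e) (σ : K ≃+* K) {r s : ℕ} (hr : r < (F4).nroots) (hs : s < (F4).nroots)
    (t : K) : H40.ChevAut.fAut (D := F4) σ (xs R hm θ r s t) = xs R hm θ r s (σ t) := by
  unfold xs
  rw [map_mul, fAut_xb R hm _ hr, fAut_xb R hm _ hs, comm_pow θ he]

include h2 in
theorem fAut_xw {e : ℕ} (he : ∀ t, θ t = t ^ e) (σ : K ≃+* K) {a b ab aab : ℕ} (ha : a < (F4).nroots) (hb : b < (F4).nroots)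
    (hab : ab < (F4).nroots) (haab : aab < (F4).nroots)
    (t u : K) : H40.ChevAut.fAut (D := F4) σ (xw R hm θ ψ a b ab aab t u) = xw R hm θ ψ a b ab aab (σ t) (σ u) := by
  unfold xw W4
  rw [map_mul, map_mul, map_mul, fAut_xb R hm _ ha, fAut_xb R hm _ hb, fAut_xb R hm _ hab, fAut_xb R hm _ haab, map_add, map_mul,
    comm_pow θ he, comm_pow' θ ψ h2 he]

theorem fmem {e : ℕ} (he : ∀ t, θ t = t ^ e) (σ : K ≃+* K) :
    ∀ x ∈ Γ₀ R hm θ ψ hθ hψ h2 i1 i2, H40.ChevAut.fAut (D := F4) σ x ∈ Γ₀ R hm θ ψ hθ hψ h2 i1 i2 := by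
  have key : ∀ x y : ↥((F4).group K), H40.ChevAut.fAut (D := F4) σ x = y → y ∈ Γ₀ R hm θ ψ hθ hψ h2 i1 i2 →
      x ∈ (Γ₀ R hm θ ψ hθ hψ h2 i1 i2).comap (H40.ChevAut.fAut (D := F4) σ).toMonoidHom := by
    intro x y e hy
    rw [← e] at hy
    exact hy
  have := Γ₀_le R hm θ ψ hθ hψ h2 i1 i2 (L := (Γ₀ R hm θ ψ hθ hψ h2 i1 i2).comap (H40.ChevAut.fAut (D := F4) σ).toMonoidHom)
    (fun t => key _ _ (fAut_xs R hm θ he σ (by decide) (by decide) t) (a0 R hm θ ψ hθ hψ h2 i1 i2 _).2)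
    (fun t => key _ _ (fAut_xs R hm θ he σ (by decide) (by decide) t) (a0' R hm θ ψ hθ hψ h2 i1 i2 _).2)
    (fun t u => key _ _ (fAut_xw R hm θ ψ h2 he σ (by decide) (by decide) (by decide) (by decide) t u)
      (b0 R hm θ ψ hθ hψ h2 i1 i2 _ _).2)
    (fun t u => key _ _ (fAut_xw R hm θ ψ h2 he σ (by decide) (by decide) (by decide) (by decide) t u)
      (b0' R hm θ ψ hθ hψ h2 i1 i2 _ _).2)
  exact fun x hx => this hx

/-- field automorphisms -/
noncomputable def fA {e : ℕ} (he : ∀ t, θ t = t ^ e) (σ : K ≃+* K) : MulAut ↥(Γ₀ R hm θ ψ hθ hψ h2 i1 i2) :=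
  resAut _ _ (fmem R hm θ ψ hθ hψ h2 i1 i2 he σ)

theorem fA_a0 {e : ℕ} (he : ∀ t, θ t = t ^ e) (σ : K ≃+* K) (t : K) :
    fA R hm θ ψ hθ hψ h2 i1 i2 he σ (a0 R hm θ ψ hθ hψ h2 i1 i2 t) = a0 R hm θ ψ hθ hψ h2 i1 i2 (σ t) :=
  Subtype.ext (fAut_xs R hm θ he σ (by decide) (by decide) t)

theorem fA_norm {e : ℕ} (he : ∀ t, θ t = t ^ e) (σ : K ≃+* K) :
    Norm (SS R hm θ ψ hθ hψ h2 i1 i2) (fA R hm θ ψ hθ hψ h2 i1 i2 he σ) := by
  refine norm_res _ _ _ _ _ (fmem R hm θ ψ hθ hψ h2 i1 i2 he σ) ?_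
  intro r x hx
  obtain ⟨t, rfl⟩ := ((St R hm).mem_Xb r.2).1 hx
  exact ((St R hm).mem_Xb r.2).2 ⟨_, fAut_xb R hm _ r.2 t⟩

/-! ### the Suzuki node -/

theorem node1 (hK : 2 < Nat.card K) {Θ : ↥(Γ₀ R hm θ ψ hθ hψ h2 i1 i2) ≃* ↥(Γ₀ R hm θ ψ hθ hψ h2 i1 i2)}
    (hX1 : im Θ ((SS R hm θ ψ hθ hψ h2 i1 i2).X (C16.simple (1 : Fin 2))) = (SS R hm θ ψ hθ hψ h2 i1 i2).X (C16.simple (1 : Fin 2)))
    (hD : ∀ a, Θ (Dt R hm θ ψ hθ hψ h2 i1 i2 a 1) = Dt R hm θ ψ hθ hψ h2 i1 i2 a 1) :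
    ∃ β : Kˣ, ∀ t u, Θ (b0 R hm θ ψ hθ hψ h2 i1 i2 t u) = b0 R hm θ ψ hθ hψ h2 i1 i2 (β * t) (β * θ β * u) := by
  have h1 : ∀ t u, ∃ t' u', Θ (b0 R hm θ ψ hθ hψ h2 i1 i2 t u) = b0 R hm θ ψ hθ hψ h2 i1 i2 t' u' := by
    intro t u
    rw [← mem_b0, ← hX1, apply_mem_im]
    exact (mem_b0 R hm θ ψ hθ hψ h2 i1 i2 _).2 ⟨t, u, rfl⟩
  choose A B hAB using h1
  have hchi : ∀ a : Kˣ, chi1 θ a⁻¹ 1 = a := by
    intro a
    unfold chi1
    simp
  have hs : ∀ (a : Kˣ) (t u : K), A (a * t) (a * θ a * u) = a * A t u ∧ B (a * t) (a * θ a * u) = a * θ a * B t u := by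
    intro a t u
    have e1 := Dt_b0 R hm θ ψ hθ hψ h2 i1 i2 a⁻¹ 1 t u
    rw [hchi] at e1
    have e2 := congrArg Θ e1
    rw [map_mul, map_mul, map_inv, hD, hAB, hAB, Dt_b0, hchi] at e2
    have e3 := b0_inj R hm θ ψ hθ hψ h2 i1 i2 e2
    exact ⟨e3.1.symm, e3.2.symm⟩
  have hmul : ∀ t u t' u', A (t + t') (u + u' + θ t * t') = A t u + A t' u' ∧
      B (t + t') (u + u' + θ t * t') = B t u + B t' u' + θ (A t u) * A t' u' := by
    intro t u t' u'
    have e1 := congrArg Θ (b0_mul R hm θ ψ hθ hψ h2 i1 i2 t u t' u')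
    rw [map_mul, hAB, hAB, hAB, b0_mul] at e1
    have e3 := b0_inj R hm θ ψ hθ hψ h2 i1 i2 e1
    exact ⟨e3.1.symm, e3.2.symm⟩
  have hz : b0 R hm θ ψ hθ hψ h2 i1 i2 0 0 = 1 := Subtype.ext (xw_zero R hm θ ψ)
  obtain ⟨β, hβ⟩ := suz_form θ ψ h2 i1 i2 hK A B (by
    intro t u ha hb
    have e1 := hAB t u
    rw [ha, hb, hz, map_eq_one_iff Θ Θ.injective, ← hz] at e1
    exact b0_inj R hm θ ψ hθ hψ h2 i1 i2 e1) (fun t u t' u' => (hmul t u t' u').1) (fun t u t' u' => (hmul t u t' u').2)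
    (fun a ha t u => (hs (Units.mk0 a ha) t u).1) (fun a ha t u => (hs (Units.mk0 a ha) t u).2)
  refine ⟨β, fun t u => ?_⟩
  rw [hAB, (hβ t u).1, (hβ t u).2]

/-- the fixed torus elements -/
theorem fix_Dt {Θ : ↥(Γ₀ R hm θ ψ hθ hψ h2 i1 i2) ≃* ↥(Γ₀ R hm θ ψ hθ hψ h2 i1 i2)}
    (f1 : ∀ t, Θ (a0 R hm θ ψ hθ hψ h2 i1 i2 t) = a0 R hm θ ψ hθ hψ h2 i1 i2 t)
    (f2 : ∀ t, Θ (a0' R hm θ ψ hθ hψ h2 i1 i2 t) = a0' R hm θ ψ hθ hψ h2 i1 i2 t) (a : Kˣ) :
    Θ (Dt R hm θ ψ hθ hψ h2 i1 i2 a 1) = Dt R hm θ ψ hθ hψ h2 i1 i2 a 1 := by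
  let F : Subgroup ↥(Γ₀ R hm θ ψ hθ hψ h2 i1 i2) := Θ.toMonoidHom.eqLocus (MonoidHom.id _)
  have h := pair_torus R hm θ ψ i2 (L := F.map (Γ₀ R hm θ ψ hθ hψ h2 i1 i2).subtype) (fun t => ⟨a0 R hm θ ψ hθ hψ h2 i1 i2 t, f1 t, rfl⟩)
    (fun t => ⟨a0' R hm θ ψ hθ hψ h2 i1 i2 t, f2 t, rfl⟩) a
  obtain ⟨g, hg, e⟩ := h
  have e1 : g = Dt R hm θ ψ hθ hψ h2 i1 i2 a 1 := Subtype.ext e
  rw [← e1]
  exact hg

end TF

end H40.TwOut
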