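import Mathlib
import Cfsg.Agent.Lib.H40.TwOut12
import Cfsg.Agent.Lib.H40.SzAut
import Cfsg.Agent.Lib.H50.FieldAut

/-!
Outer automorphisms of `²F₄(q)`: the theorem.
-/
set_option autoImplicit false
set_option linter.unusedSectionVars false
set_option linter.unusedVariables false

namespace H40.TwOut

open H22.RGD H40.RGDOpp H40.RGDAut

namespace TF

open H22.Coord H22.RCCheck H22.RCComb H22.ChevTri H22.ChevRel H22.ChevSys H22.ChevMain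
open H22.ChevStd H22.ChevSolv H22.ChevUni H22.St H22.TwChev H22.TwSt H22.RCPack H22.TwTab H22.TwX
open H22.TwDat H22.TwAut H22.ChevTorus H22.TwThm H22.TwPerf H22.TwMisc H22.TwB2c H22.TwF4
open H23.SysRes H23.RankOne
open Cfsg.Lie (ChevalleyDatum)
open scoped MatrixGroups Matrix commutatorElement

local notation "F4" => Cfsg.Lie.chevF4
local notation "X4" => H22.PoinF4.rcxF4
local notation "Z4" => H22.ChevLex.lexF4
local notation "W4'" => certF4'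

variable {K : Type*} [Field K] [CharP K 2] [Finite K] (R : Rel F4 K)
  (hm : ∀ r < (F4).nroots, ∀ c d : K, c ≠ 0 → d ≠ 0 →
      (F4).hMat K r c * (F4).hMat K r d = (F4).hMat K r (c * d))
  (θ ψ : K →+* K) (hθ : Function.Surjective θ) (hψ : Function.Surjective ψ) (h2 : ∀ t, ψ t = θ t ^ 2)
  (i1 : ∀ t, θ (ψ t) = t) (i2 : ∀ t, ψ (θ t) = t)

/-- the homomorphism to the scalars on the Suzuki node -/
noncomputable def Fχ : Kˣ →* Kˣ where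
  toFun a := (a ^ 2) ^ 2 * ((Units.map (θ : K →* K) (a ^ 2)) ^ 2)⁻¹ * a⁻¹
  map_one' := by simp
  map_mul' a b := by
    rw [mul_pow, mul_pow, map_mul, mul_pow, mul_inv, mul_inv, mul_mul_mul_comm ((a ^ 2) ^ 2), mul_mul_mul_comm]

include h2 i1 i2 in
theorem Fχ_surj : Function.Surjective (Fχ θ) := by
  apply Finite.injective_iff_surjective.1
  rw [injective_iff_map_eq_one]
  intro a ha
  have ha0 : (a : K) ≠ 0 := a.ne_zero
  have h3 := congrArg (fun u : Kˣ => (u : K)) ha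
  have h4 : ((a : K) ^ 2) ^ 2 * ((θ ((a : K) ^ 2)) ^ 2)⁻¹ * (a : K)⁻¹ = 1 := by
    simpa [Fχ] using h3
  rw [map_pow, ← h2] at h4
  have hψa : ψ (a : K) ≠ 0 := (map_ne_zero ψ).2 ha0
  have h5 : (a : K) ^ 3 = ψ (a : K) ^ 2 := by
    field_simp at h4
    linear_combination h4
  have h6 : ψ (ψ (a : K)) = (a : K) ^ 2 := by rw [h2 (ψ (a : K)), i1]
  have h7 : ψ (a : K) ^ 3 = (a : K) ^ 4 := by
    have := congrArg ψ h5
    rw [map_pow, map_pow, h6] at this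
    rw [this]; ring
  have h8 : (a : K) ^ 8 * a = (a : K) ^ 8 * 1 := by
    calc (a : K) ^ 8 * a = ((a : K) ^ 3) ^ 3 := by ring
      _ = (ψ (a : K) ^ 3) ^ 2 := by rw [h5]; ring
      _ = _ := by rw [h7]; ring
  exact Units.ext (mul_left_cancel₀ (pow_ne_zero 8 ha0) h8)

include h2 i1 i2 in
theorem exists_chi (β : Kˣ) : ∃ a : Kˣ, chi1 θ a (a ^ 2) = β := by
  obtain ⟨a, ha⟩ := Fχ_surj θ ψ h2 i1 i2 β
  refine ⟨a, ?_⟩
  have h3 := congrArg (fun u : Kˣ => (u : K)) ha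
  simpa [Fχ, chi1] using h3

theorem inn_le {G : Type*} [Group G] : (Cfsg.Inn G).Normal := inferInstance

/-- normalised automorphisms are field automorphisms up to inner automorphisms -/
theorem exists_field {e : ℕ} (he : ∀ t, θ t = t ^ e) (hK : 2 < Nat.card K) {Θ : MulAut ↥(Γ₀ R hm θ ψ hθ hψ h2 i1 i2)}
    (hΘ : Norm (SS R hm θ ψ hθ hψ h2 i1 i2) Θ) :
    ∃ σ : K ≃+* K, (fA R hm θ ψ hθ hψ h2 i1 i2 he σ)⁻¹ * Θ ∈ Cfsg.Inn ↥(Γ₀ R hm θ ψ hθ hψ h2 i1 i2) := by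
  have hΓ := SS_Γ R hm θ ψ hθ hψ h2 i1 i2
  have P := P0 R hm θ ψ hθ hψ h2 i1 i2
  -- the permutation of the nodes is trivial
  have hper : ∀ {Θ : MulAut ↥(Γ₀ R hm θ ψ hθ hψ h2 i1 i2)}, Norm (SS R hm θ ψ hθ hψ h2 i1 i2) Θ → ∀ i : Fin 2,
      im Θ ((SS R hm θ ψ hθ hψ h2 i1 i2).X (C16.simple i)) = (SS R hm θ ψ hθ hψ h2 i1 i2).X (C16.simple i) ∧
      im Θ ((SS R hm θ ψ hθ hψ h2 i1 i2).X (C16.neg (C16.simple i))) = (SS R hm θ ψ hθ hψ h2 i1 i2).X (C16.neg (C16.simple i)) ∧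
      ∃ h ∈ (SS R hm θ ψ hθ hψ h2 i1 i2).H, Θ ((SS R hm θ ψ hθ hψ h2 i1 i2).n i) = (SS R hm θ ψ hθ hψ h2 i1 i2).n i * h := by
    intro Θ hΘ
    obtain ⟨ρ, hρ⟩ := hΘ.main longest16 hΓ sinj16
    have h0 : ρ (0 : Fin 2) = (0 : Fin 2) := by
      rcases two (ρ (0 : Fin 2)) with h | h
      · exact h
      · exfalso
        have e1 := (hρ (0 : Fin 2)).1
        rw [h] at e1
        have e2 : Nat.card (im Θ ((SS R hm θ ψ hθ hψ h2 i1 i2).X (C16.simple (0 : Fin 2)))) =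
            Nat.card ((SS R hm θ ψ hθ hψ h2 i1 i2).X (C16.simple (1 : Fin 2))) :=
          congrArg (fun L : Subgroup ↥(Γ₀ R hm θ ψ hθ hψ h2 i1 i2) => Nat.card L) e1
        have e3 : Nat.card ((SS R hm θ ψ hθ hψ h2 i1 i2).X (C16.simple (0 : Fin 2))) = Nat.card K := by
          symm
          refine Nat.card_congr (Equiv.ofBijective (fun t => (⟨a0 R hm θ ψ hθ hψ h2 i1 i2 t, (P.mx _).2 ⟨t, rfl⟩⟩ :
            (SS R hm θ ψ hθ hψ h2 i1 i2).X (C16.simple (0 : Fin 2)))) ⟨?_, ?_⟩)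
          · intro t u e
            exact P.inj (congrArg Subtype.val e)
          · rintro ⟨g, hg⟩
            obtain ⟨t, rfl⟩ := (P.mx g).1 hg
            exact ⟨t, rfl⟩
        have e4 : Nat.card (K × K) ≤ Nat.card ((SS R hm θ ψ hθ hψ h2 i1 i2).X (C16.simple (1 : Fin 2))) := by
          refine Nat.card_le_card_of_injective (fun p : K × K => (⟨b0 R hm θ ψ hθ hψ h2 i1 i2 p.1 p.2,
            (mem_b0 R hm θ ψ hθ hψ h2 i1 i2 _).2 ⟨p.1, p.2, rfl⟩⟩ : (SS R hm θ ψ hθ hψ h2 i1 i2).X (C16.simple (1 : Fin 2)))) ?_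
          rintro ⟨t, u⟩ ⟨t', u'⟩ e
          obtain ⟨e1, e2⟩ := b0_inj R hm θ ψ hθ hψ h2 i1 i2 (congrArg Subtype.val e)
          exact Prod.ext e1 e2
        rw [card_im, e3] at e2
        rw [← e2, Nat.card_prod] at e4
        nlinarith
    have h1 : ρ (1 : Fin 2) = (1 : Fin 2) := by
      rcases two (ρ (1 : Fin 2)) with h | h
      · exfalso
        have h2 := ρ.injective (h.trans h0.symm)
        exact (by decide : ¬ ((1 : Fin 2) = (0 : Fin 2))) h2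
      · exact h
    intro i
    rcases two i with rfl | rfl
    · have := hρ (0 : Fin 2)
      rwa [h0] at this
    · have := hρ (1 : Fin 2)
      rwa [h1] at this
  have hN := im_N_of (hΘ.H longest16 hΓ) (ρ := fun i => i) (fun i => (hper hΘ i).2.2)
  obtain ⟨α, σ, f1, f2⟩ := P.exists_form (hper hΘ (0 : Fin 2)).1 (hper hΘ (0 : Fin 2)).2.1 hN
  -- first reduction
  set D1 := Dt R hm θ ψ hθ hψ h2 i1 i2 1 α⁻¹ with hD1
  have hDinn : ∀ g : ↥(Γ₀ R hm θ ψ hθ hψ h2 i1 i2), MulAut.conj g ∈ Cfsg.Inn ↥(Γ₀ R hm θ ψ hθ hψ h2 i1 i2) := fun g => ⟨g, rfl⟩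
  have hDNA : ∀ g ∈ (SS R hm θ ψ hθ hψ h2 i1 i2).H, MulAut.conj g ∈ NA (SS R hm θ ψ hθ hψ h2 i1 i2) := fun g hg =>
    (conj_mem_iff _ longest16 hΓ).2 hg
  set F := fA R hm θ ψ hθ hψ h2 i1 i2 he σ with hF
  set Θ1 := F⁻¹ * ((MulAut.conj D1)⁻¹ * Θ) with hΘ1
  have hΘ1N : Θ1 ∈ NA (SS R hm θ ψ hθ hψ h2 i1 i2) :=
    Subgroup.mul_mem _ (Subgroup.inv_mem _ (fA_norm R hm θ ψ hθ hψ h2 i1 i2 he σ))
      (Subgroup.mul_mem _ (Subgroup.inv_mem _ (hDNA _ (Dt_mem R hm θ ψ hθ hψ h2 i1 i2 _ _))) hΘ)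
  have g0 : ∀ t, Θ1 (a0 R hm θ ψ hθ hψ h2 i1 i2 t) = a0 R hm θ ψ hθ hψ h2 i1 i2 t := by
    intro t
    have e1 : MulAut.conj D1 (F (a0 R hm θ ψ hθ hψ h2 i1 i2 t)) = Θ (a0 R hm θ ψ hθ hψ h2 i1 i2 t) := by
      rw [hF, fA_a0, MulAut.conj_apply, Dt_a0, f1]
      simp
    change F⁻¹ ((MulAut.conj D1)⁻¹ (Θ _)) = _
    rw [← e1, MulAut.inv_apply_self, MulAut.inv_apply_self]
  have q0 := hper hΘ1N (0 : Fin 2)
  have q1 := hper hΘ1N (1 : Fin 2)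
  have hH1 : im Θ1 (SS R hm θ ψ hθ hψ h2 i1 i2).H = (SS R hm θ ψ hθ hψ h2 i1 i2).H := Norm.H longest16 hΓ hΘ1N
  have g0' : ∀ t, Θ1 (a0' R hm θ ψ hθ hψ h2 i1 i2 t) = a0' R hm θ ψ hθ hψ h2 i1 i2 t := by
    intro t
    refine fix_neg (S := SS R hm θ ψ hθ hψ h2 i1 i2) (0 : Fin 2) ?_ ?_ q0.2.2 hH1 _ ((P.my _).2 ⟨t, rfl⟩)
    · intro x hx
      obtain ⟨t, rfl⟩ := (P.mx _).1 hx
      exact g0 t
    · intro x hx
      have := q0.2.1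
      rw [← this]; exact ⟨x, hx, rfl⟩
  obtain ⟨β, hβ⟩ := node1 R hm θ ψ hθ hψ h2 i1 i2 hK q1.1 (fix_Dt R hm θ ψ hθ hψ h2 i1 i2 g0 g0')
  obtain ⟨a, ha⟩ := exists_chi θ ψ h2 i1 i2 β
  set D2 := Dt R hm θ ψ hθ hψ h2 i1 i2 a (a ^ 2) with hD2
  set Θ2 := (MulAut.conj D2)⁻¹ * Θ1 with hΘ2
  have hΘ2N : Θ2 ∈ NA (SS R hm θ ψ hθ hψ h2 i1 i2) :=
    Subgroup.mul_mem _ (Subgroup.inv_mem _ (hDNA _ (Dt_mem R hm θ ψ hθ hψ h2 i1 i2 _ _))) hΘ1N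
  have k0 : ∀ t, Θ2 (a0 R hm θ ψ hθ hψ h2 i1 i2 t) = a0 R hm θ ψ hθ hψ h2 i1 i2 t := by
    intro t
    have e1 : MulAut.conj D2 (a0 R hm θ ψ hθ hψ h2 i1 i2 t) = a0 R hm θ ψ hθ hψ h2 i1 i2 t := by
      rw [MulAut.conj_apply, Dt_a0]
      congr 1
      rw [Units.val_pow_eq_pow_val, mul_inv_cancel₀ (pow_ne_zero 2 a.ne_zero), one_mul]
    change (MulAut.conj D2)⁻¹ (Θ1 _) = _
    rw [g0]
    conv_lhs => rw [← e1]
    rw [MulAut.inv_apply_self]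
  have k1 : ∀ t u, Θ2 (b0 R hm θ ψ hθ hψ h2 i1 i2 t u) = b0 R hm θ ψ hθ hψ h2 i1 i2 t u := by
    intro t u
    have e1 : MulAut.conj D2 (b0 R hm θ ψ hθ hψ h2 i1 i2 t u) = Θ1 (b0 R hm θ ψ hθ hψ h2 i1 i2 t u) := by
      rw [MulAut.conj_apply, Dt_b0, hβ, ha]
    change (MulAut.conj D2)⁻¹ (Θ1 _) = _
    rw [← e1, MulAut.inv_apply_self]
  have r0 := hper hΘ2N (0 : Fin 2)
  have r1 := hper hΘ2N (1 : Fin 2)
  have hH2 : im Θ2 (SS R hm θ ψ hθ hψ h2 i1 i2).H = (SS R hm θ ψ hθ hψ h2 i1 i2).H := Norm.H longest16 hΓ hΘ2N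
  have k0' : ∀ t, Θ2 (a0' R hm θ ψ hθ hψ h2 i1 i2 t) = a0' R hm θ ψ hθ hψ h2 i1 i2 t := by
    intro t
    refine fix_neg (S := SS R hm θ ψ hθ hψ h2 i1 i2) (0 : Fin 2) ?_ ?_ r0.2.2 hH2 _ ((P.my _).2 ⟨t, rfl⟩)
    · intro x hx
      obtain ⟨t, rfl⟩ := (P.mx _).1 hx
      exact k0 t
    · intro x hx
      have := r0.2.1
      rw [← this]; exact ⟨x, hx, rfl⟩
  have k1' : ∀ t u, Θ2 (b0' R hm θ ψ hθ hψ h2 i1 i2 t u) = b0' R hm θ ψ hθ hψ h2 i1 i2 t u := by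
    intro t u
    refine fix_neg (S := SS R hm θ ψ hθ hψ h2 i1 i2) (1 : Fin 2) ?_ ?_ r1.2.2 hH2 _
      ((mem_b0' R hm θ ψ hθ hψ h2 i1 i2 _).2 ⟨t, u, rfl⟩)
    · intro x hx
      obtain ⟨t, u, rfl⟩ := (mem_b0 R hm θ ψ hθ hψ h2 i1 i2 _).1 hx
      exact k1 t u
    · intro x hx
      have := r1.2.1
      rw [← this]; exact ⟨x, hx, rfl⟩
  have hone : Θ2 = 1 := by
    have h3 := gen R hm θ ψ hθ hψ h2 i1 i2 (L := Θ2.toMonoidHom.eqLocus (MonoidHom.id _)) k0 k0' k1 k1'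
    apply MulEquiv.toMonoidHom_injective
    ext x
    have h : x ∈ Θ2.toMonoidHom.eqLocus (MonoidHom.id _) := by rw [h3]; trivial
    exact congrArg (fun g : ↥(Γ₀ R hm θ ψ hθ hψ h2 i1 i2) => ((g : ↥((F4).group K)) : GL (F4).Idx K) _ _) h
  -- conclusion
  have c1 : Θ1 = MulAut.conj D2 := by
    rw [hΘ2, inv_mul_eq_one] at hone
    exact hone.symm
  refine ⟨σ, ?_⟩
  have c2 : F⁻¹ * Θ = (F⁻¹ * MulAut.conj D1 * F) * MulAut.conj D2 := by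
    rw [← c1, hΘ1]; group
  rw [c2]
  refine Subgroup.mul_mem _ ?_ (hDinn D2)
  have := (inn_le (G := ↥(Γ₀ R hm θ ψ hθ hψ h2 i1 i2))).conj_mem _ (hDinn D1) F⁻¹
  rwa [inv_inv] at this

/-- field automorphisms are distinct modulo inner automorphisms -/
theorem field_inj {e : ℕ} (he : ∀ t, θ t = t ^ e) {σ σ' : K ≃+* K}
    (h : (fA R hm θ ψ hθ hψ h2 i1 i2 he σ)⁻¹ * fA R hm θ ψ hθ hψ h2 i1 i2 he σ' ∈ Cfsg.Inn ↥(Γ₀ R hm θ ψ hθ hψ h2 i1 i2)) : σ = σ' := by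
  have hΓ := SS_Γ R hm θ ψ hθ hψ h2 i1 i2
  have P := P0 R hm θ ψ hθ hψ h2 i1 i2
  obtain ⟨g, hg⟩ := h
  have hg' : MulAut.conj g = (fA R hm θ ψ hθ hψ h2 i1 i2 he σ)⁻¹ * fA R hm θ ψ hθ hψ h2 i1 i2 he σ' := hg
  have hN : MulAut.conj g ∈ NA (SS R hm θ ψ hθ hψ h2 i1 i2) := by
    rw [hg']
    exact Subgroup.mul_mem _ (Subgroup.inv_mem _ (fA_norm R hm θ ψ hθ hψ h2 i1 i2 he σ)) (fA_norm R hm θ ψ hθ hψ h2 i1 i2 he σ')
  obtain ⟨a, b, hab⟩ := exists_Dt R hm θ ψ hθ hψ h2 i1 i2 ((conj_mem_iff _ longest16 hΓ).1 hN)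
  have e1 : fA R hm θ ψ hθ hψ h2 i1 i2 he σ * MulAut.conj g = fA R hm θ ψ hθ hψ h2 i1 i2 he σ' := by
    rw [hg', mul_inv_cancel_left]
  have e2 : ∀ t, σ ((a : K) ^ 2 * (b : K)⁻¹ * t) = σ' t := by
    intro t
    have e3 := congrArg (fun F : MulAut ↥(Γ₀ R hm θ ψ hθ hψ h2 i1 i2) => F (a0 R hm θ ψ hθ hψ h2 i1 i2 t)) e1
    have e4 : fA R hm θ ψ hθ hψ h2 i1 i2 he σ (MulAut.conj g (a0 R hm θ ψ hθ hψ h2 i1 i2 t)) =
        fA R hm θ ψ hθ hψ h2 i1 i2 he σ' (a0 R hm θ ψ hθ hψ h2 i1 i2 t) := e3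
    rw [hab, MulAut.conj_apply, Dt_a0, fA_a0, fA_a0] at e4
    exact P.inj e4
  have e5 := e2 1
  rw [mul_one, map_one, map_eq_one_iff σ σ.injective] at e5
  ext t
  have e6 := e2 t
  rw [e5, one_mul] at e6
  exact e6

theorem card_out₀ {e : ℕ} (he : ∀ t, θ t = t ^ e) (hK : 2 < Nat.card K)
    (hN : ∀ Θ : ↥(Γ₀ R hm θ ψ hθ hψ h2 i1 i2) ≃* ↥(Γ₀ R hm θ ψ hθ hψ h2 i1 i2), ∃ g,
      Norm (SS R hm θ ψ hθ hψ h2 i1 i2) (Θ.trans (MulAut.conj g))) :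
    Nat.card (Cfsg.Out ↥(Γ₀ R hm θ ψ hθ hψ h2 i1 i2)) = Nat.card (K ≃+* K) := by
  symm
  refine Nat.card_congr (Equiv.ofBijective (fun σ : K ≃+* K =>
    (QuotientGroup.mk (fA R hm θ ψ hθ hψ h2 i1 i2 he σ) : Cfsg.Out ↥(Γ₀ R hm θ ψ hθ hψ h2 i1 i2))) ⟨?_, ?_⟩)
  · intro σ σ' e
    exact field_inj R hm θ ψ hθ hψ h2 i1 i2 he (QuotientGroup.eq.1 e)
  · intro x
    obtain ⟨Θ, rfl⟩ := QuotientGroup.mk_surjective x
    obtain ⟨g, hg⟩ := hN Θ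
    have hg' : Norm (SS R hm θ ψ hθ hψ h2 i1 i2) ((MulAut.conj g * Θ : MulAut ↥(Γ₀ R hm θ ψ hθ hψ h2 i1 i2))) := hg
    obtain ⟨σ, hσ⟩ := exists_field R hm θ ψ hθ hψ h2 i1 i2 he hK hg'
    refine ⟨σ, QuotientGroup.eq.2 ?_⟩
    set F := fA R hm θ ψ hθ hψ h2 i1 i2 he σ
    have e1 : F⁻¹ * Θ = (F⁻¹ * (MulAut.conj g)⁻¹ * F) * (F⁻¹ * (MulAut.conj g * Θ)) := by group
    rw [e1]
    refine Subgroup.mul_mem _ ?_ hσ
    have := (inn_le (G := ↥(Γ₀ R hm θ ψ hθ hψ h2 i1 i2))).conj_mem _ (Subgroup.inv_mem _ (⟨g, rfl⟩ : MulAut.conj g ∈ Cfsg.Inn _)) F⁻¹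
    rwa [inv_inv] at this

/-! ### Sylow data -/

theorem card_SU : Nat.card (SS R hm θ ψ hθ hψ h2 i1 i2).U = Nat.card K ^ 12 := by
  have e1 : (SS R hm θ ψ hθ hψ h2 i1 i2).U = (T R hm θ ψ hθ hψ h2 i1 i2).tw.sys.U.subgroupOf (Γ₀ R hm θ ψ hθ hψ h2 i1 i2) :=
    res_U _ _ _ _
  rw [e1]
  have hle : (T R hm θ ψ hθ hψ h2 i1 i2).tw.sys.U ≤ Γ₀ R hm θ ψ hθ hψ h2 i1 i2 :=
    ((T R hm θ ψ hθ hψ h2 i1 i2).tw.sys.U_le_B).trans (T R hm θ ψ hθ hψ h2 i1 i2).tw.sys.B_le_Γ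
  rw [Nat.card_congr (Subgroup.subgroupOfEquivOfLe hle).toEquiv]
  rw [← card_U R hm θ ψ hθ hψ h2 i1 i2]
  have e2 : (SM R hm θ ψ hθ hψ h2 i1 i2).U = (T R hm θ ψ hθ hψ h2 i1 i2).tw.sys.U.map ((F4).group K).subtype := Sys.mapInj_U _ _ _
  rw [e2]
  exact Nat.card_congr (Subgroup.equivMapOfInjective _ _ (Subgroup.subtype_injective _)).toEquiv

theorem card_Γ : Nat.card ↥(Γ₀ R hm θ ψ hθ hψ h2 i1 i2) = Nat.card K ^ 12 * ((Nat.card K - 1) * (Nat.card K - 1)) *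
      ((1 + Nat.card K) * (1 + Nat.card K ^ 2) * (1 + Nat.card K ^ 3) * (1 + Nat.card K ^ 6)) := by
  rw [← (card_all R hm θ ψ hθ hψ h2 i1 i2 (G1 := (SM R hm θ ψ hθ hψ h2 i1 i2).Γ) rfl).1]
  have e2 : (SM R hm θ ψ hθ hψ h2 i1 i2).Γ = (T R hm θ ψ hθ hψ h2 i1 i2).tw.sys.Γ.map ((F4).group K).subtype :=
    M_Γ (T R hm θ ψ hθ hψ h2 i1 i2).tw
  rw [e2]
  exact Nat.card_congr (Subgroup.equivMapOfInjective _ _ (Subgroup.subtype_injective _)).toEquiv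

theorem index_odd (hK : 2 ∣ Nat.card K) : ¬ 2 ∣ (SS R hm θ ψ hθ hψ h2 i1 i2).U.index := by
  have h1 := Subgroup.card_mul_index (SS R hm θ ψ hθ hψ h2 i1 i2).U
  rw [card_SU R hm θ ψ hθ hψ h2 i1 i2, card_Γ R hm θ ψ hθ hψ h2 i1 i2, mul_assoc] at h1
  have hpos : 0 < Nat.card K := Nat.card_pos
  have h3 := Nat.eq_of_mul_eq_mul_left (pow_pos hpos 12) h1
  rw [h3]
  have p2 := Nat.prime_two
  have h4 : 2 ≤ Nat.card K := Nat.le_of_dvd hpos hK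
  have o1 : ∀ n, n ≠ 0 → ¬ 2 ∣ 1 + Nat.card K ^ n := by
    intro n hn hd
    have := (Nat.dvd_add_left (dvd_pow hK hn)).1 hd
    omega
  have o2 : ¬ 2 ∣ Nat.card K - 1 := by omega
  have o3 : ¬ 2 ∣ 1 + Nat.card K := by omega
  intro hd
  rcases (Nat.Prime.dvd_mul p2).1 hd with h | h
  · rcases (Nat.Prime.dvd_mul p2).1 h with h | h
    · exact o2 h
    · exact o2 h
  · rcases (Nat.Prime.dvd_mul p2).1 h with h | h
    · rcases (Nat.Prime.dvd_mul p2).1 h with h | h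
      · rcases (Nat.Prime.dvd_mul p2).1 h with h | h
        · exact o3 h
        · exact o1 2 (by norm_num) h
      · exact o1 3 (by norm_num) h
    · exact o1 6 (by norm_num) h

theorem card_out {K : Type*} [Field K] [Fintype K] {m : ℕ} (hm : 1 ≤ m) (hK : Fintype.card K = 2 ^ (2 * m + 1)) :
    Nat.card (Cfsg.Out ↥(Cfsg.Lie.twistedF4 K (2 ^ m))) = 2 * m + 1 := by
  have hK' : Nat.card K = 2 ^ (2 * m + 1) := by rw [Nat.card_eq_fintype_card]; exact hK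
  haveI := char2 hK
  let θ : K →+* K := iterateFrobenius K 2 m
  let ψ : K →+* K := iterateFrobenius K 2 (m + 1)
  have hθt : ∀ t, θ t = t ^ 2 ^ m := fun t => iterateFrobenius_def 2 m t
  have hψt : ∀ t, ψ t = t ^ 2 ^ (m + 1) := fun t => iterateFrobenius_def 2 (m + 1) t
  have hθ : Function.Surjective θ := Finite.surjective_of_injective (RingHom.injective _)
  have hψ : Function.Surjective ψ := Finite.surjective_of_injective (RingHom.injective _)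
  have h2 : ∀ t, ψ t = θ t ^ 2 := by
    intro t; rw [hψt, hθt, ← pow_mul, pow_succ]
  have hfr : ∀ t : K, t ^ 2 ^ (2 * m + 1) = t := by
    intro t
    have := FiniteField.pow_card t
    rwa [hK] at this
  have i1 : ∀ t, θ (ψ t) = t := by
    intro t
    rw [hψt, hθt, ← pow_mul, ← pow_add, show m + 1 + m = 2 * m + 1 by ring, hfr]
  have i2 : ∀ t, ψ (θ t) = t := by
    intro t
    rw [hψt, hθt, ← pow_mul, ← pow_add, show m + (m + 1) = 2 * m + 1 by ring, hfr]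
  have hG := Γ_eq (RR K) (H22.St.hmul_all _ memF4) θ ψ hθ hψ h2 i1 i2 hθt
  have hM := M_Γ (T (RR K) (H22.St.hmul_all _ memF4) θ ψ hθ hψ h2 i1 i2).tw
  let e : ↥(Γ₀ (RR K) (H22.St.hmul_all _ memF4) θ ψ hθ hψ h2 i1 i2) ≃* ↥(Cfsg.Lie.twistedF4 K (2 ^ m)) :=
    (Subgroup.equivMapOfInjective _ ((F4).group K).subtype (Subgroup.subtype_injective _)).trans
      (MulEquiv.subgroupCongr (hM.symm.trans hG))
  have hΓ := SS_Γ (RR K) (H22.St.hmul_all _ memF4) θ ψ hθ hψ h2 i1 i2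
  have hU : Nat.card (SS (RR K) (H22.St.hmul_all _ memF4) θ ψ hθ hψ h2 i1 i2).U = 2 ^ ((2 * m + 1) * 12) := by
    rw [card_SU, hK', ← pow_mul]
  have hS := conj_of_index Nat.prime_two hU (index_odd (RR K) (H22.St.hmul_all _ memF4) θ ψ hθ hψ h2 i1 i2
    (by rw [hK']; exact dvd_pow_self 2 (by omega)))
  rw [← H40.SzAut.card_out_congr e]
  rw [card_out₀ (RR K) (H22.St.hmul_all _ memF4) θ ψ hθ hψ h2 i1 i2 hθt (by
      rw [hK']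
      have : 2 ^ 3 ≤ 2 ^ (2 * m + 1) := Nat.pow_le_pow_right (by norm_num) (by omega)
      omega) (fun Θ => H40.RGDAut.exists_norm _ longest16 hΓ hS Θ)]
  haveI : Fact (Nat.Prime 2) := ⟨Nat.prime_two⟩
  exact H50.FieldAut.card_ringAut 2 hK'

end TF

end H40.TwOut
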