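import Mathlib
import Cfsg.Agent.Lib.H35.NetKit

/-!
# Word relations of involutory `F_2`-matrices, vectors coded as natural numbers
-/

set_option autoImplicit false

namespace H40.XRep

open H35.TC H35.Net

/-- the part `v (x - 1)` of the action of a letter; a letter is a list of pairs (bit, row) -/
noncomputable def nz (l : List (ℕ × ℕ)) (v : ℕ) : ℕ :=
  List.rec (motive := fun _ => ℕ) 0
    (fun p _ ih => Nat.xor (Nat.mul (Nat.land (Nat.shiftRight v p.1) (nat_lit 1)) p.2) ih) l

/-- action of a letter -/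
noncomputable def act (l : List (ℕ × ℕ)) (v : ℕ) : ℕ := Nat.xor v (nz l v)

theorem bit_eq (v i : ℕ) : Nat.land (Nat.shiftRight v i) 1 = (v.testBit i).toNat := by
  change (v >>> i) &&& 1 = _
  rw [Nat.and_one_is_mod, Nat.shiftRight_eq_div_pow, Nat.toNat_testBit]

theorem bit_xor (v w i r : ℕ) : Nat.mul (Nat.land (Nat.shiftRight (v ^^^ w) i) 1) r =
    Nat.mul (Nat.land (Nat.shiftRight v i) 1) r ^^^ Nat.mul (Nat.land (Nat.shiftRight w i) 1) r := by
  rw [bit_eq, bit_eq, bit_eq, Nat.testBit_xor]
  change _ * r = (_ * r) ^^^ (_ * r)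
  cases v.testBit i <;> cases w.testBit i <;> simp

theorem nz_xor (l : List (ℕ × ℕ)) (v w : ℕ) : nz l (v ^^^ w) = nz l v ^^^ nz l w := by
  induction l with
  | nil => change (0 : ℕ) = 0 ^^^ 0; simp
  | cons p l ih =>
    change Nat.mul (Nat.land (Nat.shiftRight (v ^^^ w) p.1) 1) p.2 ^^^ nz l (v ^^^ w) =
      (Nat.mul (Nat.land (Nat.shiftRight v p.1) 1) p.2 ^^^ nz l v) ^^^
        (Nat.mul (Nat.land (Nat.shiftRight w p.1) 1) p.2 ^^^ nz l w)
    rw [bit_xor, ih]
    simp only [Nat.xor_assoc]
    congr 1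
    rw [← Nat.xor_assoc, ← Nat.xor_assoc]
    congr 1
    exact Nat.xor_comm _ _

theorem act_xor (l : List (ℕ × ℕ)) (v w : ℕ) : act l (v ^^^ w) = act l v ^^^ act l w := by
  change (v ^^^ w) ^^^ nz l (v ^^^ w) = (v ^^^ nz l v) ^^^ (w ^^^ nz l w)
  rw [nz_xor]
  simp only [Nat.xor_assoc]
  congr 1
  rw [← Nat.xor_assoc, ← Nat.xor_assoc]
  congr 1
  exact Nat.xor_comm _ _

/-- rows are small -/
noncomputable def small (n : ℕ) (l : List (ℕ × ℕ)) : Bool :=
  List.rec (motive := fun _ => Bool) true (fun p _ ih => band (Nat.ble (Nat.succ p.2) (Nat.pow 2 n)) ih) l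

theorem nz_lt {n : ℕ} {l : List (ℕ × ℕ)} (h : small n l = true) (v : ℕ) : nz l v < 2 ^ n := by
  induction l with
  | nil => change (0 : ℕ) < _; positivity
  | cons p l ih =>
    obtain ⟨h1, h2⟩ := band_eq_true.1 h
    have h3 : p.2 + 1 ≤ 2 ^ n := Nat.le_of_ble_eq_true h1
    change (Nat.mul (Nat.land (Nat.shiftRight v p.1) 1) p.2 ^^^ nz l v) < 2 ^ n
    refine Nat.xor_lt_two_pow ?_ (ih h2)
    rw [bit_eq]
    change _ * p.2 < _
    cases v.testBit p.1
    · simp
    · simpa using h3

theorem act_lt {n : ℕ} {l : List (ℕ × ℕ)} (h : small n l = true) {v : ℕ} (hv : v < 2 ^ n) : act l v < 2 ^ n :=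
  Nat.xor_lt_two_pow hv (nz_lt h v)

/-- two additive maps which agree on the powers of two agree below `2 ^ n` -/
theorem additive_ext {F G : ℕ → ℕ} (hF : ∀ v w, F (v ^^^ w) = F v ^^^ F w) (hG : ∀ v w, G (v ^^^ w) = G v ^^^ G w)
    {n : ℕ} (h : ∀ i, i < n → F (2 ^ i) = G (2 ^ i)) : ∀ v, v < 2 ^ n → F v = G v := by
  have h0 : ∀ {K : ℕ → ℕ}, (∀ v w, K (v ^^^ w) = K v ^^^ K w) → K 0 = 0 := by
    intro K hK
    have := hK 0 0
    simpa using this
  induction n with
  | zero =>
    intro v hv
    have : v = 0 := by simpa using hv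
    rw [this, h0 hF, h0 hG]
  | succ n ih =>
    intro v hv
    have ih' := ih (fun i hi => h i (by omega))
    by_cases hb : v.testBit n = true
    · have hlt : v ^^^ 2 ^ n < 2 ^ n := by
        apply Nat.lt_pow_two_of_testBit
        intro i hi
        rw [Nat.testBit_xor]
        rcases Nat.lt_or_eq_of_le hi with h1 | h1
        · rw [Nat.testBit_lt_two_pow (lt_of_lt_of_le hv (Nat.pow_le_pow_right (by norm_num) (by omega))),
            Nat.testBit_two_pow]
          simp; omega
        · subst h1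
          rw [hb, Nat.testBit_two_pow_self]; rfl
      have e : v = (v ^^^ 2 ^ n) ^^^ 2 ^ n := by rw [Nat.xor_assoc, Nat.xor_self, Nat.xor_zero]
      rw [e, hF, hG, ih' _ hlt, h n (by omega)]
    · have hlt : v < 2 ^ n := by
        apply Nat.lt_pow_two_of_testBit
        intro i hi
        rcases Nat.lt_or_eq_of_le hi with h1 | h1
        · exact Nat.testBit_lt_two_pow (lt_of_lt_of_le hv (Nat.pow_le_pow_right (by norm_num) (by omega)))
        · subst h1
          simpa using hb
      exact ih' v hlt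

variable {L : Type}

/-- a word acting, first letter first -/
noncomputable def run (nl : L → List (ℕ × ℕ)) (w : List L) : ℕ → ℕ :=
  List.rec (motive := fun _ => ℕ → ℕ) (fun v => v) (fun x _ ih v => force (act (nl x) v) ih) w

theorem run_cons (nl : L → List (ℕ × ℕ)) (x : L) (w : List L) (v : ℕ) :
    run nl (x :: w) v = run nl w (act (nl x) v) := by
  change force (act (nl x) v) (run nl w) = _
  rw [force_eq]

theorem run_xor (nl : L → List (ℕ × ℕ)) (w : List L) (v v' : ℕ) :
    run nl w (v ^^^ v') = run nl w v ^^^ run nl w v' := by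
  induction w generalizing v v' with
  | nil => rfl
  | cons x w ih => rw [run_cons, run_cons, run_cons, act_xor, ih]

/-- the word is the linear map given by the images of the basis vectors -/
noncomputable def chkB (nl : L → List (ℕ × ℕ)) (w : List L) (img : ℕ → ℕ) (n : ℕ) : Bool :=
  Nat.rec (motive := fun _ => Bool) true
    (fun i ih => band (Nat.beq (run nl w (Nat.pow 2 i)) (img i)) ih) n

theorem chkB_spec {nl : L → List (ℕ × ℕ)} {w : List L} {img : ℕ → ℕ} {n : ℕ} (h : chkB nl w img n = true) :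
    ∀ i, i < n → run nl w (2 ^ i) = img i := by
  induction n with
  | zero => intro i hi; omega
  | succ n ih =>
    obtain ⟨h1, h2⟩ := band_eq_true.1 h
    intro i hi
    rcases Nat.lt_succ_iff_lt_or_eq.mp hi with h3 | rfl
    · exact ih h2 i h3
    · exact eqOfBeq h1

/-- the word is trivial -/
noncomputable def chkT (nl : L → List (ℕ × ℕ)) (w : List L) (n : ℕ) : Bool := chkB nl w (fun i => Nat.pow 2 i) n

theorem run_eq {nl : L → List (ℕ × ℕ)} {w : List L} {n : ℕ} (h : chkT nl w n = true) {v : ℕ} (hv : v < 2 ^ n) :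
    run nl w v = v :=
  additive_ext (F := run nl w) (G := fun v => v) (run_xor nl w) (fun _ _ => rfl) (chkB_spec h) v hv

/-- vectors -/
abbrev Vec (n : ℕ) : Type := {v : ℕ // v < 2 ^ n}

/-- the permutation of an involutory letter -/
noncomputable def perm (n : ℕ) (l : List (ℕ × ℕ)) (h1 : small n l = true)
    (h2 : ∀ v, v < 2 ^ n → act l (act l v) = v) : Equiv.Perm (Vec n) where
  toFun v := ⟨act l v, act_lt h1 v.2⟩
  invFun v := ⟨act l v, act_lt h1 v.2⟩
  left_inv v := Subtype.ext (h2 v v.2)
  right_inv v := Subtype.ext (h2 v v.2)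

variable {n : ℕ} {nl : L → List (ℕ × ℕ)}

theorem act_act (h : ∀ x, chkT nl [x, x] n = true) (x : L) (v : ℕ) (hv : v < 2 ^ n) :
    act (nl x) (act (nl x) v) = v := by
  have := run_eq (h x) hv
  rw [run_cons, run_cons] at this
  exact this

/-- the permutations of the letters -/
noncomputable def π (h1 : ∀ x, small n (nl x) = true) (h2 : ∀ x, chkT nl [x, x] n = true) (x : L) :
    Equiv.Perm (Vec n) := perm n (nl x) (h1 x) (act_act h2 x)

theorem π_val (h1 : ∀ x, small n (nl x) = true) (h2 : ∀ x, chkT nl [x, x] n = true) (x : L) (v : Vec n) :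
    ((π h1 h2 x v : Vec n) : ℕ) = act (nl x) v := rfl

theorem prod_val (h1 : ∀ x, small n (nl x) = true) (h2 : ∀ x, chkT nl [x, x] n = true) (w : List L) (v : Vec n) :
    (((w.map (π h1 h2)).prod v : Vec n) : ℕ) = run nl w.reverse v := by
  induction w generalizing v with
  | nil => rfl
  | cons x w ih =>
    have key : ∀ (a : List L) (u : ℕ), run nl (a ++ [x]) u = act (nl x) (run nl a u) := by
      intro a
      induction a with
      | nil => intro u; exact run_cons nl x [] u
      | cons y a iha => intro u; rw [List.cons_append, run_cons, run_cons, iha]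
    rw [List.map_cons, List.prod_cons, List.reverse_cons, key, Equiv.Perm.mul_apply, π_val, ih]

theorem prod_one (h1 : ∀ x, small n (nl x) = true) (h2 : ∀ x, chkT nl [x, x] n = true) {w : List L}
    (h : chkT nl w.reverse n = true) : (w.map (π h1 h2)).prod = 1 := by
  ext v
  rw [prod_val, run_eq h v.2]
  rfl

theorem π_sq (h1 : ∀ x, small n (nl x) = true) (h2 : ∀ x, chkT nl [x, x] n = true) (x : L) :
    π h1 h2 x * π h1 h2 x = 1 := by
  have h := prod_one h1 h2 (w := [x, x]) (h2 x)
  simpa using h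

theorem prod_ne (h1 : ∀ x, small n (nl x) = true) (h2 : ∀ x, chkT nl [x, x] n = true) {w : List L} {v : ℕ}
    (hv : v < 2 ^ n) (h : Nat.beq (run nl w.reverse v) v = false) : (w.map (π h1 h2)).prod ≠ 1 := by
  intro h3
  have h4 := prod_val h1 h2 w ⟨v, hv⟩
  rw [h3] at h4
  have h5 : run nl w.reverse v = v := h4.symm
  rw [h5] at h
  have : Nat.beq v v = true := Nat.beq_refl v
  rw [this] at h
  exact absurd h (by simp)

end H40.XRep
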